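import Cfsg.Agent.Lib.J4.AzDef

/-!
Evaluation of the structure constants, part AtC1.
-/

set_option autoImplicit false
set_option maxRecDepth 100000

namespace CA.J4
open Cfsg CA.Gol

theorem atI0 : sumL LI0 (psi i2C vI oI) = 78545280 := by decide +kernel
theorem atI1 : sumL LI1 (psi i2C vI oI) = 75395760 := by decide +kernel
theorem atI2 : sumL LI2 (psi i2C vI oI) = 79559040 := by decide +kernel
theorem atI3 : sumL LI3 (psi i2C vI oI) = 67943040 := by decide +kernel
theorem atI4 : sumL LI4 (psi i2C vI oI) = 74680320 := by decide +kernel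

end CA.J4
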