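import Cfsg.Agent.Lib.J4.AzDef

/-!
Evaluation of the structure constants, part AtC2.
-/

set_option autoImplicit false
set_option maxRecDepth 100000

namespace CA.J4
open Cfsg CA.Gol

theorem atJ0 : sumL LJ0 (psi j2C vJ oJ) = 2414720 := by decide +kernel
theorem atJ1 : sumL LJ1 (psi j2C vJ oJ) = 862400 := by decide +kernel
theorem atJ2 : sumL LJ2 (psi j2C vJ oJ) = 862400 := by decide +kernel
theorem atS0 : sumL LS0 (psi sC vS oS) = 173194560 := by decide +kernel
theorem atS1 : sumL LS1 (psi sC vS oS) = 200825856 := by decide +kernel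
theorem atS2 : sumL LS2 (psi sC vS oS) = 200471040 := by decide +kernel
theorem atS3 : sumL LS3 (psi sC vS oS) = 194084352 := by decide +kernel
theorem atS4 : sumL LS4 (psi sC vS oS) = 203309568 := by decide +kernel
theorem atS5 : sumL LS5 (psi sC vS oS) = 191955456 := by decide +kernel
theorem atV : cnu5 oneC [] duL = 84711 := by decide +kernel

end CA.J4
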