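import Cfsg.Agent.Lib.J4.HTy
import Cfsg.Agent.Lib.J4.AtC1
import Cfsg.Agent.Lib.J4.AtC2

/-!
The structure constant `a(t)`.
-/

set_option autoImplicit false
set_option linter.unusedSectionVars false
set_option linter.unusedVariables false
set_option maxRecDepth 100000

namespace CA.J4
open Cfsg CA.Gol CA.Ex2 CA.XS Subgroup
open scoped Pointwise

theorem apM_xor7 (g : Pm) {a b : ℕ} (ha : ev a = true) (hb : ev b = true) :
    apM (code g) (a ^^^ b) = apM (code g) a ^^^ apM (code g) b :=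
  fs_inj (apM_lt g (xor_lt (ev_lt ha) (ev_lt hb))) (xor_lt (apM_lt g (ev_lt ha)) (apM_lt g (ev_lt hb))) (by
    show fs (apM (code g) (Nat.xor a b)) = fs (Nat.xor _ _)
    rw [← smul_fs g (xor_lt (ev_lt ha) (ev_lt hb)), fs_xor, fs_xor, smul_symmDiff, smul_fs g (ev_lt ha), smul_fs g (ev_lt hb)])

theorem ns_succ (c k m : ℕ) : ns (expM c) (k + 1) m = m ^^^ ns (expM c) k (apM c m) := by
  have e : ∀ X, ns X (k + 1) m = Nat.xor m (force (apX X m) (ns X k)) := fun _ => rfl
  rw [e, force_eq, apX_eq]; rfl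
theorem ns_zero (X m : ℕ) : ns X 0 m = 0 := rfl

theorem ev_ns (g : Pm) (k : ℕ) {m : ℕ} (hm : ev m = true) : ev (ns (expM (code g)) k m) = true := by
  induction k generalizing m with
  | zero => exact ev_zero
  | succ k ih => rw [ns_succ]; exact ev_xor hm (ih (ev_apM g hm))

theorem ns_xor (g : Pm) (k : ℕ) {a b : ℕ} (ha : ev a = true) (hb : ev b = true) :
    ns (expM (code g)) k (a ^^^ b) = ns (expM (code g)) k a ^^^ ns (expM (code g)) k b := by
  induction k generalizing a b with
  | zero => simp [ns_zero]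
  | succ k ih => rw [ns_succ, ns_succ, ns_succ, apM_xor7 g ha hb, ih (ev_apM g ha) (ev_apM g hb)]; ac_rfl

theorem olq_spec (g : Pm) (K : ℕ → ℕ) (fuel j : ℕ) {v : ℕ} (h0 : ∀ i, 0 < i → i < j + 1 → g ^ i ≠ 1)
    (h : ∀ k, 0 < k → g ^ k = 1 → (∀ i, 0 < i → i < k → g ^ i ≠ 1) → Ok (K k) v) :
    Ok (olq (expand (code g)) K fuel (code (g ^ (j + 1))) (j + 1)) v := by
  induction fuel generalizing j with
  | zero => exact ok_big v
  | succ f ih =>
    have e : ∀ X P j, olq X K (f + 1) P j = cnd (Nat.beq P oneC) (K j)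
      (force (mulX P X) fun P' => force (Nat.succ j) fun j' => olq X K f P' j') := fun _ _ _ => rfl
    rw [e, force_eq, force_eq, mulX_eq, ← code_mul, ← pow_succ, cnd_beq, ← code_one]
    split_ifs with a
    · exact h _ (Nat.succ_pos j) (code_injective a) h0
    · exact ih (j + 1) fun i b hi => (Nat.lt_succ_iff_lt_or_eq.1 hi).elim (h0 i b) fun c d => a (by rw [← c, d])

theorem atI : sumL LI (psi i2C vI oI) = 376123440 := by
  rw [LI, sumL_append, sumL_append, sumL_append, sumL_append, atI0, atI1, atI2, atI3, atI4]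
theorem atJ : sumL LJ (psi j2C vJ oJ) = 4139520 := by rw [LJ, sumL_append, sumL_append, atJ0, atJ1, atJ2]
theorem atS : sumL LS (psi sC vS oS) = 1163840832 := by
  rw [LS, sumL_append, sumL_append, sumL_append, sumL_append, sumL_append, atS0, atS1, atS2, atS3, atS4, atS5]

variable {G : Type*} [Group G] [Finite G]

theorem MM.vk_pow {V : Subgroup G} {ν : Finset GolayPt → G} {κ : M24 →* G} (h : MM V ν κ) {g : Pm} (hg : g ∈ M24) (k : ℕ)
    {m : ℕ} (hm : ev m = true) : (ν (fs m) * pel κ g) ^ k = ν (fs (ns (expM (code g)) k m)) * pel κ (g ^ k) := by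
  induction k generalizing m with
  | zero => rw [ns_zero, h.v_zero, pow_zero, pow_zero, pel_one, one_mul]
  | succ k ih =>
    have e : (ν (fs m) * pel κ g) ^ (k + 1) = ν (fs m) * (pel κ g * ν (fs m) * (pel κ g)⁻¹ * pel κ g) ^ k * pel κ g := by
      rw [show pel κ g * ν (fs m) * (pel κ g)⁻¹ * pel κ g = pel κ g * (ν (fs m) * pel κ g) * (pel κ g)⁻¹ by group, conj_pow,
        pow_succ']; group
    rw [e, h.conj_v hg hm, ih (ev_apM g hm), ns_succ, pow_succ, pel_mul _ (pow_mem hg k) hg, ← mul_assoc, ← mul_assoc,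
      ← h.v_xor hm (ev_ns g k (ev_apM g hm))]; rfl

namespace St
variable (S : St G)

theorem cnu1_ok {g a : Pm} (hg : g ∈ M24) (ha : a ∈ M24) {bs os : List ℕ} (hb : ∀ m ∈ bs, ev m = true)
    (ho : ∀ m ∈ os, ev m = true) {v : ℕ} (hv : ev v = true) : Ok (cnu1 (code g) bs os v (code a))
      (sumL (spans bs os) fun m => ind (S.t ∈ zpowers (S.e (v, code a) * S.e (m, code g)))) := by
  have hW := mul_mem ha hg
  rw [cnu1, force_eq, force_eq, force_eq, force_eq, ← code_mul]
  have := olq_spec (a * g) (fun k => force (red (Nat.xor (ns (expM (code (a * g))) k v) DD)) fun off =>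
    fmapL (fun m => red (force (apX (expM (code a)) m) (ns (expM (code (a * g))) k))) bs fun bs' =>
    sumL os fun o => force (Nat.xor (red (force (apX (expM (code a)) o) (ns (expM (code (a * g))) k))) off) (sp zr bs')) 30 0
    (v := sumL (spans bs os) fun m => ind (S.t ∈ zpowers (S.e (v, code a) * S.e (m, code g))))
    (fun i a b => by omega) fun k k0 h1 h2 => Or.inl (by
      rw [force_eq, fmapL_eq, sum_spans (P := fun m => ev m = true) (fun a b => ev_xor) (fun x y hx hy => by
        rw [force_eq, force_eq, force_eq, apX_eq, apX_eq, apX_eq, apM_xor7 a hx hy, ns_xor _ _ (ev_apM a hx) (ev_apM a hy),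
          red_xor]) hb ho]
      refine sumL_congr fun m hm => ?_
      have em := spans_prop (P := fun m => ev m = true) (fun a b => ev_xor) hb ho m hm
      have e1 := ev_xor hv (ev_apM a em)
      have e2 := S.mm.vk_pow hW k e1
      rw [h1, pel_one, mul_one] at e2
      rw [St.e, St.e, MM.el_code, MM.el_code, S.mm.vk_mul hv em ha hg, ind_congr (mem_zp_iff_pow (N := S.V) k0
        (e2 ▸ S.mm.v_mem (ev_ns _ _ e1)) (fun j a b c => h2 j a b (by
          rwa [S.mm.vk_pow hW j e1, S.mm.vk_mem_V (S.mm.v_mem (ev_ns _ _ e1)) (pow_mem hW j)] at c)) (S.mm.v_mem DD_ev)), e2,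
        ind_congr (mem_zp2 (S.mm.v_sq (ev_ns _ _ e1))), force_eq, apX_eq, zr, cnd_beq, ← red_xor]
      have n1 : S.t ≠ 1 := fun e => S.nt_one (e ▸ IsConj.refl _)
      simp only [n1, false_or, t]
      rw [S.mm.v_eq_iff DD_ev (ev_ns _ _ e1), eqv_iff_red, ← xor_eq_zero' (a := red DD), ← red_xor, show Nat.xor v (apM (code a) m) =
        v ^^^ apM (code a) m from rfl, ns_xor _ _ hv (ev_apM a em), show ∀ x y : ℕ, DD ^^^ (x ^^^ y) = y ^^^ Nat.xor x DD from
          fun x y => by show _ = y ^^^ (x ^^^ DD); ac_rfl]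
      unfold ind; congr)
  rwa [zero_add, pow_one] at this

/-- the weight of an involution of type `t` -/
noncomputable def wt (y : G) : ℕ := sumL xsL fun x => x.1 * ind (S.t ∈ zpowers (S.e (x.2.1, x.2.2) * y))

theorem cnu5_ok {g : Pm} (hg : g ∈ M24) {bs os : List ℕ} (hb : ∀ m ∈ bs, ev m = true) (ho : ∀ m ∈ os, ev m = true) :
    Ok (cnu5 (code g) bs os) (sumL (spans bs os) fun m => S.wt (S.e (m, code g))) := by
  simp only [wt]
  rw [sumL_comm]
  refine Ok.sumL fun x hx => ?_
  have k : allL xsL (fun x => ev x.2.1 && inM24 x.2.2) = true := by decide +kernel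
  have := allL_iff.1 k x hx
  rw [Bool.and_eq_true] at this
  rw [sumL_mul, ← code_perm' this.2]
  exact (S.cnu1_ok hg (perm_mem_M24 this.2) hb ho this.1).mul _

theorem psi_ok {r : ℕ} {L bs os : List ℕ} (hr : inM24 r = true) (hL : okCL r L 0 = true)
    (hl : (clD (perm r)).ncard = L.length) (hb : allL (bs ++ os) ev = true)
    (h1 : ∀ m ∈ spans bs [0], IsConj S.z (S.e (m, r))) (h2 : ∀ m ∈ spans bs os, IsConj S.t (S.e (m, r)))
    (h3 : ∀ {φ : G → ℕ}, (∀ x, φ x ≠ 0 → x * x = 1) → S.FM φ (perm r) =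
      sumL (spans bs [0]) (fun m => φ (S.e (m, r))) + sumL (spans bs os) fun m => φ (S.e (m, r))) :
    Ok (sumL L (psi r bs os)) (sm (clD (perm r)) (S.FM fun y => ind (IsConj S.t y) * S.wt y)) := by
  rw [sm_clD hr hL hl]
  refine Ok.sumL fun d hd => ?_
  obtain ⟨a, b, -⟩ := (okCL_spec hr hL).1 d hd
  have d24 := in22_24 a
  have eb : ∀ m ∈ bs, ev m = true := fun m hm => allL_iff.1 hb m (List.mem_append_left _ hm)
  have eo : ∀ m ∈ os, ev m = true := fun m hm => allL_iff.1 hb m (List.mem_append_right _ hm)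
  have ed : ∀ m, ev m = true → ev (apM d m) = true := fun m hm => by rw [← code_perm' d24]; exact ev_apM _ hm
  have hg : cjP (perm r) d ∈ M24 := conj_H (perm_mem_M24 d24) (perm_mem_M24 hr)
  rw [psi, force_eq, force_eq, fmapL_eq, fmapL_eq, ← b, show apX (expM d) = apM d from funext (apX_eq d)]
  have := S.cnu5_ok hg (bs := bs.map (apM d)) (os := os.map (apM d)) (by simpa using fun m hm => ed m (eb m hm))
    (by simpa using fun m hm => ed m (eo m hm))
  rw [spans_map (P := fun m => ev m = true) (fun a b => ev_xor) (fun x y hx hy => by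
    rw [← code_perm' d24]; exact apM_xor7 _ hx hy) eb eo, sumL_map] at this
  rw [cjP, FM, S.mm.sm_over_conj (perm_mem_M24 d24), ← FM, h3 fun x hx => by
    simpa [conj_mul] using ind_sq S.t_ord S.wt _ hx,
    sumL_const (n := 0) fun m hm => by rw [ind_neg fun c => S.not_zt (h1 m hm) (isConj_conj_iff.1 c), zero_mul],
    mul_zero, zero_add]
  refine (sumL_congr fun m hm => ?_) ▸ this
  have em := spans_prop (P := fun m => ev m = true) (fun a b => ev_xor) eb eo m hm
  rw [ind_pos (isConj_conj_iff.2 (h2 m hm)), one_mul, St.e, St.e, MM.el_code, el, ← conj_mul, S.mm.conj_v (perm_mem_M24 d24) em,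
    code_perm' d24, cjP, pel_conj _ (perm_mem_M24 d24) (perm_mem_M24 hr)]

theorem aTh_t (hB : IsConj S.z (S.e (0, sC))) : aTh S.z S.t S.t = 1544188503 := by
  have tt := sq_of_conj S.t_ord (IsConj.refl _)
  have hB' : IsConj S.t (S.e (0x44000, sC)) := by
    have := S.types.2.2.2.2
    rw [ind_pos hB] at this
    exact (S.two' ((orderOf_eq_of_isConj S.tyS.2).symm.trans (orderOf_eq_prime (by
      rw [pow_two]; exact (S.mm.el_sq (by decide +kernel) r2B_in).2 (by decide +kernel))
      (S.mm.el_one ▸ S.mm.ne_of (by decide +kernel))))).resolve_left (ind_eq_zero.1 (by omega))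
  have sp : ∀ {o}, allL (spans vS [o]) (fun m => ev o && ev m && anyL eS fun e => ev e &&
      eqE (mulE (e, oneC) (m, sC)) (mulE (o, sC) (e, oneC))) = true → ∀ {a}, IsConj a (S.e (o, sC)) →
      ∀ m ∈ spans vS [o], IsConj a (S.e (m, sC)) := fun H a ha m hm => by
    obtain ⟨v, -, e⟩ := S.mm.conj_span sC_in (allL_iff.1 H m hm)
    rw [St.e, ← e] at ha; exact isConj_conj_iff.1 ha
  rw [aTh, ncard_prod fun x y => IsConj S.z x ∧ IsConj S.t y ∧ S.t ∈ zpowers (x * y), sm_comm,
    sm_congr (ψ := fun x => ind (IsConj S.z x) * sm 𝐂[S.t] fun y => ind (IsConj S.t y) * ind (S.t ∈ zpowers (x * y)))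
      fun x _ => by
        rw [← sm_mul, sm_supp (S := (𝐂[S.t] : Subgroup G)) (T := Set.univ) (fun _ _ => trivial) fun y _ hy => ind_neg fun c =>
          hy (mem_cent1_iff.2 (comm_of_mem_zpowers (sq_of_conj S.z_ord c.1) (sq_of_conj S.t_ord c.2.1) c.2.2 tt).2.symm)]
        exact sm_congr fun y _ => by rw [ind_and, ind_and],
    sm_supp (S := (𝐂[S.t] : Subgroup G)) (T := Set.univ) (fun _ _ => trivial) fun x _ hx => by
      rw [← sm_mul]
      exact sm_zero fun y _ => by
        rw [← ind_and, ← ind_and]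
        exact ind_neg fun c => hx (mem_cent1_iff.2
          (comm_of_mem_zpowers (sq_of_conj S.z_ord c.1) (sq_of_conj S.t_ord c.2.1) c.2.2 tt).1.symm),
    S.sm_Ct_z fun g hg x => by
      rw [sm_equiv (MulAut.conj g).toEquiv (S := (𝐂[S.t] : Subgroup G)) fun y => ⟨conj_H hg, fun a => by
        simpa [mul_assoc] using conj_H (inv_mem hg) a⟩]
      refine sm_congr fun y _ => ?_
      show ind (IsConj S.t (g * y * g⁻¹)) * ind (S.t ∈ zpowers (g * x * g⁻¹ * (g * y * g⁻¹))) = _
      rw [ind_congr isConj_conj_iff, conj_mul, ← cj_zpowers, ind_congr mem_cj, mul_assoc, ← mem_cent1_iff.1 hg,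
        inv_mul_cancel_left],
    ind_pos hB, ind_neg (S.not_zt · hB'), zero_mul, one_mul, add_zero]
  have e : sm 𝐂[S.t] (fun y => ind (IsConj S.t y) * S.wt y) = sumL xsL fun x => x.1 *
      sm 𝐂[S.t] fun y => ind (IsConj S.t y) * ind (S.t ∈ zpowers (S.e (x.2.1, x.2.2) * y)) := by
    simp only [← sm_mul]
    rw [← sm_sumL]
    exact sm_congr fun y _ => by rw [wt, ← sumL_mul]; exact sumL_congr fun x _ => by ring
  simp only [xsL, sumL_cons, sumL_nil, St.e, S.mm.el_v] at e
  have o0 := S.cnu5_ok (one_mem _) (bs := []) (os := duL) (by simp) fun m hm => by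
    have := allL_iff.1 duL_chk m hm
    simp only [Bool.and_eq_true] at this; exact this.1.1
  rw [code_one, atV, show spans [] duL = duL by decide +kernel] at o0
  simp only [St.e, S.mm.el_v] at o0
  have o1 := S.psi_ok (in22_24 i2C_in) LI_ok (ncard_clI.trans LI_len.symm) (by decide +kernel) S.tyI.1 S.tyI.2 S.FM_I
  have o2 := S.psi_ok j2C_in LJ_ok (ncard_clJ.trans LJ_len.symm) (by decide +kernel) S.tyJ.1 S.tyJ.2 S.FM_J
  have o3 := S.psi_ok sC_in LS_ok (ncard_clS.trans LS_len.symm) (os := oS) (by decide +kernel) (sp (by decide +kernel) hB)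
      (sp (by decide +kernel) hB') S.FM_S
  rw [atI] at o1
  rw [atJ] at o2
  rw [atS] at o3
  rw [S.sm_Ct (ind_sq S.t_ord _), S.FM_t1, o0.eq (by decide), o1.eq (by decide), o2.eq (by decide), o3.eq (by decide)] at e
  simp only [St.e, St.v]
  omega

end St

end CA.J4
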