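import Cfsg.Agent.Lib.J4.Srch
import Cfsg.Agent.Lib.G.Sylow

/-!
`Aut(M22)` is the stabilizer `D2` in `M24` of the duad `{0, ∞}`.
-/

set_option autoImplicit false

namespace CA.J4
open Cfsg CA.Gol Subgroup
open scoped Pointwise

abbrev Pm : Type := Equiv.Perm GolayPt

def xC : ℕ := 0xbd6717b56939461b52507314831040
def yC : ℕ := 0xbba8ab116d7c52899d90286a219a40
def fC : ℕ := 0xbb90d98ad51ad548b0a78192179240
def sC : ℕ := 0x5883388a1c8f5140b46cd317aed7
/-- the duad `{0, ∞}` -/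
def DD : ℕ := 0x800001

/-- membership test for `M22` -/
def in22 (c : ℕ) : Bool := inM24 c && Nat.beq (ap c 0) 0 && Nat.beq (ap c 23) 23

theorem mem22 {g : Pm} : g ∈ Spor.M22 ↔ g ∈ M24 ∧ g (pt 0) = pt 0 ∧ g (pt 23) = pt 23 := by
  simp only [Spor.M22, Spor.M23, Subgroup.mem_inf, MulAction.mem_stabilizer_iff, Equiv.Perm.smul_def]
  have e0 : pt 0 = (some 0 : GolayPt) := by decide
  have e1 : pt 23 = (none : GolayPt) := by decide
  rw [e0, e1]; tauto

theorem mem22_code {g : Pm} : g ∈ Spor.M22 ↔ in22 (code g) = true := by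
  rw [mem22, in22, Bool.and_eq_true, Bool.and_eq_true, beq_iff, beq_iff, mem_M24_iff_code,
    apply_pt_eq_iff (by norm_num) (by norm_num), apply_pt_eq_iff (by norm_num) (by norm_num), and_assoc]

theorem in22_24 {c : ℕ} (h : in22 c = true) : inM24 c = true := by
  simp only [in22, Bool.and_eq_true] at h; exact h.1.1

theorem code_perm22 {c : ℕ} (h : in22 c = true) : code (perm c) = c := code_perm' (in22_24 h)

theorem perm_mem22 {c : ℕ} (h : in22 c = true) : perm c ∈ Spor.M22 := by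
  rw [mem22_code, code_perm22 h, h]

theorem M22_le : Spor.M22 ≤ M24 := fun _ h => (mem22.1 h).1

theorem M22_eq : Spor.M22 = fixer M24 [0, 23] := by
  ext g; simp [mem22, mem_fixer, Fixes]

theorem fs_DD : fs DD = {pt 0, pt 23} := by
  ext p; revert p; decide +kernel

theorem sat22 {g : Pm} (hg : g ∈ Spor.M22) : Sat (pFix DD) (code g) := by
  apply sat_fix
  intro p hp
  rw [fs_DD, Finset.mem_insert, Finset.mem_singleton] at hp
  rcases hp with rfl | rfl
  · exact (mem22.1 hg).2.1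
  · exact (mem22.1 hg).2.2

noncomputable def x0 : Pm := perm xC
noncomputable def y0 : Pm := perm yC
noncomputable def f0 : Pm := perm fC
noncomputable def s0 : Pm := perm sC

theorem xC_in : in22 xC = true := by decide +kernel
theorem yC_in : in22 yC = true := by decide +kernel
theorem fC_in : in22 fC = true := by decide +kernel
theorem sC_in : inM24 sC = true := by decide +kernel
theorem cx : code x0 = xC := code_perm22 xC_in
theorem cy : code y0 = yC := code_perm22 yC_in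
theorem cf : code f0 = fC := code_perm22 fC_in
theorem cs : code s0 = sC := code_perm' sC_in
theorem x0_mem : x0 ∈ Spor.M22 := perm_mem22 xC_in
theorem y0_mem : y0 ∈ Spor.M22 := perm_mem22 yC_in
theorem f0_mem : f0 ∈ Spor.M22 := perm_mem22 fC_in
theorem s0_mem24 : s0 ∈ M24 := perm_mem_M24 sC_in

theorem x0_pow : x0 ^ 11 = 1 := code_inj (by rw [code_pow, cx, code_one]; decide +kernel)
theorem y0_pow : y0 ^ 5 = 1 := code_inj (by rw [code_pow, cy, code_one]; decide +kernel)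
theorem f0_pow : f0 ^ 4 = 1 := code_inj (by rw [code_pow, cf, code_one]; decide +kernel)
theorem s0_sq : s0 * s0 = 1 := code_inj (by rw [code_mul, cs, code_one]; decide +kernel)
theorem xf_pow : (x0 * f0) ^ 7 = 1 := code_inj (by rw [code_pow, code_mul, cx, cf, code_one]; decide +kernel)
theorem xff_pow : (x0 * f0 ^ 2) ^ 3 = 1 :=
  code_inj (by rw [code_pow, code_mul, code_pow, cx, cf, code_one]; decide +kernel)
theorem yx : y0 * x0 = x0 ^ 3 * y0 := code_inj (by simp only [code_mul, code_pow, cx, cy]; decide +kernel)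
theorem fy : f0 * y0 = y0 ^ 2 * f0 := code_inj (by simp only [code_mul, code_pow, cf, cy]; decide +kernel)
theorem sx : s0 * x0 = x0 ^ 10 * s0 := code_inj (by simp only [code_mul, code_pow, cx, cs]; decide +kernel)
theorem sy : s0 * y0 = y0 * s0 := code_inj (by simp only [code_mul, cs, cy]; decide +kernel)
theorem sf : s0 * f0 = f0 * s0 := code_inj (by simp only [code_mul, cs, cf]; decide +kernel)
theorem x0_ne : x0 ≠ 1 := fun h => by
  have := congrArg code h; rw [cx, code_one] at this; revert this; decide +kernel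
theorem y0_ne : y0 ≠ 1 := fun h => by
  have := congrArg code h; rw [cy, code_one] at this; revert this; decide +kernel
theorem x0_ord : orderOf x0 = 11 := by
  have : Fact (Nat.Prime 11) := ⟨by norm_num⟩
  exact orderOf_eq_prime x0_pow x0_ne
theorem y0_ord : orderOf y0 = 5 := by
  have : Fact (Nat.Prime 5) := ⟨by norm_num⟩
  exact orderOf_eq_prime y0_pow y0_ne
theorem s0_inv : s0⁻¹ = s0 := inv_eq_of_mul_eq_one_right s0_sq
theorem s0_0 : s0 (pt 0) = pt 23 := by
  rw [apply_pt_eq_iff (by norm_num) (by norm_num), cs]; decide +kernel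
theorem s0_23 : s0 (pt 23) = pt 0 := by
  rw [apply_pt_eq_iff (by norm_num) (by norm_num), cs]; decide +kernel
theorem pt0_ne : pt 0 ≠ pt 23 := by decide
theorem s0_not_mem : s0 ∉ Spor.M22 := fun h => pt0_ne ((mem22.1 h).2.1.symm.trans s0_0)

theorem M22_le_closure : Spor.M22 ≤ closure {x0, f0} := by
  rw [M22_eq]
  exact le_closure_of_words chain2 (a := x0) (b := f0) (ws :=
    [[0x1, 0x2, 0x100, 0x4, 0x1a6a1, 0x200, 0x73a42, 0x8, 0x20, 0x78eab, 0x11d8ce, 0x1db, 0x80, 0x240748, 0x6b8d5, 0x10, 0x1ca42c, 0x40, 0x115dab, 0x152088, 0x9db96, 0xb0ec],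
    [0x1, 0x18b993, 0x13816e, 0x57452, 0x7186, 0x64b92, 0x7033, 0x1c318, 0x12e098, 0x1b45d0, 0x70a98, 0xa6e10, 0xb8e44, 0x250c29, 0xb303, 0x2a04a6, 0x94ac2, 0xae302, 0xe4332, 0x7526ba, 0x3584a0],
    [0x1, 0x154ca9, 0x2a585, 0x31d12, 0x1cbae2, 0x3c7114, 0xbaa26, 0x69c38, 0x42e1a, 0x308b70, 0x598e1, 0x188cb, 0xb19d9, 0x964b, 0xe56a6, 0x635d2, 0x38a912, 0x21530, 0x193043, 0xab135],
    [0x1, 0x64658, 0xd2411, 0x254460, 0x8e9ca, 0x65a8, 0x5731a, 0x7aa230, 0x55868, 0xf4a6a, 0x41389, 0x3c601, 0xceb5d, 0xaa163, 0xcd455, 0x1692e3],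
    [0x1, 0x52994, 0xf544c]]) (by rw [cx, cf]; decide +kernel)

theorem card_M22 : Nat.card Spor.M22 = 443520 := by
  rw [M22_eq, chain2.card]; decide +kernel

/-- a subgroup containing `x0` and `f0` contains `M22` -/
theorem M22_le_of {K : Subgroup Pm} (hx : x0 ∈ K) (hf : f0 ∈ K) : Spor.M22 ≤ K :=
  M22_le_closure.trans ((closure_le K).2 (by
    intro g hg; rcases hg with rfl | rfl
    · exact hx
    · exact hf))

/-- the stabilizer of the duad -/
def D2 : Subgroup Pm := M24 ⊓ MulAction.stabilizer Pm (fs DD)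

theorem memD2 {g : Pm} : g ∈ D2 ↔ g ∈ M24 ∧ g • fs DD = fs DD := Iff.rfl

theorem memD2' {g : Pm} : g ∈ D2 ↔ g ∈ M24 ∧
    ((g (pt 0) = pt 0 ∧ g (pt 23) = pt 23) ∨ (g (pt 0) = pt 23 ∧ g (pt 23) = pt 0)) := by
  rw [memD2, fs_DD, Finset.smul_finset_insert, Finset.smul_finset_singleton, Equiv.Perm.smul_def,
    Equiv.Perm.smul_def, ← Finset.coe_inj, Finset.coe_pair, Finset.coe_pair, Set.pair_eq_pair_iff]

theorem M22_le_D2 : Spor.M22 ≤ D2 := fun _ h => memD2'.2 ⟨(mem22.1 h).1, Or.inl (mem22.1 h).2⟩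
theorem D2_le : D2 ≤ M24 := fun _ h => h.1
theorem s0_mem : s0 ∈ D2 := memD2'.2 ⟨s0_mem24, Or.inr ⟨s0_0, s0_23⟩⟩

theorem mem_or_D2 {g : Pm} (h : g ∈ D2) : g ∈ Spor.M22 ∨ s0 * g ∈ Spor.M22 := by
  obtain ⟨h1, h2 | h2⟩ := memD2'.1 h
  · exact Or.inl (mem22.2 ⟨h1, h2⟩)
  · refine Or.inr (mem22.2 ⟨M24.mul_mem s0_mem24 h1, ?_, ?_⟩)
    · rw [Equiv.Perm.mul_apply, h2.1, s0_23]
    · rw [Equiv.Perm.mul_apply, h2.2, s0_0]

theorem mem22_of_fix {g : Pm} (h : g ∈ D2) (h0 : g (pt 0) = pt 0) : g ∈ Spor.M22 := by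
  obtain ⟨h1, h2 | h2⟩ := memD2'.1 h
  · exact mem22.2 ⟨h1, h2⟩
  · exact absurd (h0.symm.trans h2.1) pt0_ne

theorem swap_of_not_mem {g : Pm} (h : g ∈ D2) (h0 : g ∉ Spor.M22) : g (pt 0) = pt 23 ∧ g (pt 23) = pt 0 := by
  obtain ⟨h1, h2 | h2⟩ := memD2'.1 h
  · exact absurd (mem22.2 ⟨h1, h2⟩) h0
  · exact h2

theorem mul_mem22 {g h : Pm} (hg : g ∈ D2) (hh : h ∈ D2) (g0 : g ∉ Spor.M22) (h0 : h ∉ Spor.M22) :
    g * h ∈ Spor.M22 :=
  mem22_of_fix (D2.mul_mem hg hh) (by
    rw [Equiv.Perm.mul_apply, (swap_of_not_mem hh h0).1, (swap_of_not_mem hg g0).2])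

theorem conj_mem22 {g h : Pm} (hg : g ∈ D2) (hh : h ∈ Spor.M22) : g * h * g⁻¹ ∈ Spor.M22 := by
  by_cases g0 : g ∈ Spor.M22
  · exact mul_mem (mul_mem g0 hh) (inv_mem g0)
  · apply mul_mem22 (D2.mul_mem hg (M22_le_D2 hh)) (D2.inv_mem hg)
    · intro h; exact g0 ((Subgroup.mul_mem_cancel_right _ hh).1 h)
    · intro h; exact g0 (inv_mem_iff.1 h)

theorem D2_norm : D2 ≤ 𝐍(Spor.M22) := fun _ hg =>
  mem_normalizer_of_cj_le (cj_le_iff'.2 fun _ hh => conj_mem22 hg hh)

theorem relIndex_D2 : Spor.M22.relIndex D2 = 2 := by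
  rw [Subgroup.relIndex, Subgroup.index_eq_two_iff]
  refine ⟨⟨s0, s0_mem⟩, fun b => ?_⟩
  simp only [Subgroup.mem_subgroupOf, Subgroup.coe_mul]
  by_cases hb : (b : Pm) ∈ Spor.M22
  · exact Or.inr ⟨hb, fun h => s0_not_mem ((Subgroup.mul_mem_cancel_left _ hb).1 h)⟩
  · exact Or.inl ⟨mul_mem22 b.2 s0_mem hb s0_not_mem, hb⟩

theorem card_D2 : Nat.card D2 = 887040 := by
  rw [← card_mul_relIndex M22_le_D2, card_M22, relIndex_D2]

/-- the code `c` is one of the first `n` powers of `a` -/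
def isPow (a n c : ℕ) : Bool := anyLt (fun i => Nat.beq (powC a i) c) n

theorem isPow_sound {a g : Pm} {n : ℕ} (h : isPow (code a) n (code g) = true) : ∃ i < n, g = a ^ i := by
  obtain ⟨i, hi, e⟩ := anyLt_iff.1 h
  exact ⟨i, hi, code_inj (by rw [code_pow, beq_iff.1 e])⟩

/-- commuting codes -/
def cmC (a b : ℕ) : Bool := Nat.beq (mul a b) (mul b a)

theorem cmC_iff {g h : Pm} : cmC (code g) (code h) = true ↔ g * h = h * g := commute_iff_code.symm

theorem cent_x {g : Pm} (hg : g ∈ Spor.M22) (h : g * x0 = x0 * g) : ∃ i < 11, g = x0 ^ i := by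
  have := all24_sound (P := pAnd (pFix DD) (pCj xC xC)) (leaf := fun c => !(cmC c xC) || isPow xC 11 c)
    (k := 0xbba4644285aa62469e7662de350820) (ki := 0xba1f14d5b22d96730dd35520c20820) (by decide +kernel)
    (M22_le hg) ((sat22 hg).and (by rw [← cx]; exact sat_cj h))
  rw [← cx, cmC_iff.2 h] at this
  exact isPow_sound (by simpa using this)

theorem cent_y {g : Pm} (hg : g ∈ Spor.M22) (h : g * y0 = y0 * g) : ∃ i < 5, g = y0 ^ i := by
  have := all24_sound (P := pAnd (pFix DD) (pCj yC yC)) (leaf := fun c => !(cmC c yC) || isPow yC 5 c)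
    (k := 0xbce35609149156db3950498e379020) (ki := 0xbae90b3ea81a9936a4f1299c224820) (by decide +kernel)
    (M22_le hg) ((sat22 hg).and (by rw [← cy]; exact sat_cj h))
  rw [← cy, cmC_iff.2 h] at this
  exact isPow_sound (by simpa using this)

theorem sylow_zpowers {G : Type*} [Group G] [Finite G] {p : ℕ} (hp : p.Prime) {x : G} {M : Subgroup G} (hx : x ∈ M)
    (ho : orderOf x = p) (h : ¬ p * p ∣ Nat.card M) : SylowIn p (zpowers x) M := by
  have hc : Nat.card (zpowers x) = p := by rw [Nat.card_zpowers, ho]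
  refine sylowIn_mk hp ((zpowers_le).2 hx) (IsPGroup.of_card (n := 1) (by rw [hc, pow_one])) fun hd => h ?_
  rw [← card_mul_relIndex ((zpowers_le (H := M)).2 hx), hc]
  exact Nat.mul_dvd_mul_left p hd

theorem exists_pow_lt {G : Type*} [Group G] [Finite G] {x y : G} (h : y ∈ zpowers x) :
    ∃ i < orderOf x, y = x ^ i := by
  obtain ⟨i, rfl⟩ := (mem_powers_iff_mem_zpowers).2 h
  exact ⟨i % orderOf x, Nat.mod_lt _ (orderOf_pos x), (pow_mod_orderOf x i).symm⟩

theorem conj_x {a : Pm} (ha : a ∈ Spor.M22) (ho : orderOf a = 11) : ∃ d ∈ D2, d * a * d⁻¹ = x0 := by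
  obtain ⟨g, hg, h⟩ := (sylow_zpowers (by norm_num) x0_mem x0_ord (by rw [card_M22]; norm_num)).exists_conj_mem ha
    (by rw [piElt_of_orderOf_prime (by norm_num) ho]; rfl)
  obtain ⟨i, hi, e⟩ := exists_pow_lt h
  rw [x0_ord] at hi
  have i0 : i ≠ 0 := by
    rintro rfl
    have : orderOf (g * a * g⁻¹) = 11 := by rw [CA.orderOf_conj', ho]
    rw [e, pow_zero, orderOf_one] at this; omega
  have key : allLt (fun i => Nat.beq i 0 || anyLt (fun j => anyLt (fun e =>
      Nat.beq (mul (mul (powC yC j) (powC sC e)) (powC xC i)) (mul xC (mul (powC yC j) (powC sC e)))) 2) 5) 11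
      = true := by decide +kernel
  have := allLt_iff.1 key i hi
  rw [Bool.or_eq_true, beq_iff, anyLt_iff] at this
  obtain ⟨j, _, h⟩ := this.resolve_left i0
  obtain ⟨l, _, h⟩ := anyLt_iff.1 h
  rw [beq_iff, ← cx, ← cy, ← cs] at h
  simp only [← code_pow, ← code_mul] at h
  have h := code_inj h
  refine ⟨y0 ^ j * s0 ^ l * g, D2.mul_mem (D2.mul_mem (pow_mem (M22_le_D2 y0_mem) _) (pow_mem s0_mem _))
    (M22_le_D2 hg), ?_⟩
  calc y0 ^ j * s0 ^ l * g * a * (y0 ^ j * s0 ^ l * g)⁻¹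
      = y0 ^ j * s0 ^ l * (g * a * g⁻¹) * (y0 ^ j * s0 ^ l)⁻¹ := by group
    _ = x0 := by rw [e, h]; group

/-- conjugation by elements of `D2` -/
def cD : D2 →* MulAut Spor.M22 := (Spor.M22.normalizerMonoidHom).comp (Subgroup.inclusion D2_norm)

theorem cD_apply (d : D2) (g : Spor.M22) : ((cD d g : Spor.M22) : Pm) = d * g * (d : Pm)⁻¹ := rfl

theorem cD_inj : Function.Injective cD := by
  rw [injective_iff_map_eq_one]
  intro d hd
  have h : ∀ g ∈ Spor.M22, (d : Pm) * g = g * d := fun g hg => by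
    have := cD_apply d ⟨g, hg⟩
    rw [hd] at this
    exact mul_inv_eq_iff_eq_mul.1 this.symm
  have key : allLt (fun i => (Nat.beq i 0 || !(cmC (powC xC i) fC)) && !(Nat.beq (mul (powC xC i) xC)
      (mul (powC xC 10) (powC xC i)))) 11 = true := by decide +kernel
  rcases mem_or_D2 d.2 with h1 | h1
  · obtain ⟨i, hi, e⟩ := cent_x h1 (h _ x0_mem)
    have := allLt_iff.1 key i hi
    rw [← cx, ← cf, ← code_pow, cmC_iff.2 (by rw [← e]; exact h _ f0_mem)] at this
    simp only [Bool.not_true, Bool.or_false, Bool.and_eq_true, beq_iff] at this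
    apply Subtype.ext; rw [e, this.1, pow_zero]; rfl
  · exfalso
    have e1 : s0 * d * x0 = x0 ^ 10 * (s0 * d) := by
      rw [mul_assoc, h _ x0_mem, ← mul_assoc, sx, mul_assoc]
    have hs := all24_sound (P := pAnd (pFix DD) (pCj xC (powC xC 10)))
      (leaf := fun c => !(Nat.beq (mul c xC) (mul (powC xC 10) c)))
      (k := 0xbba4644285aa62469e7662de350820) (ki := 0xba1f14d5b22d96730dd35520c20820) (by decide +kernel)
      (M22_le h1) ((sat22 h1).and (by rw [← cx, ← code_pow]; exact sat_cj e1))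
    rw [← cx, ← code_pow, ← code_mul, ← code_mul, e1] at hs
    simp at hs

theorem cD_surj : Function.Surjective cD := by
  let X : Spor.M22 := ⟨x0, x0_mem⟩
  let Y : Spor.M22 := ⟨y0, y0_mem⟩
  let F : Spor.M22 := ⟨f0, f0_mem⟩
  have red : ∀ (α : MulAut Spor.M22) (d : D2), cD d * α ∈ cD.range → α ∈ cD.range := fun α d h =>
    (Subgroup.mul_mem_cancel_left cD.range (MonoidHom.mem_range.2 ⟨d, rfl⟩)).1 h
  have hYX : Y * X = X ^ 3 * Y := Subtype.ext yx
  have hFY : F * Y = Y ^ 2 * F := Subtype.ext fy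
  have step3 : ∀ α : MulAut Spor.M22, α X = X → α Y = Y → α ∈ cD.range := by
    intro α hX hY
    have e1 : α F * Y = Y ^ 2 * α F := by rw [← hY, ← map_mul, hFY, map_mul, map_pow, hY]
    have e2 : (F⁻¹ * α F) * Y = Y * (F⁻¹ * α F) := by
      rw [mul_assoc, e1, ← mul_assoc, ← mul_assoc]; congr 1
      rw [inv_mul_eq_iff_eq_mul, ← mul_assoc, hFY]; group
    obtain ⟨j, hj, e⟩ := cent_y (F⁻¹ * α F).2 (congrArg Subtype.val e2)
    have e3 : ((α F : Spor.M22) : Pm) = f0 * y0 ^ j := by rw [← e]; simp [F]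
    have e4 : (X * α F ^ 2) ^ 3 = 1 := by
      rw [← hX, ← map_pow, ← map_mul, ← map_pow, show (X * F ^ 2) ^ 3 = 1 from Subtype.ext xff_pow, map_one]
    have e5 : (X * α F) ^ 7 = 1 := by
      rw [← hX, ← map_mul, ← map_pow, show (X * F) ^ 7 = 1 from Subtype.ext xf_pow, map_one]
    have e4' := congrArg (fun g : Spor.M22 => code (g : Pm)) e4
    have e5' := congrArg (fun g : Spor.M22 => code (g : Pm)) e5
    simp only [Subgroup.coe_pow, Subgroup.coe_mul, e3, X, code_pow, code_mul, cx, cy, cf, Subgroup.coe_one,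
      code_one] at e4' e5'
    have key : allLt (fun j => Nat.beq j 0 || !(Nat.beq (powC (mul xC (powC (mul fC (powC yC j)) 2)) 3) oneC) ||
        !(Nat.beq (powC (mul xC (mul fC (powC yC j))) 7) oneC)) 5 = true := by decide +kernel
    have := allLt_iff.1 key j hj
    rw [e4', e5'] at this
    simp only [beq_iff.2 rfl, Bool.not_true, Bool.or_false, beq_iff] at this
    have hF : α F = F := Subtype.ext (by rw [e3, this, pow_zero, mul_one])
    have : α = 1 := by
      ext1 g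
      let K : Subgroup Spor.M22 := α.toMonoidHom.eqLocus (MonoidHom.id _)
      have := M22_le_of (K := K.map Spor.M22.subtype) ⟨X, hX, rfl⟩ ⟨F, hF, rfl⟩ g.2
      obtain ⟨g', hg', e⟩ := this
      rw [← show g' = g from Subtype.ext e]; exact hg'
    rw [this]; exact one_mem _
  have step2 : ∀ α : MulAut Spor.M22, α X = X → α ∈ cD.range := by
    intro α hX
    have e1 : α Y * X = X ^ 3 * α Y := by rw [← hX, ← map_mul, hYX, map_mul, map_pow, hX]
    have e2 : (Y⁻¹ * α Y) * X = X * (Y⁻¹ * α Y) := by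
      rw [mul_assoc, e1, ← mul_assoc, ← mul_assoc]; congr 1
      rw [inv_mul_eq_iff_eq_mul, ← mul_assoc, hYX]; group
    obtain ⟨i, hi, e⟩ := cent_x (Y⁻¹ * α Y).2 (congrArg Subtype.val e2)
    have e3 : ((α Y : Spor.M22) : Pm) = y0 * x0 ^ i := by rw [← e]; simp [Y]
    have key : allLt (fun i => anyLt (fun j =>
      Nat.beq (mul (powC xC j) (mul yC (powC xC i))) (mul yC (powC xC j))) 11) 11 = true := by decide +kernel
    obtain ⟨j, _, h⟩ := anyLt_iff.1 (allLt_iff.1 key i hi)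
    rw [beq_iff, ← cx, ← cy] at h
    simp only [← code_pow, ← code_mul] at h
    have h := code_inj h
    apply red α ⟨x0 ^ j, M22_le_D2 (pow_mem x0_mem j)⟩
    apply step3
    · apply Subtype.ext
      rw [MulAut.mul_apply, hX, cD_apply]; simp only [X]; group
    · apply Subtype.ext
      rw [MulAut.mul_apply, cD_apply, e3]; simp only [Y]; rw [h]; group
  intro α
  have ho : orderOf ((α X : Spor.M22) : Pm) = 11 := by
    rw [Subgroup.orderOf_coe, MulEquiv.orderOf_eq, ← Subgroup.orderOf_coe]; exact x0_ord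
  obtain ⟨d, hd, e⟩ := conj_x (α X).2 ho
  exact red α ⟨d, hd⟩ (step2 _ (Subtype.ext e))

/-- `Aut(M22) ≅ D2` -/
noncomputable def autEquiv : D2 ≃* MulAut Spor.M22 := MulEquiv.ofBijective cD ⟨cD_inj, cD_surj⟩

end CA.J4
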