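import Cfsg.Agent.Lib.J4.AzDef

/-!
Evaluation of the structure constants, part AzC1.
-/

set_option autoImplicit false
set_option maxRecDepth 100000

namespace CA.J4
open Cfsg CA.Gol

theorem azI0 : sumL LI0 phiI = 5759136768 := by decide +kernel
theorem azI1 : sumL LI1 phiI = 5924381232 := by decide +kernel
theorem azI2 : sumL LI2 phiI = 5843050752 := by decide +kernel

end CA.J4
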