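import Cfsg.Agent.Lib.J4.AzDef

/-!
Evaluation of the structure constants, part AzC2.
-/

set_option autoImplicit false
set_option maxRecDepth 100000

namespace CA.J4
open Cfsg CA.Gol

theorem azI3 : sumL LI3 phiI = 6024302592 := by decide +kernel
theorem azI4 : sumL LI4 phiI = 4979901696 := by decide +kernel
theorem azE : cnt5 I13 0 [] [0] O693 = 356767488 := by decide +kernel

end CA.J4
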