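import Cfsg.Agent.Lib.J4.AzDef

/-!
Evaluation of the structure constants, part AzC3.
-/

set_option autoImplicit false
set_option maxRecDepth 100000

namespace CA.J4
open Cfsg CA.Gol

theorem azJ0 : sumL LJ0 phiJ = 133816320 := by decide +kernel
theorem azJ1 : sumL LJ1 phiJ = 126783360 := by decide +kernel
theorem azJ2 : sumL LJ2 phiJ = 88197120 := by decide +kernel

end CA.J4
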