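import Cfsg.Agent.Lib.J4.MFus
import Cfsg.Prelude.Def_TwoFusion

/-!
The 7-local structure of a group of type `J4`.
-/

set_option autoImplicit false
set_option linter.unusedSectionVars false
set_option linter.unusedVariables false

namespace CA.J4
open Cfsg CA.Gol CA.Ex2 CA.XS Subgroup
open scoped Pointwise commutatorElement

variable {G : Type*} [Group G] [Finite G]

theorem exists_coset_hom {X Y : Subgroup G} (h : Y ≤ X) :
    ∃ φ : X →* Equiv.Perm (Fin (Y.relIndex X)), pker φ ≤ Y := by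
  have e : (X ⧸ Y.subgroupOf X) ≃ Fin (Y.relIndex X) := Finite.equivFinOfCardEq rfl
  refine ⟨e.permCongrHom.toMonoidHom.comp (MulAction.toPermHom X (X ⧸ Y.subgroupOf X)), fun x hx => ?_⟩
  obtain ⟨h1, h2⟩ := mem_pker.1 hx
  rw [pel_of_mem _ h1] at h2
  have : (⟨x, h1⟩ : X) ∈ (Y.subgroupOf X).normalCore := by
    rw [normalCore_eq_ker, MonoidHom.mem_ker]
    exact e.permCongrHom.injective (h2.trans (map_one _).symm)
  exact mem_subgroupOf.1 (normalCore_le _ this)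

theorem exists_dprod {q : ℕ} (hq : q.Prime) {x : G} (ho : orderOf x = q) (h : ¬ q * q ∣ Nat.card 𝐂[x]) :
    ∃ I, DProd (zpowers x) I 𝐂[x] := by
  have := (sylow_zpowers hq (self_mem_cent1 x) ho h).sdprod_of_cent (by rw [cent_zpowers]; exact inf_le_left)
  exact ⟨_, by rw [sup_comm]; exact this.sup_eq, by rw [cent_zpowers]; exact this.left_le, by rw [inf_comm]; exact this.inf_eq⟩

theorem idp_of_dprod {A B M : Subgroup G} (h : DProd A B M) : IsInternalDirectProduct A B M :=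
  ⟨h.left_le, h.right_le, cents_iff.1 (cents_symm h.cent), h.inf_eq, h.sup_eq⟩

theorem card_class_mul (X : Subgroup G) (x : G) :
    Nat.card ↥(X ⊓ 𝐂[x]) * {y | ∃ h ∈ X, h * x * h⁻¹ = y}.ncard = Nat.card X := by
  rw [← relIndex_cent1_eq_ncard, inf_comm, card_inf_mul_relIndex]

theorem not_sq_dvd {q : ℕ} (hq : q.Prime) {x : G} (ho : orderOf x = q) (h : ¬ q * q ∣ Nat.card 𝐍(zpowers x)) :
    ¬ q * q ∣ Nat.card G := by
  have := ((sylow_zpowers hq (le_normalizer (mem_zpowers x)) ho h).of_norm_le_top le_rfl).not_dvd hq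
  rw [← card_top (G := G), ← card_mul_relIndex (le_top (a := zpowers x)), Nat.card_zpowers, ho]
  exact fun a => this (Nat.dvd_of_mul_dvd_mul_left hq.pos a)

namespace JX
variable {z p s : G} {E : Subgroup G} {π : ↥𝐂[z] →* Pm} {c : ℕ → G} (h : JX z p s E π c)
include h

theorem exists_conj_L {q : ℕ} (hq : q.Prime) (h5 : 5 ≤ q) (h1 : q ∣ 2661120) (h2 : ¬ q * q ∣ 21799895040) {x : G}
    (hx : x ∈ 𝐂[z]) (ho : orderOf x = q) : ∃ g ∈ 𝐂[z], g * x * g⁻¹ ∈ 𝐂[z] ⊓ 𝐂[p] := by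
  obtain ⟨y, hy, oy⟩ := exists_orderOf_eq_prime hq (h.card_L ▸ h1)
  obtain ⟨d, hd, i, -, -, e⟩ := conj_pow_of_sylow hq hy.1 oy (h.card_H ▸ h2) hx ho
  exact ⟨d, hd, e ▸ pow_mem hy i⟩

theorem card_CH_prime {q : ℕ} (hq : q.Prime) (h5 : 5 ≤ q) (h1 : q ∣ 2661120) (h2 : ¬ q * q ∣ 21799895040) {x : G}
    (hx : x ∈ 𝐂[z]) (ho : orderOf x = q) :
    Nat.card ↥(𝐂[z] ⊓ 𝐂[x]) = Nat.card ↥(E ⊓ 𝐂[x]) * 3 * Nat.card ↥(D2 ⊓ 𝐂[pel π x]) := by
  obtain ⟨g, hg, hL⟩ := h.exists_conj_L hq h5 h1 h2 hx ho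
  have cop : (Nat.card (pker π)).Coprime (orderOf (g * x * g⁻¹)) := by
    rw [h.card_ker, CA.orderOf_conj', ho, show 24576 = 2 ^ 13 * 3 by norm_num]
    exact Nat.Coprime.mul_left (Nat.Coprime.pow_left _ ((Nat.coprime_primes Nat.prime_two hq).2 (by omega)))
      ((Nat.coprime_primes Nat.prime_three hq).2 (by omega))
  have := (copAct_zpowers ((pker_normalIn π).norm hL.1) cop).pmap_inf_cent_ker (H := 𝐂[z]) (zpowers_le.2 hL.1)
    (norms_self_of_le (zpowers_le.2 hL.1))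
  rw [cent_zpowers, pmap_zpowers _ hL.1, cent_zpowers, pmap_dom, h.range] at this
  rw [← card_inf_cent_conj hg, h.card_CH hL, this, h.card_E_conj hg, pel_conj _ hg hx, card_inf_cent_conj (h.pi_mem hg)]

theorem card_CH5 {x : G} (hx : x ∈ 𝐂[z]) (ho : orderOf x = 5) : Nat.card ↥(𝐂[z] ⊓ 𝐂[x]) = 960 := by
  rw [h.card_CH_prime (by norm_num) (by norm_num) (by norm_num) (by norm_num) hx ho, h.card_E_cent5 hx ho,
    card_CD5 (h.pi_mem hx) (h.orderOf_pi hx (by norm_num) ho (h.pi_ne_one hx (by norm_num) ho (by norm_num)))]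
theorem card_CH7 {x : G} (hx : x ∈ 𝐂[z]) (ho : orderOf x = 7) : Nat.card ↥(𝐂[z] ⊓ 𝐂[x]) = 84 := by
  rw [h.card_CH_prime (by norm_num) (by norm_num) (by norm_num) (by norm_num) hx ho, h.card_E_cent7 hx ho,
    card_CD7 (h.pi_mem hx) (h.orderOf_pi hx (by norm_num) ho (h.pi_ne_one hx (by norm_num) ho (by norm_num)))]
theorem card_CH11 {x : G} (hx : x ∈ 𝐂[z]) (ho : orderOf x = 11) : Nat.card ↥(𝐂[z] ⊓ 𝐂[x]) = 264 := by
  rw [h.card_CH_prime (by norm_num) (by norm_num) (by norm_num) (by norm_num) hx ho, h.card_E_cent11 hx ho,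
    card_CD11 (h.pi_mem hx) (h.orderOf_pi hx (by norm_num) ho (h.pi_ne_one hx (by norm_num) ho (by norm_num)))]

end JX

namespace MM
variable {V : Subgroup G} {ν : Finset GolayPt → G} {κ : M24 →* G} (h : MM V ν κ)
include h

theorem el_comm_k {m a : ℕ} {g : Pm} (hm : ev m = true) (hg : g ∈ M24) (ha : inM24 a = true) :
    el ν κ (m, code g) ∈ 𝐂[pel κ (perm a)] ↔ fx a m = true ∧ cmC (code g) a = true := by
  rw [el_code, h.vk_comm_k (h.v_mem hm) hg (perm_mem_M24 ha), h.v_comm_k hm (perm_mem_M24 ha), code_perm' ha, cmC_iff' ha]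
  rfl

theorem el_comm_v {m u : ℕ} {g : Pm} (hm : ev m = true) (hg : g ∈ M24) (hu : ev u = true) :
    el ν κ (m, code g) ∈ 𝐂[ν (fs u)] ↔ fx (code g) u = true := by
  rw [el_code, h.vk_comm_v (h.v_mem hm) hg hu]; rfl

theorem decE {n : G} (hn : n ∈ 𝐍(V)) : ∃ m, ev m = true ∧ ∃ g ∈ M24, n = el ν κ (m, code g) := by
  obtain ⟨m, hm, g, hg, rfl⟩ := h.dec hn
  exact ⟨m, hm, g, hg, (el_code m g).symm⟩

/-- the order of the centralizer in `M` of an element of the complement and a vector -/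
theorem card_cent_kv {a u k ki n : ℕ} (ha : inM24 a = true) (hu : ev u = true)
    (H : (inM24 k && valid ki && Nat.beq (mul k ki) oneC &&
      Nat.beq (count24 (pCj a a) k ki fun c => cmC c a && fx c u) n) = true) :
    Nat.card ↥(𝐍(V) ⊓ 𝐂[pel κ (perm a)] ⊓ 𝐂[ν (fs u)]) = countLt (fun j => ev (hi j) && eqv (apM a (hi j)) (hi j)) 4096 * n := by
  have hle : 𝐍(V) ⊓ 𝐂[pel κ (perm a)] ⊓ 𝐂[ν (fs u)] ≤ 𝐍(V) := inf_le_left.trans inf_le_left
  rw [h.card_eq hle, ← inf_assoc, ← inf_assoc, inf_eq_left.2 h.V_le, inf_right_comm,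
    inf_eq_left.2 (h.todd.le_cent.trans (cent_le_cent1 (h.v_mem hu))), h.card_V_cent ha]
  congr 1
  refine card_of_count H (fun g hg => ?_) fun g hg e => ?_
  · obtain ⟨x, hx, rfl⟩ := (mem_pmap_of_le hle).1 hg
    obtain ⟨m, hm, g', hg', rfl⟩ := h.decE hx.1.1
    have h1 := ((h.el_comm_k hm hg' ha).1 hx.1.2).2
    rw [h.mu_el (okE_code hm hg'), perm_code]
    exact ⟨hg', sat_cj' ha ha ((cmC_iff' ha).1 h1), by rw [h1, (h.el_comm_v hm hg' hu).1 hx.2]; rfl⟩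
  · rw [Bool.and_eq_true] at e
    refine (mem_pmap_of_le hle).2 ⟨el ν κ (0, code g), ⟨⟨h.el_mem (okE_code ev_zero hg), ?_⟩, (h.el_comm_v ev_zero hg hu).2 e.2⟩,
      by rw [h.mu_el (okE_code ev_zero hg), perm_code]⟩
    rw [h.el_k, perm_code]; exact h.k_comm' hg (perm_mem_M24 ha) ((cmC_iff' ha).1 e.1)

theorem v_cases {a m : ℕ} (ha : inM24 a = true) (hm : ev m = true) (hf : fx a m = true) {L : List ℕ}
    (H : allLt (fun j => !(ev (hi j)) || (!(fx a (hi j)) || anyL L fun u => ev u && eqv (hi j) u)) 4096 = true) :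
    ∃ u ∈ L, ev u = true ∧ ν (fs m) = ν (fs u) := by
  obtain ⟨j, hj, e1, e2⟩ := h.exists_hi (h.v_mem hm)
  have := allLt_iff.1 H j hj
  rw [e1, h.fx_congr ha e1 hm (eqv_iff_red.1 ((h.v_eq_iff e1 hm).1 e2)), hf] at this
  obtain ⟨u, hu, e⟩ := anyL_iff.1 (by simpa using this)
  rw [Bool.and_eq_true] at e
  exact ⟨u, hu, e.1, by rw [← e2, h.v_eq_iff e1 e.1, e.2]⟩

end MM

theorem all_cent {a k ki : ℕ} {leaf : ℕ → Bool} (ha : inM24 a = true)
    (H : all24 (pCj a a) k ki (fun c => !(cmC c a) || leaf c) = true) {g : Pm} (hg : g ∈ M24)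
    (h : cmC (code g) a = true) : leaf (code g) = true := by
  have := all24_sound H hg (sat_cj' ha ha ((cmC_iff' ha).1 h))
  rwa [h] at this

theorem not_conj24 {a b k ki : ℕ} (ha : inM24 a = true) (hb : inM24 b = true)
    (H : all24 (pCj a b) k ki (fun c => !(iw c a b)) = true) {g : Pm} (hg : g ∈ M24) : g * perm a * g⁻¹ ≠ perm b := fun e => by
  rw [mul_inv_eq_iff_eq_mul] at e
  have := all24_sound H hg (sat_cj' ha hb e)
  rw [(iw_iff ha hb).2 e] at this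
  simp at this

def t71 : ℕ := 0x44b4242d2131ae5a9263a2b31bc37
def t72 : ℕ := 0x5b6a598e30786ccba04a21a87925c0
def t73 : ℕ := 0xbda953c9a34ba21019e89a8a48098b
theorem w7C_24 : inM24 w7C = true := in22_24 w7C_in
theorem all_w7 {leaf : ℕ → Bool} (H : all24 (pCj w7C w7C) 0x23d013b2b684c14716261a9a914aeb 0xc22c7092fb2cb2018959a15738e8d
    (fun c => !(cmC c w7C) || leaf c) = true) {g : Pm} (hg : g ∈ M24) (h : cmC (code g) w7C = true) :
    leaf (code g) = true := all_cent w7C_24 H hg h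

namespace St
variable (S : St G)

theorem card_Cz_cent {w x : G} {n : ℕ} (hw : IsConj S.z w) (hx : x ∈ 𝐂[w])
    (H : ∀ y ∈ 𝐂[S.z], orderOf y = orderOf x → Nat.card ↥(𝐂[S.z] ⊓ 𝐂[y]) = n) : Nat.card ↥(𝐂[x] ⊓ 𝐂[w]) = n := by
  obtain ⟨g, rfl⟩ := isConj_iff.1 hw
  rw [← cj_centralizer_singleton, mem_cj] at hx
  rw [← H _ hx (by simpa using CA.orderOf_conj' g⁻¹ x), ← card_cj g (𝐂[S.z] ⊓ _), cj_inf, cj_centralizer_singleton,
    cj_centralizer_singleton, inf_comm]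
  congr 4; group

theorem z_ne_duad {u : ℕ} (hu : popc u = 2) : ¬ IsConj S.z (S.v u) := fun h =>
  S.not_zt h (S.conj_duad (by rw [card_fs, hu]))

theorem s7_ord : orderOf (S.k w7C) = 7 := S.k_ord (by norm_num) (by decide +kernel)
theorem card_Y7 : Nat.card ↥(𝐍(S.V) ⊓ 𝐂[S.k w7C]) = 168 := by
  rw [S.mm.card_cent_k w7C_24, card_cent24 (k := 0x23d013b2b684c14716261a9a914aeb) (ki := 0xc22c7092fb2cb2018959a15738e8d)
    (n := 42) w7C_24 (by decide +kernel)]; decide +kernel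
theorem card_X7t : Nat.card ↥(𝐂[S.k w7C] ⊓ 𝐂[S.t]) = 56 := by
  have := S.mm.card_cent_kv (k := 0x23d013b2b684c14716261a9a914aeb) (ki := 0xc22c7092fb2cb2018959a15738e8d) (n := 14)
    w7C_24 DD_ev (by decide +kernel)
  rwa [show countLt _ 4096 = 4 by decide +kernel, inf_right_comm, inf_eq_right.2 S.cent_t, inf_comm] at this
theorem card_X7z {w : G} (hw : IsConj S.z w) (hx : w ∈ 𝐂[S.k w7C]) : Nat.card ↥(𝐂[S.k w7C] ⊓ 𝐂[w]) = 84 :=
  S.card_Cz_cent hw (mem_cent1_comm.1 hx) fun y hy ho => S.jh.card_CH7 hy (ho.trans S.s7_ord)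
theorem tau7_z : IsConj S.z (S.k t71) := S.z_k2A (perm_mem_M24 (by decide +kernel))
  (order_perm (by decide +kernel) (by norm_num) (by decide +kernel)) (by
    rw [fixS_perm (by decide +kernel), card_fs]; decide +kernel)
theorem tau7_X : S.k t71 ∈ 𝐂[S.k w7C] := S.mm.k_comm (by decide +kernel)
theorem v_X7 {u : ℕ} (h : (ev u && fx w7C u) = true) : S.v u ∈ 𝐂[S.k w7C] := by
  rw [Bool.and_eq_true] at h
  exact (S.mm.v_comm_k h.1 (perm_mem_M24 w7C_24)).2 (by rw [code_perm' w7C_24]; exact h.2)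
theorem t_X7 : S.t ∈ 𝐂[S.k w7C] := S.v_X7 (by decide +kernel)
theorem tau7_t : S.k t71 ∈ 𝐂[S.t] := by
  rw [mem_cent1_comm, S.mm.v_comm_k DD_ev (perm_mem_M24 (by decide +kernel)), code_perm' (by decide +kernel)]
  decide +kernel
theorem tau7_conj : S.v 0x801 * S.k t71 * (S.v 0x801)⁻¹ = S.t * S.k t71 := by
  have := S.mm.conj_eq (a := (0x801, oneC)) (b := (0, t71)) (c := (DD, t71)) (by decide +kernel)
  rwa [S.mm.el_v, S.mm.el_k] at this
theorem V_X7 {v : G} (hv : v ∈ S.V) (hx : v ∈ 𝐂[S.k w7C]) : v = 1 ∨ v = S.t ∨ v = S.v 0x801 ∨ v = S.v 0x800800 := by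
  obtain ⟨m, hm, rfl⟩ := S.mm.exists_v hv
  rw [S.mm.v_comm_k hm (perm_mem_M24 w7C_24), code_perm' w7C_24] at hx
  obtain ⟨u, hu, -, e⟩ := S.mm.v_cases w7C_24 hm hx (L := [0, DD, 0x801, 0x800800]) (by decide +kernel)
  simp only [List.mem_cons, List.not_mem_nil, or_false] at hu
  rcases hu with rfl | rfl | rfl | rfl
  · exact Or.inl (e.trans S.mm.v_zero)
  all_goals simp [e]
theorem V_X7_conj {v : G} (hv : v ∈ S.V) (hx : v ∈ 𝐂[S.k w7C]) (h1 : v ≠ 1) :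
    ∃ y ∈ 𝐍(S.V) ⊓ 𝐂[S.k w7C], y * v * y⁻¹ = S.t := by
  rcases S.V_X7 hv hx with rfl | rfl | rfl | rfl
  · exact absurd rfl h1
  · exact ⟨1, one_mem _, by simp⟩
  · exact ⟨S.k t72, ⟨S.k_mem (by decide +kernel), S.mm.k_comm (by decide +kernel)⟩, S.k_conj_v (by decide +kernel)⟩
  · exact ⟨S.k t73, ⟨S.k_mem (by decide +kernel), S.mm.k_comm (by decide +kernel)⟩, S.k_conj_v (by decide +kernel)⟩

theorem inv_X7t {i : G} (hi : i ∈ 𝐂[S.k w7C] ⊓ 𝐂[S.t]) (ho : orderOf i = 2) :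
    i ∈ S.V ∨ i = S.k t71 ∨ i = S.t * S.k t71 := by
  obtain ⟨m, hm, g, hg, rfl⟩ := S.mm.decE (S.cent_t hi.2)
  have h1 := (S.mm.el_comm_k hm hg w7C_24).1 hi.1
  have h2 := (S.mm.el_comm_v hm hg DD_ev).1 hi.2
  have h3 := (S.mm.el_sq hm (mem_M24_iff_code.1 hg)).1 (by rw [← pow_two, ← ho, pow_orderOf_eq_one])
  have := all_w7 (leaf := fun c => !(fx c DD) || !(Nat.beq (mul c c) oneC) || Nat.beq c oneC || Nat.beq c t71)
    (by decide +kernel) hg h1.2
  rw [h2, h3.2, beq_iff.2 rfl] at this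
  simp only [Bool.not_true, Bool.false_or, Bool.or_eq_true, beq_iff] at this
  rcases this with e | e
  · rw [e, S.mm.el_v]; exact Or.inl (S.mm.v_mem hm)
  · rw [e] at h3 ⊢
    have c : S.v m ∈ 𝐂[S.k t71] :=
      (S.mm.v_comm_k hm (perm_mem_M24 (by decide +kernel))).2 (by rw [code_perm' (by decide +kernel)]; exact h3.1)
    rcases S.V_X7 (S.mm.v_mem hm) (S.v_X7 (by rw [hm, h1.1]; rfl)) with e | e | e | e
    · exact Or.inr (Or.inl (by rw [el, show S.ν (fs m) = 1 from e, one_mul]))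
    · exact Or.inr (Or.inr (by rw [el, show S.ν (fs m) = S.t from e]))
    all_goals
      rw [show S.v m = _ from e, S.mm.v_comm_k (by decide +kernel) (perm_mem_M24 (by decide +kernel)),
        code_perm' (by decide +kernel)] at c
      exact absurd c (by decide +kernel)

theorem zY7 : {w | w ∈ 𝐍(S.V) ⊓ 𝐂[S.k w7C] ∧ IsConj S.z w}.ncard ≤ 6 := by
  refine (ncard_le_sum (L := [t71, t72, t73]) (T := fun q => {x | x ∈ 𝐍(S.V) ∧ pel S.μ x = perm q}) (b := fun _ => 2)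
    (Set.toFinite _) (fun x hx => ?_) fun q hq => ?_).trans (by decide)
  · obtain ⟨m, hm, g, hg, rfl⟩ := S.mm.decE hx.1.1
    have h1 := (S.mm.el_comm_k hm hg w7C_24).1 hx.1.2
    have h3 := (S.mm.el_sq hm (mem_M24_iff_code.1 hg)).1 (sq_of_conj S.z_ord hx.2)
    have := all_w7 (leaf := fun c => !(Nat.beq (mul c c) oneC) || Nat.beq c oneC || memL c [t71, t72, t73])
      (by decide +kernel) hg h1.2
    rw [h3.2, beq_iff.2 rfl] at this
    simp only [Bool.not_true, Bool.false_or, Bool.or_eq_true, beq_iff, memL_iff] at this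
    rcases this with e | e
    · exfalso
      have h4 := hx.2
      rw [e, S.mm.el_v] at h4
      obtain ⟨y, -, e⟩ := S.V_X7_conj (S.mm.v_mem hm) (S.v_X7 (by rw [hm, h1.1]; rfl)) fun e => by
        rw [e, isConj_one_left] at h4; exact S.jh.ez.ne_one h4
      exact S.not_conj (e ▸ isConj_conj_iff.2 h4)
    · exact ⟨_, e, hx.1.1, S.mm.mu_el (okE_code hm hg)⟩
  · have k : allL [t71, t72, t73] (fun q => inM24 q && Nat.ble (countLt (fun j => ev (hi j) &&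
        (fx w7C (hi j) && fx q (hi j))) 4096) 2) = true := by decide +kernel
    have := allL_iff.1 k q hq
    rw [Bool.and_eq_true, ble_iff] at this
    refine (S.mm.ncard_over_le this.1 (p := fun m => fx w7C m && fx q m) (fun a b ha hb e => by
      rw [S.mm.fx_congr w7C_24 ha hb e, S.mm.fx_congr this.1 ha hb e]) fun m hm hx => ?_).trans this.2
    rw [S.fx_of_conj S.z_ord hm this.1 hx.2, Bool.and_true]
    have h1 := hx.1.2
    rw [← code_perm' this.1] at h1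
    exact ((S.mm.el_comm_k hm (perm_mem_M24 this.1) w7C_24).1 h1).1

/-- involutions of type `z` in the centralizer of `σ` and a `z`-type involution `a` commuting with `t` -/
theorem zD7 {a : G} (ha : IsConj S.z a) (hX : a ∈ 𝐂[S.k w7C]) (ht : a ∈ 𝐂[S.t]) :
    ({w | w ∈ 𝐂[S.k w7C] ⊓ 𝐂[a] ∧ IsConj S.z w} \ {a, S.t * a}).ncard ≤ 2 := by
  have c := S.card_X7z ha hX
  have oa : orderOf a = 2 := (orderOf_eq_of_isConj ha).symm.trans S.z_ord
  set D := 𝐂[S.k w7C] ⊓ 𝐂[a]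
  have tD : S.t ∈ D := ⟨S.t_X7, mem_cent1_comm.1 ht⟩
  have aD : a ∈ D := ⟨hX, self_mem_cent1 a⟩
  have sD : S.k w7C ∈ D := ⟨self_mem_cent1 _, mem_cent1_comm.1 hX⟩
  have ta : a ∉ zpowers S.t := not_mem_zp2 (sq_of_conj S.t_ord (IsConj.refl _))
    (fun e => by rw [e, orderOf_one] at oa; omega) fun e => S.not_conj (e ▸ ha)
  have c4 := card_sup_zpowers (by norm_num) oa ta (cent1_le_norm _ ht)
  rw [Nat.card_zpowers, S.t_ord] at c4
  have hle : zpowers S.t ⊔ zpowers a ≤ D := sup_le (zpowers_le.2 tD) (zpowers_le.2 aD)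
  have hc : zpowers S.t ⊔ zpowers a ≤ 𝐂[S.t * a] := sup_le (zpowers_le.2 (mem_cent1_comm.1 (mul_mem (self_mem_cent1 _) ht)))
    (zpowers_le.2 (mem_cent1_comm.1 (mul_mem tD.2 (self_mem_cent1 _))))
  have syl := sylowIn_of_card (q := 2) (k := 2) (by norm_num) hle c4 (by rw [c]; norm_num)
  have h1 := card_class_mul D (S.t * a)
  have h2 : 28 ∣ Nat.card ↥(D ⊓ 𝐂[S.t * a]) := Nat.Coprime.mul_dvd_of_dvd_of_dvd (show Nat.Coprime 4 7 by norm_num)
    ((show _ = 4 from c4) ▸ card_dvd_of_le' (le_inf hle hc)) (S.s7_ord ▸ orderOf_dvd_card_of_mem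
      (⟨sD, mem_cent1_comm.1 (mul_mem S.t_X7 hX)⟩ : _ ∈ D ⊓ 𝐂[S.t * a]))
  have h3 : {y | ∃ h ∈ D, h * (S.t * a) * h⁻¹ = y}.ncard ≤ 3 := by
    have := Nat.le_of_dvd (card_pos' _) h2
    rw [c] at h1; nlinarith
  refine (Set.ncard_le_ncard (t := {y | ∃ h ∈ D, h * (S.t * a) * h⁻¹ = y} \ {S.t * a}) fun w hw => ⟨?_, fun e =>
    hw.2 (Or.inr e)⟩).trans ?_
  · have ow : orderOf w = 2 := (orderOf_eq_of_isConj hw.1.2).symm.trans S.z_ord
    obtain ⟨d, hd, e0⟩ := syl.exists_conj_mem hw.1.1 (by rw [piElt_of_orderOf_prime (by norm_num) ow]; rfl)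
    obtain ⟨x, hx, y, hy, e⟩ := (mem_sup_of_norm_right (zpowers_le.2 (cent1_le_norm _ ht))).1 e0
    clear e0
    have zw := isConj_conj_iff (g := d).2 hw.1.2
    rcases (mem_zp2 (sq_of_conj S.t_ord (IsConj.refl _))).1 hx with rfl | rfl <;>
      rcases (mem_zp2 (sq_of_conj S.z_ord ha)).1 hy with rfl | rfl
    · rw [← e, mul_one, isConj_one_left] at zw; exact absurd zw S.jh.ez.ne_one
    · refine absurd (Or.inl ?_) hw.2
      rw [one_mul, eq_mul_inv_iff_mul_eq, ← mem_cent1_iff.1 hd.2] at e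
      exact (mul_left_cancel e).symm
    · rw [← e, mul_one] at zw; exact absurd zw S.not_conj
    · exact ⟨d⁻¹, inv_mem hd, by rw [e]; group⟩
  · rw [Set.ncard_diff_singleton_of_mem (s := {y | ∃ h ∈ D, h * (S.t * a) * h⁻¹ = y}) ⟨1, one_mem _, by simp⟩]; omega

theorem zX7 : {w | w ∈ 𝐂[S.k w7C] ∧ IsConj S.z w}.ncard ≤ 10 := by
  have a2 : IsConj S.z (S.t * S.k t71) := by rw [← S.tau7_conj]; exact isConj_conj_iff.2 S.tau7_z
  have h1 := S.zD7 S.tau7_z S.tau7_X S.tau7_t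
  have h2 := S.zD7 a2 (mul_mem S.t_X7 S.tau7_X) (mul_mem (self_mem_cent1 _) S.tau7_t)
  have m1 : S.k t71 ∈ 𝐍(S.V) := S.cent_t S.tau7_t
  have m2 : S.t * S.k t71 ∈ 𝐍(S.V) := mul_mem (S.cent_t (self_mem_cent1 _)) m1
  have tt : S.t * (S.t * S.k t71) = S.k t71 := by rw [← mul_assoc, sq_of_conj S.t_ord (IsConj.refl _), one_mul]
  refine le_trans (Set.ncard_le_ncard fun w hw => ?_) (((Set.ncard_union_le _ _).trans (Nat.add_le_add
    ((Set.ncard_union_le _ _).trans (Nat.add_le_add S.zY7 h1)) h2)))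
  by_cases hM : w ∈ 𝐍(S.V)
  · exact Or.inl (Or.inl ⟨⟨hM, hw.1⟩, hw.2⟩)
  obtain ⟨i, h1, oi, h2, h3⟩ := exists_invol ((orderOf_eq_of_isConj hw.2).symm.trans S.z_ord) S.t_ord
    fun e => S.not_conj (hw.2.trans e)
  have iX := zpowers_le.2 (mul_mem hw.1 S.t_X7) h1
  have wi := mem_cent1_comm.1 (mem_cent1_iff.2 h2)
  rcases S.inv_X7t ⟨iX, mem_cent1_iff.2 h3⟩ oi with e | e | e
  · obtain ⟨y, hy, e⟩ := S.V_X7_conj e iX fun e => by rw [e, orderOf_one] at oi; omega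
    refine absurd ?_ hM
    rw [← cj_eq_of_mem (inv_mem hy.1), mem_cj_inv]
    apply S.cent_t
    rwa [← e, ← cj_centralizer_singleton, conj_mem_cj]
  · exact Or.inl (Or.inr ⟨⟨⟨hw.1, e ▸ wi⟩, hw.2⟩, by rintro (rfl | rfl) <;> contradiction⟩)
  · exact Or.inr ⟨⟨⟨hw.1, e ▸ wi⟩, hw.2⟩, by rw [tt]; rintro (rfl | rfl) <;> contradiction⟩

theorem core7 {K : Subgroup G} (hK : K ⊴ 𝐂[S.k w7C]) (hM : K ≤ 𝐍(S.V)) : K ≤ zpowers (S.k w7C) := by
  have h1 : S.t ∉ K := fun ht => by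
    obtain ⟨x, hx, ox⟩ := exists_orderOf_eq_prime (p := 3) (by norm_num) (by
      rw [S.card_X7z S.tau7_z S.tau7_X]; norm_num : 3 ∣ Nat.card ↥(𝐂[S.k w7C] ⊓ 𝐂[S.k t71]))
    have h2 := conj_mem_of_mem_normalizer (hK.norm hx.1) ht
    have h3 : x * S.t * x⁻¹ ∈ 𝐂[S.k t71] := conj_H hx.2 (mem_cent1_comm.1 S.tau7_t)
    have h4 : x * S.t * x⁻¹ = S.t := by
      obtain ⟨m, hm, g, hg, e⟩ := S.mm.decE (hM h2)
      have tt : IsConj S.t (x * S.t * x⁻¹) := isConj_conj_iff.2 (IsConj.refl _)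
      have hX := hK.le h2
      rw [e] at hX h3 tt ⊢
      have a1 := (S.mm.el_comm_k hm hg w7C_24).1 hX
      have a2 := (S.mm.el_comm_k hm hg (by decide +kernel)).1 h3
      have a3 := (S.mm.el_sq hm (mem_M24_iff_code.1 hg)).1 (sq_of_conj S.t_ord tt)
      have := all_w7 (leaf := fun c => !(cmC c t71) || !(Nat.beq (mul c c) oneC) || fx c DD) (by decide +kernel) hg a1.2
      rw [a2.2, a3.2, beq_iff.2 rfl] at this
      rcases S.inv_X7t ⟨hX, (S.mm.el_comm_v hm hg DD_ev).2 (by simpa using this)⟩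
        ((orderOf_eq_of_isConj tt).symm.trans S.t_ord) with e | e | e
      · rcases S.V_X7 e hX with e | e | e | e
        · rw [e, isConj_one_left] at tt
          have := S.t_ord; rw [tt, orderOf_one] at this; omega
        · exact e
        all_goals
          rw [e, S.mm.v_comm_k (by decide +kernel) (perm_mem_M24 (by decide +kernel)), code_perm' (by decide +kernel)] at h3
          exact absurd h3 (by decide +kernel)
      · exact (S.not_zt S.tau7_z (e ▸ tt)).elim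
      · exact (S.not_zt (by rw [← S.tau7_conj]; exact isConj_conj_iff.2 S.tau7_z) (e ▸ tt)).elim
    have := orderOf_dvd_card_of_mem (mem_inf.2 ⟨hx.1, mem_cent1_iff.2 (mul_inv_eq_iff_eq_mul.1 h4)⟩ : x ∈ 𝐂[S.k w7C] ⊓ 𝐂[S.t])
    rw [ox, S.card_X7t] at this; omega
  have h2 : ∀ v ∈ K, v ∈ S.V → v = 1 := fun v hv hV => by
    by_contra h
    obtain ⟨y, hy, e⟩ := S.V_X7_conj hV (hK.le hv) h
    exact h1 (e ▸ conj_mem_of_mem_normalizer (hK.norm hy.2) hv)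
  have h3 : ∀ x ∈ K, ∀ u, (ev u && fx w7C u) = true → x ∈ 𝐂[S.v u] := fun x hx u hu => by
    have a1 := S.v_X7 hu
    rw [Bool.and_eq_true] at hu
    have a2 := S.mm.v_mem hu.1
    have := h2 (x * (S.v u * x⁻¹ * (S.v u)⁻¹)) (mul_mem hx (conj_mem_of_mem_normalizer (hK.norm a1) (inv_mem hx))) (by
      rw [← mul_assoc, ← mul_assoc]; exact mul_mem (S.mm.conj_mem_V (hM hx) a2) (inv_mem a2))
    rw [mem_cent1_iff, ← mul_inv_eq_one, ← this]; group
  intro x hx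
  obtain ⟨m, hm, g, hg, rfl⟩ := S.mm.decE (hM hx)
  have a1 := (S.mm.el_comm_k hm hg w7C_24).1 (hK.le hx)
  have := all_w7 (leaf := fun c => !(fx c DD) || !(fx c 0x801) || isPow w7C 7 c) (by decide +kernel) hg a1.2
  rw [(S.mm.el_comm_v hm hg DD_ev).1 (h3 _ hx DD (by decide +kernel)),
    (S.mm.el_comm_v hm hg (by decide +kernel)).1 (h3 _ hx 0x801 (by decide +kernel)), ← code_perm' w7C_24] at this
  obtain ⟨i, -, rfl⟩ := isPow_sound (by simpa using this)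
  rw [MM.el_code, pel_pow _ (perm_mem_M24 w7C_24)] at hx ⊢
  have c : Commute (S.v m) (S.k w7C ^ i) := (show Commute _ _ from mem_cent1_iff.1 (S.v_X7 (by rw [hm, a1.1]; rfl))).pow_right i
  have e : (S.v m * S.k w7C ^ i) ^ 7 = S.v m := by
    rw [c.mul_pow, ← pow_mul, mul_comm i, pow_mul, ← S.s7_ord, pow_orderOf_eq_one, one_pow, mul_one, S.s7_ord,
      show 7 = 2 * 3 + 1 by rfl, pow_succ, pow_mul, pow_two, S.mm.v_sq hm]; simp
  rw [show S.ν (fs m) = 1 from h2 (S.v m) (e ▸ pow_mem (show S.v m * S.k w7C ^ i ∈ K from hx) 7) (S.mm.v_mem hm), one_mul]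
  exact pow_mem (mem_zpowers _) i

theorem X7 : Nat.card 𝐂[S.k w7C] = 840 ∧ ∃ I, DProd (zpowers (S.k w7C)) I 𝐂[S.k w7C] ∧ Nonempty (I ≃* Equiv.Perm (Fin 5)) := by
  obtain ⟨φ, hφ⟩ := exists_coset_hom (inf_le_right (a := 𝐍(S.V)) (b := 𝐂[S.k w7C]))
  have h1 := card_mul_relIndex (inf_le_right (a := 𝐍(S.V)) (b := 𝐂[S.k w7C]))
  have h2 := card_class_mul 𝐂[S.k w7C] (S.k t71)
  have h3 := (Set.ncard_le_ncard (s := {y | ∃ h ∈ 𝐂[S.k w7C], h * S.k t71 * h⁻¹ = y})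
    (t := {w | w ∈ 𝐂[S.k w7C] ∧ IsConj S.z w}) fun y ⟨h, a, b⟩ =>
    ⟨b ▸ conj_H a S.tau7_X, b ▸ isConj_conj_iff.2 S.tau7_z⟩).trans S.zX7
  have h4 := S.core7 (pker_normalIn φ) (hφ.trans inf_le_left)
  have h5 := card_pmap_mul φ le_rfl
  have h6 := card_le_of_le' h4
  have h7 := card_dvd_of_le' (le_top (a := pmap φ 𝐂[S.k w7C]))
  rw [inf_eq_left.2 (pker_le_dom φ)] at h5
  rw [Nat.card_zpowers, S.s7_ord] at h6
  rw [S.card_Y7] at h1
  rw [S.card_X7z S.tau7_z S.tau7_X] at h2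
  have h8 := relIndex_pos' (𝐍(S.V) ⊓ 𝐂[S.k w7C]) 𝐂[S.k w7C]
  generalize (𝐍(S.V) ⊓ 𝐂[S.k w7C]).relIndex 𝐂[S.k w7C] = m at *
  rw [card_top, Nat.card_perm, Nat.card_fin] at h7
  have h9 := Nat.le_of_dvd (Nat.factorial_pos m) h7
  have hm : m = 5 := by
    have : m ≤ 5 := by omega
    have h10 := Nat.mul_le_mul h6 h9
    interval_cases m <;> simp only [Nat.factorial] at h10 <;> omega
  subst hm
  obtain ⟨I, hI⟩ := exists_dprod (by norm_num) S.s7_ord (by rw [← h1]; norm_num)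
  have c := hI.card_eq
  rw [Nat.card_zpowers, S.s7_ord] at c
  have k : pker φ ⊓ I = ⊥ := eq_bot_iff.2 ((inf_le_inf_right _ h4).trans hI.inf_eq.le)
  refine ⟨h1.symm, I, hI, ⟨(pmapEquiv hI.right_le k).trans ((MulEquiv.subgroupCongr ?_).trans topEquiv)⟩⟩
  exact eq_top_of_card_eq _ (by rw [card_pmap_of_inj hI.right_le k, Nat.card_perm, Nat.card_fin]; simp [Nat.factorial]; omega)

theorem t_conj_X7 {i : G} (hi : i ∈ 𝐂[S.k w7C]) (ht : IsConj S.t i) : ∃ x ∈ 𝐂[S.k w7C], x * i * x⁻¹ = S.t := by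
  have oi := (orderOf_eq_of_isConj ht).symm.trans S.t_ord
  obtain ⟨T, -, h1, h2⟩ := exists_sylow_card (q := 2) (k := 3) (by norm_num) IsPGroup.of_bot
    (bot_le (a := 𝐂[S.k w7C] ⊓ 𝐂[S.t])) (by rw [S.card_X7t]; norm_num) (by rw [S.card_X7t]; norm_num)
  obtain ⟨d, hd, e⟩ := (sylowIn_of_card (by norm_num) (h1.trans inf_le_left) h2 (by rw [S.X7.1]; norm_num)).exists_conj_mem
    hi (by rw [piElt_of_orderOf_prime (by norm_num) oi]; rfl)
  have tt := isConj_conj_iff (g := d).2 ht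
  rcases S.inv_X7t (h1 e) (by rw [CA.orderOf_conj', oi]) with e1 | e1 | e1
  · obtain ⟨y, hy, e⟩ := S.V_X7_conj e1 (h1 e).1 fun e => by
      have := CA.orderOf_conj' d i; rw [e, orderOf_one] at this; omega
    exact ⟨y * d, mul_mem hy.2 hd, by rw [← e]; group⟩
  · exact (S.not_zt S.tau7_z (e1 ▸ tt)).elim
  · exact (S.not_zt (by rw [← S.tau7_conj]; exact isConj_conj_iff.2 S.tau7_z) (e1 ▸ tt)).elim

theorem k_pow {a : ℕ} (ha : inM24 a = true) (i : ℕ) : S.k a ^ i = S.k (powC a i) := by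
  rw [k, k, ← pel_pow _ (perm_mem_M24 ha), perm_pow' ha]

theorem N7 : Nat.card 𝐍(zpowers (S.k w7C)) = 2520 := by
  rw [card_norm_zpowers, S.X7.1]
  have : {y | y ∈ zpowers (S.k w7C) ∧ IsConj (S.k w7C) y} = {S.k w7C ^ 1, S.k w7C ^ 2, S.k w7C ^ 4} := by
    ext y
    have c2 : IsConj (S.k w7C) (S.k w7C ^ 2) := isConj_iff.2 ⟨S.k 0xb96678a2a683a8c5a4626bc9654820, by
      rw [S.k_pow w7C_24]; exact S.k_conj (by decide +kernel)⟩
    refine ⟨fun ⟨h1, h2⟩ => ?_, ?_⟩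
    · obtain ⟨i, hi, rfl⟩ := exists_pow_lt h1
      obtain ⟨n, e⟩ := isConj_iff.1 h2
      have hn : n ∈ 𝐍(𝐂[S.k w7C]) := by
        rw [← cent_zpowers]; exact normalizer_le_normalizer_centralizer _ (mem_norm_zpowers (e ▸ h1))
      obtain ⟨x, hx, e1⟩ := S.t_conj_X7 (conj_mem_of_mem_normalizer hn S.t_X7) (isConj_conj_iff.2 (IsConj.refl _))
      have hM : x * n ∈ 𝐍(S.V) := S.cent_t (mem_cent1_iff.2 (mul_inv_eq_iff_eq_mul.1 (Eq.trans (by group) e1)))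
      have e2 : x * n * S.k w7C * (x * n)⁻¹ = S.k w7C ^ i := by
        rw [show x * n * S.k w7C * (x * n)⁻¹ = x * (n * S.k w7C * n⁻¹) * x⁻¹ by group, e, ← conj_pow,
          mem_cent1_iff.1 hx, mul_inv_cancel_right]
      have e3 := congrArg (pel S.μ) e2
      rw [pel_conj _ hM (S.k_mem w7C_24), S.k_pow w7C_24, S.mm.mu_k (perm_mem_M24 w7C_24),
        S.mm.mu_k (perm_mem_M24 (inM24_pow w7C_24 i))] at e3
      have hg := S.mm.mu_mem hM
      rw [S.s7_ord] at hi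
      interval_cases i
      · rw [pow_zero, isConj_one_left] at h2
        have := S.s7_ord; rw [h2, orderOf_one] at this; omega
      · simp
      · simp
      · exact absurd e3 (not_conj24 (k := 0x21d4361a0d5d855882f27250f2d033) (ki := 0x4b9820217121e137d4c5b4877a342a)
          w7C_24 (inM24_pow w7C_24 _) (by decide +kernel) hg)
      · simp
      · exact absurd e3 (not_conj24 (k := 0x8860768eaa602c9251f732c4543a53) (ki := 0x4362a006f548a6f34183a1c8b916ce)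
          w7C_24 (inM24_pow w7C_24 _) (by decide +kernel) hg)
      · exact absurd e3 (not_conj24 (k := 0x9d4472a823726c0251eb35e0d43251) (ki := 0x336cab84054bc82449c3a1e6b8562c)
          w7C_24 (inM24_pow w7C_24 _) (by decide +kernel) hg)
    · rintro (rfl | rfl | rfl)
      · exact ⟨pow_mem (mem_zpowers _) _, by rw [pow_one]⟩
      · exact ⟨pow_mem (mem_zpowers _) _, c2⟩
      · exact ⟨pow_mem (mem_zpowers _) _, c2.trans (by simpa [← pow_mul] using c2.pow 2)⟩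
  have ne : ∀ i j, i < 7 → j < 7 → i ≠ j → S.k w7C ^ i ≠ S.k w7C ^ j := fun i j hi hj h e =>
    h (pow_injOn_Iio_orderOf (by rwa [Set.mem_Iio, S.s7_ord]) (by rwa [Set.mem_Iio, S.s7_ord]) e)
  rw [this, Set.ncard_eq_three.2 ⟨_, _, _, ne 1 2 (by norm_num) (by norm_num) (by norm_num),
    ne 1 4 (by norm_num) (by norm_num) (by norm_num), ne 2 4 (by norm_num) (by norm_num) (by norm_num), rfl⟩]

theorem not49 (S : St G) : ¬ 49 ∣ Nat.card G := not_sq_dvd (by norm_num) S.s7_ord (by rw [S.N7]; norm_num)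

theorem exists_cj_prime {q : ℕ} (hq : q.Prime) {x : G} (ho : orderOf x = q) (h : ¬ q * q ∣ Nat.card G) {Q : Subgroup G}
    (hQ : Nat.card Q = q) : ∃ g, Q = cj g (zpowers x) :=
  ((sylow_zpowers hq (mem_top x) ho (by rwa [card_top])).exists_cj (sylowIn_of_card (k := 1) hq le_top (by rwa [pow_one])
    (by rwa [card_top, pow_add, pow_one]))).imp fun g h => h.2

theorem card_cent7 (S : St G) {x : G} (ho : orderOf x = 7) : Nat.card 𝐂[x] = 840 := by
  obtain ⟨g, e⟩ := exists_cj_prime (by norm_num) S.s7_ord S.not49 (Q := zpowers x) (by rw [Nat.card_zpowers, ho])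
  rw [← cent_zpowers, e, ← cj_centralizer, card_cj, cent_zpowers, S.X7.1]

theorem res5573 (S : St G) (Q : Subgroup G) (hQ : Nat.card Q = 7) :
    ¬ (49 ∣ Nat.card G) ∧ (∃ I : Subgroup G, IsInternalDirectProduct Q I 𝐂(Q) ∧ Nonempty (↥I ≃* Equiv.Perm (Fin 5))) ∧
    Nat.card ↥𝐍(Q) = 3 * Nat.card ↥𝐂(Q) ∧ Nat.card ↥𝐍(Q) = 2 ^ 3 * 3 ^ 2 * 5 * 7 := by
  obtain ⟨g, rfl⟩ := exists_cj_prime (by norm_num) S.s7_ord S.not49 hQ
  obtain ⟨h1, I, h2, ⟨e⟩⟩ := S.X7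
  rw [← cj_centralizer, ← cj_normalizer, card_cj, card_cj, cent_zpowers, S.N7, h1]
  exact ⟨S.not49, ⟨cj g I, idp_of_dprod (h2.cj g), ⟨(cjEquiv g I).symm.trans e⟩⟩, rfl, rfl⟩

end St

end CA.J4
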