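import Cfsg.Agent.Lib.J4.Ten2
import Cfsg.Agent.Lib.XS.Wedge
import Cfsg.Agent.Lib.XS.Gasch

/-!
The self-centralizing `2^10` of a group of type `J4` and its normalizer `2^10 : L5(2)`.
-/

set_option autoImplicit false
set_option linter.unusedSectionVars false
set_option linter.unusedVariables false

namespace CA.J4
open Cfsg CA.Gol CA.Ex2 CA.XS Subgroup Matrix
open scoped Pointwise

/-- the code of a vector -/
def nb5 (x : V5) : ℕ := (x 0).val + 2 * (x 1).val + 4 * (x 2).val + 8 * (x 3).val + 16 * (x 4).val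
/-- the vector with a given code -/
def vec5 (n : ℕ) : V5 := fun i => if n.testBit i then 1 else 0

theorem nb5_lt (x : V5) : nb5 x < 32 := by
  have := fun i => ZMod.val_lt (x i)
  have h0 := this 0; have h1 := this 1; have h2 := this 2; have h3 := this 3; have h4 := this 4
  unfold nb5; omega

theorem nb5_add (x y : V5) : nb5 (x + y) = nb5 x ^^^ nb5 y := by
  simp only [nb5, Pi.add_apply]
  generalize x 0 = a0, x 1 = a1, x 2 = a2, x 3 = a3, x 4 = a4, y 0 = b0, y 1 = b1, y 2 = b2, y 3 = b3, y 4 = b4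
  revert a0 a1 a2 a3 a4 b0 b1 b2 b3 b4
  decide +kernel

theorem nb5_vec {n : ℕ} (hn : n < 32) : nb5 (vec5 n) = n := by
  revert n; decide +kernel

/-- the affine plane through the point `1` -/
def tet (i j : ℕ) : ℕ :=
  Nat.xor (Nat.xor 2 (Nat.pow 2 (ap (nth TA i) 1))) (Nat.xor (Nat.pow 2 (ap (nth TA j) 1)) (Nat.pow 2 (ap (nth TA (Nat.xor i j)) 1)))
/-- index of the image in the octad group -/
def wI (a b : ℕ) : ℕ := Nat.xor (Nat.mul (Nat.div b 16) (Nat.mod a 16)) (Nat.mul (Nat.div a 16) (Nat.mod b 16))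
/-- code of a wedge -/
def wc (a b : ℕ) : ℕ × ℕ := (tet (Nat.mod a 16) (Nat.mod b 16), nth TA (wI a b))

theorem wc_chk : allLt (fun a => allLt (fun b => okE (wc a b) && inUo (wc a b).1 && Nat.blt (wI a b) 16 &&
    eqE (wc a b) (wc b a) && (Nat.beq (wI a b) 0 && (isCode (wc a b).1 || Nat.beq (popc (wc a b).1) 4) ||
      !(Nat.beq (wI a b) 0) && memL (red (apM (nth tenK (wI a b)) (wc a b).1)) LA)) 32 &&
    eqE (wc a a) (0, oneC)) 32 = true := by decide +kernel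

theorem wc_spec {a b : ℕ} (ha : a < 32) (hb : b < 32) : okE (wc a b) = true ∧ inUo (wc a b).1 = true ∧ wI a b < 16 ∧
    eqE (wc a b) (wc b a) = true ∧ (wI a b = 0 ∧ (isCode (wc a b).1 = true ∨ popc (wc a b).1 = 4) ∨
      wI a b ≠ 0 ∧ memL (red (apM (nth tenK (wI a b)) (wc a b).1)) LA = true) ∧ eqE (wc a a) (0, oneC) = true := by
  have := allLt_iff.1 wc_chk a ha
  simp only [Bool.and_eq_true, allLt_iff, Bool.or_eq_true, beq_iff, blt_iff, Bool.not_eq_true', beq_false_iff] at this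
  obtain ⟨⟨⟨⟨a1, a2⟩, a3⟩, a4⟩, a5⟩ := this.1 b hb
  exact ⟨a1, a2, a3, a4, a5, this.2⟩

theorem wc_add : allLt (fun a => allLt (fun b => allLt (fun c =>
    eqE (mulE (wc a c) (wc b c)) (wc (Nat.xor a b) c)) 32) 32) 32 = true := by decide +kernel

theorem TA_zero : nth TA 0 = oneC := by decide +kernel

theorem tenK_chk {j : ℕ} (hj : j < 16) (h0 : j ≠ 0) :
    (inM24 (nth tenK j) && inM24 (nth TA j) && inM24 r2A && iw (nth tenK j) (nth TA j) r2A) = true := by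
  have := allLt_iff.1 (show allLt (fun j => Nat.beq j 0 ||
    (inM24 (nth tenK j) && inM24 (nth TA j) && inM24 r2A && iw (nth tenK j) (nth TA j) r2A)) 16 = true by
      decide +kernel) j hj
  rwa [beq_false_iff.2 h0] at this

variable {G : Type*} [Group G] [Finite G]

/-- the wedge map -/
noncomputable def tenW (ν : Finset GolayPt → G) (κ : M24 →* G) (x y : V5) : G := el ν κ (wc (nb5 x) (nb5 y))

theorem sq_cj' {X : Subgroup G} (h2 : ∀ x ∈ X, x * x = 1) (k : G) : ∀ x ∈ cj k X, x * x = 1 := fun x hx => by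
  obtain ⟨y, hy, rfl⟩ := mem_cj'.1 hx
  rw [conj_mul, h2 y hy]; simp

theorem self_cj {X : Subgroup G} (hs : 𝐂(X) ≤ X) (k : G) : 𝐂(cj k X) ≤ cj k X := by
  rw [← cj_centralizer]; exact cj_mono _ hs

namespace MM
variable {V : Subgroup G} {ν : Finset GolayPt → G} {κ : M24 →* G} (h : MM V ν κ)
include h

theorem wc_memA {a b : ℕ} (ha : a < 32) (hb : b < 32) : el ν κ (wc a b) ∈ tenA V κ := by
  obtain ⟨a1, a2, a3, -⟩ := wc_spec ha hb
  exact (h.el_memA (okE_ev a1) (okE_in a1)).2 ⟨a2, by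
    show inA (nth TA _) = true
    rw [← code_ta a3]; exact inA_iff.2 (ta_memA a3)⟩

theorem wc_mul {a b c : ℕ} (ha : a < 32) (hb : b < 32) (hc : c < 32) :
    el ν κ (wc (a ^^^ b) c) = el ν κ (wc a c) * el ν κ (wc b c) := by
  rw [h.el_mul (wc_spec ha hc).1 (wc_spec hb hc).1, eq_comm, h.el_eq_iff (okE_mul (wc_spec ha hc).1 (wc_spec hb hc).1)
    (wc_spec (xor_lt' (n := 5) ha hb) hc).1]
  exact allLt_iff.1 (allLt_iff.1 (allLt_iff.1 wc_add a ha) b hb) c hc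

theorem wc_symm {a b : ℕ} (ha : a < 32) (hb : b < 32) : el ν κ (wc a b) = el ν κ (wc b a) :=
  (h.el_eq_iff (wc_spec ha hb).1 (wc_spec hb ha).1).2 (wc_spec ha hb).2.2.2.1

theorem tenW_vec {a b : ℕ} (ha : a < 32) (hb : b < 32) : tenW ν κ (vec5 a) (vec5 b) = el ν κ (wc a b) := by
  rw [tenW, nb5_vec ha, nb5_vec hb]

theorem wedge : Wedge (tenA V κ) (tenW ν κ) := by
  refine ⟨fun x x' y => by rw [tenW, nb5_add, h.wc_mul (nb5_lt _) (nb5_lt _) (nb5_lt _)]; rfl, fun x y y' => ?_,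
    fun x => ?_, le_antisymm (fun x hx => ?_) ((closure_le _).2 fun g ⟨x, y, e⟩ => e ▸ h.wc_memA (nb5_lt _) (nb5_lt _)),
    h.card_A⟩
  · rw [tenW, tenW, tenW, nb5_add, h.wc_symm (nb5_lt _) (xor_lt' (n := 5) (nb5_lt _) (nb5_lt _)),
      h.wc_mul (nb5_lt _) (nb5_lt _) (nb5_lt _), h.wc_symm (nb5_lt y), h.wc_symm (nb5_lt y')] <;> exact nb5_lt _
  · rw [tenW, ← h.el_one, h.el_eq_iff (wc_spec (nb5_lt _) (nb5_lt _)).1 (okE_mk ev_zero oneC_in)]
    exact (wc_spec (nb5_lt _) (nb5_lt x)).2.2.2.2.2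
  · have mem : ∀ a < 32, ∀ b < 32, el ν κ (wc a b) ∈ closure {g | ∃ x y, tenW ν κ x y = g} := fun a ha b hb =>
      subset_closure ⟨_, _, h.tenW_vec ha hb⟩
    obtain ⟨u, hu, f, hf, rfl⟩ := h.memA.1 hx
    obtain ⟨i, hi, -, rfl⟩ := h.famU.surj u hu
    obtain ⟨j, hj, rfl⟩ := memAH.1 hf
    refine mul_mem ?_ ?_
    · have := allLt_iff.1 (show allLt (fun i => anyLt (fun a => anyLt (fun b => anyLt (fun c =>
        eqE (mulE (mulE (wc 1 (2 * a)) (wc 2 (4 * b))) (wc 4 (8 * c))) (nth tenU i, oneC)) 2) 4) 8) 64 = true by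
          decide +kernel) i hi
      simp only [anyLt_iff] at this
      obtain ⟨a, ha, b, hb, c, hc, e⟩ := this
      have o1 := (wc_spec (a := 1) (b := 2 * a) (by norm_num) (by omega)).1
      have o2 := (wc_spec (a := 2) (b := 4 * b) (by norm_num) (by omega)).1
      have o3 := (wc_spec (a := 4) (b := 8 * c) (by norm_num) (by omega)).1
      show ν _ ∈ _
      rw [← h.el_v, ← (h.el_eq_iff (okE_mul (okE_mul o1 o2) o3) (okE_mk (tenU_ev hi) oneC_in)).2 e,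
        ← h.el_mul (okE_mul o1 o2) o3, ← h.el_mul o1 o2]
      exact mul_mem (mul_mem (mem _ (by norm_num) _ (by omega)) (mem _ (by norm_num) _ (by omega)))
        (mem _ (by norm_num) _ (by omega))
    · have := allLt_iff.1 (show allLt (fun j => eqE (wc j 16) (0, nth TA j)) 16 = true by decide +kernel) j hj
      rw [ta, ← h.el_k, ← (h.el_eq_iff (wc_spec (by omega) (by norm_num)).1 (okE_mk ev_zero (TA_24 hj))).2 this]
      exact mem _ (by omega) _ (by norm_num)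

end MM

namespace St
variable (S : St G)

/-- the group `A` -/
abbrev A : Subgroup G := tenA S.V S.κ
/-- the wedge map -/
noncomputable abbrev w : V5 → V5 → G := tenW S.ν S.κ

theorem cent_A : 𝐂(S.A) ≤ S.A := fun x hx =>
  S.mm.cent_A (S.cent_t (cent_le_cent1 (S.mm.U_leA S.mm.t_memU) hx)) hx

theorem zTA {m j : ℕ} (hm : ev m = true) (hj : j < 16) (h0 : j ≠ 0) (hf : fx (nth TA j) m = true) :
    IsConj S.z (S.e (m, nth TA j)) ↔ memL (red (apM (nth tenK j) m)) LA = true := by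
  have e := S.mm.el_conj_k hm (tenK_chk hj h0)
  have k := tenK_chk hj h0
  simp only [Bool.and_eq_true] at k
  have hm' : ev (apM (nth tenK j) m) = true := by rw [← code_perm' k.1.1.1]; exact ev_apM _ hm
  rw [← S.zA hm' ((S.mm.el_sq hm' r2A_in).1 (by
    rw [← e, conj_mul, (S.mm.el_sq hm (TA_24 hj)).2 ⟨hf, by
      rw [← code_ta hj, ← code_mul, ta_sq hj, code_one]⟩]; simp)).1, St.e, St.e, ← e, isConj_conj_iff]

theorem z_iff_dec {a : G} (ha : a ∈ S.A) (h1 : a ≠ 1) : IsConj S.z a ↔ ∃ x y, S.w x y = a := by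
  constructor
  · intro hz
    obtain ⟨i, hi, j, hj, rfl⟩ := S.mm.exists_elA ha
    have key : ∃ a < 32, ∃ b < 32, eqE (wc a b) (nth tenU i, nth TA j) = true := by
      rcases eq_or_ne j 0 with rfl | j0
      · have := allLt_iff.1 (show allLt (fun i => Nat.beq (popc (nth tenU i)) 2 || Nat.beq (popc (Nat.xor (nth tenU i) OH)) 2 ||
          anyLt (fun a => anyLt (fun b => eqE (wc a b) (nth tenU i, nth TA 0)) 16) 16) 64 = true by decide +kernel) i hi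
        simp only [Bool.or_eq_true, anyLt_iff, beq_iff] at this
        rw [TA_zero, S.mm.el_v] at hz
        rcases this with (e | e) | ⟨a, ha, b, hb, e⟩
        · exact (S.not_zt hz (S.conj_duad (by rw [card_fs, e]))).elim
        · have h3 : ev OH = true := by decide +kernel
          refine (S.not_zt hz ?_).elim
          have := S.conj_duad (s := fs (Nat.xor (nth tenU i) OH)) (by rw [card_fs, e])
          rwa [S.mm.v_xor (tenU_ev hi) h3, (S.mm.v_eq_one h3).2 (by decide +kernel), mul_one] at this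
        · exact ⟨a, by omega, b, by omega, e⟩
      · have := allLt_iff.1 (allLt_iff.1 (show allLt (fun i => allLt (fun j => Nat.beq j 0 ||
          !(memL (red (apM (nth tenK j) (nth tenU i))) LA) ||
          anyLt (fun b => eqE (wc j (16 + b)) (nth tenU i, nth TA j)) 16) 16) 64 = true by decide +kernel) i hi) j hj
        rw [(S.zTA (tenU_ev hi) hj j0 (tenU_fx hi hj)).1 hz, beq_false_iff.2 j0] at this
        obtain ⟨b, hb, e⟩ := anyLt_iff.1 (by simpa using this)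
        exact ⟨j, by omega, _, by omega, e⟩
    obtain ⟨a, ha, b, hb, e⟩ := key
    exact ⟨_, _, (S.mm.tenW_vec ha hb).trans ((S.mm.el_eq_iff (wc_spec ha hb).1 (okE_mk (tenU_ev hi) (TA_24 hj))).2 e)⟩
  · rintro ⟨x, y, rfl⟩
    obtain ⟨a1, a2, a3, -, ⟨a4, a5⟩ | ⟨a4, a5⟩, -⟩ := wc_spec (nb5_lt x) (nb5_lt y)
    · have e : S.w x y = S.v (wc (nb5 x) (nb5 y)).1 := by
        rw [St.v, ← S.mm.el_v]; show el _ _ (_, nth TA _) = _; rw [a4, TA_zero]; rfl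
      rw [e] at h1 ⊢
      exact S.conj_tetrad (by rw [card_fs]; exact a5.resolve_left (mt (S.mm.v_eq_one (okE_ev a1)).2 h1))
    · refine (S.zTA (okE_ev a1) a3 a4 ?_).2 a5
      rw [← S.mm.v_comm_ta (okE_ev a1) a3]
      exact S.mm.U_comm ((S.mm.v_memU (okE_ev a1)).2 a2) (ta_memA a3)

theorem dec_norm : ∀ n ∈ 𝐍(S.A), ∀ x y, ∃ u v, n * S.w x y * n⁻¹ = S.w u v := fun n hn x y => by
  by_cases h1 : S.w x y = 1
  · exact ⟨x, y, by rw [h1]; simp⟩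
  have hm := S.mm.wedge.w_mem x y
  obtain ⟨u, v, e⟩ := (S.z_iff_dec (conj_mem_of_mem_normalizer hn hm) (by simpa using h1)).1
    (isConj_conj_iff.2 ((S.z_iff_dec hm h1).2 ⟨x, y, rfl⟩))
  exact ⟨u, v, e.symm⟩

theorem pure8 {X : Subgroup G} (hX : X ≤ 𝐍(S.V)) (h2 : ∀ x ∈ X, x * x = 1) (hz : ∀ x ∈ X, ¬ IsConj S.t x)
    (h1 : perm r2A ∈ pmap S.μ X) : Nat.card ↥(S.V ⊓ X) ≤ 8 := by
  obtain ⟨-, m0, hm0, e0⟩ := S.mm.lies_over hX h2 h1
  have cl : ∀ a b, memL (red a) LA = true → memL (red b) LA = true → memL (red (Nat.xor a b)) LA = true := fun a b ha hb => by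
    have := allL_iff.1 (allL_iff.1 (show allL LA (fun a => allL LA fun b => memL (a ^^^ b) LA) = true by decide +kernel)
      _ (memL_iff.1 ha)) _ (memL_iff.1 hb)
    rwa [← red_xor] at this
  have zz : ∀ m, ev m = true → S.e (m, r2A) ∈ X → memL (red m) LA = true := fun m hm hx => by
    have s2 := h2 _ hx
    refine (S.zA hm ((S.mm.el_sq hm r2A_in).1 s2).1).1 ((S.two' (orderOf_eq_prime (by rw [pow_two, s2]) fun e => ?_)).resolve_right
      (hz _ hx))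
    have := S.mm.mu_el (okE_mk hm r2A_in)
    rw [show el S.ν S.κ (m, r2A) = 1 from e, pel_one] at this
    exact absurd (this ▸ r2A_order) (by simp)
  let L : Subgroup G := {
    carrier := {v | ∃ m, ev m = true ∧ memL (red m) LA = true ∧ S.v m = v}
    mul_mem' := fun ⟨a, a1, a2, a3⟩ ⟨b, b1, b2, b3⟩ => ⟨_, ev_xor a1 b1, cl a b a2 b2, by rw [← a3, ← b3]; exact S.mm.v_xor a1 b1⟩
    one_mem' := ⟨0, ev_zero, by decide +kernel, S.mm.v_zero⟩
    inv_mem' := fun ⟨a, a1, a2, a3⟩ => ⟨a, a1, a2, by rw [← a3, S.mm.v_inv (S.mm.v_mem a1)]⟩ }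
  have c16 : Nat.card L = 16 := (S.mm.ncard_V (S := L) (p := fun m => memL (red m) LA) (fun v ⟨m, a, b, c⟩ => c ▸ S.mm.v_mem a)
    fun m hm => ⟨fun ⟨m', a, b, c⟩ => by rwa [← eqv_iff_red.1 ((S.mm.v_eq_iff a hm).1 c)], fun a => ⟨m, hm, a, rfl⟩⟩).trans
      (by decide +kernel)
  have le : S.V ⊓ X ≤ L := fun u hu => by
    obtain ⟨m, hm, rfl⟩ := S.mm.exists_v hu.1
    have := cl _ _ (zz _ (ev_xor hm hm0) (by rw [St.e, el, S.mm.v_xor hm hm0, mul_assoc]; exact mul_mem hu.2 e0)) (zz _ hm0 e0)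
    refine ⟨m, hm, ?_, rfl⟩
    rwa [show Nat.xor (Nat.xor m m0) m0 = m by show m ^^^ m0 ^^^ m0 = m; rw [Nat.xor_assoc, Nat.xor_self, Nat.xor_zero]] at this
  have lt : S.V ⊓ X < L := lt_of_le_of_ne le fun e => hz _ (e.ge ⟨0x12000, by decide +kernel, by decide +kernel, rfl⟩).2
    (S.conj_duad (by rw [card_fs]; decide +kernel))
  have d := card_dvd_of_le' le
  have := card_lt_of_lt' lt
  rw [c16] at d this
  obtain ⟨k, hk⟩ := d
  rcases k with _ | _ | k <;> nlinarith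

theorem cls_t {X : Subgroup G} (hX : X ≤ 𝐂[S.t]) (h2 : ∀ x ∈ X, x * x = 1) (hc : Nat.card X = 1024) (hs : 𝐂(X) ≤ X) :
    ∃ n ∈ 𝐍(S.V), cj n X = S.A := by
  have hM := hX.trans S.cent_t
  refine S.mm.cls32 hM h2 hc hs (card_le32 (fun g hg => ?_) (S.mm.mu_sq hM h2))
  obtain ⟨x, hx, rfl⟩ := (mem_pmap_of_le hM).1 hg
  exact S.mm.mu_D2 (hM hx) (hX hx)

theorem not_pure {X : Subgroup G} (hX : X ≤ 𝐍(S.V)) (h2 : ∀ x ∈ X, x * x = 1) (hc : Nat.card X = 1024) (hs : 𝐂(X) ≤ X)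
    (hz : ∀ x ∈ X, ¬ IsConj S.t x) : False := by
  obtain ⟨g, hg, g1, gf⟩ := S.mm.exists_2A hX h2 hc hs
  have l24 := S.mm.mu_le24 hX h2
  have sq := S.mm.mu_sq hX h2
  obtain ⟨k, hk, e⟩ := conj_ta1 (l24 hg) (sq g hg) g1 gf
  have c1 := card_lt128 (X := cj k (pmap S.μ X)) (cj_le_of_le l24 hk) (sq_cj' sq k) (e ▸ mem_cj'.2 ⟨g, hg, rfl⟩)
  obtain ⟨k, hk, e⟩ := class_2A (l24 hg) (orderOf_eq_prime (by rw [pow_two, sq g hg]) g1) gf
  have kM := S.mm.k_mem hk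
  have c2 := S.pure8 (cj_le_of_le hX kM) (sq_cj' h2 _) (fun x hx => by
    obtain ⟨y, hy, rfl⟩ := mem_cj'.1 hx
    rw [isConj_conj_iff]; exact hz y hy) (by rw [pmap_cj _ kM, S.mm.mu_k hk, ← e]; exact mem_cj'.2 ⟨g, hg, rfl⟩)
  rw [← cj_eq_of_mem_normalizer kM, ← cj_inf, card_cj] at c2
  have c := S.mm.card_eq hX
  rw [card_cj] at c1
  nlinarith

theorem exists_cj_HM {X : Subgroup G} (hX : X ≤ 𝐂[S.z]) (hp : PiGrp {2} X) : ∃ g ∈ 𝐂[S.z], cj g X ≤ 𝐂[S.z] ⊓ 𝐍(S.V) := by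
  obtain ⟨P, hP⟩ := exists_sylowIn 2 (𝐂[S.z] ⊓ 𝐍(S.V))
  obtain ⟨g, hg, e⟩ := (hP.of_not_dvd_relIndex inf_le_left (by norm_num)
    (by rw [relIndex_HM S.jh S.card_HM]; norm_num)).exists_cj_le hp hX
  exact ⟨g, hg, e.trans hP.le⟩

theorem cls_all {X : Subgroup G} (h2 : ∀ x ∈ X, x * x = 1) (hc : Nat.card X = 1024) (hs : 𝐂(X) ≤ X) :
    ∃ g, cj g X = S.A := by
  have key : ∀ a ∈ X, ∀ b g, g * b * g⁻¹ = a → cj g⁻¹ X ≤ 𝐂[b] := fun a ha b g e => by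
    rw [cj_le_iff, inv_inv, cj_centralizer_singleton, e]
    exact fun x hx => mem_cent1_iff.2 (comm_of_sq h2 hx ha)
  by_cases H : ∃ a ∈ X, IsConj S.t a
  · obtain ⟨a, ha, e⟩ := H
    obtain ⟨g, e⟩ := isConj_iff.1 e
    obtain ⟨n, -, e⟩ := S.cls_t (key a ha _ g e) (sq_cj' h2 _) (by rwa [card_cj]) (self_cj hs _)
    exact ⟨_, by rw [← e, cj_mul]⟩
  push Not at H
  obtain ⟨a, ha, a1⟩ := exists_ne_one_mem' (one_lt_card_iff_ne_bot'.1 (show 1 < Nat.card X by omega))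
  obtain ⟨g, e⟩ := isConj_iff.1 ((S.two' (orderOf_eq_prime (by rw [pow_two, h2 a ha]) a1)).resolve_right (H a ha))
  obtain ⟨k, -, e⟩ := S.exists_cj_HM (key a ha _ g e)
    ((piGrp_singleton_iff (by norm_num)).2 (IsPGroup.of_card (n := 10) (by rwa [card_cj])))
  rw [cj_cj] at e
  exact (S.not_pure (e.trans inf_le_right) (sq_cj' h2 _) (by rwa [card_cj]) (self_cj hs _) fun x hx => by
    obtain ⟨y, hy, rfl⟩ := mem_cj'.1 hx
    rw [isConj_conj_iff]; exact H y hy).elim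

theorem not_le_M : ¬ 𝐍(S.A) ≤ 𝐍(S.V) := fun H => by
  have ha : S.e (0x88, nth TA 1) ∈ S.A := (S.mm.el_memA (by decide +kernel) (TA_24 (by norm_num))).2 (by decide +kernel)
  have hV : S.e (0x88, nth TA 1) ∉ S.V := fun a => ta_ne (a := 1) (by norm_num) (by norm_num)
    ((S.mm.vk_mem_V (S.mm.v_mem (m := 0x88) (by decide +kernel)) (ta_24 (a := 1) (by norm_num))).1 a)
  obtain ⟨g, e⟩ := isConj_iff.1 ((S.two' (orderOf_eq_prime (by rw [pow_two, S.mm.A_sq ha])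
    fun e => hV (by rw [e]; exact one_mem _))).resolve_left (by
      rw [S.zTA (by decide +kernel) (by norm_num) (by norm_num) (by decide +kernel)]; decide +kernel))
  obtain ⟨n, hn, e1⟩ := S.cls_t (X := cj g⁻¹ S.A) (by
    rw [cj_le_iff, inv_inv, cj_centralizer_singleton, e]
    exact fun x hx => mem_cent1_iff.2 (comm_of_sq (fun _ => S.mm.A_sq) hx ha)) (sq_cj' (fun _ => S.mm.A_sq) _)
    (by rw [card_cj, S.mm.card_A]) (self_cj S.cent_A _)
  rw [cj_cj, ← mem_normalizer_iff_cj] at e1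
  have : g ∈ 𝐍(S.V) := by simpa using mul_mem (inv_mem (H e1)) hn
  exact hV (e ▸ S.mm.conj_mem_V this (S.mm.v_mem DD_ev))

theorem exists_rhoA : ∃ ρ : ↥𝐍(S.A) →* L5, (∀ n : ↥𝐍(S.A), ActsW S.w n (ρ n)) ∧ pker ρ = S.A ∧ ρ.range = ⊤ := by
  obtain ⟨ρ, h1, h2⟩ := S.mm.wedge.exists_rho S.dec_norm
  have k : pker ρ = S.A := by
    ext x
    rw [mem_pker]
    refine ⟨fun ⟨a, b⟩ => S.cent_A ((h2 ⟨x, a⟩).1 (by rwa [pel_of_mem _ a] at b)), fun a => ⟨le_normalizer a, ?_⟩⟩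
    rw [pel_of_mem _ (le_normalizer a), h2]; exact S.mm.wedge.le_cent a
  refine ⟨ρ, h1, k, ?_⟩
  have c1 := card_pmap_of_inj (f := ρ) S.mm.B_le (by rw [k, inf_comm, S.mm.B_inf])
  rw [S.mm.card_B] at c1
  have c2 := card_mul_relIndex (pmap_le_range ρ (cj (S.v 3) (pmap S.κ KO)))
  have c3 := card_mul_index ρ.range
  have c4 : 1 < (pmap ρ (cj (S.v 3) (pmap S.κ KO))).relIndex ρ.range := one_lt_relIndex fun H => S.not_le_M (by
    rw [← pmap_dom, pmap_le_pmap_iff le_rfl S.mm.B_le, k] at H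
    exact H.trans (sup_le S.mm.A_le_M S.mm.B_le_M))
  rw [← c2, c1, card_L5] at c3
  have c5 : (pmap ρ (cj (S.v 3) (pmap S.κ KO))).relIndex ρ.range * ρ.range.index = 31 := by nlinarith
  rw [← index_eq_one]
  rcases (Nat.dvd_prime (by norm_num : Nat.Prime 31)).1 (Dvd.intro_left _ c5) with e | e
  · exact e
  · rw [e] at c5; omega

theorem card_NA : Nat.card ↥𝐍(S.A) = 10239344640 := by
  obtain ⟨ρ, -, k, r⟩ := S.exists_rhoA
  rw [← card_pmap_mul ρ le_rfl, pmap_dom, r, k, inf_eq_left.2 le_normalizer, S.mm.card_A, card_top, card_L5]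

theorem actsA1 : ∀ n ∈ 𝐍(S.A), ∃ g, ActsW S.w n g := fun n hn => by
  obtain ⟨ρ, h, -⟩ := S.exists_rhoA
  exact ⟨_, h ⟨n, hn⟩⟩

theorem actsA2 : ∀ g, ∃ n ∈ 𝐍(S.A), ActsW S.w n g := fun g => by
  obtain ⟨ρ, h, -, r⟩ := S.exists_rhoA
  obtain ⟨n, rfl⟩ : g ∈ ρ.range := r ▸ mem_top g
  exact ⟨n, n.2, h n⟩

theorem exists_compl : ∃ K ≤ 𝐍(S.A), K ⊓ S.A = ⊥ ∧ K ⊔ S.A = 𝐍(S.A) ∧ Nonempty (K ≃* L5) := by
  have hY : cj (S.v 3) (pmap S.κ KO) ⊔ S.A ≤ 𝐍(S.A) := sup_le S.mm.B_le le_normalizer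
  have c := card_mul_relIndex hY
  rw [card_sup_of_disjoint (Or.inr S.mm.B_le) S.mm.B_inf, S.mm.card_B, S.mm.card_A, S.card_NA] at c
  obtain ⟨K, h1, h2, h3⟩ := gaschutz S.mm.wedge.isMulCommutative le_sup_right hY le_rfl
    (by rw [S.mm.card_A, Nat.eq_of_mul_eq_mul_left (show 0 < 322560 * 1024 by norm_num) (c.trans (show _ = 322560 * 1024 * 31 by norm_num))]; norm_num) le_sup_left S.mm.B_inf rfl
  obtain ⟨ρ, -, k, r⟩ := S.exists_rhoA
  refine ⟨K, h1, h2, h3, ⟨(pmapEquiv (f := ρ) h1 (by rw [k, inf_comm, h2])).trans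
    ((MulEquiv.subgroupCongr ?_).trans topEquiv)⟩⟩
  rw [← pmap_pker_sup ρ h1, k, sup_comm, h3, pmap_dom, r]

theorem cls_elem {X : Subgroup G} (h1 : IsElementaryAbelian 2 X) (hc : Nat.card X = 2 ^ 10) (hs : 𝐂(X) = X) :
    ∃ g, X = cj g S.A := by
  obtain ⟨g, e⟩ := S.cls_all (fun x hx => by rw [← pow_two, h1.2 x hx]) hc hs.le
  exact ⟨g⁻¹, cj_eq_iff.1 e⟩

theorem res5570 (S : St G) : (∃ A : Subgroup G, IsElementaryAbelian 2 A ∧ Nat.card ↥A = 2 ^ 10 ∧ 𝐂(A) = A) ∧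
    (∀ A A' : Subgroup G, IsElementaryAbelian 2 A → Nat.card ↥A = 2 ^ 10 → 𝐂(A) = A → IsElementaryAbelian 2 A' →
      Nat.card ↥A' = 2 ^ 10 → 𝐂(A') = A' → ∃ g : G, A' = A.map (MulAut.conj g).toMonoidHom) ∧
    ∀ A : Subgroup G, IsElementaryAbelian 2 A → Nat.card ↥A = 2 ^ 10 → 𝐂(A) = A →
      (∃ B : Subgroup G, B ≤ 𝐍(A) ∧ B ⊓ A = ⊥ ∧ B ⊔ A = 𝐍(A) ∧
        Nonempty (↥B ≃* Matrix.SpecialLinearGroup (Fin 5) (ZMod 2))) ∧
      ∀ W : Subgroup G, W ≤ A → 𝐍(A) ≤ 𝐍(W) → W = ⊥ ∨ W = A := by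
  refine ⟨⟨S.A, S.mm.wedge.elem, S.mm.wedge.card, le_antisymm S.cent_A S.mm.wedge.le_cent⟩,
    fun A A' a1 a2 a3 b1 b2 b3 => ?_, fun A a1 a2 a3 => ?_⟩
  · obtain ⟨g, rfl⟩ := S.cls_elem a1 a2 a3
    obtain ⟨k, rfl⟩ := S.cls_elem b1 b2 b3
    exact ⟨k * g⁻¹, show _ = cj _ _ by rw [cj_cj]; simp⟩
  · obtain ⟨g, rfl⟩ := S.cls_elem a1 a2 a3
    obtain ⟨K, h1, h2, h3, ⟨e⟩⟩ := S.exists_compl
    refine ⟨⟨cj g K, by rw [← cj_normalizer]; exact cj_mono _ h1, by rw [← cj_inf, h2, cj_bot],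
      by rw [← cj_sup, h3, cj_normalizer], ⟨(cjEquiv g K).symm.trans e⟩⟩, fun W hW hN => ?_⟩
    rcases S.mm.wedge.irred S.actsA1 S.actsA2 (W := cj g⁻¹ W) (le_cj_iff.1 hW) (by
      rw [← cj_normalizer, ← cj_le_iff, cj_normalizer]; exact hN) with e | e
    · exact Or.inl (by simpa using cj_eq_iff.1 e)
    · exact Or.inr (by simpa using cj_eq_iff.1 e)

theorem ncard_orbit_cj (g a : G) (N : Subgroup G) :
    {v | ∃ n ∈ cj g N, n * (g * a * g⁻¹) * n⁻¹ = v}.ncard = {v | ∃ n ∈ N, n * a * n⁻¹ = v}.ncard := by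
  rw [← Set.ncard_image_of_injective {v | ∃ n ∈ N, n * a * n⁻¹ = v} (MulAut.conj g).injective]
  congr 1; ext v
  constructor
  · rintro ⟨n, hn, rfl⟩
    obtain ⟨m, hm, rfl⟩ := mem_cj'.1 hn
    exact ⟨_, ⟨m, hm, rfl⟩, by simp [mul_assoc]⟩
  · rintro ⟨_, ⟨m, hm, rfl⟩, rfl⟩
    exact ⟨_, mem_cj'.2 ⟨m, hm, rfl⟩, by simp [mul_assoc]⟩

theorem res5571 (S : St G) (A : Subgroup G) (a1 : IsElementaryAbelian 2 A) (a2 : Nat.card ↥A = 2 ^ 10) (a3 : 𝐂(A) = A) :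
    ∃ a b : G, a ∈ A ∧ b ∈ A ∧ Set.ncard {v : G | ∃ n ∈ 𝐍(A), n * a * n⁻¹ = v} = 155 ∧
      Set.ncard {v : G | ∃ n ∈ 𝐍(A), n * b * n⁻¹ = v} = 868 := by
  obtain ⟨g, rfl⟩ := S.cls_elem a1 a2 a3
  obtain ⟨a, b, ha, hb, h1, h2⟩ := S.mm.wedge.exists_orbits S.actsA1 S.actsA2
  exact ⟨_, _, mem_cj'.2 ⟨a, ha, rfl⟩, mem_cj'.2 ⟨b, hb, rfl⟩, by rw [← cj_normalizer, ncard_orbit_cj, h1],
    by rw [← cj_normalizer, ncard_orbit_cj, h2]⟩

end St

end CA.J4
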