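import Cfsg.Agent.Lib.J4.Ifc2
import Cfsg.Agent.Lib.J4.Rk1
import Cfsg.Agent.Lib.J4.Ten3
import Cfsg.Agent.Lib.J4.Seven

/-!
The large primes `23, 29, 31, 37, 43` in a group of type `J4`.
-/

set_option autoImplicit false
set_option linter.unusedSectionVars false
set_option linter.unusedVariables false

namespace CA.J4
open Cfsg CA.Gol CA.Ex2 CA.XS Subgroup

/-- the divisors of `23 * 29 * 31 * 37 * 43` -/
def bigD : List ℕ := [1, 23].flatMap fun a => [1, 29].flatMap fun b => [1, 31].flatMap fun c =>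
  [1, 37].flatMap fun d => [1, 43].map fun e => a * (b * (c * (d * e)))

theorem mem_bigD {n : ℕ} (h : n ∣ 23 * (29 * (31 * (37 * 43)))) : n ∈ bigD := by
  obtain ⟨a, n, ha, h1, rfl⟩ := Nat.dvd_mul.1 h
  obtain ⟨b, n, hb, h2, rfl⟩ := Nat.dvd_mul.1 h1
  obtain ⟨c, n, hc, h3, rfl⟩ := Nat.dvd_mul.1 h2
  obtain ⟨d, e, hd, he, rfl⟩ := Nat.dvd_mul.1 h3
  simp only [bigD, List.mem_flatMap, List.mem_map, List.mem_cons, List.not_mem_nil, or_false]
  exact ⟨a, (Nat.dvd_prime (by norm_num)).1 ha, b, (Nat.dvd_prime (by norm_num)).1 hb,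
    c, (Nat.dvd_prime (by norm_num)).1 hc, d, (Nat.dvd_prime (by norm_num)).1 hd,
    e, (Nat.dvd_prime (by norm_num)).1 he, rfl⟩

/-- the pairs `(|C(u)|, |N(u) : C(u)|)` allowed by Sylow's theorem -/
def bigO (q : ℕ) : List (ℕ × ℕ) := bigD.flatMap fun n => ((List.range q).filter fun k =>
  n % q == 0 && (q - 1) % k == 0 && 86775571046077562880 / (n * k) % q == 1).map fun k => (n, k)

theorem big_spec : ∀ q ∈ [23, 29, 31, 37, 43], q.Prime ∧ q ∣ 86775571046077562880 ∧ ¬ q * q ∣ 86775571046077562880 := by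
  simp only [List.mem_cons, List.not_mem_nil, or_false]
  rintro _ (rfl | rfl | rfl | rfl | rfl) <;> norm_num

variable {G : Type*} [Group G] [Finite G]

namespace St
variable (S : St G) (h5 : S.C5) (h11 : S.C11)

theorem sq_big (S : St G) {q : ℕ} (hq : q ∈ [23, 29, 31, 37, 43]) {X : Subgroup G} : ¬ q * q ∣ Nat.card X := fun h => by
  have := h.trans (card_subgroup_dvd_card X)
  rw [S.card_G] at this
  exact (big_spec q hq).2.2 this

include h5 h11

theorem cent_big {q : ℕ} (hq : q ∈ [23, 29, 31, 37, 43]) {u : G} (ho : orderOf u = q) : Nat.card 𝐂[u] ∈ bigD := by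
  have key : ∀ r : ℕ, r.Prime → ∀ L : List ℕ, (∀ x : G, orderOf x = r → Nat.card 𝐂[x] ∈ L) →
      (∀ n ∈ L, ∀ q ∈ [23, 29, 31, 37, 43], ¬ q ∣ n) → (Nat.card 𝐂[u]).Coprime r := fun r hr L h1 h2 => by
    refine ((Nat.Prime.coprime_iff_not_dvd hr).2 fun hd => ?_).symm
    obtain ⟨x, hx, ox⟩ := exists_orderOf_eq_prime hr hd
    exact h2 _ (h1 x ox) q hq (ho ▸ orderOf_dvd_card_of_mem (mem_cent1_comm.1 hx))
  have c2 := key 2 (by norm_num) [21799895040, 1816657920] (fun x ox => by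
    rcases S.two' ox with h | h
    · simp [S.card_cent_z h]
    · simp [S.card_cent_t h]) (by decide +kernel)
  have c3 := key 3 (by norm_num) [2661120] (fun x ox => by simp [S.card_cent3 ox]) (by decide +kernel)
  have c5 := key 5 (by norm_num) [6720] (fun x ox => by simp [h5 x ox]) (by decide +kernel)
  have c7 := key 7 (by norm_num) [840] (fun x ox => by simp [S.card_cent7 ox]) (by decide +kernel)
  have c11 := key 11 (by norm_num) [31944, 242] (fun x ox => by simpa using h11 x ox) (by decide +kernel)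
  have := card_subgroup_dvd_card 𝐂[u]
  rw [S.card_G, show 86775571046077562880 = 2 ^ 21 * (3 ^ 3 * (5 * (7 * (11 ^ 3 * (23 * (29 * (31 * (37 * 43))))))))
    by norm_num] at this
  exact mem_bigD ((c11.pow_right 3).dvd_of_dvd_mul_left (c7.dvd_of_dvd_mul_left (c5.dvd_of_dvd_mul_left
    ((c3.pow_right 3).dvd_of_dvd_mul_left ((c2.pow_right 21).dvd_of_dvd_mul_left this)))))

theorem opt_big {q : ℕ} (hq : q ∈ [23, 29, 31, 37, 43]) {u : G} (ho : orderOf u = q) :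
    ∃ k, (Nat.card 𝐂[u], k) ∈ bigO q ∧ Nat.card 𝐍(zpowers u) = Nat.card 𝐂[u] * k := by
  have hp : q.Prime := (big_spec q hq).1
  have h1 := card_quo_cent_dvd_card_aut (K := zpowers u) le_rfl
  rw [IsCyclic.card_mulAut, Nat.card_zpowers, ho, Nat.totient_prime hp, cent_zpowers] at h1
  have h2 := card_mul_relIndex (cent1_le_norm u)
  have h3 := relIndex_norm_mod hp (sylow_zpowers hp (mem_top u) ho (S.sq_big hq))
  have h4 := card_mul_relIndex (le_top (a := 𝐍(zpowers u)))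
  rw [card_top, S.card_G, ← h2] at h4
  refine ⟨_, ?_, h2.symm⟩
  simp only [bigO, List.mem_flatMap, List.mem_map, List.mem_filter, List.mem_range, Bool.and_eq_true, beq_iff_eq]
  refine ⟨_, S.cent_big h5 h11 hq ho, _, ⟨?_, ⟨?_, Nat.mod_eq_zero_of_dvd h1⟩, ?_⟩, rfl⟩
  · have := Nat.le_of_dvd (by have := hp.one_lt; omega) h1
    have := hp.one_lt; omega
  · exact Nat.mod_eq_zero_of_dvd (ho ▸ orderOf_dvd_card_of_mem (mem_cent1_iff.2 rfl))
  · rw [← h4, Nat.mul_div_cancel_left _ (Nat.pos_of_ne_zero fun e => by rw [e] at h4; omega), h3]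

omit h5 h11 in
theorem big_nb {q r : ℕ} (hr : r.Prime) {u : G} (ho : orderOf u = q) (h : r ∣ Nat.card 𝐂[u]) :
    ∃ v ∈ 𝐂[u], orderOf v = r ∧ q ∣ Nat.card 𝐂[v] := by
  obtain ⟨x, hx, ox⟩ := exists_orderOf_eq_prime hr h
  exact ⟨x, hx, ox, ho ▸ orderOf_dvd_card_of_mem (mem_cent1_comm.1 hx)⟩

theorem opt29 {u : G} (ho : orderOf u = 29) : (Nat.card 𝐂[u], Nat.card 𝐍(zpowers u)) ∈
    [(29, 29 * 28), (29 * 31, 29 * 31 * 14), (29 * 43, 29 * 43 * 2), (29 * 31 * 43, 29 * 31 * 43)] := by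
  obtain ⟨k, h1, h2⟩ := S.opt_big h5 h11 (by simp) ho
  rw [h2]
  exact (show ∀ a ∈ bigO 29, (a.1, a.1 * a.2) ∈ [(29, 29 * 28), (29 * 31, 29 * 31 * 14), (29 * 43, 29 * 43 * 2),
    (29 * 31 * 43, 29 * 31 * 43)] by decide +kernel) _ h1

theorem opt43 {u : G} (ho : orderOf u = 43) : (Nat.card 𝐂[u], Nat.card 𝐍(zpowers u)) ∈
    [(43, 43 * 14), (29 * 43, 29 * 43 * 42), (31 * 43, 31 * 43 * 6), (31 * 37 * 43, 31 * 37 * 43 * 42)] := by
  obtain ⟨k, h1, h2⟩ := S.opt_big h5 h11 (by simp) ho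
  rw [h2]
  exact (show ∀ a ∈ bigO 43, (a.1, a.1 * a.2) ∈ [(43, 43 * 14), (29 * 43, 29 * 43 * 42), (31 * 43, 31 * 43 * 6),
    (31 * 37 * 43, 31 * 37 * 43 * 42)] by decide +kernel) _ h1

theorem num31 {u : G} (ho : orderOf u = 31) : Nat.card 𝐂[u] = 31 ∧ Nat.card 𝐍(zpowers u) = 31 * 10 := by
  have h5' : 5 ∣ Nat.card 𝐍(zpowers u) := by
    obtain ⟨x, hx, ox⟩ := exists_orderOf_eq_prime (A := 𝐍(S.A)) (p := 31) (by norm_num) (by rw [S.card_NA]; norm_num)
    obtain ⟨g, e⟩ := exists_cj_prime (by norm_num) ox (Q := zpowers u) (by rw [S.card_G]; norm_num)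
      (by rw [Nat.card_zpowers, ho])
    rw [e, ← cj_normalizer, card_cj]
    obtain ⟨e, k, e1, e2, e3⟩ := sylow_split (by norm_num) hx ox (S.sq_big (by simp))
    have h1 := card_dvd_of_le (inf_le_right (a := 𝐍(S.A)) (b := 𝐍(zpowers x)))
    rw [S.card_NA] at e2
    rw [e1] at h1
    obtain ⟨k', h2, h3⟩ := S.opt_big h5 h11 (by simp) ox
    rw [h3] at h1 ⊢
    have h4 : 31 * e ∣ Nat.gcd (Nat.card 𝐂[x] * k') 10239344640 := Nat.dvd_gcd h1 ⟨k, e2⟩
    rcases (show ∀ a ∈ bigO 31, 5 ∣ a.1 * a.2 ∨ Nat.gcd (a.1 * a.2) 10239344640 ∣ 31 * 6 by decide +kernel) _ h2 with h | h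
    · exact h
    · have h6 := Nat.le_of_dvd (by norm_num) (Nat.dvd_of_mul_dvd_mul_left (by norm_num) (h4.trans h))
      have h7 := Nat.dvd_of_mul_dvd_mul_left (by norm_num) (h4.trans h)
      interval_cases e <;> omega
  obtain ⟨k, h1, h2⟩ := S.opt_big h5 h11 (by simp) ho
  rw [h2] at h5' ⊢
  rcases (show ∀ a ∈ bigO 31, 5 ∣ a.1 * a.2 → (a.1 = 31 ∧ a.1 * a.2 = 31 * 10) ∨ a.1 = 29 * (31 * (37 * 43)) by
    decide +kernel) _ h1 h5' with h | h
  · exact h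
  · simp only at h
    obtain ⟨v, hv, ov, -⟩ := big_nb (r := 29) (by norm_num) ho (by rw [h]; norm_num)
    obtain ⟨e, k, e1, e2, e3⟩ := sylow_split (by norm_num) hv ov (S.sq_big (by simp))
    have h3 := card_dvd_of_le (inf_le_right (a := 𝐂[u]) (b := 𝐍(zpowers v)))
    rw [h] at e2
    have h4 : k = 1 := (show ∀ k ∈ bigD, k % 29 = 1 → k = 1 ∨ 23 ∣ k by decide +kernel) k
      (mem_bigD (Dvd.dvd.mul_left ⟨29 * e, by rw [e2]; ring⟩ _)) e3 |>.resolve_right fun a => by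
        have := a.mul_left (29 * e); rw [← e2] at this; norm_num at this
    rw [e1, show 29 * e = 29 * (31 * (37 * 43)) by rw [e2, h4, mul_one]] at h3
    have := S.opt29 h5 h11 ov
    generalize Nat.card 𝐍(zpowers v) = a at *
    generalize Nat.card 𝐂[v] = b at *
    simp only [List.mem_cons, Prod.mk.injEq, List.not_mem_nil, or_false] at this
    omega

theorem not31 {q : ℕ} (hq : ¬ q ∣ 31) {u : G} (ho : orderOf u = q) : ¬ 31 ∣ Nat.card 𝐂[u] := fun h => by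
  obtain ⟨v, hv, ov, h1⟩ := big_nb (by norm_num) ho h
  exact hq ((S.num31 h5 h11 ov).1 ▸ h1)

theorem num43 {u : G} (ho : orderOf u = 43) : Nat.card 𝐂[u] = 43 ∧ Nat.card 𝐍(zpowers u) = 43 * 14 := by
  have h1 := S.opt43 h5 h11 ho
  have h2 := S.not31 h5 h11 (by norm_num) ho
  simp only [List.mem_cons, Prod.mk.injEq, List.not_mem_nil, or_false] at h1
  rcases h1 with h | h | h | h
  · exact h
  · obtain ⟨v, hv, ov, h3⟩ := big_nb (r := 29) (by norm_num) ho (by rw [h.1]; norm_num)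
    obtain ⟨e, k, e1, e2, e3⟩ := sylow_split (by norm_num) (cent1_le_norm u hv) ov (S.sq_big (by simp))
    have h4 := card_dvd_of_le (inf_le_right (a := 𝐍(zpowers u)) (b := 𝐍(zpowers v)))
    have h6 := S.opt29 h5 h11 ov
    have h7 := S.not31 h5 h11 (by norm_num) ov
    have h8 : Nat.card 𝐍(zpowers v) = 29 * (43 * 2) := by
      generalize Nat.card 𝐍(zpowers v) = a at *
      generalize Nat.card 𝐂[v] = b at *
      simp only [List.mem_cons, Prod.mk.injEq, List.not_mem_nil, or_false] at h6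
      omega
    rw [e1, h8] at h4
    rw [h.2] at e2
    have h9 := Nat.dvd_of_mul_dvd_mul_left (by norm_num) h4
    have : e ∈ Nat.divisors (43 * 2) := Nat.mem_divisors.2 ⟨h9, by norm_num⟩
    rw [show Nat.divisors (43 * 2) = {1, 2, 43, 86} by decide +kernel] at this
    simp only [Finset.mem_insert, Finset.mem_singleton] at this
    rcases this with rfl | rfl | rfl | rfl <;> omega
  · exact (h2 (by rw [h.1]; norm_num)).elim
  · exact (h2 (by rw [h.1]; norm_num)).elim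

theorem not43 {q : ℕ} (hq : ¬ q ∣ 43) {u : G} (ho : orderOf u = q) : ¬ 43 ∣ Nat.card 𝐂[u] := fun h => by
  obtain ⟨v, hv, ov, h1⟩ := big_nb (by norm_num) ho h
  exact hq ((S.num43 h5 h11 ov).1 ▸ h1)

theorem num29 {u : G} (ho : orderOf u = 29) : Nat.card 𝐂[u] = 29 ∧ Nat.card 𝐍(zpowers u) = 29 * 28 := by
  have h1 := S.opt29 h5 h11 ho
  have h2 := S.not31 h5 h11 (by norm_num) ho
  have h3 := S.not43 h5 h11 (by norm_num) ho
  generalize Nat.card 𝐍(zpowers u) = a at *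
  generalize Nat.card 𝐂[u] = b at *
  simp only [List.mem_cons, Prod.mk.injEq, List.not_mem_nil, or_false] at h1
  omega

theorem not29 {q : ℕ} (hq : ¬ q ∣ 29) {u : G} (ho : orderOf u = q) : ¬ 29 ∣ Nat.card 𝐂[u] := fun h => by
  obtain ⟨v, hv, ov, h1⟩ := big_nb (by norm_num) ho h
  exact hq ((S.num29 h5 h11 ov).1 ▸ h1)

theorem num_rest {q k : ℕ} (hq : (q, k) ∈ [(23, 22), (37, 12)]) {u : G} (ho : orderOf u = q) :
    Nat.card 𝐂[u] = q ∧ Nat.card 𝐍(zpowers u) = q * k := by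
  obtain ⟨a, b, c, d, e⟩ := (show ∀ x ∈ [(23, 22), (37, 12)], x.1 ∈ [23, 29, 31, 37, 43] ∧ ¬ x.1 ∣ 29 ∧ ¬ x.1 ∣ 31 ∧
    ¬ x.1 ∣ 43 ∧ ∀ a ∈ bigO x.1, ¬ 29 ∣ a.1 → ¬ 31 ∣ a.1 → ¬ 43 ∣ a.1 → a.1 = x.1 ∧ a.1 * a.2 = x.1 * x.2 by
      decide +kernel) _ hq
  obtain ⟨k', h1, h2⟩ := S.opt_big h5 h11 a ho
  rw [h2]
  exact e _ h1 (S.not29 h5 h11 b ho) (S.not31 h5 h11 c ho) (S.not43 h5 h11 d ho)

omit h5 h11 in
theorem big_of {q k : ℕ} (h : ∀ u : G, orderOf u = q → Nat.card 𝐂[u] = q ∧ Nat.card 𝐍(zpowers u) = q * k) : S.Big q k :=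
  fun u ho => ⟨(eq_of_le_of_card_le (zpowers_le.2 (mem_cent1_iff.2 rfl)) (by rw [(h u ho).1, Nat.card_zpowers, ho])).symm,
    (h u ho).2⟩

theorem big23 : S.Big 23 22 := S.big_of fun _ => S.num_rest h5 h11 (by simp)
theorem big29 : S.Big 29 28 := S.big_of fun _ => S.num29 h5 h11
theorem big31 : S.Big 31 10 := S.big_of fun _ => S.num31 h5 h11
theorem big37 : S.Big 37 12 := S.big_of fun _ => S.num_rest h5 h11 (by simp)
theorem big43 : S.Big 43 14 := S.big_of fun _ => S.num43 h5 h11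

omit h5 h11 in
theorem Big.sylow {q k : ℕ} (h : S.Big q k) (hq : q ∈ [23, 29, 31, 37, 43]) (U : Sylow q G) :
    𝐂((U : Subgroup G)) = (U : Subgroup G) ∧ Nat.card 𝐍((U : Subgroup G)) = q * k := by
  have hp : q.Prime := (big_spec q hq).1
  have : Fact q.Prime := ⟨hp⟩
  obtain ⟨x, -, ox⟩ := exists_orderOf_eq_prime (A := (⊤ : Subgroup G)) hp (by
    rw [card_top, S.card_G]; exact (big_spec q hq).2.1)
  obtain ⟨g, -, e⟩ := (sylow_zpowers hp (mem_top x) ox (S.sq_big hq)).exists_cj (sylowIn_top U)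
  rw [e, cj_zpowers, cent_zpowers]
  exact h _ (by rw [CA.orderOf_conj', ox])

/-- statement S5577 -/
theorem res5577 :
    (∀ U : Sylow 23 G, 𝐂((U : Subgroup G)) = (U : Subgroup G) ∧ Nat.card 𝐍((U : Subgroup G)) = 23 * 22) ∧
    (∀ U : Sylow 29 G, 𝐂((U : Subgroup G)) = (U : Subgroup G) ∧ Nat.card 𝐍((U : Subgroup G)) = 29 * 28) ∧
    (∀ U : Sylow 31 G, 𝐂((U : Subgroup G)) = (U : Subgroup G) ∧ Nat.card 𝐍((U : Subgroup G)) = 31 * 10) ∧
    (∀ U : Sylow 37 G, 𝐂((U : Subgroup G)) = (U : Subgroup G) ∧ Nat.card 𝐍((U : Subgroup G)) = 37 * 12) ∧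
    (∀ U : Sylow 43 G, 𝐂((U : Subgroup G)) = (U : Subgroup G) ∧ Nat.card 𝐍((U : Subgroup G)) = 43 * 14) :=
  ⟨(S.big23 h5 h11).sylow S (by simp), (S.big29 h5 h11).sylow S (by simp), (S.big31 h5 h11).sylow S (by simp),
    (S.big37 h5 h11).sylow S (by simp), (S.big43 h5 h11).sylow S (by simp)⟩

end St
end CA.J4
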