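import Cfsg.Agent.Lib.Golay.Misc

/-!
Kernel-computation layer for `F₂`-linear maps on bit vectors of length at most 15:
a matrix is a natural number holding its columns at spacing 16.
-/

set_option autoImplicit false

namespace CA.J4
open CA.Gol

/-- column `j` of a matrix -/
def col (M j : ℕ) : ℕ := Nat.land (Nat.shiftRight M (Nat.mul 16 j)) 65535

/-- block mask of a vector -/
def msk (w : ℕ) : ℕ :=
  Nat.mul (Nat.land (Nat.mul w 0x40008001000200040008001000200040008001000200040008001)
    0x100010001000100010001000100010001000100010001000100010001) 65535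

/-- one folding step -/
def xs (x k : ℕ) : ℕ := Nat.xor x (Nat.shiftRight x k)

/-- xor of the 16 blocks -/
def fold16 (x : ℕ) : ℕ := Nat.land (xs (xs (xs (xs x 128) 64) 32) 16) 65535

/-- matrix times vector -/
def lin (M w : ℕ) : ℕ := fold16 (Nat.land (msk w) M)

/-- the matrix with columns `f 0, ..., f (n-1)` -/
def mk (f : ℕ → ℕ) (n : ℕ) : ℕ := horner 65536 f n 0

theorem msk_check : allLt (fun w => Nat.beq (msk w)
    (horner 65536 (fun j => Bool.rec 0 65535 (tb w j)) 15 0)) 32768 = true := by decide +kernel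

theorem testBit_horner16 {f : ℕ → ℕ} {n k : ℕ} (hf : ∀ j < n, f (k + j) < 65536) {i : ℕ} (hi : i < 16) (j : ℕ) :
    (horner 65536 f n k).testBit (16 * j + i) = (decide (j < n) && (f (k + j)).testBit i) := by
  induction n generalizing k j with
  | zero => simp [horner]
  | succ n ih =>
    have h0 := hf 0 (by omega)
    rw [horner_succ, add_comm, show (65536 : ℕ) = 2 ^ 16 from rfl, Nat.testBit_two_pow_mul_add _ (by simpa using h0)]
    cases j with
    | zero => simp [hi]
    | succ j =>
      rw [if_neg (by omega), show 16 * (j + 1) + i - 16 = 16 * j + i by omega]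
      have := ih (k := k + 1) (fun j hj => by
        have := hf (j + 1) (by omega); rwa [show k + (j + 1) = k + 1 + j by omega] at this) j
      rw [show (65536 : ℕ) = 2 ^ 16 from rfl] at this
      rw [this, show k + 1 + j = k + (j + 1) by omega]
      simp

theorem testBit_msk {w : ℕ} (hw : w < 32768) {i : ℕ} (hi : i < 16) (j : ℕ) :
    (msk w).testBit (16 * j + i) = w.testBit j := by
  rw [beq_iff.1 (allLt_iff.1 msk_check w hw), testBit_horner16 _ hi]
  · simp only [zero_add, tb_eq]
    by_cases hj : j < 15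
    · cases h : w.testBit j
      · simp
      · simp only [hj, decide_true, Bool.true_and]
        show (2 ^ 16 - 1 : ℕ).testBit i = true
        rw [Nat.testBit_two_pow_sub_one]; simp [hi]
    · rw [Nat.testBit_eq_false_of_lt (n := w) (i := j)
        (lt_of_lt_of_le hw (by
          calc 32768 = 2 ^ 15 := rfl
            _ ≤ 2 ^ j := Nat.pow_le_pow_right (by norm_num) (by omega)))]
      simp [hj]
  · intro j _
    cases tb w (0 + j)
    · show (0 : ℕ) < _; norm_num
    · show (65535 : ℕ) < _; norm_num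

theorem xor_lt' {a b n : ℕ} (ha : a < 2 ^ n) (hb : b < 2 ^ n) : a ^^^ b < 2 ^ n := Nat.xor_lt_two_pow ha hb

theorem msk_xor {a b : ℕ} (ha : a < 32768) (hb : b < 32768) : msk (a ^^^ b) = msk a ^^^ msk b := by
  apply Nat.eq_of_testBit_eq
  intro k
  have e : k = 16 * (k / 16) + k % 16 := by omega
  have hk : k % 16 < 16 := Nat.mod_lt _ (by norm_num)
  rw [Nat.testBit_xor, e, testBit_msk ha hk, testBit_msk hb hk, testBit_msk (xor_lt' (n := 15) ha hb) hk,
    Nat.testBit_xor]

theorem fold16_eq (x : ℕ) : fold16 x =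
    ((fun x => x ^^^ (x >>> 16)) ((fun x => x ^^^ (x >>> 32)) ((fun x => x ^^^ (x >>> 64))
      ((fun x => x ^^^ (x >>> 128)) x)))) &&& 65535 := rfl

theorem fold16_xor (a b : ℕ) : fold16 (a ^^^ b) = fold16 a ^^^ fold16 b := by
  have h : ∀ k a b : ℕ, (a ^^^ b) ^^^ ((a ^^^ b) >>> k) = (a ^^^ (a >>> k)) ^^^ (b ^^^ (b >>> k)) := by
    intro k a b
    rw [Nat.shiftRight_xor_distrib]; ac_rfl
  simp only [fold16_eq]
  rw [h 128 a b, h 64, h 32, h 16, Nat.and_xor_distrib_right]

theorem testBit_65535 (i : ℕ) : (65535 : ℕ).testBit i = decide (i < 16) :=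
  Nat.testBit_two_pow_sub_one 16 i

theorem fold16_lt (x : ℕ) : fold16 x < 65536 := by
  rw [fold16_eq]; exact lt_of_le_of_lt Nat.and_le_right (by norm_num)

theorem lin_lt (M w : ℕ) : lin M w < 65536 := fold16_lt _

theorem lin_xor (M : ℕ) {a b : ℕ} (ha : a < 32768) (hb : b < 32768) :
    lin M (a ^^^ b) = lin M a ^^^ lin M b := by
  show fold16 (msk _ &&& M) = fold16 (msk a &&& M) ^^^ fold16 (msk b &&& M)
  rw [msk_xor ha hb, Nat.and_xor_distrib_right, fold16_xor]

theorem xor_lin (M N w : ℕ) : lin (M ^^^ N) w = lin M w ^^^ lin N w := by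
  show fold16 (msk w &&& _) = fold16 (msk w &&& M) ^^^ fold16 (msk w &&& N)
  rw [Nat.and_xor_distrib_left, fold16_xor]

theorem lin_zero (M : ℕ) : lin M 0 = 0 := by
  have := lin_xor M (a := 0) (b := 0) (by norm_num) (by norm_num)
  rwa [Nat.xor_self, Nat.xor_self] at this

theorem testBit_col (M j i : ℕ) : (col M j).testBit i = (M.testBit (16 * j + i) && decide (i < 16)) := by
  show ((M >>> (16 * j)) &&& 65535).testBit i = _
  rw [Nat.testBit_and, Nat.testBit_shiftRight, testBit_65535]

theorem col_lt (M j : ℕ) : col M j < 65536 := lt_of_le_of_lt Nat.and_le_right (by norm_num)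

theorem lin_pow (M : ℕ) {j : ℕ} (hj : j < 15) : lin M (2 ^ j) = col M j := by
  apply Nat.eq_of_testBit_eq
  intro i
  rw [testBit_col]
  show (fold16 (msk _ &&& M)).testBit i = _
  rw [fold16_eq, Nat.testBit_and, testBit_65535]
  by_cases hi : i < 16
  · have hw : 2 ^ j < 32768 := by
      calc 2 ^ j < 2 ^ 15 := Nat.pow_lt_pow_right (by norm_num) hj
        _ = 32768 := rfl
    have key : ∀ k, (msk (2 ^ j)).testBit (16 * k + i) = decide (j = k) := fun k => by
      rw [testBit_msk hw hi, Nat.testBit_two_pow]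
    have k0 := key 0; have k1 := key 1; have k2 := key 2; have k3 := key 3
    have k4 := key 4; have k5 := key 5; have k6 := key 6; have k7 := key 7
    have k8 := key 8; have k9 := key 9; have k10 := key 10; have k11 := key 11
    have k12 := key 12; have k13 := key 13; have k14 := key 14; have k15 := key 15
    simp only [Nat.reduceMul, zero_add] at k0 k1 k2 k3 k4 k5 k6 k7 k8 k9 k10 k11 k12 k13 k14 k15
    simp only [Nat.testBit_xor, Nat.testBit_shiftRight, Nat.testBit_and, ← add_assoc, Nat.reduceAdd,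
      k0, k1, k2, k3, k4, k5, k6, k7, k8, k9, k10, k11, k12, k13, k14, k15]
    interval_cases j <;> simp
  · simp [hi]

theorem col_mk {f : ℕ → ℕ} {n : ℕ} (hf : ∀ j < n, f j < 65536) {j : ℕ} (hj : j < n) : col (mk f n) j = f j := by
  apply Nat.eq_of_testBit_eq
  intro i
  rw [testBit_col]
  by_cases hi : i < 16
  · rw [mk, testBit_horner16 (by simpa using hf) hi]; simp [hi, hj]
  · rw [Nat.testBit_eq_false_of_lt (n := f j) (i := i) (lt_of_lt_of_le (hf j hj) (by
      calc 65536 = 2 ^ 16 := rfl
        _ ≤ 2 ^ i := Nat.pow_le_pow_right (by norm_num) (by omega)))]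
    simp [hi]

/-- induction over bit vectors of length `n` -/
theorem xor_induction {n : ℕ} {P : ℕ → Prop} (h0 : P 0) (h1 : ∀ j < n, P (2 ^ j))
    (h2 : ∀ a < 2 ^ n, ∀ b < 2 ^ n, P a → P b → P (a ^^^ b)) : ∀ w < 2 ^ n, P w := by
  have : ∀ k ≤ n, ∀ w < 2 ^ k, P w := by
    intro k
    induction k with
    | zero => intro _ w hw; rw [show w = 0 by simpa using hw]; exact h0
    | succ k ih =>
      intro hk w hw
      by_cases h : w < 2 ^ k
      · exact ih (by omega) w h
      · have hle : 2 ^ (k + 1) ≤ 2 ^ n := Nat.pow_le_pow_right (by norm_num) hk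
        have hlt : w - 2 ^ k < 2 ^ k := by rw [pow_succ] at hw; omega
        have e : w = (w - 2 ^ k) ^^^ 2 ^ k := by
          apply Nat.eq_of_testBit_eq
          intro i
          conv_lhs => rw [show w = 2 ^ k * 1 + (w - 2 ^ k) by omega]
          rw [Nat.testBit_two_pow_mul_add _ hlt, Nat.testBit_xor, Nat.testBit_two_pow]
          split_ifs with hi
          · simp [show k ≠ i by omega]
          · rw [Nat.testBit_eq_false_of_lt (n := w - 2 ^ k) (i := i)
              (lt_of_lt_of_le hlt (Nat.pow_le_pow_right (by norm_num) (by omega)))]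
            by_cases hk : k = i
            · subst hk; simp
            · have : (1 : ℕ).testBit (i - k) = false :=
                Nat.testBit_eq_false_of_lt (Nat.one_lt_two_pow (by omega))
              simp [hk, this]
        rw [e]
        have hp := Nat.two_pow_pos k
        exact h2 _ (by rw [pow_succ] at hle; omega) _ (by rw [pow_succ] at hle; omega)
          (ih (by omega) _ hlt) (h1 k (by omega))
  exact this n le_rfl

theorem two_pow_le {n : ℕ} (hn : n ≤ 15) : 2 ^ n ≤ 32768 := Nat.pow_le_pow_right (by norm_num) hn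

/-- all of the first `n` columns are below `B` -/
def colsLt (M n B : ℕ) : Bool := allLt (fun j => Nat.blt (col M j) B) n

theorem lin_lt_of {M n m : ℕ} (hn : n ≤ 15) (h : ∀ j < n, col M j < 2 ^ m) {w : ℕ} (hw : w < 2 ^ n) :
    lin M w < 2 ^ m := by
  have hle := two_pow_le hn
  refine xor_induction (P := fun w => lin M w < 2 ^ m) ?_ ?_ ?_ w hw
  · rw [lin_zero]; exact Nat.two_pow_pos m
  · intro j hj; rw [lin_pow M (by omega)]; exact h j hj
  · intro a ha b hb h1 h2; rw [lin_xor M (by omega) (by omega)]; exact xor_lt' h1 h2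

theorem lin_lt_of_cols {M n m : ℕ} (hn : n ≤ 15) (h : colsLt M n (2 ^ m) = true) {w : ℕ} (hw : w < 2 ^ n) :
    lin M w < 2 ^ m := lin_lt_of hn (fun j hj => blt_iff.1 (allLt_iff.1 h j hj)) hw

/-- two additive maps that agree on the basis agree -/
theorem ext_xor {n : ℕ} {f g : ℕ → ℕ} (hf : ∀ a < 2 ^ n, ∀ b < 2 ^ n, f (a ^^^ b) = f a ^^^ f b)
    (hg : ∀ a < 2 ^ n, ∀ b < 2 ^ n, g (a ^^^ b) = g a ^^^ g b) (h : ∀ j < n, f (2 ^ j) = g (2 ^ j)) :
    ∀ w < 2 ^ n, f w = g w := by
  have hp := Nat.two_pow_pos n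
  refine xor_induction ?_ h ?_
  · have e1 := hf 0 hp 0 hp
    have e2 := hg 0 hp 0 hp
    rw [Nat.xor_self, Nat.xor_self] at e1 e2
    rw [e1, e2]
  · intro a ha b hb h1 h2; rw [hf a ha b hb, hg a ha b hb, h1, h2]

theorem lin_congr {M N n : ℕ} (hn : n ≤ 15) (h : ∀ j < n, col M j = col N j) {w : ℕ} (hw : w < 2 ^ n) :
    lin M w = lin N w := by
  have hle := two_pow_le hn
  refine ext_xor (fun a ha b hb => lin_xor M (by omega) (by omega))
    (fun a ha b hb => lin_xor N (by omega) (by omega)) (fun j hj => ?_) w hw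
  rw [lin_pow M (by omega), lin_pow N (by omega), h j hj]

/-- prepend a column -/
def cons (x y : ℕ) : ℕ := Nat.add x (Nat.mul 65536 y)

theorem col_cons_zero {x : ℕ} (hx : x < 65536) (y : ℕ) : col (cons x y) 0 = x := by
  show ((x + 65536 * y) >>> (16 * 0)) &&& (2 ^ 16 - 1) = x
  rw [Nat.and_two_pow_sub_one_eq_mod, Nat.shiftRight_eq_div_pow]; omega

theorem col_cons_succ {x : ℕ} (hx : x < 65536) (y j : ℕ) : col (cons x y) (j + 1) = col y j := by
  show ((x + 65536 * y) >>> (16 * (j + 1))) &&& 65535 = (y >>> (16 * j)) &&& 65535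
  rw [Nat.shiftRight_eq_div_pow, Nat.shiftRight_eq_div_pow, show 16 * (j + 1) = 16 + 16 * j by ring, pow_add,
    ← Nat.div_div_eq_div_mul, show (x + 65536 * y) / 2 ^ 16 = y by omega]

/-- product of matrices with 13 columns -/
def mm (A B : ℕ) : ℕ :=
  cons (lin A (col B 0))
  (cons (lin A (col B 1))
  (cons (lin A (col B 2))
  (cons (lin A (col B 3))
  (cons (lin A (col B 4))
  (cons (lin A (col B 5))
  (cons (lin A (col B 6))
  (cons (lin A (col B 7))
  (cons (lin A (col B 8))
  (cons (lin A (col B 9))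
  (cons (lin A (col B 10))
  (cons (lin A (col B 11))
  (cons (lin A (col B 12)) 0))))))))))))

theorem col_mm (A B : ℕ) {j : ℕ} (hj : j < 13) : col (mm A B) j = lin A (col B j) := by
  interval_cases j <;> simp only [mm, col_cons_succ (lin_lt _ _), col_cons_zero (lin_lt _ _)]

theorem lin_mm (A : ℕ) {B : ℕ} (hB : ∀ j < 13, col B j < 2 ^ 15) {w : ℕ} (hw : w < 8192) :
    lin (mm A B) w = lin A (lin B w) := by
  have hl : ∀ a < 2 ^ 13, lin B a < 2 ^ 15 := fun a ha => lin_lt_of (by norm_num) hB ha
  refine ext_xor (n := 13) (f := lin (mm A B)) (g := fun w => lin A (lin B w))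
    (fun a ha b hb => lin_xor _ (by omega) (by omega)) (fun a ha b hb => ?_) (fun j hj => ?_) w hw
  · rw [lin_xor B (by omega) (by omega), lin_xor A (hl a ha) (hl b hb)]
  · rw [lin_pow _ (by omega), lin_pow _ (by omega), col_mm _ _ hj]

/-- parity of a 12-bit vector -/
def par (x : ℕ) : ℕ := Nat.land (pop12 x) 1

theorem par_check : allLt (fun x => Nat.beq (par x) (lin 0x100010001000100010001000100010001000100010001 x)) 4096
    = true := by decide +kernel

theorem par_xor {a b : ℕ} (ha : a < 4096) (hb : b < 4096) : par (a ^^^ b) = par a ^^^ par b := by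
  rw [beq_iff.1 (allLt_iff.1 par_check _ ha), beq_iff.1 (allLt_iff.1 par_check _ hb),
    beq_iff.1 (allLt_iff.1 par_check _ (xor_lt' (n := 12) ha hb)), lin_xor _ (by omega) (by omega)]

theorem par_lt (x : ℕ) : par x < 2 := lt_of_le_of_lt Nat.and_le_right (by norm_num)

theorem par_zero : par 0 = 0 := by decide +kernel

/-- the bilinear form with matrix `B` -/
def bil (B x y : ℕ) : ℕ := par (Nat.land x (lin B y))

theorem bil_lt (B x y : ℕ) : bil B x y < 2 := par_lt _

theorem bil_xor_left {B y : ℕ} (h : lin B y < 4096) (a b : ℕ) : bil B (a ^^^ b) y = bil B a y ^^^ bil B b y := by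
  show par ((a ^^^ b) &&& _) = par (a &&& _) ^^^ par (b &&& _)
  rw [Nat.and_xor_distrib_right,
    par_xor (lt_of_le_of_lt Nat.and_le_right h) (lt_of_le_of_lt Nat.and_le_right h)]

theorem bil_xor_right {B a b : ℕ} (ha : a < 32768) (hb : b < 32768) (h1 : lin B a < 4096) (h2 : lin B b < 4096)
    (x : ℕ) : bil B x (a ^^^ b) = bil B x a ^^^ bil B x b := by
  show par (x &&& _) = par (x &&& _) ^^^ par (x &&& _)
  rw [lin_xor B ha hb, Nat.and_xor_distrib_left,
    par_xor (lt_of_le_of_lt Nat.and_le_right h1) (lt_of_le_of_lt Nat.and_le_right h2)]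

theorem bil_zero_left (B y : ℕ) : bil B 0 y = 0 := by
  show par (0 &&& _) = 0
  rw [Nat.zero_and, par_zero]

theorem bil_zero_right (B x : ℕ) : bil B x 0 = 0 := by
  show par (x &&& _) = 0
  rw [lin_zero, Nat.and_zero, par_zero]

attribute [irreducible] lin col mm cons par bil msk fold16 mk

end CA.J4
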