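import Cfsg.Agent.Lib.J4.Walk

/-!
Homomorphisms from groups with a split `BN`-pair of rank one, given by a Bruhat presentation.
-/

set_option autoImplicit false
set_option linter.unusedSectionVars false
set_option linter.unusedVariables false
set_option maxRecDepth 100000

namespace CA.BM
open CA.Gol CA.J4 Matrix Cfsg Subgroup

/-- words with exponents -/
abbrev Wd : Type := List (ℕ × ℕ)

section
variable {Ω M : Type*} [Monoid Ω] [Monoid M]

/-- the value of a word -/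
def wv (t : ℕ → Ω) (w : Wd) : Ω := (w.map fun x => t x.1 ^ x.2).prod
/-- the relations hold -/
def Hold (t : ℕ → Ω) (R : List (Wd × Wd)) : Prop := ∀ r ∈ R, wv t r.1 = wv t r.2

@[simp] theorem wv_nil (t : ℕ → Ω) : wv t [] = 1 := rfl
@[simp] theorem wv_cons (t : ℕ → Ω) (x : ℕ × ℕ) (w : Wd) : wv t (x :: w) = t x.1 ^ x.2 * wv t w := rfl
@[simp] theorem wv_append (t : ℕ → Ω) (v w : Wd) : wv t (v ++ w) = wv t v * wv t w := by
  rw [wv, List.map_append, List.prod_append]; rfl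

theorem map_wv (φ : Ω →* M) (t : ℕ → Ω) (w : Wd) : φ (wv t w) = wv (fun i => φ (t i)) w := by
  induction w with
  | nil => exact map_one φ
  | cons x w ih => rw [wv_cons, wv_cons, map_mul, map_pow, ih]

theorem Hold.map {t : ℕ → Ω} {R : List (Wd × Wd)} (h : Hold t R) (φ : Ω →* M) : Hold (fun i => φ (t i)) R :=
  fun r hr => by rw [← map_wv, ← map_wv, h r hr]

theorem Hold.of_inj {t : ℕ → Ω} {s : ℕ → M} {R : List (Wd × Wd)} (h : Hold s R) (φ : Ω →* M) (hφ : Function.Injective φ)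
    (e : ∀ i, φ (t i) = s i) : Hold t R := fun r hr => hφ (by rw [map_wv, map_wv, funext e, h r hr])

theorem Hold.prod {t : ℕ → Ω} {s : ℕ → M} {R : List (Wd × Wd)} (h : Hold t R) (k : Hold s R) :
    Hold (fun i => (t i, s i)) R := fun r hr => by
  have e : ∀ w, wv (fun i => (t i, s i)) w = (wv t w, wv s w) := fun w =>
    Prod.ext (map_wv (MonoidHom.fst Ω M) _ w) (map_wv (MonoidHom.snd Ω M) _ w)
  rw [e, e, h r hr, k r hr]

theorem Hold.split {t : ℕ → Ω} {R : List (Wd × Wd)} (n : ℕ) (h : Hold t (R.take n)) (k : Hold t (R.drop n)) : Hold t R :=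
  fun r hr => by
    rw [← List.take_append_drop n R] at hr
    exact (List.mem_append.1 hr).elim (h r) (k r)

/-- powers in a coded monoid -/
def pwG (mu : ℕ → ℕ → ℕ) (o A k : ℕ) : ℕ → ℕ := Nat.rec (fun _ => o) (fun _ ih n => cn (Nat.beq n 0) o (cn (Nat.beq n 1) A
  (force (ih (Nat.div n 2)) fun B => force (mu B B) fun C => cn (Nat.beq (Nat.mod n 2) 1) (mu C A) C))) k
/-- words in a coded monoid -/
def evG (mu : ℕ → ℕ → ℕ) (o : ℕ) (T : ℕ → ℕ) (w : Wd) : ℕ → ℕ :=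
  List.rec (fun B => B) (fun x _ ih B => force (mu B (pwG mu o (T x.1) (Nat.succ (Nat.log2 x.2)) x.2)) ih) w
/-- relations in a coded monoid -/
def chkR (mu : ℕ → ℕ → ℕ) (o : ℕ) (T : ℕ → ℕ) (R : List (Wd × Wd)) : Bool :=
  allL R fun r => Nat.beq (evG mu o T r.1 o) (evG mu o T r.2 o)

variable {mu : ℕ → ℕ → ℕ} {o : ℕ} {μ : ℕ → M} (hm : ∀ a b, μ (mu a b) = μ a * μ b) (ho : μ o = 1)
include hm ho

theorem pwG_spec (A k : ℕ) : ∀ n < 2 ^ k, μ (pwG mu o A k n) = μ A ^ n := by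
  induction k with
  | zero => intro n hn; obtain rfl : n = 0 := by omega
            rw [pow_zero]; exact ho
  | succ k ih =>
    intro n hn
    have e : pwG mu o A (k + 1) n = cn (Nat.beq n 0) o (cn (Nat.beq n 1) A
      (force (pwG mu o A k (n / 2)) fun B => force (mu B B) fun C => cn (Nat.beq (n % 2) 1) (mu C A) C)) := rfl
    rw [e, force_eq, force_eq]
    have := ih (n / 2) (by omega)
    by_cases h0 : n = 0
    · rw [beq_iff.2 h0, cn_true, h0, pow_zero, ho]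
    rw [beq_false_iff.2 h0, cn_false]
    by_cases h1 : n = 1
    · rw [beq_iff.2 h1, cn_true, h1, pow_one]
    rw [beq_false_iff.2 h1, cn_false]
    by_cases h2 : n % 2 = 1
    · rw [beq_iff.2 h2, cn_true, hm, hm, this, ← pow_add, ← pow_succ]; congr 1; omega
    · rw [beq_false_iff.2 h2, cn_false, hm, this, ← pow_add]; congr 1; omega

theorem evG_spec (T : ℕ → ℕ) (w : Wd) : ∀ B, μ (evG mu o T w B) = μ B * wv (fun i => μ (T i)) w := by
  induction w with
  | nil => intro B; exact (mul_one _).symm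
  | cons x w ih =>
    intro B
    have e : evG mu o T (x :: w) B = evG mu o T w (mu B (pwG mu o (T x.1) (Nat.log2 x.2 + 1) x.2)) := force_eq _ _
    rw [e, ih, hm, pwG_spec hm ho _ _ _ Nat.lt_log2_self, wv_cons, mul_assoc]

theorem hold_of_chkR {T : ℕ → ℕ} {R : List (Wd × Wd)} (h : chkR mu o T R = true) : Hold (fun i => μ (T i)) R := fun r hr => by
  have := congrArg μ (beq_iff.1 (allL_iff.1 h r hr))
  rwa [evG_spec hm ho, evG_spec hm ho, ho, one_mul, one_mul] at this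
end

variable {Ω : Type*} [Group Ω] {t : ℕ → Ω}

/-- the subgroup generated by the first `k` generators -/
def Sg (t : ℕ → Ω) (k : ℕ) : Subgroup Ω := closure (t '' Set.Iio k)
/-- a word in the first `k` generators -/
def low (k : ℕ) (w : Wd) : Bool := allL w fun x => Nat.blt x.1 k

theorem mem_Sg {i k : ℕ} (h : i < k) : t i ∈ Sg t k := subset_closure ⟨i, h, rfl⟩
theorem Sg_le {k : ℕ} {A : Subgroup Ω} (h : ∀ i < k, t i ∈ A) : Sg t k ≤ A :=
  (closure_le _).2 (by rintro _ ⟨i, hi, rfl⟩; exact h i hi)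
theorem Sg_succ (k : ℕ) : Sg t (k + 1) = Sg t k ⊔ zpowers (t k) :=
  le_antisymm (Sg_le fun i hi => (Nat.lt_succ_iff_lt_or_eq.1 hi).elim (fun h => mem_sup_left (mem_Sg h))
    fun h => h ▸ mem_sup_right (mem_zpowers _))
    (sup_le (Sg_le fun i hi => mem_Sg (Nat.lt_succ_of_lt hi)) (zpowers_le.2 (mem_Sg k.lt_succ_self)))
theorem Sg_map {M : Type*} [Group M] (φ : Ω →* M) (k : ℕ) : (Sg t k).map φ = Sg (fun i => φ (t i)) k := by
  rw [Sg, MonoidHom.map_closure, Set.image_image]; rfl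
theorem wv_mem {k : ℕ} {w : Wd} (h : low k w = true) : wv t w ∈ Sg t k :=
  (Sg t k).list_prod_mem fun y hy => by
    obtain ⟨x, hx, rfl⟩ := List.mem_map.1 hy
    exact pow_mem (mem_Sg (blt_iff.1 (allL_iff.1 h x hx))) _

/-- the Bruhat relation -/
def GoodB (U B : Subgroup Ω) (w u : Ω) : Prop := ∃ b ∈ B, ∃ u' ∈ U, w * u * w = b * w * u'

theorem GoodB.conj {U : Subgroup Ω} {h w u : Ω} (hh : h ∈ 𝐍(U)) (hw : w ∈ 𝐍(zpowers h))
    (H : GoodB U (U ⊔ zpowers h) w u) : GoodB U (U ⊔ zpowers h) w (h * u * h⁻¹) := by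
  obtain ⟨b, hb, u', hu, e⟩ := H
  have a : w⁻¹ * h * w⁻¹⁻¹ ∈ zpowers h := conj_mem_of_mem_normalizer (inv_mem hw) (mem_zpowers h)
  refine ⟨w * h * w⁻¹ * b * h⁻¹, mul_mem (mul_mem (mem_sup_right (conj_mem_of_mem_normalizer hw (mem_zpowers h))) hb)
    (inv_mem (mem_sup_right (mem_zpowers h))), _, conj_mem_of_mem_normalizer (zpowers_le.2 hh a) hu, ?_⟩
  rw [show w * (h * u * h⁻¹) * w = w * h * w⁻¹ * (w * u * w) * (w⁻¹ * h⁻¹ * w) by group, e]; group

variable [Finite Ω]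

theorem bru_card {U B : Subgroup Ω} {h w : Ω} (hB : B = U ⊔ zpowers h) (hh : h ∈ 𝐍(U)) (hw : w ∈ 𝐍(zpowers h))
    (w2 : w * w ∈ B) (hall : ∀ u ∈ U, u = 1 ∨ GoodB U B w u) :
    Nat.card ↥(B ⊔ zpowers w) ≤ Nat.card B * (1 + Nat.card U) := by
  let f : B × U → Ω := fun x => x.1 * w * x.2
  let P : Ω → Prop := fun g => ∀ s ∈ (B : Set Ω) ∪ Set.range f, s * g ∈ (B : Set Ω) ∪ Set.range f
  have pm : ∀ a b, P a → P b → P (a * b) := fun a b ha hb s hs => mul_assoc s a b ▸ hb _ (ha s hs)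
  let T : Subgroup Ω :=
    { carrier := {g | P g ∧ P g⁻¹}
      mul_mem' := fun a b => ⟨pm _ _ a.1 b.1, by rw [_root_.mul_inv_rev]; exact pm _ _ b.2 a.2⟩
      one_mem' := by rw [Set.mem_setOf_eq, inv_one, and_self]; exact fun s hs => by rwa [mul_one]
      inv_mem' := fun a => ⟨a.2, by rw [inv_inv]; exact a.1⟩ }
  have UB : U ≤ B := hB ▸ le_sup_left
  have HB : zpowers h ≤ B := hB ▸ le_sup_right
  have p1 : ∀ u ∈ U, P u := by
    rintro u hu s (hs | ⟨x, rfl⟩)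
    · exact Or.inl (mul_mem hs (UB hu))
    · exact Or.inr ⟨(x.1, ⟨x.2 * u, mul_mem x.2.2 hu⟩), (mul_assoc _ _ _).symm⟩
  have p2 : ∀ g ∈ zpowers h, P g := by
    rintro g hg s (hs | ⟨x, rfl⟩)
    · exact Or.inl (mul_mem hs (HB hg))
    · exact Or.inr ⟨(⟨_, mul_mem x.1.2 (HB (conj_mem_of_mem_normalizer hw hg))⟩,
        ⟨_, conj_mem_of_mem_normalizer (zpowers_le.2 hh (inv_mem hg)) x.2.2⟩), by simp only [f]; group⟩
  have BT : B ≤ T := hB ▸ sup_le (fun u hu => ⟨p1 u hu, p1 _ (inv_mem hu)⟩) fun g hg => ⟨p2 g hg, p2 _ (inv_mem hg)⟩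
  have p3 : P w := by
    rintro s (hs | ⟨x, rfl⟩)
    · exact Or.inr ⟨(⟨s, hs⟩, 1), mul_one _⟩
    · rcases hall _ x.2.2 with e | ⟨b, hb, u, hu, e⟩
      · exact Or.inl (by simp only [f, e, mul_one, mul_assoc]; exact mul_mem x.1.2 w2)
      · exact Or.inr ⟨(⟨_, mul_mem x.1.2 hb⟩, ⟨u, hu⟩), by simp only [f, mul_assoc] at e ⊢; rw [e]⟩
  have wT : w ∈ T := ⟨p3, by rw [show w⁻¹ = w * (w * w)⁻¹ by group]; exact pm _ _ p3 (BT w2).2⟩
  have : ((B ⊔ zpowers w : Subgroup Ω) : Set Ω) ⊆ (B : Set Ω) ∪ Set.range f := fun g hg => by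
    simpa using (sup_le BT (zpowers_le.2 wT) hg).1 1 (Or.inl B.one_mem)
  refine (Set.ncard_le_ncard this).trans ((Set.ncard_union_le _ _).trans ?_)
  rw [mul_add, mul_one, ← Nat.card_prod]
  exact add_le_add le_rfl (Finite.card_range_le f)

theorem card_sup_pow {A : Subgroup Ω} {g : Ω} {e : ℕ} (hg : g ∈ 𝐍(A)) (he : g ^ e ∈ A) (e0 : 0 < e) :
    Nat.card ↥(A ⊔ zpowers g) ≤ e * Nat.card A := by
  let f : Fin e × A → Ω := fun x => x.2 * g ^ (x.1 : ℕ)
  have : ((A ⊔ zpowers g : Subgroup Ω) : Set Ω) ⊆ Set.range f := fun x hx => by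
    obtain ⟨a, ha, b, hb, rfl⟩ := (mem_sup_of_norm_right (zpowers_le.2 hg)).1 hx
    obtain ⟨n, rfl⟩ := (mem_powers_iff_mem_zpowers.2 hb : ∃ n : ℕ, g ^ n = b)
    exact ⟨(⟨n % e, Nat.mod_lt _ e0⟩, ⟨_, mul_mem ha (pow_mem he (n / e))⟩), by
      simp only [f]; rw [mul_assoc, ← pow_mul, ← pow_add, Nat.div_add_mod]⟩
  refine (Set.ncard_le_ncard this).trans ((Finite.card_range_le f).trans ?_)
  rw [Nat.card_prod, Nat.card_eq_fintype_card, Fintype.card_fin]

theorem diag {Γ G : Type*} [Group Γ] [Finite Γ] [Group G] [Finite G] (Δ : Subgroup (Γ × G))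
    (h1 : Δ.map (MonoidHom.fst Γ G) = ⊤) (h2 : Nat.card Δ ≤ Nat.card Γ) : ∃ φ : Γ →* G, ∀ x ∈ Δ, φ x.1 = x.2 := by
  have s : Function.Surjective ((MonoidHom.fst Γ G).comp Δ.subtype) := fun y => by
    obtain ⟨x, hx, e⟩ := h1.ge (mem_top y)
    exact ⟨⟨x, hx⟩, e⟩
  let e := MulEquiv.ofBijective _ (s.bijective_of_nat_card_le h2)
  refine ⟨((MonoidHom.snd Γ G).comp Δ.subtype).comp e.symm.toMonoidHom, fun x hx => ?_⟩
  rw [show x.1 = e ⟨x, hx⟩ from rfl]
  simp

/-- a subgroup of small index in a simple group -/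
theorem top_of_index [IsSimpleGroup Ω] {Y : Subgroup Ω} {p : ℕ} (hp : p.Prime) (h : p ∣ Nat.card Ω) (hi : Y.index < p) :
    Y = ⊤ := by
  rcases Y.normalCore_normal.eq_bot_or_eq_top with e | e
  · have : Y.normalCore.index ∣ Y.index.factorial := by
      rw [normalCore_eq_ker, index_ker, index_eq_card, ← Nat.card_perm]
      exact card_subgroup_dvd_card _
    rw [e, index_bot] at this
    exact absurd hi (not_lt.2 (hp.dvd_factorial.1 (h.trans this)))
  · exact eq_top_iff.2 (e ▸ Y.normalCore_le)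

/-- one step of a polycyclic presentation: exponent, power, conjugates -/
abbrev PC : Type := ℕ × Wd × List Wd
def pcR (k : ℕ) (x : PC) : List (Wd × Wd) :=
  ([(k, x.1)], x.2.1) :: (List.range k).map fun j => ([(k, 1), (j, 1)], x.2.2.getD j [] ++ [(k, 1)])
def pcOk (k : ℕ) (x : PC) : Bool := Nat.blt 0 x.1 && (low k x.2.1 && allL x.2.2 (low k))

theorem pc_step {k : ℕ} {x : PC} (ok : pcOk k x = true) (h : Hold t (pcR k x)) :
    t k ∈ 𝐍(Sg t k) ∧ Nat.card (Sg t (k + 1)) ≤ x.1 * Nat.card (Sg t k) := by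
  simp only [pcOk, Bool.and_eq_true, blt_iff, allL_iff] at ok
  have n : t k ∈ 𝐍(Sg t k) := mem_normalizer_of_cj_le (by
    rw [cj, Sg_map]
    refine Sg_le fun j hj => ?_
    have := h _ (List.mem_cons_of_mem _ (List.mem_map_of_mem (List.mem_range.2 hj)))
    simp only [wv_cons, wv_append, wv_nil, pow_one, mul_one] at this
    show t k * t j * (t k)⁻¹ ∈ _
    rw [this, mul_inv_cancel_right]
    refine wv_mem ?_
    rw [List.getD_eq_getElem?_getD]
    cases c : x.2.2[j]?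
    · rfl
    · exact ok.2.2 _ (List.mem_of_getElem? c))
  have := h _ List.mem_cons_self
  simp only [wv_cons, wv_nil, mul_one] at this
  exact ⟨n, by rw [Sg_succ]; exact card_sup_pow n (by rw [this]; exact wv_mem ok.2.1) ok.1⟩

/-- no repetitions modulo `P` -/
def ndB (P : ℕ) (l : List ℕ) : ℕ → Bool := List.rec (fun _ => true) (fun a _ ih m =>
  force (Nat.shiftLeft 1 (Nat.mod a P)) fun b => cn (Nat.beq (Nat.land m b) 0) (force (Nat.lor m b) ih) false) l

theorem ndB_spec {P : ℕ} {l : List ℕ} : ∀ m, ndB P l m = true → l.Nodup ∧ ∀ a ∈ l, m.testBit (a % P) = false := by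
  induction l with
  | nil => exact fun _ _ => ⟨List.nodup_nil, fun _ h => nomatch h⟩
  | cons a l ih =>
    intro m h
    have e : ndB P (a :: l) m = force (1 <<< (a % P)) fun b =>
      cn (Nat.beq (m &&& b) 0) (force (m ||| b) (ndB P l)) false := rfl
    rw [e, force_eq, force_eq, cn_iff, beq_iff, Nat.one_shiftLeft] at h
    obtain ⟨h1, h2⟩ := ih _ h.2
    simp only [Nat.testBit_or, Bool.or_eq_false_iff] at h2
    have := congrArg (·.testBit (a % P)) h.1
    simp only [Nat.testBit_and, Nat.testBit_two_pow_self, Bool.and_true, Nat.zero_testBit] at this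
    exact ⟨List.nodup_cons.2 ⟨fun c => by simpa using (h2 a c).2, h1⟩,
      fun b hb => (List.mem_cons.1 hb).elim (fun e => e ▸ this) fun c => (h2 b c).1⟩

/-- `v * A ^ n` -/
def vP (A n : ℕ) : ℕ → ℕ := Nat.rec (fun v => v) (fun _ ih v => force (vm v A) ih) n
/-- a vector times a word -/
def vW (T : List ℕ) (w : Wd) : ℕ → ℕ := List.rec (fun v => v) (fun x _ ih v => force (vP (nI T x.1) x.2 v) ih) w
/-- `v, v A, v A ^ 2, …` -/
def orbL (A n : ℕ) : ℕ → List ℕ := Nat.rec (fun _ => []) (fun _ ih v => force v fun v => v :: ih (vm v A)) n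

theorem vP_spec (A n : ℕ) : ∀ v < 2 ^ 112, vP A n v < 2 ^ 112 ∧ vt (vP A n v) = vt v ᵥ* mt A ^ n := by
  induction n with
  | zero => intro v hv; exact ⟨hv, by rw [pow_zero, vecMul_one]; rfl⟩
  | succ n ih =>
    intro v _
    have e : vP A (n + 1) v = vP A n (vm v A) := force_eq _ _
    rw [e, (ih _ (vm_lt _ _)).2, vt_vm, vecMul_vecMul, ← pow_succ']
    exact ⟨(ih _ (vm_lt _ _)).1, rfl⟩

theorem vW_spec (T : List ℕ) (w : Wd) : ∀ v < 2 ^ 112,
    vW T w v < 2 ^ 112 ∧ vt (vW T w v) = vt v ᵥ* wv (fun i => mt (nI T i)) w := by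
  induction w with
  | nil => intro v hv; exact ⟨hv, (vecMul_one _).symm⟩
  | cons x w ih =>
    intro v hv
    have e : vW T (x :: w) v = vW T w (vP (nI T x.1) x.2 v) := force_eq _ _
    have a := vP_spec (nI T x.1) x.2 v hv
    rw [e, (ih _ a.1).2, a.2, vecMul_vecMul]
    exact ⟨(ih _ a.1).1, rfl⟩

theorem orbL_succ (A n v : ℕ) : orbL A (n + 1) v = v :: orbL A n (vm v A) :=
  force_eq v fun v => v :: orbL A n (vm v A)

theorem orbL_length (A n : ℕ) : ∀ v, (orbL A n v).length = n := by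
  induction n with
  | zero => intro; rfl
  | succ n ih => intro v; rw [orbL_succ, List.length_cons, ih]

theorem nv_vt {u : ℕ} (h : u < 2 ^ 112) : nv (vt u) = u := by
  have := Classical.epsilon_spec (p := fun n => n < 2 ^ 112 ∧ vt n = vt u) ⟨u, h, rfl⟩
  exact vt_inj this.1 h this.2

theorem orbL_spec (σ : Ω →* Mx) {S : Set Ω} {h : Ω} {A v : ℕ} (hS : ∀ e ∈ S, h * e * h⁻¹ ∈ S) (hv : vt v ᵥ* σ h = vt v)
    (hA : σ h⁻¹ = mt A) (n : ℕ) : ∀ u < 2 ^ 112, ∀ e ∈ S, vt v ᵥ* σ e = vt u →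
      ∀ k ∈ orbL A n u, ∃ e ∈ S, nv (vt v ᵥ* σ e) = k := by
  induction n with
  | zero => intro _ _ _ _ _ k hk; exact nomatch hk
  | succ n ih =>
    intro u hu e he h1 k hk
    rw [orbL_succ] at hk
    rcases List.mem_cons.1 hk with rfl | hk
    · exact ⟨e, he, by rw [h1, nv_vt hu]⟩
    · exact ih _ (vm_lt _ _) _ (hS e he) (by
        rw [map_mul, map_mul, ← vecMul_vecMul, ← vecMul_vecMul, hv, h1, hA, vt_vm]) k hk

/-- a Bruhat presentation: generators `0, …, n - 1` of `U`, `n` is `h`, `n + 1` is `w` -/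
structure Bru where
  n : ℕ
  /-- the polycyclic presentation of `B` -/
  pc : List PC
  /-- `w h = h ^ k w` -/
  k : ℕ
  /-- `w ^ 2` -/
  w2 : Wd
  /-- `(r, b, u, l)`: `w r w = b w u`, and `l` conjugates of `r` under `h` are used -/
  reps : List (Wd × Wd × Wd × ℕ)

namespace Bru
variable (D : Bru)
def px (j : ℕ) : PC := D.pc.getD j (1, [], [])
def pb (k : ℕ) : ℕ := Nat.rec 1 (fun j r => (D.px j).1 * r) k
def rels : List (Wd × Wd) := ([(D.n + 1, 1), (D.n, 1)], [(D.n, D.k), (D.n + 1, 1)]) :: ([(D.n + 1, 2)], D.w2) ::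
  ((List.range (D.n + 1)).flatMap (fun j => pcR j (D.px j)) ++
    D.reps.map fun x => ((D.n + 1, 1) :: x.1 ++ [(D.n + 1, 1)], x.2.1 ++ (D.n + 1, 1) :: x.2.2.1))
def ok : Bool := allLt (fun j => pcOk j (D.px j)) (D.n + 1) && (low (D.n + 1) D.w2 &&
  (allL D.reps (fun x => low D.n x.1 && (low (D.n + 1) x.2.1 && low D.n x.2.2.1)) &&
    Nat.ble (D.pb D.n) ((D.reps.map (·.2.2.2)).sum + 1)))
def kys (T : List ℕ) (v A : ℕ) : List ℕ := v :: D.reps.flatMap fun x => orbL A x.2.2.2 (vW T x.1 v)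
/-- the conjugates of the representatives cover `U` -/
def cov (T : List ℕ) (v A P : ℕ) : Bool := Nat.blt v (2 ^ 112) && (Nat.beq (vm v (nI T D.n)) v &&
  (Nat.beq (mm (nI T D.n) A) I1 && ndB P (D.kys T v A) 0))

variable {D} (ok : D.ok = true) (h : Hold t D.rels)
include ok h

theorem step {j : ℕ} (hj : j ≤ D.n) : t j ∈ 𝐍(Sg t j) ∧ Nat.card (Sg t (j + 1)) ≤ (D.px j).1 * Nat.card (Sg t j) := by
  simp only [Bru.ok, Bool.and_eq_true, allLt_iff] at ok
  exact pc_step (ok.1 j (Nat.lt_succ_of_le hj)) fun r hr => h r (List.mem_cons_of_mem _ (List.mem_cons_of_mem _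
    (List.mem_append_left _ (List.mem_flatMap.2 ⟨j, List.mem_range.2 (Nat.lt_succ_of_le hj), hr⟩))))

theorem card_pb : ∀ j ≤ D.n + 1, Nat.card (Sg t j) ≤ D.pb j := by
  intro j
  induction j with
  | zero => intro; rw [show Sg t 0 = ⊥ from eq_bot_iff.2 (Sg_le fun _ h => nomatch h), card_bot]; exact le_rfl
  | succ j ih => exact fun hj => (step ok h (Nat.le_of_succ_le_succ hj)).2.trans (Nat.mul_le_mul_left _ (ih (by omega)))

theorem card_le (σ : Ω →* Mx) {T : List ℕ} (hT : ∀ i, σ (t i) = mt (nI T i)) {v A P : ℕ} (c : D.cov T v A P = true) :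
    Nat.card (Sg t (D.n + 2)) ≤ D.pb (D.n + 1) * (1 + D.pb D.n) := by
  have hh := (step ok h le_rfl).1
  have cU := card_pb ok h D.n (by omega)
  have cB := card_pb ok h _ le_rfl
  simp only [Bru.ok, Bru.cov, Bool.and_eq_true, allL_iff, blt_iff, ble_iff, beq_iff] at ok c
  have r1 := h _ List.mem_cons_self
  have r2 := h _ (List.mem_cons_of_mem _ List.mem_cons_self)
  simp only [wv_cons, wv_nil, mul_one, pow_one, pow_two] at r1 r2
  have hw := mem_norm_zpowers r1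
  let S : Set Ω := {e | e ∈ Sg t D.n ∧ (e = 1 ∨ GoodB (Sg t D.n) (Sg t D.n ⊔ zpowers (t D.n)) (t (D.n + 1)) e)}
  have a := le_ncard_fib (fun e => nv (vt v ᵥ* σ e)) 1 _ (ndB_spec _ c.2.2.2).1 S fun k hk => by
    refine (Set.ncard_pos (Set.toFinite _)).2 ?_
    rcases List.mem_cons.1 hk with rfl | hk
    · exact ⟨1, ⟨one_mem _, Or.inl rfl⟩, by rw [map_one, vecMul_one, nv_vt c.1]⟩
    obtain ⟨x, hx, hk⟩ := List.mem_flatMap.1 hk
    have b := vW_spec T x.1 v c.1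
    have r := h _ (List.mem_cons_of_mem _ (List.mem_cons_of_mem _ (List.mem_append_right _ (List.mem_map_of_mem hx))))
    simp only [wv_cons, wv_append, wv_nil, mul_one, pow_one] at r
    refine orbL_spec σ (S := S) (h := t D.n) (fun e he => ⟨conj_mem_of_mem_normalizer hh he.1,
      he.2.imp (fun e1 => by rw [e1, mul_one, mul_inv_cancel]) (GoodB.conj hh hw)⟩) (by rw [hT, ← vt_vm, c.2.1])
      (rho_inv (hT _) (beq_iff.2 c.2.2.1)) _ _ b.1 (wv t x.1) ⟨wv_mem (ok.2.2.1 x hx).1, Or.inr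
        ⟨_, (Sg_succ (t := t) D.n).le (wv_mem (ok.2.2.1 x hx).2.1), _, wv_mem (ok.2.2.1 x hx).2.2, r.trans (mul_assoc _ _ _).symm⟩⟩
      (by rw [b.2, map_wv, funext hT]) k hk
  have l : (D.kys T v A).length = (D.reps.map (·.2.2.2)).sum + 1 := by
    rw [kys, List.length_cons, List.length_flatMap]; simp only [orbL_length]
  have e := Set.eq_of_subset_of_ncard_le (show S ⊆ (Sg t D.n : Set Ω) from fun e he => he.1)
    (cU.trans (ok.2.2.2.trans (by rwa [mul_one, l] at a)))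
  rw [Sg_succ]
  exact (bru_card (Sg_succ _) hh hw (r2 ▸ wv_mem ok.2.1) fun u hu => by rw [Sg_succ]; exact (e.ge hu).2).trans
    (Nat.mul_le_mul cB (Nat.add_le_add_left cU 1))

omit h in
/-- a homomorphism defined on generators -/
theorem main {Γ G : Type*} [Group Γ] [Finite Γ] [Group G] [Finite G] (ρ : G →* Mx) {γ : ℕ → Γ} {g : ℕ → G} {T : List ℕ}
    (hT : ∀ i, ρ (g i) = mt (nI T i)) (h1 : Hold γ D.rels) (h2 : Hold g D.rels) {v A P : ℕ} (c : D.cov T v A P = true)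
    (gen : Sg γ (D.n + 2) = ⊤) (hc : D.pb (D.n + 1) * (1 + D.pb D.n) ≤ Nat.card Γ) :
    ∃ φ : Γ →* G, φ.range = Sg g (D.n + 2) ∧ ∀ i < D.n + 2, φ (γ i) = g i := by
  obtain ⟨φ, hφ⟩ := diag (Sg (fun i => (γ i, g i)) (D.n + 2)) (by rw [Sg_map]; exact gen)
    ((card_le ok (h1.prod h2) (ρ.comp (MonoidHom.snd Γ G)) hT c).trans hc)
  have k : ∀ i < D.n + 2, φ (γ i) = g i := fun i hi => hφ _ (mem_Sg hi)
  refine ⟨φ, ?_, k⟩
  rw [MonoidHom.range_eq_map, ← gen, Sg_map]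
  exact le_antisymm (Sg_le fun i hi => k i hi ▸ mem_Sg hi) (Sg_le fun i hi => k i hi ▸ mem_Sg (t := fun i => φ (γ i)) hi)

end Bru

theorem exists_gens {G : Type*} [Group G] {ρ : G →* Mx} {K : Subgroup G} {T : List ℕ} (h : AllK ρ K T) :
    ∃ g : ℕ → G, ∀ i, g i ∈ K ∧ ρ (g i) = mt (nI T i) := by
  choose g h1 h2 using h.nI
  exact ⟨g, fun i => ⟨h1 i, h2 i⟩⟩

theorem hold_of_mm {G : Type*} [Group G] {ρ : G →* Mx} (hρ : Function.Injective ρ) {g : ℕ → G} {T : List ℕ}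
    (hT : ∀ i, ρ (g i) = mt (nI T i)) {R : List (Wd × Wd)} (h : chkR mm I1 (nI T) R = true) : Hold g R := by
  have a : Hold (fun i => mt (nI T i)) R := hold_of_chkR (M := Mx) (mu := mm) (o := I1) (μ := mt) (fun a b => by rw [mt_mm]) mt_I1 h
  exact a.of_inj ρ hρ hT

theorem rho_evG {G : Type*} [Group G] {ρ : G →* Mx} {g : ℕ → G} {T : List ℕ}
    (hT : ∀ i, ρ (g i) = mt (nI T i)) (w : Wd) : ρ (wv g w) = mt (evG mm I1 (nI T) w I1) := by
  have a : mt (evG mm I1 (nI T) w I1) = mt I1 * wv (fun i => mt (nI T i)) w :=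
    evG_spec (M := Mx) (mu := mm) (o := I1) (μ := mt) (fun a b => by rw [mt_mm]) mt_I1 _ _ _
  rw [a, mt_I1, one_mul, map_wv, funext hT]

end CA.BM
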