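import Cfsg.Agent.Lib.J4.Iface

/-!
Involutions of `D2 = Aut M22`, the hexad group `AH` and its normalizer `SO`.
-/

set_option autoImplicit false

namespace CA.J4
open Cfsg CA.Gol CA.Ex2 Subgroup
open scoped Pointwise

/-- the octad containing the hexad -/
def OH : ℕ := 0xb004a9
/-- the elements of the hexad group -/
def TA : List ℕ := [
  0xbdab49ca307b9ac5a928398a418820, 0xb9ab440589590517aa133d8ae1b640, 0xbc2b4790569858d428cb3a4b21c5c0, 
  0xba6b45b9a644a229aacf3c0a11b080, 0xbbeb484653b35c1329093aca219180, 0xbaeb44b02830892b2a703bcad1ba20, 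
  0xbceb4b088f8302e4a9663a0b11c9a0, 0xba2b4335cb4c644829f63ccac18440, 0xbb6b40a12c73ed022a32388ab19a60, 
  0xb8ab494e1122cc9729813b4af1d900, 0xbb2b472ccd0ce16928443c4a81a5e0, 0xbc6b423ec2921260a9ae3b0b31c160, 
  0xbbab4625016d9f312a51390a61ae00, 0xb92b48c272119686a82c3b8b61bd20, 0xb86b46996e6426f8a8823c8a91a2c0, 
  0xbcab4159e48a50b629cd384b01ccc0]
/-- the outer involution with fixed points -/
def rAC : ℕ := 0x5ab4886696b9e812a0c198a43ae57
/-- representatives moving the hexads to the standard one -/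
def HR : List ℕ := [
  0xbb9f24922d3218b196d312aa785020, 0xbc189892c29b6a140cc75d1d253ca0, 0xbbe505b6ce3166aa8e910a12438980, 
  0xba0c4605d6a4da980a2353cb55c8e0, 0xbc5ee110c12a54caca701b516a1d60, 0xbb5ee611270a8d3b0c55a2d1091620, 
  0xbb90d98ad51ad548b0a78192179240, 0xba62e640ca1d4563a253594816be80, 0xbd90e8087264cca4b4ef8d56520680, 
  0xbbd3133076156017488d42cb351e80, 0xbda4d9854b61cb1aa5f43104372200, 0xbc97634eb40a4ec7c1ae2a87141040, 
  0xb8a70312a3a25e88aa4e658272ada0, 0xba6cd41dcf844551ae456126135140, 0xbb2369d5065b9458248268467a49e0, 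
  0xbc6685aa0468e8f65aa67152209e40, 0xbccd060d615113491c4f2d5b68a1c0, 0xbc5cc415a79c046b26a11bd6454a80, 
  0xbbccb49ca4b05888568a934738b840, 0xbbe221ba0b69aa1b50a93b08a92260, 0xb890faad302c4333394c91c64a59a0, 
  0xb8ad33bd21aaa34936083118558dc0, 0xbc1611cec793c54354914b0a86b940, 0xbad32ab0b133dd4b426a1882d39100, 
  0xbcc52ac0f46596f534b14a0c170c80, 0xbcdeb38ed2728c2ac5a92869062080, 0xba2761aa25825f2734555d18730480, 
  0xbc2621aaa6a24b659241621cd7c4e0, 0xbb6d563e71149c13a465550cb82080, 0xbca6730a0f614755b436544884ba80, 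
  0xbb84a9c991a41364146d3048f59ea0, 0xb86273353512e45b220f9d1841a9c0, 0xb9925b321490e227ace40a2aa6cdc0, 
  0xbd9d47a0b03ac23ac6499b14d30880, 0xbacd509ded28d0295a744b20e54480, 0xbc1f53516a4c8ed28c93b442e60900, 
  0xbca6a616af309d0b342b3c53420d00, 0xbb24aa8531699643d9c8142741bca0, 0xbc1aa2b8c162eaf912c3988f14d100, 
  0xbaecaaa68899e468960478dc268580, 0xbcc7183dc25b0c4459454c9b5a1c20, 0xb854c4b9e68c2ab2a07223682b4ce0, 
  0xbac76908c4495aa806677d2b1621c0, 0xba4f3646d4935c35190faac4509200, 0xbbcec48ab044865352cb6cdd10a880, 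
  0xbbcf671aad2d1849ac7250a290c100, 0xbc4a24513630d6d7566c7924a804e0, 0xbb0a681e63a22d1711a9149415d5e0, 
  0xb9956650eb6a5c8a88919964f1c020, 0xba6af18513339b68c98b2d04481d40, 0xbc6b63c9e154ccd2d1035c1c911180, 
  0xbd861289743554e7a633936083b080, 0xbdab49ca307b9ac5a928398a418820, 0xba6a533ad3184e85c9917d20a13480, 
  0xbcaa3838a74ac93359aa0a1e264680, 0xbbca3aaa4c099c74ae8db460244c80, 0xb950932dd37ca0788a961b6ac22820, 
  0xb8e464b6137d58e5d8442a827a4500, 0xbd6717b56939461b52507314831040, 0xbd24c741e70cd76a922a688682a4c0, 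
  0xb8e0e5990a4b6819c5e2612c5954e0, 0xba9719c2a6759a939452a11e860460, 0xb9d9693948a88304ce3468ccf59480, 
  0xb94cf91ec2aa5ac1ad518103474d00, 0xb9da9b0ea5629f499a2b1424871020, 0xbd4c2512d164e853c96f68d3070500, 
  0xba9263a26f6562bb0a85905a474060, 0xbd4d619d6c7c044495d30a251a29a0, 0xbd605490cd0bd9490dc75ceca40a20, 
  0xb9603792b335a915854e4b2423a1a0, 0xb8c558a9cb3266c43db691ca181280, 0xb9634aa2c33ae507b82950a64331a0, 
  0xbd4683362c28a0a4bc3375a4ba10e0, 0xb94ed921636403632aaf2526e4c440, 0xb8cab329f1940e4b0454ab9336a180, 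
  0xbd4b13c149758469adb27868361100, 0xb9d4558a329d204abcc8732c168d20]

/-- element of the hexad group -/
noncomputable def ta (α : ℕ) : Pm := perm (nth TA α)
noncomputable def rA : Pm := perm rAC
noncomputable def hr (i : ℕ) : Pm := perm (nth HR i)

theorem OH_lt : OH < 2 ^ 24 := by decide
theorem OH_oct : fs OH ∈ octads := fs_mem_octads (by decide +kernel)

theorem TA_chk : allLt (fun a => in22 (nth TA a) && allLt (fun b => Nat.beq (mul (nth TA a) (nth TA b))
    (nth TA (Nat.xor a b)) && (Nat.beq a b || !(Nat.beq (nth TA a) (nth TA b)))) 16 &&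
    (Nat.beq a 0 || Nat.beq (fixM (nth TA a)) OH)) 16 = true := by decide +kernel

theorem TA_in {a : ℕ} (ha : a < 16) : in22 (nth TA a) = true := by
  have := allLt_iff.1 TA_chk a ha
  simp only [Bool.and_eq_true] at this; exact this.1.1

theorem code_ta {a : ℕ} (ha : a < 16) : code (ta a) = nth TA a := code_perm22 (TA_in ha)
theorem ta_mem {a : ℕ} (ha : a < 16) : ta a ∈ Spor.M22 := perm_mem22 (TA_in ha)
theorem xor16 {a b : ℕ} (ha : a < 16) (hb : b < 16) : a ^^^ b < 16 := xor_lt' (n := 4) ha hb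

theorem ta_mul {a b : ℕ} (ha : a < 16) (hb : b < 16) : ta a * ta b = ta (a ^^^ b) := by
  have := allLt_iff.1 TA_chk a ha
  simp only [Bool.and_eq_true, allLt_iff, beq_iff] at this
  apply code_injective
  rw [code_mul, code_ta ha, code_ta hb, code_ta (xor16 ha hb)]; exact (this.1.2 b hb).1

theorem ta_inj {a b : ℕ} (ha : a < 16) (hb : b < 16) (e : ta a = ta b) : a = b := by
  have := allLt_iff.1 TA_chk a ha
  simp only [Bool.and_eq_true, allLt_iff, beq_iff, Bool.or_eq_true, Bool.not_eq_true', beq_false_iff] at this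
  exact (this.1.2 b hb).2.resolve_right fun h => h (by rw [← code_ta ha, e, code_ta hb])

theorem ta_zero : ta 0 = 1 := by
  rw [← code_eq_one_iff, code_ta (by norm_num)]; decide +kernel

theorem ta_sq {a : ℕ} (ha : a < 16) : ta a * ta a = 1 := by rw [ta_mul ha ha, Nat.xor_self, ta_zero]

theorem ta_ne {a : ℕ} (ha : a < 16) (h0 : a ≠ 0) : ta a ≠ 1 := fun e =>
  h0 (ta_inj ha (by norm_num) (e.trans ta_zero.symm))

theorem ta_ord {a : ℕ} (ha : a < 16) (h0 : a ≠ 0) : orderOf (ta a) = 2 :=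
  orderOf_eq_prime (by rw [pow_two, ta_sq ha]) (ta_ne ha h0)

theorem fixS_ta {a : ℕ} (ha : a < 16) (h0 : a ≠ 0) : fixS (ta a) = fs OH := by
  have := allLt_iff.1 TA_chk a ha
  simp only [Bool.and_eq_true, beq_iff, Bool.or_eq_true] at this
  rw [ta, fixS_perm (in22_24 (TA_in ha)), this.2.resolve_left h0]

/-- the hexad group -/
def AH : Subgroup Pm where
  carrier := {g | g ∈ M24 ∧ ∀ p ∈ fs OH, g p = p}
  mul_mem' := fun {a b} ha hb => ⟨mul_mem ha.1 hb.1, fun p hp => by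
    rw [Equiv.Perm.mul_apply, hb.2 p hp, ha.2 p hp]⟩
  one_mem' := ⟨one_mem _, fun _ _ => rfl⟩
  inv_mem' := fun {a} ha => ⟨inv_mem ha.1, fun p hp => by
    rw [Equiv.Perm.inv_eq_iff_eq]; exact (ha.2 p hp).symm⟩

theorem ta_memA {a : ℕ} (ha : a < 16) : ta a ∈ AH := by
  rcases eq_or_ne a 0 with rfl | h0
  · rw [ta_zero]; exact one_mem _
  · exact ⟨M22_le (ta_mem ha), fun p hp => by rw [← fixS_ta ha h0] at hp; exact (Finset.mem_filter.1 hp).2⟩

/-- membership test for the hexad group -/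
def inA (c : ℕ) : Bool := anyLt (fun a => Nat.beq c (nth TA a)) 16

theorem inA_sound {g : Pm} (h : inA (code g) = true) : ∃ a < 16, g = ta a := by
  obtain ⟨a, ha, e⟩ := anyLt_iff.1 h
  exact ⟨a, ha, eq_perm_of_code (beq_iff.1 e)⟩

theorem memAH {g : Pm} : g ∈ AH ↔ ∃ a < 16, g = ta a :=
  ⟨fun h => inA_sound (all24_sound (P := pFix OH) (k := 0xb9dc555915a488d9c5e61a4500ad80)
    (ki := 0xbca0f5b9444d58114cd1b228d39460) (by decide +kernel) h.1 (sat_fix h.2)),
   fun ⟨_, ha, e⟩ => e ▸ ta_memA ha⟩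

theorem inA_iff {g : Pm} : inA (code g) = true ↔ g ∈ AH :=
  ⟨fun h => memAH.2 (inA_sound h), fun h => by
    obtain ⟨a, ha, rfl⟩ := memAH.1 h
    exact anyLt_iff.2 ⟨a, ha, beq_iff.2 (code_ta ha)⟩⟩

theorem AH_le : AH ≤ Spor.M22 := fun _ h => by obtain ⟨a, ha, rfl⟩ := memAH.1 h; exact ta_mem ha

theorem card_AH : Nat.card AH = 16 := by
  have F : Fam (AH : Set Pm) ta (fun _ => true) 16 := ⟨fun i hi _ => ta_memA hi, fun x hx => by
    obtain ⟨a, ha, e⟩ := memAH.1 hx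
    exact ⟨a, ha, rfl, e.symm⟩, fun i hi j hj _ _ e => ta_inj hi hj e⟩
  have := F.ncard (P := fun _ => True) (p := fun _ => true) (fun _ _ _ => by simp)
  simp only [and_true] at this
  exact this.trans (by decide +kernel)

/-- the stabilizer of the hexad -/
def SO : Subgroup Pm := D2 ⊓ MulAction.stabilizer Pm (fs OH)

theorem memSO {g : Pm} : g ∈ SO ↔ g ∈ D2 ∧ g • fs OH = fs OH := Iff.rfl

theorem card_SO : Nat.card SO = 11520 :=
  card_of_count (P := pAnd (pSet DD DD) (pSet OH OH)) (k := 0xba5c5331af9c168a46aa19c52092c0)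
    (ki := 0xb852b7914e856326a2cc34e8239460) (leaf := fun c => st c DD && st c OH) (by decide +kernel)
    (fun g hg => ⟨hg.1.1, (satD2 hg.1).and (sat_set hg.2), by
      rw [Bool.and_eq_true]; exact ⟨(st_iff DD_lt).2 hg.1.2, (st_iff OH_lt).2 hg.2⟩⟩)
    fun g hg h => by
      rw [Bool.and_eq_true] at h
      exact ⟨⟨hg, (st_iff DD_lt).1 h.1⟩, (st_iff OH_lt).1 h.2⟩

theorem SO_conj {g a : Pm} (hg : g ∈ SO) (ha : a ∈ AH) : g * a * g⁻¹ ∈ AH :=
  ⟨mul_mem (mul_mem hg.1.1 ha.1) (inv_mem hg.1.1), fun p hp => by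
    have : g⁻¹ p ∈ fs OH := by rw [← mem_smul_iff, hg.2]; exact hp
    rw [Equiv.Perm.mul_apply, Equiv.Perm.mul_apply, ha.2 _ this]; simp⟩

theorem AH_le_SO : AH ≤ SO := fun _ h => ⟨M22_le_D2 (AH_le h), smul_eq_of_fix h.2⟩

theorem cent_SO {g : Pm} (hg : g ∈ D2) {a : ℕ} (ha : a < 16) (h0 : a ≠ 0) (e : g * ta a = ta a * g) : g ∈ SO :=
  ⟨hg, by have := smul_fixS_of_commute e; rwa [fixS_ta ha h0] at this⟩

theorem conj_SO {g : Pm} (hg : g ∈ D2) {a : ℕ} (ha : a < 16) (h0 : a ≠ 0) (e : g * ta a * g⁻¹ ∈ AH) : g ∈ SO := by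
  obtain ⟨b, hb, e1⟩ := memAH.1 e
  have b0 : b ≠ 0 := by
    rintro rfl
    rw [ta_zero, conj_eq_one_iff] at e1; exact ta_ne ha h0 e1
  exact ⟨hg, by have := fixS_conj g (ta a); rw [e1, fixS_ta ha h0, fixS_ta hb b0] at this; exact this.symm⟩

theorem cent_AH {g : Pm} (hg : g ∈ D2) (e : ∀ a ∈ AH, g * a = a * g) : g ∈ AH := by
  have c : ∀ a < 16, Sat (pCj (nth TA a) (nth TA a)) (code g) := fun a ha => by
    have := sat_cj (e _ (ta_memA ha)); rwa [code_ta ha] at this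
  exact inA_iff.1 (all24_sound (P := pAnd (pSet DD DD) (pAnd (pCj (nth TA 1) (nth TA 1)) (pAnd (pCj (nth TA 2) (nth TA 2))
    (pAnd (pCj (nth TA 4) (nth TA 4)) (pCj (nth TA 8) (nth TA 8)))))) (k := 0x3ba4b02a811c4a224d2f434d065af5)
    (ki := 0x8811555c4458c3a4927b95ab7b213) (by decide +kernel) hg.1
    ((satD2 hg).and ((c 1 (by norm_num)).and ((c 2 (by norm_num)).and ((c 4 (by norm_num)).and (c 8 (by norm_num)))))))

theorem HR_in : allLt (fun i => in22 (nth HR i)) 77 = true := by decide +kernel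
theorem hr_mem {i : ℕ} (hi : i < 77) : hr i ∈ Spor.M22 := perm_mem22 (allLt_iff.1 HR_in i hi)
theorem code_hr {i : ℕ} (hi : i < 77) : code (hr i) = nth HR i := code_perm22 (allLt_iff.1 HR_in i hi)

theorem exists_hr {g : Pm} (hg : g ∈ D2) : ∃ i < 77, hr i * g ∈ SO := by
  have h0 : fs DD ⊆ g • fs OH := by
    rw [← hg.2]; exact Finset.smul_finset_subset_smul_finset ((fs_subset_iff DD_lt).2 (by decide +kernel))
  obtain ⟨i, hi, e⟩ := famOct.forall (P := fun o => fs DD ⊆ o → ∃ i < 77, hr i • o = fs OH)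
    (p := fun i => force (enc i) fun m => !(Nat.beq (Nat.land DD m) DD) ||
      anyLt (fun j => Nat.beq (apM (nth HR j) m) OH) 77) (by decide +kernel) (fun i hi _ h h1 => by
      rw [force_eq, beq_iff.2 ((fs_subset_iff DD_lt).1 h1), Bool.not_true, Bool.false_or] at h
      obtain ⟨j, hj, e⟩ := anyLt_iff.1 h
      exact ⟨j, hj, by rw [smul_fs_eq_iff _ (enc_lt hi) OH_lt, code_hr hj]; exact beq_iff.1 e⟩)
    _ (smul_mem_octads hg.1 OH_oct) h0
  exact ⟨i, hi, mul_mem (M22_le_D2 (hr_mem hi)) hg, (mul_smul _ _ _).trans e⟩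

theorem oct_eq_of_inv {o : Finset GolayPt} (ho : o ∈ octads) (h : ∀ a ∈ AH, a • o = o) : o = fs OH :=
  famOct.forall (P := fun o => (∀ a ∈ AH, a • o = o) → o = fs OH)
    (p := fun i => force (enc i) fun m => Nat.beq m OH || anyL [1, 2, 4, 8] fun a => !(st (nth TA a) m))
    (by decide +kernel) (fun i hi _ h h1 => by
      rw [force_eq, Bool.or_eq_true, beq_iff, anyL_iff] at h
      rcases h with h | ⟨a, ha, h⟩
      · rw [h]
      · have ha' : a < 16 := by simp at ha; omega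
        rw [← code_ta ha', (st_iff (enc_lt hi)).2 (h1 _ (ta_memA ha'))] at h
        simp at h) _ ho h

/-! ### classes of involutions -/

/-- certificate for the transitivity of the centralizer of `r` on the pairs satisfying `P` -/
def pairOK (r : ℕ) (L : List ℕ) (P : ℕ → ℕ → Bool) : Bool :=
  inM24 r && allL L (fun c => inM24 c && cmC c r) &&
    allLt (fun i => allLt (fun j => !(P i j) || anyL L fun c => Nat.beq (ap c i) 0 && Nat.beq (ap c j) 23) 24) 24

theorem conj_pair {r : ℕ} {L : List ℕ} {P : ℕ → ℕ → Bool} (h : pairOK r L P = true) {g k : Pm} (hk : k ∈ M24)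
    (e : k * g * k⁻¹ = perm r) (hP : P (ix (k (pt 0))) (ix (k (pt 23))) = true) :
    ∃ d ∈ Spor.M22, d * g * d⁻¹ = perm r := by
  simp only [pairOK, Bool.and_eq_true, allL_iff, allLt_iff, Bool.or_eq_true, Bool.not_eq_true', anyL_iff,
    beq_iff] at h
  obtain ⟨c, hc, e1, e2⟩ := (h.2 _ (ix_lt _) _ (ix_lt _)).resolve_left (by rw [hP]; simp)
  obtain ⟨c1, c2⟩ := h.1.2 c hc
  rw [← code_perm' c1, ap_code_ix] at e1 e2
  rw [← code_perm' c1, cmC_iff' h.1.1] at c2
  refine ⟨perm c * k, mem22.2 ⟨mul_mem (perm_mem_M24 c1) hk, ?_, ?_⟩, ?_⟩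
  · rw [Equiv.Perm.mul_apply, eq_pt_iff (by norm_num), e1]
  · rw [Equiv.Perm.mul_apply, eq_pt_iff (by norm_num), e2]
  · rw [show perm c * k * g * (perm c * k)⁻¹ = perm c * (k * g * k⁻¹) * (perm c)⁻¹ by group, e, c2,
      mul_inv_cancel_right]

theorem conj_apply {g k r : Pm} (e : k * g * k⁻¹ = r) (p : GolayPt) : r (k p) = k (g p) := by
  rw [← e]; simp

theorem inv_inner {g : Pm} (hg : g ∈ Spor.M22) (h2 : orderOf g = 2) : ∃ d ∈ Spor.M22, d * g * d⁻¹ = ta 1 := by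
  obtain ⟨g24, g0, g23⟩ := mem22.1 hg
  obtain ⟨k, hk, e⟩ := class_2A g24 h2 (Finset.card_ne_zero.2 ⟨pt 0, Finset.mem_filter.2 ⟨Finset.mem_univ _, g0⟩⟩)
  have e1 : perm 0x8443491666b92ca19ea07ad0c709a9 * k * g * (perm 0x8443491666b92ca19ea07ad0c709a9 * k)⁻¹ = perm (nth TA 1) := by
    rw [← perm_conj (k := 0x8443491666b92ca19ea07ad0c709a9) (a := r2A) (b := nth TA 1) (by decide +kernel), ← e]; group
  have hk' := mul_mem (perm_mem_M24 (c := 0x8443491666b92ca19ea07ad0c709a9) (by decide +kernel)) hk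
  refine conj_pair (L := [
  0x2b4677ba2994ccc0aa0ba0aa8bd880, 0x19a8713a08945690d66d2daec53c80, 0x3da9543e2d9120c0a853b98ae1a560, 
  0xa2ca7b3a6c941a80de261bd49a8880, 0x38ab78be0491909095cca347654d60, 0xa42f533c4e9466d094963a46c52160, 
  0xbccf54bc8c90ace08e30a214d29960, 0x2b0674385092ecd0d533a454f01897, 0xa20a74b9f19184b0a9901cef603495, 
  0x3b29573cc294d36095a4bc54804163, 0x1a68763ad3935e60dd112c2a202c8a, 0xa92974be6690a280aad03b86d03165, 
  0xa36f563d249591008dd1388a604d6a, 0xbb8f56bd11940d30a982a106905965, 0x1da878b92f90a700a96c2980daa097, 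
  0xa3ca78390295a330d5a91ac06bb08a, 0x39a9523d899205108e0ebd81353565, 0x288679b99693e110dcc8a340b52495, 
  0xa44f773ecd94e0608c44ab00852565, 0xa26f58bda8918820aa6c3c0162b963, 0xba0f513dc692624096cda4c101b16a, 
  0x558a313e33925cc09d0d01a90a9177, 0x530a383cc8934960d269044e2bb975, 0x518a34bd84909110d5d005aed3cd74, 
  0x544a36bece942660dc82032a9a2167, 0x536b783a2b9590c095e9008663cc94, 0xac2ea438cc92db609633024efa0883, 
  0xbbd5513910946d309d2d02c6ca1885, 0xa4ca73396d9258f080561a2b054497, 0x1c2876b8cb93116081e22a551bcc95, 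
  0x2c4675b9a692122082cfa32f3ac08a, 0x3c6959bed0939a608128bb0642896a, 0x3c2b763c489588d08271a25461b965, 
  0xa0af5b3e13931c9081063b55119165, 0xb90f583e7693588080c9a38a254563, 0x2b1406bcc49411609dc21c689acd77, 
  0x2d9404be2e90a6c0d090198edba175, 0x54c6033c8d9460e09c562a2eca2575, 0xac540339ab9250209df6bb2902cc83, 
  0x1c0a043c4c912cd0de335268e39975, 0x522e0639f0936cb0d131acca239883, 0xbdaa09b92293e30095a8518eba3083, 
  0x2b80333d10945b30d136512ac38977, 0x2cc0363c899584e0d61152286bb567, 0x290038be629192809dac53af6a4175, 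
  0x558155b92c921b008e2fb9a9338885, 0x2a003b3dcd932040dc4654cf1aa574, 0xaa017139e69452b08ecd54cec2c094, 
  0xbb40a4ba2f91a6c09d70a8a962a083, 0x354323d2c922d00d62e288f3a1977, 0x41439bc51938cd09d882a6a4bd974, 
  0x94343e06912290d2d32b6eeab167, 0x4eaa139769460f0d0cdba0ac3a483, 0x254373db694d820dcc42c2883c575, 
  0x25579bacc93da609e28ac0ab18894, 0x36f533a33925ec0d116508f01ac85])
    (P := fun i j => !(Nat.beq i j) && Nat.beq (ap (nth TA 1) i) i && Nat.beq (ap (nth TA 1) j) j)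
    (by decide +kernel) hk' e1 ?_
  generalize perm 0x8443491666b92ca19ea07ad0c709a9 * k = k' at e1
  simp only [Bool.and_eq_true, Bool.not_eq_true', beq_iff, beq_false_iff]
  rw [← code_ta (a := 1) (by norm_num), ap_code_ix, ap_code_ix]
  exact ⟨⟨fun h => pt0_ne (k'.injective (ix_inj h)), by rw [ta, conj_apply e1, g0]⟩, by rw [ta, conj_apply e1, g23]⟩

theorem rAC_in : inM24 rAC = true := by decide +kernel
theorem code_rA : code rA = rAC := code_perm' rAC_in

theorem inv_outer {g : Pm} (hg : g ∈ D2) (h0 : g ∉ Spor.M22) (h2 : g * g = 1) :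
    ∃ d ∈ Spor.M22, d * g * d⁻¹ = rA ∨ d * g * d⁻¹ = s0 := by
  obtain ⟨g0, g23⟩ := swap_of_not_mem hg h0
  have o2 : orderOf g = 2 := orderOf_eq_prime (by rw [pow_two, h2]) fun e => h0 (e ▸ one_mem _)
  have key : ∀ {k : Pm} {r : ℕ}, inM24 r = true → k * g * k⁻¹ = perm r →
      (!(Nat.beq (ix (k (pt 0))) (ix (k (pt 23)))) && Nat.beq (ap r (ix (k (pt 0)))) (ix (k (pt 23)))) = true := by
    intro k r hr e
    simp only [Bool.and_eq_true, Bool.not_eq_true', beq_iff, beq_false_iff]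
    rw [← code_perm' hr, ap_code_ix]
    exact ⟨fun h => pt0_ne (k.injective (ix_inj h)), by rw [conj_apply e, g0]⟩
  obtain ⟨k, hk, e | e⟩ := class_two hg.1 o2
  · have e1 : perm 0xc6044b90755c662d2d57b59302c52 * k * g * (perm 0xc6044b90755c662d2d57b59302c52 * k)⁻¹ = perm rAC := by
      rw [← perm_conj (k := 0xc6044b90755c662d2d57b59302c52) (a := r2A) (b := rAC) (by decide +kernel), ← e]; group
    obtain ⟨d, hd, e2⟩ := conj_pair (L := [
  0xbaace8452811572691813d0d51be60, 0x9aaa66ddec0da49115103d1c41ac11, 0xa9c47adb14d608b966c3da8618052, 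
  0x629c65b4508d26119532bdaa401de8, 0x9a8966adf0451813953201aaeb8c51, 0x92a8e84d2b61917790403d8b51b621, 
  0x42ad54c61709a4b790023d0ae1b66c, 0x6289613d728d2690143039aae1dda8, 0x62ab68a66291820791773b8b41b608, 
  0x12ab49a62cb9401691123b8d61be0b, 0x5aa954ce12016e86902c3d8ce1be22, 0xa9d49c22041982792eb3d4b61b532, 
  0x8a8d5bb410958281152c391d41adf3, 0x92a84781a98da6c116083d5c61aee1, 0xa89403ee89da3011589399d51adb2, 
  0x29d68c2615944c692483d4d41bd37])
      (P := fun i j => !(Nat.beq i j) && Nat.beq (ap rAC i) j)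
      (by decide +kernel) (mul_mem (perm_mem_M24 (by decide +kernel)) hk) e1 (key rAC_in e1)
    exact ⟨d, hd, Or.inl e2⟩
  · have e1 : perm 0xb8cf4209c1995f15264d5c0d645580 * k * g * (perm 0xb8cf4209c1995f15264d5c0d645580 * k)⁻¹ = perm sC := by
      rw [← perm_conj (k := 0xb8cf4209c1995f15264d5c0d645580) (a := r2B) (b := sC) (by decide +kernel), ← e]; group
    obtain ⟨d, hd, e2⟩ := conj_pair (L := [
  0xb88f545a04184ad9c64c4d1ca79960, 0x65c62834b3b1e8f7188b42a290c815, 0xa89b1740c5b2867ba5047ca930816c, 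
  0x789a551accbce87954894422103963, 0xa89b454ae3b38a733c884c2200cd6c, 0x608e57ce8eb188d84ae988c080a975, 
  0x608f3b9648b254d8d1e68006e09175, 0xa89a4928a6b42e71ce91039090bd6c, 0x608f79bc90b0e8d728a0419310c975, 
  0x608e9199d4b4e0d2200553ef20c575, 0xa89a883877b48c7282349a88f0a56c, 0xa89aaa1269b45e7016501a1c60dd6c, 
  0xabee83396db4a0089cb454d220906c, 0xa89b044533b1007799cabd24508d6c, 0x608ef2dd51b024d41263724d00d175, 
  0x788f575a2a0066d2c28c34904ba563, 0xa89b2251e0b22674dd4e346030956c, 0xa89ae8a00fb512798e12291570996c, 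
  0x608e34822ab5d0d940cfa16640b975, 0x608e602512b162d5387325df40c175, 0x608e030e04b3dcda453794caa0a175, 
  0x63c1112a8eb4137349a42ace80cc75, 0x3006bab50e49e2f84822232d42aaf3, 0x9a589aa11ce47a5a097114c7a177])
      (P := fun i j => !(Nat.beq i j) && Nat.beq (ap sC i) j)
      (by decide +kernel) (mul_mem (perm_mem_M24 (by decide +kernel)) hk) e1 (key sC_in e1)
    exact ⟨d, hd, Or.inr e2⟩

/-! ### the 2-rank -/

theorem card_dvd16 {X : Subgroup Pm} (hX : X ≤ Spor.M22) (h2 : ∀ x ∈ X, x * x = 1) : Nat.card X ∣ 16 := by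
  classical
  letI : Fintype X := Fintype.ofFinite X
  letI : Fintype (Quotient (MulAction.orbitRel X GolayPt)) := Fintype.ofFinite _
  letI : ∀ a : X, Fintype (MulAction.fixedBy GolayPt a) := fun a => Fintype.ofFinite _
  have B := MulAction.sum_card_fixedBy_eq_card_orbits_mul_card_group X GolayPt
  have e : ∀ a : X, Fintype.card (MulAction.fixedBy GolayPt a) = 8 + if a = 1 then 16 else 0 := by
    intro a
    have e1 : Fintype.card (MulAction.fixedBy GolayPt a) = (fixS (a : Pm)).card := by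
      rw [← Set.toFinset_card]; congr 1; ext p; simp [MulAction.mem_fixedBy, Subgroup.smul_def]
    rw [e1]
    split_ifs with h
    · rw [h, show fixS ((1 : X) : Pm) = Finset.univ by ext p; simp, Finset.card_univ, card_golayPt]
    · have o2 : orderOf (a : Pm) = 2 := orderOf_eq_prime (by rw [pow_two, h2 _ a.2]) fun e => h (Subtype.ext e)
      rcases fix_two (M22_le (hX a.2)) o2 with h1 | h1
      · exact (mem_octads.1 h1).2
      · exact absurd (mem22.1 (hX a.2)).2.1 (card_fixS_eq_zero.1 h1 _)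
  simp only [e, Finset.sum_add_distrib, Finset.sum_const, Finset.card_univ, smul_eq_mul, Finset.sum_ite_eq',
    Finset.mem_univ, if_true] at B
  rw [Nat.card_eq_fintype_card]
  exact (Nat.dvd_add_right (Dvd.intro 8 rfl)).1 (B ▸ Dvd.intro_left _ rfl)

theorem card_le16 {X : Subgroup Pm} (hX : X ≤ Spor.M22) (h2 : ∀ x ∈ X, x * x = 1) : Nat.card X ≤ 16 :=
  Nat.le_of_dvd (by norm_num) (card_dvd16 hX h2)

theorem card_le_two_mul {X : Subgroup Pm} (hX : X ≤ D2) : Nat.card X ≤ 2 * Nat.card ↥(Spor.M22 ⊓ X) := by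
  rw [← card_inf_mul_relIndex Spor.M22 X, mul_comm]
  exact Nat.mul_le_mul_right _ (relIndex_D2 ▸ relIndex_le_of_le_right hX (by rw [relIndex_D2]; norm_num))

theorem card_le32 {X : Subgroup Pm} (hX : X ≤ D2) (h2 : ∀ x ∈ X, x * x = 1) : Nat.card X ≤ 32 := by
  exact (card_le_two_mul hX).trans
    (Nat.mul_le_mul_left 2 (card_le16 (X := Spor.M22 ⊓ X) inf_le_left fun x hx => h2 x hx.2))

end CA.J4
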