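import Cfsg.Agent.Lib.J4.Hyp4
import Cfsg.Agent.Lib.J4.Inv
import Cfsg.Agent.Lib.Extra2.Sing

/-!
Calculus in the model `JH` of the involution centralizer.
-/

set_option autoImplicit false
set_option linter.unusedSectionVars false

namespace CA.J4
open Cfsg CA.Gol CA.Ex2 CA.Core Subgroup

variable {G : Type*} [Group G] {E : Subgroup G} {z p s : G} {c : ℕ → G}

open Classical in
/-- the code of an element of `E` -/
noncomputable def cd (c : ℕ → G) (x : G) : ℕ := if h : ∃ a < 8192, c a = x then h.choose else 0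

/-- the vector of an element of `E` -/
noncomputable def wv (c : ℕ → G) (x : G) : ℕ := cd c x % 4096

theorem cd_lt (x : G) : cd c x < 8192 := by
  unfold cd; split_ifs with h
  exacts [h.choose_spec.1, by norm_num]

theorem wv_lt (x : G) : wv c x < 4096 := Nat.mod_lt _ (by norm_num)

/-- inverse of a code -/
def hinv (a : ℕ) : ℕ := Nat.xor a (Nat.shiftLeft (qf a) 12)
theorem hinv_eq (a : ℕ) : hinv a = a ^^^ 4096 * qf a := by rw [hinv, shl12]; rfl

/-- equality of 13 columns -/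
def eq13 (A B : ℕ) : Bool := allLt (fun j => Nat.beq (col A j) (col B j)) 13

theorem eq13_lin {A B : ℕ} (h : eq13 A B = true) {w : ℕ} (hw : w < 8192) : lin A w = lin B w :=
  lin_congr (n := 13) (by norm_num) (fun j hj => beq_iff.1 (allLt_iff.1 h j hj)) hw

theorem eq13_refl (A : ℕ) : eq13 A A = true := allLt_iff.2 fun _ _ => beq_iff.2 rfl

/-- multiplication by `ω ^ j` -/
def omp (j w : ℕ) : ℕ := Nat.rec w (fun _ ih => om ih) j
theorem omp_zero (w : ℕ) : omp 0 w = w := rfl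
theorem omp_succ (j w : ℕ) : omp (j + 1) w = om (omp j w) := rfl
theorem omp_lt (j : ℕ) {w : ℕ} (hw : w < 4096) : omp j w < 4096 := by
  cases j
  exacts [hw, om_lt _]
theorem sim_omp {j : ℕ} (hj : j < 3) (w : ℕ) : sim w (omp j w) := by
  interval_cases j
  exacts [Or.inl rfl, Or.inr (Or.inl rfl), Or.inr (Or.inr rfl)]

theorem sel_lt (r r' t : ℕ) {m : ℕ} (hm : m < 4096) : sel r r' t m < 4096 := by
  have : ∀ (o P : ℕ → ℕ), (∀ x, o x < 4096) → (force m fun m => Bool.rec (motive := fun _ => ℕ) (force (o m) fun m' =>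
      Bool.rec (o m') m' (Nat.beq (P m') t)) m (Nat.beq (P m) t)) < 4096 := by
    intro o P ho
    rw [force_eq, force_eq]
    cases Nat.beq (P m) t
    · cases Nat.beq (P (o m)) t
      exacts [ho _, ho _]
    · exact hm
  exact this om (pr2 r r') om_lt

theorem cns_lt {a0 a1 a2 a3 a4 a5 : ℕ} (h0 : a0 < 4096) (h1 : a1 < 4096) (h2 : a2 < 4096) (h3 : a3 < 4096)
    (h4 : a4 < 4096) (h5 : a5 < 4096) {w : ℕ} (hw : w < 4096) :
    lin (cns a0 (cns a1 (cns a2 (cns a3 (cns a4 (cns a5 4096)))))) w < 4096 := by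
  have l' : ∀ n, om n < 65536 := fun n => (om_lt n).trans (by norm_num)
  have g0 : a0 < 65536 := by omega
  have g1 : a1 < 65536 := by omega
  have g2 : a2 < 65536 := by omega
  have g3 : a3 < 65536 := by omega
  have g4 : a4 < 65536 := by omega
  have g5 : a5 < 65536 := by omega
  refine lin_lt_of (n := 12) (m := 12) (by norm_num) (fun j hj => ?_) hw
  interval_cases j <;>
    simp only [cns, force_eq, col_cons_succ g0, col_cons_succ g1, col_cons_succ g2, col_cons_succ g3, col_cons_succ g4,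
      col_cons_succ g5, col_cons_succ (l' _), col_cons_zero g0, col_cons_zero g1, col_cons_zero g2, col_cons_zero g3,
      col_cons_zero g4, col_cons_zero g5, col_cons_zero (l' _)] <;>
    first | assumption | exact om_lt _

theorem matOf_lt (g : ℕ) {w : ℕ} (hw : w < 4096) : lin (matOf g) w < 4096 := by
  unfold matOf
  simp only [force_eq]
  exact cns_lt (sel_lt _ _ _ (lv_lt _ _)) (sel_lt _ _ _ (lv_lt _ _)) (sel_lt _ _ _ (lv_lt _ _))
    (sel_lt _ _ _ (lv_lt _ _)) (sel_lt _ _ _ (lv_lt _ _)) (sel_lt _ _ _ (lv_lt _ _)) hw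

theorem bf_mod {a b : ℕ} (ha : a < 8192) (hb : b < 8192) : bf a b = bf (a % 4096) (b % 4096) := by
  rw [← bb_bf ha hb, ← bb_bf (a := a % 4096) (by omega) (by omega), bb_mod ha hb, bb_mod hb ha]

theorem xor_mod (a b : ℕ) : (a ^^^ b) % 4096 = a % 4096 ^^^ b % 4096 := Nat.xor_mod_two_pow (n := 12)

theorem xor_cancel {a b c : ℕ} : a ^^^ b = a ^^^ c ↔ b = c :=
  ⟨fun h => by rw [← Nat.xor_xor_cancel_left a b, h, Nat.xor_xor_cancel_left], fun h => by rw [h]⟩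

theorem hmul_z {a : ℕ} (ha : a < 8192) : hmul a 4096 = a ^^^ 4096 := by
  rw [hmul_eq, bb_mod ha (by norm_num), bil_zero_right, mul_zero, Nat.xor_zero]

/-- `h` acts on `E / ⟨z⟩` by `f` -/
def Wm (E : Subgroup G) (c : ℕ → G) (h : G) (f : ℕ → ℕ) : Prop := ∀ x ∈ E, wv c (h * x * h⁻¹) = f (wv c x)

theorem Act.congr {k : G} {M M' d : ℕ} (a : Act c k M d) (e : eq13 M M' = true) : Act c k M' d := by
  intro n hn
  have : hact M' d n = hact M d n := by rw [hact_eq, hact_eq, eq13_lin e hn]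
  rw [this]; exact a n hn

theorem act_one : Act c 1 I13 0 := fun n hn => by
  rw [hact_zero, lin_I13 hn]; exact ⟨hn, by simp⟩

namespace JH
variable [Finite G] {π : ↥𝐂[z] →* Pm} (h : JH z p s E π c)
include h

theorem ez : EZ E z := h.lq.ez
theorem zz : z * z = 1 := h.ez.sq
theorem c_mem {a : ℕ} (ha : a < 8192) : c a ∈ E := (h.mem_E _).2 ⟨a, ha, rfl⟩

theorem c_cd {x : G} (hx : x ∈ E) : c (cd c x) = x := by
  have := (h.mem_E x).1 hx
  unfold cd; rw [dif_pos this]; exact this.choose_spec.2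

theorem cd_c {a : ℕ} (ha : a < 8192) : cd c (c a) = a := h.c_inj _ (cd_lt _) _ ha (h.c_cd (h.c_mem ha))
theorem wv_c {a : ℕ} (ha : a < 8192) : wv c (c a) = a % 4096 := by rw [wv, h.cd_c ha]
theorem wv_c' {a : ℕ} (ha : a < 4096) : wv c (c a) = a := by rw [h.wv_c (by omega), Nat.mod_eq_of_lt ha]

theorem c_zero : c 0 = 1 := by
  have := h.c_mul 0 (by norm_num) 0 (by norm_num)
  rw [show hmul 0 0 = 0 by decide +kernel] at this
  exact left_eq_mul.1 this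

theorem cd_mul {x y : G} (hx : x ∈ E) (hy : y ∈ E) : cd c (x * y) = hmul (cd c x) (cd c y) := by
  conv_lhs => rw [← h.c_cd hx, ← h.c_cd hy, ← h.c_mul _ (cd_lt _) _ (cd_lt _), h.cd_c (hmul_lt (cd_lt _) (cd_lt _))]

theorem wv_mul {x y : G} (hx : x ∈ E) (hy : y ∈ E) : wv c (x * y) = wv c x ^^^ wv c y := by
  rw [wv, h.cd_mul hx hy, hmul_eq, xor_mul_mod, xor_mod]; rfl

theorem c_xor_z {a : ℕ} (ha : a < 8192) : c (a ^^^ 4096) = c a * z := by
  rw [← hmul_z ha, h.c_mul a ha _ (by norm_num), h.c_z]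

theorem wv_z : wv c z = 0 := by rw [← h.c_z, h.wv_c (by norm_num)]
theorem wv_one : wv c 1 = 0 := by rw [← h.c_zero, h.wv_c (by norm_num)]
theorem wv_mul_z {x : G} (hx : x ∈ E) : wv c (x * z) = wv c x := by
  rw [h.wv_mul hx h.ez.mem, h.wv_z, Nat.xor_zero]

theorem eq_c_or {x : G} (hx : x ∈ E) : x = c (wv c x) ∨ x = c (wv c x) * z := by
  have e := split13 (cd_lt (c := c) x)
  have : cd c x / 4096 < 2 := by have := cd_lt (c := c) x; omega
  rw [← h.c_xor_z ((wv_lt x).trans (by norm_num))]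
  conv => enter [1, 1]; rw [← h.c_cd hx, e]
  conv => enter [2, 1]; rw [← h.c_cd hx, e]
  interval_cases cd c x / 4096
  · left; rw [mul_zero, Nat.xor_zero]; rfl
  · right; rfl

theorem eq_or {x y : G} (hx : x ∈ E) (hy : y ∈ E) (e : wv c x = wv c y) : y = x ∨ y = x * z := by
  rcases h.eq_c_or hx with a | a <;> rcases h.eq_c_or hy with b | b <;> rw [← e] at b
  · left; rw [b, ← a]
  · right; rw [b, ← a]
  · right; rw [b]; nth_rewrite 2 [a]; rw [mul_assoc, h.zz, mul_one]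
  · left; rw [b, ← a]

theorem wv_eq_zero {x : G} (hx : x ∈ E) : wv c x = 0 ↔ x ∈ zpowers z := by
  rw [h.ez.mem_zp]
  refine ⟨fun e => by simpa using h.eq_or (one_mem _) hx (by rw [e, h.wv_one]), ?_⟩
  rintro (rfl | rfl)
  exacts [h.wv_one, h.wv_z]

theorem cd_inj {x y : G} (hx : x ∈ E) (hy : y ∈ E) (e : cd c x = cd c y) : x = y := by
  rw [← h.c_cd hx, e, h.c_cd hy]

theorem comm_iff {x y : G} (hx : x ∈ E) (hy : y ∈ E) : x * y = y * x ↔ bf (wv c x) (wv c y) = 0 := by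
  rw [wv, wv, ← bf_mod (cd_lt _) (cd_lt _), ← bb_bf (cd_lt _) (cd_lt _), Nat.xor_eq_zero_iff]
  constructor
  · intro e
    have := congrArg (cd c) e
    rw [h.cd_mul hx hy, h.cd_mul hy hx, hmul_eq, hmul_eq, Nat.xor_comm (cd c y), xor_cancel] at this
    omega
  · intro e
    exact h.cd_inj (mul_mem hx hy) (mul_mem hy hx) (by
      rw [h.cd_mul hx hy, h.cd_mul hy hx, hmul_eq, hmul_eq, Nat.xor_comm (cd c y), e])

theorem sq_iff {x : G} (hx : x ∈ E) : x * x = 1 ↔ qf (wv c x) = 0 := by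
  rw [wv, qf_mod, qf_eq (cd_lt _)]
  have e : cd c (x * x) = 4096 * bil BB (cd c x) (cd c x) := by
    rw [h.cd_mul hx hx, hmul_eq, Nat.xor_self, Nat.zero_xor]
  constructor
  · intro e1
    rw [e1, ← h.c_zero, h.cd_c (by norm_num)] at e; omega
  · intro e1
    rw [← h.c_cd (mul_mem hx hx), e, e1, mul_zero, h.c_zero]

theorem wv_inv {x : G} (hx : x ∈ E) : wv c x⁻¹ = wv c x := by
  have := h.wv_mul (inv_mem hx) hx
  rw [inv_mul_cancel, h.wv_one] at this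
  exact Nat.xor_eq_zero_iff.1 this.symm

theorem c_inv {a : ℕ} (ha : a < 8192) : hinv a < 8192 ∧ (c a)⁻¹ = c (hinv a) := by
  have q := qf_lt a
  have l : hinv a < 8192 := by rw [hinv_eq]; exact xor13 ha (by omega)
  refine ⟨l, ?_⟩
  rw [inv_eq_iff_mul_eq_one, ← h.c_mul a ha _ l, ← h.c_zero, hmul_eq, bb_mod ha l, hinv_eq, xor_mul_mod, ← bb_mod ha ha,
    ← qf_eq ha, Nat.xor_xor_cancel_left, Nat.xor_self]

theorem fam : Fam (E : Set G) c (fun _ => true) 8192 :=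
  ⟨fun _ hi _ => h.c_mem hi, fun x hx => ⟨_, cd_lt x, rfl, h.c_cd hx⟩, fun i hi j hj _ _ e => h.c_inj i hi j hj e⟩

theorem card_eq_count {S : Subgroup G} (hS : S ≤ E) {P : ℕ → Bool} (hP : ∀ a < 8192, c a ∈ S ↔ P a = true) :
    Nat.card S = countLt (fun a => true && P a) 8192 := by
  rw [← h.fam.ncard (P := (· ∈ S)) fun a ha _ => hP a ha]
  show (S : Set G).ncard = _
  congr 1; ext x; exact ⟨fun hx => ⟨hS hx, hx⟩, fun hx => hx.2⟩

theorem card_le_count {S : Subgroup G} (hS : S ≤ E) {P : ℕ → Bool} (hP : ∀ x ∈ S, P (cd c x) = true) :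
    Nat.card S ≤ countLt (fun a => true && P a) 8192 := by
  rw [← h.fam.ncard (P := fun x => P (cd c x) = true) fun a ha _ => by rw [h.cd_c ha]]
  exact Set.ncard_le_ncard (s := (S : Set G)) (fun x hx => ⟨hS hx, hP x hx⟩) (Set.toFinite _)

theorem card_E : Nat.card E = 8192 :=
  (h.card_eq_count le_rfl (P := fun _ => true) fun _ ha => ⟨fun _ => rfl, fun _ => h.c_mem ha⟩).trans
    (by decide +kernel)

theorem j0 : J0 z p E π := by
  refine ⟨h.lq, h.oP_eq, h.card_E, h.p_ord, h.p_mem, h.range, h.ker, ?_, s, h.s_mem,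
    mem_normalizer_iff_cj.2 (by rw [cj_zpowers, h.s_p, zpowers_inv]), fun e => ?_⟩
  · refine le_antisymm (fun x hx => ?_) (le_inf h.ez.zp_le (zpowers_le.2 (mem_cent1_comm.1 h.p_mem)))
    have e := (h.p_act _ (cd_lt (c := c) x)).2
    rw [h.c_cd hx.1, conj_eq_iff_mem_cent1.2 (mem_cent1_comm.1 hx.2)] at e
    have e1 := congrArg (cd c) e
    rw [h.cd_c (h.p_act _ (cd_lt x)).1, hact_zero] at e1
    have : allLt (fun n => !(Nat.beq n (lin OM n)) || Nat.beq (Nat.mod n 4096) 0) 8192 = true := by decide +kernel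
    have := allLt_iff.1 this _ (cd_lt (c := c) x)
    rw [beq_iff.2 e1, Bool.not_true, Bool.false_or, beq_iff] at this
    exact (h.wv_eq_zero hx.1).1 this
  · have e1 := h.s_p
    rw [conj_eq_iff_mem_cent1.2 e, eq_inv_iff_mul_eq_one, ← pow_two, ← orderOf_dvd_iff_pow_eq_one, h.p_ord] at e1
    norm_num at e1

theorem E_le : E ≤ 𝐂[z] := h.j0.E_le
theorem nE {k : G} (hk : k ∈ 𝐂[z]) : k ∈ 𝐍(E) := h.lq.le_norm hk
theorem cjE {k x : G} (hk : k ∈ 𝐂[z]) (hx : x ∈ E) : k * x * k⁻¹ ∈ E := conj_mem_of_mem_normalizer (h.nE hk) hx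
theorem pi_E {e : G} (he : e ∈ E) : pel π e = 1 := h.j0.pi_E he
theorem pi_p : pel π p = 1 := h.j0.pi_p
theorem pi_z : pel π z = 1 := h.pi_E h.ez.mem
theorem pi_mem {x : G} (hx : x ∈ 𝐂[z]) : pel π x ∈ D2 := h.j0.pi_mem hx
theorem p_C : p ∈ 𝐂[z] ⊓ 𝐂[p] := ⟨h.p_mem, self_mem_cent1 p⟩
theorem z_C : z ∈ 𝐂[z] ⊓ 𝐂[p] := ⟨self_mem_cent1 z, h.j0.z_p⟩
theorem conj_z {k : G} (hk : k ∈ 𝐂[z]) : k * z * k⁻¹ = z := conj_eq_iff_mem_cent1.2 hk

theorem card_H : Nat.card 𝐂[z] = 8192 * 3 * 887040 := by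
  rw [← card_pmap_mul π le_rfl, inf_eq_left.2 (show pker π ≤ _ from pcomap_le_dom _ _), pmap_dom, h.range, h.ker, card_D2,
    card_sup_of_disjoint (Or.inl h.j0.P_norm) h.j0.inf_P, h.card_E, Nat.card_zpowers, h.p_ord]

/-! ### actions -/

theorem act_qf {k : G} {M d : ℕ} (a : Act c k M d) {n : ℕ} (hn : n < 8192) : qf (hact M d n) = qf n := by
  have e1 := h.sq_iff (h.c_mem hn)
  have e2 := h.sq_iff (h.c_mem (a n hn).1)
  rw [h.wv_c hn, qf_mod] at e1
  rw [h.wv_c (a n hn).1, qf_mod, ← (a n hn).2, conj_mul, conj_eq_one_iff, e1] at e2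
  have := qf_lt n
  have := qf_lt (hact M d n)
  omega

theorem act_z {k : G} (hk : k ∈ 𝐂[z]) {M d : ℕ} (a : Act c k M d) : lin M 4096 = 4096 := by
  have e := a 4096 (by norm_num)
  rw [h.c_z, h.conj_z hk, ← h.c_z] at e
  have := h.c_inj _ (by norm_num) _ e.1 e.2
  rw [hact_eq, show qf 4096 = 0 by decide +kernel, Nat.and_zero, mul_zero, Nat.xor_zero] at this
  exact this.symm

theorem act_lt {k : G} {M d : ℕ} (a : Act c k M d) {n : ℕ} (hn : n < 8192) : lin M n < 8192 := by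
  have e := (a n hn).1
  have q : d &&& qf n < 2 := lt_of_le_of_lt Nat.and_le_right (qf_lt n)
  have := xor13 e (show 4096 * (d &&& qf n) < 8192 by omega)
  rwa [hact_eq, Nat.xor_xor_cancel_right] at this

theorem act_mul {k k' : G} (hk : k ∈ 𝐂[z]) {M M' d d' : ℕ} (a : Act c k M d) (a' : Act c k' M' d') :
    Act c (k * k') (mm M M') (d ^^^ d') := by
  intro n hn
  have q : d' &&& qf n < 2 := lt_of_le_of_lt Nat.and_le_right (qf_lt n)
  have e : hact (mm M M') (d ^^^ d') n = hact M d (hact M' d' n) := by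
    rw [hact_eq M, h.act_qf a' hn, hact_eq, hact_eq, lin_mm M (fun j hj => by
      rw [← lin_pow M' (by omega)]
      exact (h.act_lt a' (Nat.pow_lt_pow_right (by norm_num) hj)).trans (by norm_num)) hn,
      lin_xor13 M (h.act_lt a' hn) (by omega), Nat.xor_assoc, xor_cancel, Nat.and_xor_distrib_right]
    have q' : d &&& qf n < 2 := lt_of_le_of_lt Nat.and_le_right (qf_lt n)
    generalize d &&& qf n = u at *
    generalize d' &&& qf n = v at *
    interval_cases v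
    · rw [mul_zero, lin_zero, Nat.xor_zero, Nat.zero_xor]
    · rw [mul_one, h.act_z hk a]; interval_cases u <;> rfl
  rw [e]
  exact ⟨(a _ (a' n hn).1).1, by rw [← (a _ (a' n hn).1).2, ← (a' n hn).2]; group⟩

theorem act_mul0 {k k' : G} (hk : k ∈ 𝐂[z]) {M M' N : ℕ} (a : Act c k M 0) (a' : Act c k' M' 0)
    (e : eq13 (mm M M') N = true) : Act c (k * k') N 0 := (h.act_mul hk a a').congr e

theorem act_mul_z {k : G} {M d : ℕ} (a : Act c k M d) : Act c (k * z) M d := fun n hn =>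
  ⟨(a n hn).1, by
    rw [← (a n hn).2, show k * z * c n * (k * z)⁻¹ = k * (z * c n * z⁻¹) * k⁻¹ by group, ← h.ez.comm (h.c_mem hn),
      mul_inv_cancel_right]⟩

theorem act_eq {k k' : G} {M d : ℕ} (a : Act c k M d) (a' : Act c k' M d) : k' = k ∨ k' = k * z := by
  have : k⁻¹ * k' ∈ 𝐂(E) := mem_cent_iff.2 fun x hx => by
    obtain ⟨n, hn, rfl⟩ := (h.mem_E x).1 hx
    have := (a n hn).2.trans (a' n hn).2.symm
    calc c n * (k⁻¹ * k') = k⁻¹ * (k * c n * k⁻¹) * k' := by group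
      _ = _ := by rw [this]; group
  rw [h.lq.cent_eq, h.ez.mem_zp] at this
  rcases this with e | e
  · left; exact (inv_mul_eq_one.1 e).symm
  · right; rw [← e]; group

theorem act_triv {k : G} (a : Act c k I13 0) : k ∈ zpowers z := by
  rw [h.ez.mem_zp]; simpa using h.act_eq act_one a

theorem exists_lift {g : Pm} (hg : g ∈ Spor.M22) {M : ℕ}
    (e : (eq13 (matOf (code g)) M || eq13 (mm OM (matOf (code g))) M ||
      eq13 (mm OM (mm OM (matOf (code g)))) M) = true) : ∃ k ∈ 𝐂[z] ⊓ 𝐂[p], pel π k = g ∧ Act c k M 0 := by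
  obtain ⟨k, hk, e1, a⟩ := h.lift g hg
  have st : ∀ {k}, k ∈ 𝐂[z] ⊓ 𝐂[p] → pel π (p * k) = pel π k := fun hk => by
    rw [pel_mul _ h.p_mem hk.1, h.pi_p, one_mul]
  simp only [Bool.or_eq_true] at e
  rcases e with (e | e) | e
  · exact ⟨k, hk, e1, a.congr e⟩
  · exact ⟨p * k, mul_mem h.p_C hk, (st hk).trans e1, h.act_mul0 h.p_mem h.p_act a e⟩
  · exact ⟨p * (p * k), mul_mem h.p_C (mul_mem h.p_C hk), (st (mul_mem h.p_C hk)).trans ((st hk).trans e1),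
      h.act_mul0 h.p_mem h.p_act (h.act_mul0 h.p_mem h.p_act a (eq13_refl _)) e⟩

theorem wm_act {k : G} (hk : k ∈ 𝐂[z]) {M d : ℕ} (a : Act c k M d) (hM : ∀ w < 4096, lin M w < 4096) :
    Wm E c k (lin M) := by
  intro x hx
  have l := wv_lt (c := c) x
  have e : wv c (k * c (wv c x) * k⁻¹) = lin M (wv c x) := by
    rw [(a _ (by omega)).2, h.wv_c (a _ (by omega)).1, hact_eq, xor_mul_mod, Nat.mod_eq_of_lt (hM _ l)]
  rcases h.eq_c_or hx with e1 | e1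
  · conv_lhs => rw [e1]
    exact e
  · conv_lhs => rw [e1]
    rw [← conj_mul, h.conj_z hk, h.wv_mul_z (h.cjE hk (h.c_mem (by omega))), e]

theorem wm_mul {k k' : G} (hk' : k' ∈ 𝐂[z]) {f f' : ℕ → ℕ} (a : Wm E c k f) (a' : Wm E c k' f') :
    Wm E c (k * k') fun w => f (f' w) := fun x hx => by
  show _ = f (f' (wv c x))
  rw [← a' x hx, ← a _ (h.cjE hk' hx)]; congr 1; group

theorem wm_E {e : G} (he : e ∈ E) : Wm E c e fun w => w := fun x hx => by
  rw [h.wv_mul (mul_mem he hx) (inv_mem he), h.wv_mul he hx, h.wv_inv he, Nat.xor_comm (wv c e), Nat.xor_assoc,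
    Nat.xor_self, Nat.xor_zero]

theorem wm_p : Wm E c p om := fun x hx => by
  rw [h.wm_act h.p_mem h.p_act (fun _ => OM_lt) x hx, om_eq (wv_lt x)]

theorem wm_pow (j : ℕ) : Wm E c (p ^ j) (omp j) := by
  induction j with
  | zero => intro x hx; simp [omp_zero]
  | succ j ih => rw [pow_succ']; exact h.wm_mul (f := om) (f' := omp j) (pow_mem h.p_mem j) h.wm_p ih

theorem dec {x k : G} (hx : x ∈ 𝐂[z]) (hk : k ∈ 𝐂[z]) (e : pel π x = pel π k) :
    ∃ e ∈ E, ∃ j < 3, x = e * p ^ j * k := by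
  have := (pel_eq_iff π hx hk).1 e
  rw [h.ker] at this
  obtain ⟨e, he, q, hq, e1⟩ := (mem_sup_of_norm_right h.j0.P_norm).1 this
  obtain ⟨j, hj, rfl⟩ := exists_pow_lt hq
  exact ⟨e, he, j, h.p_ord ▸ hj, by rw [e1]; group⟩

theorem wm_of {x k : G} (hx : x ∈ 𝐂[z]) (hk : k ∈ 𝐂[z]) (e : pel π x = pel π k) {f : ℕ → ℕ} (a : Wm E c k f) :
    ∃ j < 3, Wm E c x fun w => omp j (f w) := by
  obtain ⟨e, he, j, hj, rfl⟩ := h.dec hx hk e
  exact ⟨j, hj, h.wm_mul (f := omp j) hk (h.wm_mul (f := fun w => w) (f' := omp j) (pow_mem h.p_mem j) (h.wm_E he)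
    (h.wm_pow j)) a⟩

theorem wm_inner {x : G} (hx : x ∈ 𝐂[z]) (hg : pel π x ∈ Spor.M22) :
    ∃ j < 3, Wm E c x fun w => omp j (lin (matOf (code (pel π x))) w) := by
  obtain ⟨k, hk, e, a⟩ := h.lift _ hg
  exact h.wm_of hx hk.1 e.symm (h.wm_act hk.1 a fun _ => matOf_lt _)

theorem wm_outer {x : G} (hx : x ∈ 𝐂[z]) (hg : pel π x ∉ Spor.M22) :
    ∃ j < 3, Wm E c x fun w => omp j (lin SN (lin (matOf (code (s0 * pel π x))) w)) := by
  obtain ⟨k, hk, e, a⟩ := h.lift _ ((mem_or_D2 (h.pi_mem hx)).resolve_left hg)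
  exact h.wm_of hx (mul_mem h.s_mem hk.1) (by rw [pel_mul _ h.s_mem hk.1, h.s_pi, e, ← mul_assoc, s0_sq, one_mul])
    (h.wm_mul hk.1 (h.wm_act h.s_mem h.s_act fun _ => SN_lt) (h.wm_act hk.1 a fun _ => matOf_lt _))

theorem om_inner {x : G} (hx : x ∈ 𝐂[z]) (hg : pel π x ∈ Spor.M22) {y : G} (hy : y ∈ E) :
    wv c (x * (p * y * p⁻¹) * x⁻¹) = om (wv c (x * y * x⁻¹)) := by
  obtain ⟨k, hk, e0, -⟩ := h.lift _ hg
  obtain ⟨e, he, j, -, rfl⟩ := h.dec hx hk.1 e0.symm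
  have hk' := mul_mem (pow_mem h.p_C j) hk
  rw [mul_assoc e]
  clear hx hg e0
  generalize p ^ j * k = k at *
  rw [show e * k * (p * y * p⁻¹) * (e * k)⁻¹ = e * ((k * p * k⁻¹) * (k * y * k⁻¹) * (k * p * k⁻¹)⁻¹) * e⁻¹ by group,
    show e * k * y * (e * k)⁻¹ = e * (k * y * k⁻¹) * e⁻¹ by group, conj_eq_iff_mem_cent1.2 hk'.2,
    h.wm_E he _ (h.cjE h.p_mem (h.cjE hk'.1 hy)), h.wm_E he _ (h.cjE hk'.1 hy), h.wm_p _ (h.cjE hk'.1 hy)]

theorem om_outer {x : G} (hx : x ∈ 𝐂[z]) (hg : pel π x ∉ Spor.M22) {y : G} (hy : y ∈ E) :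
    wv c (x * (p * y * p⁻¹) * x⁻¹) = om (om (wv c (x * y * x⁻¹))) := by
  obtain ⟨k, hk, e0, -⟩ := h.lift _ ((mem_or_D2 (h.pi_mem hx)).resolve_left hg)
  obtain ⟨e, he, j, -, rfl⟩ := h.dec hx (mul_mem h.s_mem hk.1)
    (by rw [pel_mul _ h.s_mem hk.1, h.s_pi, e0, ← mul_assoc, s0_sq, one_mul])
  have hk' : p ^ j * (s * k) ∈ 𝐂[z] := mul_mem (pow_mem h.p_mem j) (mul_mem h.s_mem hk.1)
  have pi : p⁻¹ = p * p := by rw [inv_eq_iff_mul_eq_one, ← p3 h.p_ord, pow_succ', pow_two]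
  have e1 : p ^ j * (s * k) * p * (p ^ j * (s * k))⁻¹ = p * p := by
    rw [show p ^ j * (s * k) * p * (p ^ j * (s * k))⁻¹ = p ^ j * (s * (k * p * k⁻¹) * s⁻¹) * (p ^ j)⁻¹ by group,
      conj_eq_iff_mem_cent1.2 hk.2, h.s_p, ← pi]; group
  rw [mul_assoc e]
  clear hx hg e0
  generalize p ^ j * (s * k) = k at *
  rw [show e * k * (p * y * p⁻¹) * (e * k)⁻¹ = e * ((k * p * k⁻¹) * (k * y * k⁻¹) * (k * p * k⁻¹)⁻¹) * e⁻¹ by group,
    show e * k * y * (e * k)⁻¹ = e * (k * y * k⁻¹) * e⁻¹ by group, e1,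
    h.wm_E he _ (h.cjE (mul_mem h.p_mem h.p_mem) (h.cjE hk' hy)), h.wm_E he _ (h.cjE hk' hy),
    h.wm_mul h.p_mem h.wm_p h.wm_p _ (h.cjE hk' hy)]

/-! ### 2-elements -/

theorem mem_E_of_sq {x : G} (hx : x ∈ 𝐂[z]) (e0 : pel π x = 1) (e2 : x * x ∈ E) : x ∈ E := by
  obtain ⟨e, he, j, hj, rfl⟩ := h.dec hx (one_mem _) (e0.trans (pel_one π).symm)
  rw [mul_one] at *
  rw [show e * p ^ j * (e * p ^ j) = e * (p ^ j * e * (p ^ j)⁻¹) * p ^ (2 * j) by group,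
    Subgroup.mul_mem_cancel_left _ (mul_mem he (h.cjE (pow_mem h.p_mem j) he))] at e2
  have : p ^ (2 * j) ∈ E ⊓ zpowers p := ⟨e2, pow_mem (mem_zpowers p) _⟩
  rw [h.j0.inf_P, mem_bot, ← orderOf_dvd_iff_pow_eq_one, h.p_ord] at this
  obtain rfl : j = 0 := by omega
  simpa using he

theorem lift_unique {x k : G} (hx : x ∈ 𝐂[z] ⊓ 𝐂[p]) (hk : k ∈ 𝐂[z] ⊓ 𝐂[p]) (e : pel π x = pel π k)
    (h1 : x * x ∈ zpowers z) (h2 : k * k ∈ zpowers z) : x = k ∨ x = k * z := by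
  obtain ⟨a, ha, b, hb, e1⟩ := h.j0.ker_K (h.j0.C_le (mul_mem (inv_mem hk) hx)) (by
    rw [pel_mul _ (inv_mem hk.1) hx.1, pel_inv _ hk.1, e, inv_mul_cancel])
  rw [inv_mul_eq_iff_eq_mul] at e1
  have c1 := h.j0.comm_zp hk a b
  have c2 : Commute (z ^ a) (p ^ b) := (show Commute z p from mem_cent1_iff.1 h.j0.z_p).pow_pow a b
  have e2 : x * x = k * k * (z ^ a) ^ 2 * p ^ (2 * b) := by
    rw [← pow_two, e1, c1.mul_pow, c2.mul_pow, pow_two k, mul_comm 2 b, pow_mul, mul_assoc (k * k)]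
  rw [e2, Subgroup.mul_mem_cancel_left _ (mul_mem h2 (pow_mem (pow_mem (mem_zpowers z) a) 2))] at h1
  have : p ^ (2 * b) ∈ E ⊓ zpowers p := ⟨h.ez.zp_le h1, pow_mem (mem_zpowers p) _⟩
  rw [h.j0.inf_P, mem_bot, ← orderOf_dvd_iff_pow_eq_one, h.p_ord] at this
  obtain rfl : b = 0 := by omega
  interval_cases a
  · left; simpa using e1
  · right; simpa using e1

theorem pmap_le (X : Subgroup G) : pmap π X ≤ D2 := h.range ▸ pmap_le_range π X

theorem pmap_sq {X : Subgroup G} (hX : X ≤ 𝐂[z]) (h2 : ∀ x ∈ X, x * x = 1) : ∀ g ∈ pmap π X, g * g = 1 := by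
  intro g hg
  obtain ⟨x, hx, rfl⟩ := (mem_pmap_of_le hX).1 hg
  rw [← pel_mul _ (hX hx) (hX hx), h2 x hx, pel_one]

theorem card_elem {X : Subgroup G} (hX : X ≤ 𝐂[z]) (h2 : ∀ x ∈ X, x * x = 1) :
    Nat.card X = Nat.card ↥(E ⊓ X) * Nat.card (pmap π X) := by
  rw [← card_pmap_mul π hX]
  congr 3
  ext x
  exact ⟨fun hx => ⟨h.mem_E_of_sq (hX hx.2) (mem_pker.1 hx.1).2 (by rw [h2 x hx.2]; exact one_mem _), hx.2⟩,
    fun hx => ⟨mem_pker.2 ⟨hX hx.2, h.pi_E hx.1⟩, hx.2⟩⟩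

theorem card_elem_le {X : Subgroup G} (hX : X ≤ 𝐂[z]) (h2 : ∀ x ∈ X, x * x = 1) :
    Nat.card X ≤ Nat.card ↥(E ⊓ X) * 32 := by
  rw [h.card_elem hX h2]
  exact Nat.mul_le_mul_left _ (card_le32 (h.pmap_le X) (h.pmap_sq hX h2))

theorem card_le128 {X : Subgroup G} (hX : X ≤ E) (hz : z ∈ X) (h2 : ∀ x ∈ X, x * x = 1) : Nat.card X ≤ 128 := by
  have e := h.ez.card_mul_card_cent hz hX
  have : Nat.card X ≤ Nat.card ↥(E ⊓ 𝐂(X)) := card_le_of_le (le_inf hX (le_centralizer_iff_isMulCommutative.2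
    (abelian_of_sq h2)))
  rw [h.card_E] at e
  by_contra hc
  push Not at hc
  nlinarith

end JH

end CA.J4
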