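import Cfsg.Agent.Lib.J4.MFus
import Cfsg.Agent.Lib.J4.Inv
import Cfsg.Agent.Lib.Extra2.Affine

/-!
The centralizer of a duad involution lies in `N(V) = 2^11 : M24`.
-/

set_option autoImplicit false
set_option linter.unusedSectionVars false

namespace CA.J4
open Cfsg CA.Gol CA.Ex2 CA.XS Subgroup
open scoped Pointwise

variable {G : Type*} [Group G]

theorem dih_conj {a b : G} (ha : a * a = 1) (hb : b * b = 1) (m : ℤ) : ∃ k ∈ zpowers (a * b),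
    (a * b) ^ m * a = k * a * k⁻¹ ∨ (a * b) ^ m * a = k * b * k⁻¹ := by
  have e : ∀ k : ℤ, a * ((a * b) ^ k)⁻¹ = (a * b) ^ k * a := fun k => by
    have : a * (a * b)⁻¹ * a⁻¹ = a * b := by
      rw [mul_inv_rev, inv_eq_of_mul_eq_one_right ha, inv_eq_of_mul_eq_one_right hb, ← mul_assoc, mul_assoc, ha, mul_one]
    rw [← inv_zpow, ← mul_inv_eq_iff_eq_mul, ← conj_zpow, this]
  have eb : b = (a * b) ^ (-1 : ℤ) * a := by
    rw [zpow_neg_one, eq_inv_mul_iff_mul_eq, mul_assoc, hb, mul_one]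
  obtain ⟨k, rfl | rfl⟩ := Int.even_or_odd' m
  · exact ⟨_, ⟨k, rfl⟩, Or.inl (by rw [mul_assoc, e, ← mul_assoc, ← zpow_add, two_mul])⟩
  · refine ⟨_, ⟨k + 1, rfl⟩, Or.inr ?_⟩
    conv_rhs => rw [mul_assoc]; enter [2, 1]; rw [eb]
    rw [mul_assoc, e, ← mul_assoc, ← mul_assoc, ← zpow_add, ← zpow_add]
    congr 2; ring

namespace MM
variable [Finite G] {V : Subgroup G} {ν : Finset GolayPt → G} {κ : M24 →* G} (h : MM V ν κ)
include h

theorem nu_tri {a b c : GolayPt} (hb : b ≠ a) (hc : c ≠ a) (e : b ≠ c) : ν {a, b} * ν {a, c} = ν {b, c} := by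
  rw [← h.todd.mul _ _ (even_pair hb.symm) (even_pair hc.symm), pair_symmDiff hb hc e]

theorem nu_tet {a b c d : GolayPt} (h1 : a ≠ b) (h2 : c ≠ d) (h3 : a ≠ c) (h4 : a ≠ d) (h5 : b ≠ c) (h6 : b ≠ d) :
    ∃ s, s.card = 4 ∧ ν s = ν {a, b} * ν {c, d} := by
  refine ⟨_, ?_, h.todd.mul _ _ (even_pair h1) (even_pair h2)⟩
  have : Disjoint ({a, b} : Finset GolayPt) {c, d} := by simp [h3.symm, h4.symm, h5.symm, h6.symm]
  rw [this.symmDiff_eq_sup, Finset.sup_eq_union, Finset.card_union_of_disjoint this,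
    Finset.card_pair h1, Finset.card_pair h2]

theorem comm_pair {w : G} (hw : w ∈ 𝐍(V)) {p q : GolayPt} (e : p ≠ q) :
    ν {p, q} ∈ 𝐂[w] ↔ ({pel h.mu w p, pel h.mu w q} : Finset GolayPt) = {p, q} := by
  rw [mem_cent1_iff, eq_comm, ← mul_inv_eq_iff_eq_mul, h.acts_mu hw _ (even_pair e), smul_pair,
    h.todd.pair_eq_iff ((pel h.mu w).injective.ne e) e]

theorem card_V_inv {x : G} (hx : x ∈ 𝐍(V)) (h2 : x * x = 1) (hV : x ∉ V) : 64 ≤ Nat.card ↥(V ⊓ 𝐂[x]) ∧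
    ((fixS (pel h.mu x)).card ≠ 0 → Nat.card ↥(V ⊓ 𝐂[x]) = 128) := by
  have : Fact (Nat.Prime 2) := ⟨Nat.prime_two⟩
  have o : orderOf (pel h.mu x) = 2 := orderOf_eq_prime (by rw [sq, ← pel_mul _ hx hx, h2, pel_one])
    fun e => hV (h.ker_mu ▸ mem_pker.2 ⟨hx, e⟩)
  have key : ∀ k ∈ M24, ∀ r, k * pel h.mu x * k⁻¹ = r → Nat.card ↥(V ⊓ 𝐂[x]) = Nat.card ↥(V ⊓ 𝐂[pel κ r]) := by
    rintro k hk _ rfl
    have hg := h.mu_mem hx
    have e : pel κ (k * pel h.mu x * k⁻¹) = pel κ k * pel κ (pel h.mu x) * (pel κ k)⁻¹ := pel_conj _ hk hg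
    rw [e, ← cj_centralizer_singleton, ← card_cj (pel κ k)⁻¹ (V ⊓ cj _ _), cj_inf, cj_inv_cj,
      cj_eq_of_mem_normalizer (inv_mem (h.k_mem hk))]
    obtain ⟨m, hm, e⟩ := h.dec' hx
    congr 2
    ext v
    rw [mem_inf, mem_inf]
    refine and_congr_right fun hv => ?_
    conv_lhs => rw [e]
    rw [mem_cent1_iff, mem_cent1_iff, ← mul_assoc, h.todd.comm' hv (h.v_mem hm), mul_assoc, mul_assoc,
      mul_right_inj]
  have a := fun k hk e => (key k hk _ e).trans ((h.card_V_cent r2A_in).trans (show _ = 128 by decide +kernel))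
  refine ⟨?_, fun hf => (class_2A (h.mu_mem hx) o hf).elim fun k hk => a k hk.1 hk.2⟩
  obtain ⟨k, hk, e | e⟩ := class_two (h.mu_mem hx) o
  · rw [a k hk e]; norm_num
  · rw [key k hk _ e, h.card_V_cent r2B_in]; decide +kernel

theorem mu_eq_of_cent {w₁ w₂ : G} (h1 : w₁ ∈ 𝐍(V)) (h2 : w₂ ∈ 𝐍(V)) (s1 : w₁ * w₁ = 1) {a : GolayPt}
    (f1 : pel h.mu w₁ a = a) (f2 : pel h.mu w₂ a = a) (e : V ⊓ 𝐂[w₁] = V ⊓ 𝐂[w₂]) : w₁ * w₂ ∈ V := by
  have fx : ∀ {u w : G}, u ∈ 𝐍(V) → w ∈ 𝐍(V) → V ⊓ 𝐂[u] = V ⊓ 𝐂[w] → ∀ p q, p ≠ q →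
      ({pel h.mu u p, pel h.mu u q} : Finset GolayPt) = {p, q} → pel h.mu w p = p ∨ pel h.mu w p = q :=
    fun hu hw e p q n H => by
    have := (h.comm_pair hw n).1 (e.le ⟨h.todd.nu_mem (even_pair n), (h.comm_pair hu n).2 H⟩).2
    simpa using this.subset (Finset.mem_insert_self _ _)
  have fy : ∀ {u w : G}, u ∈ 𝐍(V) → w ∈ 𝐍(V) → V ⊓ 𝐂[u] = V ⊓ 𝐂[w] → pel h.mu u a = a → pel h.mu w a = a →
      ∀ p, pel h.mu u p = p → pel h.mu w p = p := fun hu hw e f1 f2 p H => by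
    rcases eq_or_ne p a with rfl | n
    · exact f2
    · exact (fx hu hw e p a n (by rw [H, f1])).resolve_right fun c => n ((pel h.mu _).injective (c.trans f2.symm))
  have s : ∀ p, pel h.mu w₁ (pel h.mu w₁ p) = p := fun p => by
    rw [← Equiv.Perm.mul_apply, ← pel_mul _ h1 h1, s1, pel_one]; rfl
  rw [← h.ker_mu, mem_pker, pel_mul _ h1 h2]
  refine ⟨mul_mem h1 h2, Equiv.ext fun p => ?_⟩
  rw [Equiv.Perm.mul_apply]
  by_cases c : pel h.mu w₁ p = p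
  · rw [fy h1 h2 e f1 f2 p c, c]; rfl
  · rw [(fx h1 h2 e p _ (Ne.symm c) (by rw [s, Finset.pair_comm])).resolve_left fun d => c (fy h2 h1 e.symm f2 f1 p d), s]
    rfl

variable {z : G} (hz : ∀ s, s.card = 4 → IsConj z (ν s))
include hz

theorem tri {A : Subgroup G} (hA : A ≤ V) (hA' : ∀ x ∈ A, ¬ IsConj z x) {a b : GolayPt} (hab : a ≠ b)
    (ht : ν {a, b} ∈ A) : ∃ c, c ≠ a ∧ c ≠ b ∧ ∀ w ∈ A, w = 1 ∨ w = ν {a, b} ∨ w = ν {a, c} ∨ w = ν {b, c} := by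
  have nt : ∀ {p q r s}, ν {p, q} * ν {r, s} ∈ A → p ≠ q → r ≠ s → p ≠ r → p ≠ s → q ≠ r → q ≠ s → False :=
    fun hm h1 h2 h3 h4 h5 h6 => by
    obtain ⟨s, hs, e⟩ := h.nu_tet h1 h2 h3 h4 h5 h6
    exact hA' _ hm (e ▸ hz s hs)
  have key : ∀ w ∈ A, w = 1 ∨ w = ν {a, b} ∨ ∃ c, c ≠ a ∧ c ≠ b ∧ ν {a, c} ∈ A ∧ (w = ν {a, c} ∨ w = ν {b, c}) :=
    fun w hw => by
    have k2 : ∀ p q, p ≠ q → ν {p, q} = w → p = a ∨ p = b →
        w = ν {a, b} ∨ ∃ c, c ≠ a ∧ c ≠ b ∧ ν {a, c} ∈ A ∧ (w = ν {a, c} ∨ w = ν {b, c}) := by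
      rintro p q n rfl (rfl | rfl)
      · rcases eq_or_ne q b with rfl | c
        exacts [Or.inl rfl, Or.inr ⟨q, n.symm, c, hw, Or.inl rfl⟩]
      · rcases eq_or_ne q a with rfl | c
        · exact Or.inl (by rw [Finset.pair_comm])
        · refine Or.inr ⟨q, c, n.symm, ?_, Or.inr rfl⟩
          rw [← h.nu_tri hab n.symm c.symm, Finset.pair_comm p a]
          exact mul_mem ht hw
    rcases h.todd.small_rep (hA hw) with e | ⟨s, hs, rfl⟩ | ⟨s, hs, rfl⟩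
    · exact Or.inl e
    · obtain ⟨p, q, n, rfl⟩ := Finset.card_eq_two.1 hs
      by_cases c : p = a ∨ p = b
      · exact Or.inr (k2 p q n rfl c)
      by_cases d : q = a ∨ q = b
      · exact Or.inr (k2 q p n.symm (by rw [Finset.pair_comm]) d)
      rw [not_or] at c d
      exact (nt (mul_mem hw ht) n hab c.1 c.2 d.1 d.2).elim
    · exact (hA' _ hw (hz s hs)).elim
  by_cases H : ∃ c, c ≠ a ∧ c ≠ b ∧ ν {a, c} ∈ A
  · obtain ⟨c, c1, c2, c3⟩ := H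
    refine ⟨c, c1, c2, fun w hw => (key w hw).imp_right (Or.imp_right fun ⟨d, d1, d2, d3, d4⟩ => ?_)⟩
    rcases eq_or_ne c d with rfl | n
    · exact d4
    · exact (nt (r := c) (s := d) (mul_mem ht (h.nu_tri c1 d1 n ▸ mul_mem c3 d3)) hab n c1.symm d1.symm c2.symm d2.symm).elim
  · obtain ⟨c, c1, c2⟩ := exists_third a b
    exact ⟨c, c1, c2, fun w hw => (key w hw).imp_right (Or.imp_right fun ⟨d, d1, d2, d3, _⟩ => (H ⟨d, d1, d2, d3⟩).elim)⟩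

theorem card_le_four {A : Subgroup G} {y : G} (hA : A ≤ cj y V) (hA' : ∀ x ∈ A, ¬ IsConj z x) : Nat.card A ≤ 4 := by
  classical
  rw [← card_cj y⁻¹]
  have h1 : ∀ x ∈ cj y⁻¹ A, ¬ IsConj z x := fun x hx c => hA' _ (mem_cj_inv.1 hx) (isConj_conj_iff.2 c)
  by_cases H : ∃ a b, a ≠ b ∧ ν {a, b} ∈ cj y⁻¹ A
  · obtain ⟨a, b, n, ht⟩ := H
    obtain ⟨c, -, -, hc⟩ := h.tri hz (le_cj_iff.1 hA) h1 n ht
    refine (Nat.card_le_card_of_injective (fun x : cj y⁻¹ A => (⟨x.1, by simpa using hc _ x.2⟩ :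
      ({1, ν {a, b}, ν {a, c}, ν {b, c}} : Finset G))) fun _ _ e => Subtype.ext (Subtype.ext_iff.1 e :)).trans ?_
    rw [Nat.card_eq_fintype_card, Fintype.card_coe]; exact Finset.card_le_four
  · rw [(eq_bot_iff_forall (cj y⁻¹ A)).2 fun w hw => ?_, card_bot]
    · norm_num
    rcases h.todd.small_rep (le_cj_iff.1 hA hw) with e | ⟨s, hs, rfl⟩ | ⟨s, hs, rfl⟩
    · exact e
    · obtain ⟨p, q, n, rfl⟩ := Finset.card_eq_two.1 hs
      exact (H ⟨p, q, n, hw⟩).elim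
    · exact (h1 _ hw (hz s hs)).elim

variable (hn : ∀ a b, a ≠ b → ¬ IsConj z (ν {a, b}))
  (F2 : ∀ s, s.card = 4 → ∀ a b, a ≠ b → 𝐂[ν s] ⊓ 𝐂[ν {a, b}] ≤ 𝐍(V)) (eqn : ∀ g, cj g V ≤ 𝐍(V) → cj g V = V)
include hn F2

theorem F2_cj {y x : G} {a b : GolayPt} (hab : a ≠ b) (hy : y ∈ 𝐂[ν {a, b}]) (hx : x ∈ cj y V) (c : IsConj z x) :
    𝐂[x] ⊓ 𝐂[ν {a, b}] ≤ 𝐍(cj y V) := by
  obtain ⟨r, hr, rfl⟩ := mem_cj'.1 hx
  rw [isConj_conj_iff] at c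
  rcases h.todd.small_rep hr with rfl | ⟨s, hs, rfl⟩ | ⟨s, hs, rfl⟩
  · exact (h.todd.ne_one (s := fs 15) (by decide +kernel) (by decide +kernel) (by decide +kernel)
      (isConj_one_right.1 (c.symm.trans (hz _ (by decide +kernel))))).elim
  · obtain ⟨p, q, n, rfl⟩ := Finset.card_eq_two.1 hs
    exact (hn p q n c).elim
  · have := cj_mono y (F2 s hs a b hab)
    rwa [cj_inf, cj_centralizer_singleton, cj_centralizer_singleton, mem_cent1_iff.1 hy, mul_inv_cancel_right,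
      cj_normalizer] at this

omit hz hn F2 in
theorem cj_le_cent {y x : G} (hx : x ∈ cj y V) : cj y V ≤ 𝐂[x] :=
  (cj_mono y h.todd.le_cent).trans ((cj_centralizer y V).trans_le (cent_le_cent1 hx))

omit hz hn F2 in
theorem t_mem_cj {y : G} {a b : GolayPt} (hab : a ≠ b) (hy : y ∈ 𝐂[ν {a, b}]) : ν {a, b} ∈ cj y V :=
  mem_cj'.2 ⟨_, h.todd.nu_mem (even_pair hab), by rw [mem_cent1_iff.1 hy, mul_inv_cancel_right]⟩

include eqn

theorem C1 {y x : G} {a b : GolayPt} (hab : a ≠ b) (hy : y ∈ 𝐂[ν {a, b}]) (hN : y ∉ 𝐍(V)) (hx : x ∈ V ⊓ cj y V) :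
    ¬ IsConj z x := fun c => hN (mem_normalizer_iff_cj.2 (eqn y ((le_inf (h.cj_le_cent hx.2)
  (h.cj_le_cent (h.t_mem_cj hab hy))).trans (by simpa using h.F2_cj hz hn F2 hab (one_mem _) (by simpa using hx.1) c))))

theorem K_mem {y x : G} (hy : y ∈ 𝐂[ν {pt 0, pt 23}]) (hx : x ∈ cj y V) (hxN : x ∈ 𝐍(V)) (c : IsConj z x) : x ∈ V := by
  by_contra hV
  have hN : y ∉ 𝐍(V) := fun e => hV (cj_eq_of_mem_normalizer e ▸ hx)
  have sq : ∀ {y x : G}, x ∈ cj y V → x * x = 1 := fun hx => by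
    obtain ⟨r, hr, rfl⟩ := mem_cj'.1 hx
    rw [conj_mul, h.todd.mul_self hr, mul_one, mul_inv_cancel]
  have pm : ∀ {y : G}, y ∈ 𝐂[ν {pt 0, pt 23}] → pmap h.mu (cj y V ⊓ 𝐍(V)) ≤ D2 := fun hy g hg => by
    obtain ⟨u, hu, rfl⟩ := (mem_pmap_of_le inf_le_right).1 hg
    refine memD2.2 ⟨h.mu_mem hu.2, ?_⟩
    rw [fs_DD, smul_pair, ← h.comm_pair hu.2 pt0_ne]
    exact h.cj_le_cent hu.1 (h.t_mem_cj pt0_ne hy)
  have z0 : ∀ {y x : G}, y ∈ 𝐂[ν {pt 0, pt 23}] → x ∈ cj y V → IsConj z x → V ⊓ 𝐂[x] ≤ cj y (cj y⁻¹ V ⊓ 𝐍(V)) :=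
    fun hy hx c v hv => by
    rw [cj_inf, cj_cj_inv, cj_normalizer]
    exact ⟨hv.1, h.F2_cj hz hn F2 pt0_ne hy hx c ⟨hv.2, mem_cent1_iff.2 <| h.todd.comm' hv.1 (h.todd.nu_mem (even_pair pt0_ne))⟩⟩
  have n1 : Nat.card ↥(cj y V ⊓ 𝐍(V)) ≤ 128 := by
    rw [h.card_eq inf_le_right]
    exact Nat.mul_le_mul (h.card_le_four hz (inf_le_right.trans inf_le_left) fun u hu =>
      h.C1 hz hn F2 eqn pt0_ne hy hN ⟨hu.1, hu.2.1⟩) (card_le32 (pm hy) fun g hg => by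
        obtain ⟨u, hu, rfl⟩ := (mem_pmap_of_le inf_le_right).1 hg
        rw [← pel_mul _ hu.2 hu.2, sq hu.1, pel_one])
  have n2 := (h.card_V_inv hxN (sq hx) hV).1.trans ((card_le_of_le (z0 hy hx c)).trans_eq (card_cj _ _))
  have n3 := card_inf_mul_relIndex (pcomap h.mu Spor.M22) (cj y⁻¹ V ⊓ 𝐍(V))
  rw [relIndex_pcomap _ inf_le_right] at n3
  set I := pcomap h.mu Spor.M22 ⊓ (cj y⁻¹ V ⊓ 𝐍(V))
  have n4 := Nat.mul_le_mul_left (Nat.card I) (relIndex_D2 ▸ relIndex_le_of_le_right (pm (inv_mem hy))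
    (by rw [relIndex_D2]; norm_num))
  have IV : I ≤ cj y⁻¹ V := inf_le_right.trans inf_le_left
  have ex : ∀ W ≤ I, 4 < Nat.card W → ∃ w ∈ W, IsConj z w := fun W hW hc => by
    by_contra! H
    exact (h.card_le_four hz (hW.trans IV) H).not_gt hc
  have nV : ∀ w ∈ I, IsConj z w → w ∉ V := fun w hw c e =>
    h.C1 hz hn F2 eqn pt0_ne (inv_mem hy) (by rwa [inv_mem_iff]) ⟨e, IV hw⟩ c
  have eq : ∀ w ∈ I, IsConj z w → V ⊓ 𝐂[w] = cj y⁻¹ (cj y V ⊓ 𝐍(V)) := fun w hw c => by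
    refine eq_of_le_of_card_ge (by simpa using z0 (inv_mem hy) (IV hw) c) ?_
    rw [card_cj, (h.card_V_inv hw.2.2 (sq (IV hw)) (nV w hw c)).2 (fix_ne (mem22.1 (mem_pcomap.1 hw.1).2).2.1)]
    exact n1
  obtain ⟨w₁, h1, c1⟩ := ex I le_rfl (by omega)
  obtain ⟨W, W1, W2, W3, W4⟩ := exists_hyp (U := I) ⟨⟨⟨fun a b => Subtype.ext (mem_cent1_iff.1 (h.cj_le_cent (IV b.2) (IV a.2)))⟩⟩,
    fun a ha => by rw [pow_two, sq (IV ha)]⟩ (N := V ⊓ I) inf_le_right h1 fun e => nV _ h1 c1 e.1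
  obtain ⟨w₂, h2, c2⟩ := ex W W3.1 (by omega)
  have h3 := W3.1 h2
  exact W2 ((W.mul_mem_cancel_right h2).1 (W1 ⟨h.mu_eq_of_cent h1.2.2 h3.2.2 (sq (IV h1))
    (mem22.1 (mem_pcomap.1 h1.1).2).2.1 (mem22.1 (mem_pcomap.1 h3.1).2).2.1 ((eq _ h1 c1).trans (eq _ h3 c2).symm),
    mul_mem h1 h3⟩))

theorem cent_DD : 𝐂[ν {pt 0, pt 23}] ≤ 𝐍(V) := fun y hy => by
  by_contra hN
  set t := ν {pt 0, pt 23} with ht
  have tV : t ∈ V := h.todd.nu_mem (even_pair pt0_ne)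
  obtain ⟨c, c1, c2, hc⟩ := h.tri hz (A := V ⊓ cj y V) inf_le_left (fun x => h.C1 hz hn F2 eqn pt0_ne hy hN) pt0_ne
    ⟨tV, h.t_mem_cj pt0_ne hy⟩
  obtain ⟨e, he⟩ : ∃ e, e ∉ ({pt 0, pt 23, c} : Finset GolayPt) := Finset.exists_mem_notMem_of_card_lt_card
    (t := Finset.univ) (Finset.card_le_three.trans_lt (by decide +kernel)) |>.imp fun _ h => h.2
  simp only [Finset.mem_insert, Finset.mem_singleton, not_or] at he
  obtain ⟨s, hs, es⟩ := h.nu_tet pt0_ne (Ne.symm he.2.2) c1.symm (Ne.symm he.1) c2.symm (Ne.symm he.2.1)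
  have uV := h.todd.nu_mem (even_pair (Ne.symm he.2.2))
  have sV : ν s ∈ V := es ▸ mul_mem tV uV
  have fV : ν (fs 15) ∈ V := h.v_mem (by decide +kernel)
  set r := y * ν (fs 15) * y⁻¹ with hr
  have rV : r ∈ cj y V := conj_mem_cj.2 fV
  have zr : IsConj z r := isConj_conj_iff.2 (hz _ (by decide +kernel))
  have VY : V ≤ 𝐂[t] := by simpa using h.cj_le_cent (y := 1) (by simpa using tV)
  have VY' : cj y V ≤ 𝐂[t] := h.cj_le_cent (h.t_mem_cj pt0_ne hy)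
  have s2 := h.todd.mul_self sV
  have r2 : r * r = 1 := by rw [hr, conj_mul, h.todd.mul_self fV, mul_one, mul_inv_cancel]
  have YY : zpowers (ν s * r) ≤ 𝐂[t] := zpowers_le.2 (mul_mem (VY sV) (VY' rV))
  have ts : t * ν s = ν {c, e} := by rw [es, ← mul_assoc, h.todd.mul_self tV, one_mul]
  have : Fact (Nat.Prime 2) := ⟨Nat.prime_two⟩
  have z1 : ∀ {x}, IsConj z x → x ≠ 1 := by
    rintro _ c rfl
    exact h.todd.ne_one (hs ▸ by decide) (by omega) (by omega) (isConj_one_right.1 (c.symm.trans (hz s hs)))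
  obtain ⟨w, ⟨m, rfl⟩, w2, w3, w4⟩ := exists_invol (G := 𝐂[t]) (a := ⟨_, VY sV⟩) (b := ⟨_, VY' rV⟩)
    (orderOf_eq_prime (Subtype.ext ((pow_two _).trans s2)) fun e => z1 (hz s hs) (congrArg Subtype.val e))
    (orderOf_eq_prime (Subtype.ext ((pow_two _).trans r2)) fun e => z1 zr (congrArg Subtype.val e)) (fun d => by
      obtain ⟨k, hk⟩ := isConj_iff.1 d
      have e1 : (k : G) * ν s * (k : G)⁻¹ = r := congrArg Subtype.val hk
      refine hn c _ (Ne.symm he.2.2) ?_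
      rw [← ts, ← isConj_conj_iff (g := (k : G)), ← conj_mul, e1, mem_cent1_iff.1 k.2, mul_inv_cancel_right, hr,
        show t = y * t * y⁻¹ by rw [mem_cent1_iff.1 hy, mul_inv_cancel_right], conj_mul, isConj_conj_iff, ht, ← fs_DD,
        ← h.v_xor (by decide +kernel) (by decide +kernel)]
      exact hz _ (by decide +kernel))
  set w := (ν s * r) ^ m
  replace w2 : w ≠ 1 := fun e => by
    have := (orderOf_coe _).trans w2
    rw [show ((_ : 𝐂[t]) : G) = 1 from e, orderOf_one] at this; omega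
  replace w3 : w ∈ 𝐂[ν s] := mem_cent1_iff.2 (congrArg Subtype.val w3)
  replace w4 : w ∈ 𝐂[r] := mem_cent1_iff.2 (congrArg Subtype.val w4)
  have wY : w ∈ 𝐂[t] := YY ⟨m, rfl⟩
  have key : ∀ n : ℤ, IsConj z ((ν s * r) ^ n * ν s) ∧ ∃ g ∈ 𝐂[t], (ν s * r) ^ n * ν s ∈ cj g V := fun n => by
    obtain ⟨k, hk, e | e⟩ := dih_conj s2 r2 n <;> rw [e, isConj_conj_iff]
    · exact ⟨hz s hs, k, YY hk, conj_mem_cj.2 sV⟩
    · exact ⟨zr, k * y, mul_mem (YY hk) hy, by rw [cj_mul]; exact conj_mem_cj.2 rV⟩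
  obtain ⟨k1, g, hg, k2⟩ := key m
  have a1 : w ∈ V := (V.mul_mem_cancel_right sV).1 (h.K_mem hz hn F2 eqn hg k2
    (mul_mem (F2 s hs _ _ pt0_ne ⟨w3, wY⟩) (h.V_le sV)) k1)
  obtain ⟨k3, g', hg', k4⟩ := key (m - 1)
  rw [show (ν s * r) ^ (m - 1) * ν s = w * r by
    rw [zpow_sub_one, mul_inv_rev, mul_assoc, mul_assoc, inv_mul_cancel, mul_one, inv_eq_of_mul_eq_one_right r2]] at k3 k4
  have a2 : w ∈ cj y V := ((cj y V).mul_mem_cancel_right rV).1 (mem_cj.2 (h.K_mem hz hn F2 eqn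
    (mul_mem (inv_mem hy) hg') (by rw [cj_mul, mem_cj_inv]; simpa [mul_assoc] using k4)
    (mem_cj.1 (cj_normalizer y V ▸ mul_mem (h.F2_cj hz hn F2 pt0_ne hy rV zr ⟨w4, wY⟩) (le_normalizer rV)))
    (by simpa using isConj_conj_iff (g := y⁻¹).2 k3)))
  change IsConj z (w * ν s) at k1
  rcases hc w ⟨a1, a2⟩ with e | e | e | e
  · exact w2 e
  · exact hn _ _ (Ne.symm he.2.2) (by rwa [e, ts] at k1)
  · rw [e, es, ← mul_assoc, h.nu_tri c1 pt0_ne.symm c2, h.nu_tri c2.symm he.2.2 (Ne.symm he.2.1)] at k1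
    exact hn _ _ (Ne.symm he.2.1) k1
  · rw [e, es, ← mul_assoc, Finset.pair_comm (pt 0), h.nu_tri c2 pt0_ne c1,
      h.nu_tri c1.symm he.2.2 (Ne.symm he.1)] at k1
    exact hn _ _ (Ne.symm he.1) k1

theorem cent_duad {a b : GolayPt} (hab : a ≠ b) : 𝐂[ν {a, b}] ≤ 𝐍(V) := by
  obtain ⟨g, hg, e1, e2⟩ := trans2 hab.symm
  have := h.acts' hg _ (even_pair hab)
  rw [smul_pair, e1, e2] at this
  rw [← cj_le_cj (g := pel κ g), cj_centralizer_singleton, this, cj_eq_of_mem (h.k_mem hg)]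
  exact h.cent_DD hz hn F2 eqn

end MM
end CA.J4
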