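import Cfsg.Agent.Lib.J4.AzDef

/-!
Weighted sums over sets; soundness of the list programs.
-/

set_option autoImplicit false
set_option linter.unusedSectionVars false
set_option linter.unusedVariables false

namespace CA.J4
open Cfsg CA.Gol CA.Ex2 CA.XS Subgroup

section
variable {X Y : Type*} [Finite X] [Finite Y]

/-- sum of a function over a set -/
noncomputable def sm (S : Set X) (φ : X → ℕ) : ℕ := ∑ x ∈ S.toFinite.toFinset, φ x

open Classical in
/-- indicator -/
noncomputable def ind (P : Prop) : ℕ := if P then 1 else 0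

theorem ind_pos {P : Prop} (h : P) : ind P = 1 := if_pos h
theorem ind_neg {P : Prop} (h : ¬ P) : ind P = 0 := if_neg h
theorem ind_congr {P Q : Prop} (h : P ↔ Q) : ind P = ind Q := by rw [propext h]
theorem ind_and (P Q : Prop) : ind (P ∧ Q) = ind P * ind Q := by
  by_cases a : P <;> by_cases b : Q <;> simp [ind, a, b]

theorem sm_congr {S : Set X} {φ ψ : X → ℕ} (h : ∀ x ∈ S, φ x = ψ x) : sm S φ = sm S ψ :=
  Finset.sum_congr rfl fun x hx => h x (by simpa using hx)

theorem sm_const {S : Set X} {φ : X → ℕ} {n : ℕ} (h : ∀ x ∈ S, φ x = n) : sm S φ = S.ncard * n := by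
  rw [sm_congr h, sm, Finset.sum_const, Set.ncard_eq_toFinset_card _ S.toFinite, smul_eq_mul]

theorem sm_supp {S T : Set X} {φ : X → ℕ} (h : S ⊆ T) (h0 : ∀ x ∈ T, x ∉ S → φ x = 0) : sm T φ = sm S φ :=
  (Finset.sum_subset (by simpa using h) fun x a b => h0 x (by simpa using a) (by simpa using b)).symm

theorem sm_zero {S : Set X} {φ : X → ℕ} (h : ∀ x ∈ S, φ x = 0) : sm S φ = 0 := by rw [sm_const h, mul_zero]

theorem sm_ind (S : Set X) (P : X → Prop) : sm S (fun x => ind (P x)) = {x | x ∈ S ∧ P x}.ncard := by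
  rw [sm_supp (S := {x | x ∈ S ∧ P x}) (fun _ h => h.1) fun x a b => ind_neg fun c => b ⟨a, c⟩,
    sm_const fun x hx => ind_pos hx.2, mul_one]

theorem sm_union {S T : Set X} (φ : X → ℕ) (h : ∀ x ∈ S, x ∉ T) : sm (S ∪ T) φ = sm S φ + sm T φ := by
  classical
  rw [sm, sm, sm, ← Finset.sum_union (by simpa [Finset.disjoint_left] using h)]
  exact Finset.sum_congr (by ext; simp) fun _ _ => rfl

theorem sm_single (a : X) (φ : X → ℕ) : sm {a} φ = φ a := by rw [sm_const (n := φ a) (by simp)]; simp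

theorem sm_pair {a b : X} (h : a ≠ b) (φ : X → ℕ) : sm {a, b} φ = φ a + φ b := by
  rw [Set.insert_eq, sm_union _ (by simpa using h), sm_single, sm_single]

theorem sm_add (S : Set X) (φ ψ : X → ℕ) : sm S (fun x => φ x + ψ x) = sm S φ + sm S ψ := Finset.sum_add_distrib

theorem sm_mul (S : Set X) (n : ℕ) (φ : X → ℕ) : sm S (fun x => n * φ x) = n * sm S φ := (Finset.mul_sum _ _ _).symm

theorem sumL_cons {ι : Type} (a : ι) (L : List ι) (f : ι → ℕ) : sumL (a :: L) f = f a + sumL L f := rfl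
theorem sumL_nil {ι : Type} (f : ι → ℕ) : sumL [] f = 0 := rfl
theorem sumL_append {ι : Type} (L L' : List ι) (f : ι → ℕ) : sumL (L ++ L') f = sumL L f + sumL L' f := by
  simp [sumL_eq]
theorem sumL_congr {ι : Type} {L : List ι} {f g : ι → ℕ} (h : ∀ a ∈ L, f a = g a) : sumL L f = sumL L g := by
  rw [sumL_eq, sumL_eq, List.map_congr_left h]
theorem sumL_map {ι κ : Type} (L : List ι) (g : ι → κ) (f : κ → ℕ) : sumL (L.map g) f = sumL L fun a => f (g a) := by
  simp [sumL_eq, Function.comp_def]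
theorem sumL_mul {ι : Type} (L : List ι) (n : ℕ) (f : ι → ℕ) : sumL L (fun a => n * f a) = n * sumL L f := by
  induction L with
  | nil => rfl
  | cons a L ih => rw [sumL_cons, sumL_cons, ih, mul_add]
theorem sumL_const {ι : Type} {L : List ι} {n : ℕ} {f : ι → ℕ} (h : ∀ a ∈ L, f a = n) : sumL L f = L.length * n := by
  rw [sumL_congr h]; simp [sumL_eq]
theorem sumL_flat {ι κ : Type} (L : List ι) (g : ι → List κ) (f : κ → ℕ) :
    sumL (L.flatMap g) f = sumL L fun a => sumL (g a) f := by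
  induction L with
  | nil => rfl
  | cons a L ih => rw [List.flatMap_cons, sumL_append, ih, sumL_cons]
theorem sumL_comm {ι κ : Type} (L : List ι) (L' : List κ) (f : ι → κ → ℕ) :
    sumL L (fun a => sumL L' (f a)) = sumL L' fun b => sumL L fun a => f a b := by
  induction L with
  | nil => exact (sumL_const (n := 0) fun _ _ => rfl).symm
  | cons a L ih => rw [sumL_cons, ih]; simp [sumL_eq, List.sum_map_add]

theorem sm_sumL {ι : Type} (S : Set X) (L : List ι) (φ : ι → X → ℕ) :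
    sm S (fun x => sumL L fun i => φ i x) = sumL L fun i => sm S (φ i) := by
  induction L with
  | nil => exact sm_zero fun _ _ => rfl
  | cons a L ih => simp only [sumL_cons]; rw [sm_add, ih]

theorem sm_list {ι : Type} {S : Set X} {L : List ι} {T : ι → Set X} (φ : X → ℕ)
    (hL : L.Pairwise fun i j => ∀ x ∈ T i, x ∉ T j) (h1 : ∀ x ∈ S, φ x ≠ 0 → ∃ i ∈ L, x ∈ T i) (h2 : ∀ i ∈ L, T i ⊆ S) :
    sm S φ = sumL L fun i => sm (T i) φ := by
  have key : ∀ L : List ι, (L.Pairwise fun i j => ∀ x ∈ T i, x ∉ T j) →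
      sm {x | ∃ i ∈ L, x ∈ T i} φ = sumL L fun i => sm (T i) φ := fun L hL => by
    induction L with
    | nil => exact sm_zero fun x hx => by simp at hx
    | cons a L ih =>
      rw [List.pairwise_cons] at hL
      rw [sumL_cons, ← ih hL.2, ← sm_union (T := {x | ∃ i ∈ L, x ∈ T i}) _ fun x hx ⟨i, hi, e⟩ => hL.1 i hi x hx e]
      congr 1; ext x; simp
  rw [← key L hL]
  exact sm_supp (S := {x | ∃ i ∈ L, x ∈ T i}) (fun x ⟨i, a, b⟩ => h2 i a b) fun x a b => by_contra fun c => b (h1 x a c)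

theorem sm_fiber {S : Set X} {C : Set Y} {f : X → Y} (h : ∀ x ∈ S, f x ∈ C) (φ : X → ℕ) :
    sm S φ = sm C fun y => sm {x | x ∈ S ∧ f x = y} φ := by
  classical
  rw [sm, sm, ← Finset.sum_fiberwise_of_maps_to (g := f) (t := C.toFinite.toFinset) (by simpa using h)]
  exact Finset.sum_congr rfl fun y _ => Finset.sum_congr (by ext; simp) fun _ _ => rfl

theorem sm_equiv (e : X ≃ Y) {S : Set X} {T : Set Y} (h : ∀ x, x ∈ S ↔ e x ∈ T) (φ : Y → ℕ) :
    sm T φ = sm S fun x => φ (e x) :=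
  (Finset.sum_equiv e (by simpa using h) fun _ _ => rfl).symm

theorem sm_comm (S : Set X) (T : Set Y) (φ : X → Y → ℕ) : sm S (fun x => sm T (φ x)) = sm T fun y => sm S fun x => φ x y :=
  Finset.sum_comm

theorem ncard_prod (P : X → Y → Prop) :
    {p : X × Y | P p.1 p.2}.ncard = sm Set.univ fun y => sm Set.univ fun x => ind (P x y) := by
  have := sm_ind (Set.univ : Set (X × Y)) fun p => P p.1 p.2
  simp only [Set.mem_univ, true_and] at this
  rw [← this, sm_fiber (C := Set.univ) (f := Prod.snd) fun _ _ => trivial]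
  refine sm_congr fun y _ => ?_
  classical
  have := Fintype.ofFinite X
  exact Finset.sum_bij' (fun p _ => p.1) (fun x _ => (x, y)) (by simp) (by simp) (by simp) (by simp) (by simp)

end

/-! ### programs -/

theorem cnd_true (a b : ℕ) : cnd true a b = a := rfl
theorem cnd_false (a b : ℕ) : cnd false a b = b := rfl

/-- the result is correct or a failure value -/
def Ok (r v : ℕ) : Prop := r = v ∨ BIG ≤ r

theorem Ok.rfl {v : ℕ} : Ok v v := Or.inl (Eq.refl v)
theorem ok_big (v : ℕ) : Ok BIG v := Or.inr le_rfl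
theorem Ok.add {a b c d : ℕ} (h : Ok a b) (h' : Ok c d) : Ok (a + c) (b + d) := by
  unfold Ok at *; omega
theorem Ok.mul {a b : ℕ} (n : ℕ) (h : Ok a b) : Ok (n * a) (n * b) := by
  rcases h with rfl | h
  · exact Ok.rfl
  · cases n
    · simp [Ok]
    · exact Or.inr (h.trans (Nat.le_mul_of_pos_left _ (Nat.succ_pos _)))
theorem Ok.sumL {ι : Type} {L : List ι} {f g : ι → ℕ} (h : ∀ a ∈ L, Ok (f a) (g a)) : Ok (sumL L f) (sumL L g) := by
  induction L with
  | nil => exact Ok.rfl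
  | cons a L ih => exact (h a List.mem_cons_self).add (ih fun b hb => h b (List.mem_cons_of_mem _ hb))
theorem Ok.eq {a b : ℕ} (h : Ok a b) (hl : a < BIG) : b = a := by unfold Ok at h; omega

theorem fmapL_eq (f : ℕ → ℕ) (B : List ℕ) (k : List ℕ → ℕ) : fmapL f B k = k (B.map f) := by
  induction B generalizing k with
  | nil => rfl
  | cons b B ih =>
    show force (f b) (fun x => fmapL f B fun L => k (x :: L)) = _
    rw [force_eq, ih]; rfl

theorem spanL_cons (b : ℕ) (B : List ℕ) (a : ℕ) : spanL (b :: B) a = spanL B a ++ spanL B (a ^^^ b) := rfl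

theorem sp_eq (F : ℕ → ℕ) (B : List ℕ) (a : ℕ) : sp F B a = sumL (spanL B a) F := by
  induction B generalizing a with
  | nil => rfl
  | cons b B ih =>
    show force (a ^^^ b) (fun x => sp F B a + sp F B x) = _
    rw [force_eq, ih, ih, spanL_cons, sumL_append]

theorem spanL_map {P : ℕ → Prop} {f : ℕ → ℕ} (hP : ∀ a b, P a → P b → P (a ^^^ b))
    (hf : ∀ a b, P a → P b → f (a ^^^ b) = f a ^^^ f b) {B : List ℕ} (hB : ∀ b ∈ B, P b) {a : ℕ} (ha : P a) (t : ℕ) :
    spanL (B.map f) (f a ^^^ t) = (spanL B a).map (fun u => f u ^^^ t) ∧ ∀ u ∈ spanL B a, P u := by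
  induction B generalizing a with
  | nil => exact ⟨rfl, fun u hu => by rwa [List.mem_singleton.1 hu]⟩
  | cons b B ih =>
    have hb := hB b List.mem_cons_self
    have h1 := ih (fun x hx => hB x (List.mem_cons_of_mem _ hx)) ha
    have h2 := ih (fun x hx => hB x (List.mem_cons_of_mem _ hx)) (hP _ _ ha hb)
    rw [List.map_cons, spanL_cons, spanL_cons, List.map_append, ← h1.1, ← h2.1, hf _ _ ha hb, Nat.xor_right_comm]
    exact ⟨rfl, fun u hu => (List.mem_append.1 hu).elim (h1.2 u) (h2.2 u)⟩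

/-- the union of affine spans -/
def spans (bs os : List ℕ) : List ℕ := os.flatMap (spanL bs)

theorem sum_spans {P : ℕ → Prop} {f : ℕ → ℕ} (hP : ∀ a b, P a → P b → P (a ^^^ b))
    (hf : ∀ a b, P a → P b → f (a ^^^ b) = f a ^^^ f b) {bs os : List ℕ} (hB : ∀ b ∈ bs, P b) (hO : ∀ b ∈ os, P b)
    (F : ℕ → ℕ) (t : ℕ) : (sumL os fun o => force (Nat.xor (f o) t) (sp F (bs.map f))) =
      sumL (spans bs os) fun u => F (f u ^^^ t) := by
  rw [spans, sumL_flat]
  refine sumL_congr fun o ho => ?_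
  rw [force_eq, sp_eq]
  exact (congrArg (sumL · F) (spanL_map hP hf hB (hO o ho) t).1).trans (sumL_map _ _ _)

theorem spans_map {P : ℕ → Prop} {f : ℕ → ℕ} (hP : ∀ a b, P a → P b → P (a ^^^ b))
    (hf : ∀ a b, P a → P b → f (a ^^^ b) = f a ^^^ f b) {bs os : List ℕ} (hB : ∀ b ∈ bs, P b) (hO : ∀ b ∈ os, P b) :
    spans (bs.map f) (os.map f) = (spans bs os).map f := by
  rw [spans, spans, List.flatMap_map, List.map_flatMap]
  exact List.flatMap_congr fun o ho => by simpa using (spanL_map hP hf hB (hO o ho) 0).1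

theorem spans_prop {P : ℕ → Prop} (hP : ∀ a b, P a → P b → P (a ^^^ b)) {bs os : List ℕ} (hB : ∀ b ∈ bs, P b)
    (hO : ∀ b ∈ os, P b) : ∀ u ∈ spans bs os, P u := fun u hu => by
  obtain ⟨o, ho, hu⟩ := List.mem_flatMap.1 hu
  exact (spanL_map (f := id) hP (fun _ _ _ _ => rfl) hB (hO o ho) 0).2 u hu

/-! ### the classes of involutions of `D2` -/

/-- the conjugate of `r` by the element with code `d` -/
noncomputable def cjP (r : Pm) (d : ℕ) : Pm := perm d * r * (perm d)⁻¹

theorem okCL_spec {r : ℕ} (hr : inM24 r = true) {L : List ℕ} {a : ℕ} (h : okCL r L a = true) :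
    (∀ d ∈ L, in22 d = true ∧ code (cjP (perm r) d) = cjC d r ∧ a < cjC d r) ∧ L.Pairwise fun d e => cjC d r < cjC e r := by
  induction L generalizing a with
  | nil => simp
  | cons d L ih =>
    have e : okCL r (d :: L) a = force (cjC d r) fun g => in22 d && valid g && iw d r g && Nat.blt a g && okCL r L g := rfl
    rw [e, force_eq] at h
    simp only [Bool.and_eq_true, blt_iff] at h
    obtain ⟨⟨⟨⟨h1, h2⟩, h3⟩, h4⟩, h5⟩ := h
    obtain ⟨i1, i2⟩ := ih h5
    refine ⟨fun x hx => ?_, List.pairwise_cons.2 ⟨fun x hx => (i1 x hx).2.2, i2⟩⟩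
    rcases List.mem_cons.1 hx with rfl | hx
    · refine ⟨h1, ?_, h4⟩
      have v := inM24_valid (in22_24 h1)
      rw [cjP, ← perm_mul v (inM24_valid hr), beq_iff.1 h3, perm_mul h2 v, mul_inv_cancel_right, code_perm h2]
    · exact ⟨(i1 x hx).1, (i1 x hx).2.1, h4.trans (i1 x hx).2.2⟩

/-- the class of `r` under `D2` -/
def clD (r : Pm) : Set Pm := {g | ∃ d ∈ D2, d * r * d⁻¹ = g}

theorem ncard_clD {r : Pm} {n m : ℕ} (h : Nat.card ↥(D2 ⊓ 𝐂[r]) = n) (e : n * m = 887040) (hn : 0 < n) : (clD r).ncard = m := by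
  have := card_inf_mul_relIndex 𝐂[r] D2
  rw [relIndex_cent1_eq_ncard, inf_comm, h, card_D2, ← e] at this
  exact Nat.eq_of_mul_eq_mul_left hn this

theorem sm_clD {r : ℕ} (hr : inM24 r = true) {L : List ℕ} (h : okCL r L 0 = true) (hl : (clD (perm r)).ncard = L.length)
    (φ : Pm → ℕ) : sm (clD (perm r)) φ = sumL L fun d => φ (cjP (perm r) d) := by
  obtain ⟨h1, h2⟩ := okCL_spec hr h
  have pw : L.Pairwise fun d e => ∀ x ∈ ({cjP (perm r) d} : Set Pm), x ∉ ({cjP (perm r) e} : Set Pm) := by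
    refine (List.Pairwise.and_mem.1 h2).imp fun {d e} ⟨a, b, c⟩ x hx hy => ?_
    rw [← (h1 d a).2.1, ← (h1 e b).2.1, ← Set.mem_singleton_iff.1 hx, ← Set.mem_singleton_iff.1 hy] at c
    exact lt_irrefl _ c
  have sub : {x | ∃ d ∈ L, x ∈ ({cjP (perm r) d} : Set Pm)} ⊆ clD (perm r) := fun x ⟨d, a, b⟩ =>
    ⟨perm d, M22_le_D2 (perm_mem22 (h1 d a).1), b.symm⟩
  have c := sm_list (S := {x | ∃ d ∈ L, x ∈ ({cjP (perm r) d} : Set Pm)}) (fun _ => 1) pw (fun x hx _ => hx)
    fun i hi x hx => ⟨i, hi, hx⟩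
  rw [sm_const (n := 1) fun _ _ => rfl, sumL_const (n := 1) fun d _ => sm_single (cjP (perm r) d) _,
    mul_one, mul_one, ← hl] at c
  rw [sm_list φ pw (fun x hx _ => (Set.eq_of_subset_of_ncard_le sub c.ge).ge hx) fun i hi x hx => sub ⟨i, hi, hx⟩]
  exact sumL_congr fun d _ => sm_single _ _

theorem ncard_clI : (clD (perm i2C)).ncard = 1155 := ncard_clD card_CD_i2 rfl (by norm_num)
theorem ncard_clJ : (clD (perm j2C)).ncard = 330 := ncard_clD card_CD_j2 rfl (by norm_num)
theorem ncard_clS : (clD (perm sC)).ncard = 1386 := ncard_clD card_CD_s0 rfl (by norm_num)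

theorem sm_D2 {φ : Pm → ℕ} (h : ∀ g ∈ D2, g * g ≠ 1 → φ g = 0) :
    sm D2 φ = φ 1 + sm (clD (perm i2C)) φ + sm (clD (perm j2C)) φ + sm (clD (perm sC)) φ := by
  have o : ∀ {r g : Pm}, g ∈ clD r → orderOf g = orderOf r := fun ⟨d, _, e⟩ => e ▸ CA.orderOf_conj' _ _
  have c : ∀ {r g : Pm}, g ∈ clD r → Nat.card ↥(D2 ⊓ 𝐂[g]) = Nat.card ↥(D2 ⊓ 𝐂[r]) := fun ⟨d, hd, e⟩ =>
    e ▸ card_inf_cent_conj hd
  have le : ∀ {r : Pm}, r ∈ D2 → clD r ⊆ D2 := fun hr g ⟨d, hd, e⟩ => e ▸ conj_H hd hr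
  have s0m : perm sC ∈ D2 := s0_mem
  rw [sm_list (L := [0, 1, 2, 3]) (T := fun i => [{1}, clD (perm i2C), clD (perm j2C), clD (perm sC)].getD i ∅) φ]
  · simp only [sumL_cons, sumL_nil, List.getD_cons_zero, List.getD_cons_succ, sm_single]; omega
  · simp only [List.pairwise_cons, List.mem_cons, List.not_mem_nil, or_false, forall_eq_or_imp, forall_eq,
      List.getD_cons_zero, List.getD_cons_succ, Set.mem_singleton_iff, false_imp_iff, implies_true, List.Pairwise.nil,
      and_true]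
    refine ⟨⟨fun a => ?_, fun a => ?_, fun a => ?_⟩, ⟨fun x a b => ?_, fun x a b => ?_⟩, fun x a b => ?_⟩
    · have := o a; rw [i2_ord, orderOf_one] at this; omega
    · have := o a; rw [j2_ord, orderOf_one] at this; omega
    · have := (o a).trans s0_ord; rw [orderOf_one] at this; omega
    · have := (c a).symm.trans (c b); rw [card_CD_i2, card_CD_j2] at this; omega
    · have := (c a).symm.trans ((c b).trans card_CD_s0); rw [card_CD_i2] at this; omega
    · have := (c a).symm.trans ((c b).trans card_CD_s0); rw [card_CD_j2] at this; omega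
  · intro g hg h0
    have h2 : g * g = 1 := by_contra fun a => h0 (h g hg a)
    by_cases h1 : g = 1
    · exact ⟨0, by simp, h1⟩
    have og : orderOf g = 2 := orderOf_eq_prime (by rw [pow_two, h2]) h1
    have cv : ∀ {d r : Pm}, d ∈ Spor.M22 → d * g * d⁻¹ = r → g ∈ clD r := fun hd e =>
      ⟨_, inv_mem (M22_le_D2 hd), by rw [← e]; group⟩
    by_cases h3 : g ∈ Spor.M22
    · obtain ⟨d, hd, e⟩ := cls_i2 h3 og
      exact ⟨1, by simp, cv hd e⟩
    · obtain ⟨d, hd, e | e⟩ := cls_out hg h3 og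
      · exact ⟨2, by simp, cv hd e⟩
      · exact ⟨3, by simp, cv hd e⟩
  · simp only [List.mem_cons, List.not_mem_nil, or_false, forall_eq_or_imp, forall_eq, List.getD_cons_zero,
      List.getD_cons_succ]
    exact ⟨by simp, le (M22_le_D2 (perm_mem22 i2C_in)), le j2_mem, le s0m⟩

/-- the part of a cyclic group in a subgroup -/
theorem mem_zp_iff_pow {G : Type*} [Group G] [Finite G] {N : Subgroup G} {g u : G} {k : ℕ} (h0 : 0 < k) (hk : g ^ k ∈ N)
    (hj : ∀ j, 0 < j → j < k → g ^ j ∉ N) (hu : u ∈ N) : u ∈ zpowers g ↔ u ∈ zpowers (g ^ k) := by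
  refine ⟨fun h => ?_, fun h => zpowers_le.2 (pow_mem (mem_zpowers g) k) h⟩
  obtain ⟨n, -, rfl⟩ := exists_pow_lt h
  rw [← Nat.div_add_mod n k, pow_add, pow_mul] at hu ⊢
  rw [Subgroup.mul_mem_cancel_left _ (pow_mem hk _)] at hu
  rcases Nat.eq_zero_or_pos (n % k) with e | e
  · rw [e, pow_zero, mul_one]; exact pow_mem (mem_zpowers _) _
  · exact absurd hu (hj _ e (Nat.mod_lt _ h0))

end CA.J4
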