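import Cfsg.Agent.Lib.J4.TrioH
import Cfsg.Agent.Lib.J4.Sm

/-!
Counting conjugacy classes: the number `ncl X A` of `X`-classes meeting a set `A`.
-/

set_option autoImplicit false
set_option linter.unusedSectionVars false
set_option linter.unusedVariables false

namespace CA.J4
open Cfsg CA.Gol CA.Ex2 CA.XS Subgroup

theorem ncard_image_congr {α β γ : Type*} {B : Set α} {f : α → β} {g : α → γ}
    (h : ∀ a ∈ B, ∀ b ∈ B, f a = f b ↔ g a = g b) : (f '' B).ncard = (g '' B).ncard := by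
  refine Set.ncard_congr (fun s hs => g hs.choose) (fun s hs => ⟨_, hs.choose_spec.1, rfl⟩) (fun s t hs ht e => ?_)
    fun _ ⟨a, ha, e⟩ => ⟨f a, ⟨a, ha, rfl⟩, ?_⟩
  · rw [← hs.choose_spec.2, ← ht.choose_spec.2]
    exact (h _ hs.choose_spec.1 _ ht.choose_spec.1).2 e
  · have hs : f a ∈ f '' B := ⟨a, ha, rfl⟩
    exact ((h _ hs.choose_spec.1 _ ha).1 hs.choose_spec.2).trans e

variable {G : Type*} [Group G] [Finite G]

/-- the number of `X`-conjugacy classes meeting `A` -/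
noncomputable def ncl (X : Subgroup G) (A : Set G) : ℕ := ((fun a => {y | CjIn X a y}) '' A).ncard

/-- `A` is invariant under conjugation by `X` -/
def CInv (X : Subgroup G) (A : Set G) : Prop := ∀ g ∈ X, ∀ a ∈ A, g * a * g⁻¹ ∈ A

variable {X Y : Subgroup G} {A B : Set G}

theorem CInv.mem (h : CInv X A) {a b : G} (ha : a ∈ A) (e : CjIn X a b) : b ∈ A := by
  obtain ⟨g, hg, rfl⟩ := e; exact h g hg a ha

theorem cls_eq_iff {a b : G} : {y | CjIn X a y} = {y | CjIn X b y} ↔ CjIn X a b :=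
  ⟨fun h => h.ge (CjIn.refl X b), CjIn.cls⟩

theorem cjIn_top {a b : G} : CjIn ⊤ a b ↔ IsConj a b :=
  ⟨CjIn.isConj, fun h => (isConj_iff.1 h).imp fun _ e => ⟨trivial, e⟩⟩

/-- transport along any map that respects conjugacy -/
theorem ncl_map {G' : Type*} [Group G'] {Y : Subgroup G'} (φ : G → G')
    (h : ∀ a ∈ A, ∀ b ∈ A, CjIn X a b ↔ CjIn Y (φ a) (φ b)) :
    ncl X A = ((fun a => {y | CjIn Y a y}) '' (φ '' A)).ncard := by
  rw [ncl, Set.image_image]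
  refine ncard_image_congr fun a ha b hb => cls_eq_iff.trans ((h a ha b hb).trans ⟨fun ⟨g, hg, e⟩ => ?_, fun e => ?_⟩)
  · ext y
    exact ⟨fun ⟨k, hk, e'⟩ => ⟨k * g⁻¹, mul_mem hk (inv_mem hg), by rw [← e, ← e']; group⟩,
      fun ⟨k, hk, e'⟩ => ⟨k * g, mul_mem hk hg, by rw [← e', ← e]; group⟩⟩
  · exact e.ge ⟨1, one_mem _, by simp⟩

theorem ncl_map' {G' : Type*} [Group G'] [Finite G'] {Y : Subgroup G'} {B : Set G'} (φ : G → G')
    (h : ∀ a ∈ A, ∀ b ∈ A, CjIn X a b ↔ CjIn Y (φ a) (φ b)) (hB : φ '' A = B) : ncl X A = ncl Y B :=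
  hB ▸ ncl_map φ h

theorem ncl_eq_of_iff (h : ∀ a ∈ A, ∀ b ∈ A, CjIn X a b ↔ CjIn Y a b) : ncl X A = ncl Y A :=
  ncl_map' id h (Set.image_id A)

theorem ncl_univ : ncl (⊤ : Subgroup G) Set.univ = Nat.card (ConjClasses G) := by
  rw [ncl, ncard_image_congr (g := ConjClasses.mk) fun a _ b _ =>
    cls_eq_iff.trans (cjIn_top.trans ConjClasses.mk_eq_mk_iff_isConj.symm), Set.image_univ,
    ConjClasses.mk_surjective.range_eq, Set.ncard_univ]

/-- the classes of a subgroup -/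
theorem ncl_self (X : Subgroup G) : ncl X X = Nat.card (ConjClasses X) := by
  rw [← ncl_univ]
  refine (ncl_map' (X := ⊤) (A := Set.univ) X.subtype (fun a _ b _ => ⟨fun ⟨g, _, e⟩ => ⟨g, g.2, congrArg Subtype.val e⟩,
    fun ⟨g, hg, e⟩ => ⟨⟨g, hg⟩, trivial, Subtype.ext e⟩⟩) (by simp)).symm

theorem card_conjClasses_equiv {H K : Type*} [Group H] [Group K] [Finite H] [Finite K] (e : H ≃* K) :
    Nat.card (ConjClasses H) = Nat.card (ConjClasses K) := by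
  rw [← ncl_univ, ← ncl_univ]
  exact ncl_map' e (fun a _ b _ => ⟨fun ⟨g, _, h⟩ => ⟨e g, trivial, by rw [← h]; simp⟩,
    fun ⟨g, _, h⟩ => ⟨e.symm g, trivial, e.injective (by rw [← h]; simp)⟩⟩) (by simp)

theorem ncl_empty (X : Subgroup G) : ncl X ∅ = 0 := by simp [ncl]

theorem ncl_single (X : Subgroup G) (a : G) : ncl X {a} = 1 := by simp [ncl]

theorem ncl_congr (h1 : ∀ a ∈ A, ∃ b ∈ B, CjIn X a b) (h2 : ∀ b ∈ B, ∃ a ∈ A, CjIn X b a) : ncl X A = ncl X B := by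
  unfold ncl; congr 1; ext s
  constructor
  · rintro ⟨a, ha, rfl⟩; obtain ⟨b, hb, e⟩ := h1 a ha; exact ⟨b, hb, e.symm.cls⟩
  · rintro ⟨a, ha, rfl⟩; obtain ⟨b, hb, e⟩ := h2 a ha; exact ⟨b, hb, e.symm.cls⟩

theorem ncl_one {r : G} (hr : r ∈ A) (h : ∀ a ∈ A, CjIn X a r) : ncl X A = 1 :=
  (ncl_congr (B := {r}) (fun a ha => ⟨r, rfl, h a ha⟩) fun b hb => ⟨r, hr, hb ▸ CjIn.refl _ _⟩).trans (ncl_single X r)

theorem ncl_union (h : ∀ a ∈ A, ∀ b ∈ B, ¬ CjIn X a b) : ncl X (A ∪ B) = ncl X A + ncl X B := by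
  rw [ncl, Set.image_union, Set.ncard_union_eq]; · rfl
  rw [Set.disjoint_left]
  rintro _ ⟨a, ha, rfl⟩ ⟨b, hb, e⟩
  exact h a ha b hb (cls_eq_iff.1 e.symm)

/-- splitting by an invariant property -/
theorem ncl_split (P : G → Prop) (h : ∀ a ∈ A, ∀ b ∈ A, CjIn X a b → P a → P b) :
    ncl X A = ncl X {a | a ∈ A ∧ P a} + ncl X {a | a ∈ A ∧ ¬ P a} := by
  rw [← ncl_union fun a ha b hb e => hb.2 (h a ha.1 b hb.1 e ha.2)]
  congr 1; ext a; by_cases e : P a <;> simp [e]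

/-- splitting along a list of sets -/
theorem ncl_list {ι : Type} {L : List ι} {T : ι → Set G} (hL : L.Pairwise fun i j => ∀ a ∈ T i, ∀ b ∈ T j, ¬ CjIn X a b)
    (h1 : ∀ a ∈ A, ∃ i ∈ L, ∃ b ∈ T i, CjIn X a b) (h2 : ∀ i ∈ L, ∀ b ∈ T i, ∃ a ∈ A, CjIn X b a) :
    ncl X A = sumL L fun i => ncl X (T i) := by
  rw [ncl_congr (B := {b | ∃ i ∈ L, b ∈ T i}) (fun a ha => by
    obtain ⟨i, hi, b, hb, e⟩ := h1 a ha; exact ⟨b, ⟨i, hi, hb⟩, e⟩) fun b hb => by obtain ⟨i, hi, hb⟩ := hb; exact h2 i hi b hb]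
  clear h1 h2
  induction L with
  | nil => simp [sumL_nil, ncl_empty]
  | cons i L ih =>
    rw [List.pairwise_cons] at hL
    rw [sumL_cons, ← ih hL.2, ← ncl_union (A := T i) (B := {b | ∃ i ∈ L, b ∈ T i})
      fun a ha b ⟨j, hj, hb⟩ => hL.1 j hj a ha b hb]
    congr 1; ext a; simp

/-- counting by a list of representatives -/
theorem ncl_reps {ι : Type} {L : List ι} {r : ι → G} (hL : L.Pairwise fun i j => ¬ CjIn X (r i) (r j))
    (h1 : ∀ a ∈ A, ∃ i ∈ L, CjIn X a (r i)) (h2 : ∀ i ∈ L, r i ∈ A) : ncl X A = L.length := by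
  rw [ncl_list (A := A) (T := fun i => {r i}) (hL.imp fun h a ha b hb => by rwa [ha, hb])
    (fun a ha => by obtain ⟨i, hi, e⟩ := h1 a ha; exact ⟨i, hi, _, rfl, e⟩) fun i hi b hb => ⟨_, h2 i hi, hb ▸ CjIn.refl _ _⟩,
    sumL_const fun i _ => ncl_single X (r i), mul_one]

theorem exists_reps (X : Subgroup G) (A : Set G) : ∃ n, ∃ r : ℕ → G, (List.range n).Pairwise (fun i j => ¬ CjIn X (r i) (r j)) ∧
    (∀ a ∈ A, ∃ i ∈ List.range n, CjIn X a (r i)) ∧ ∀ i ∈ List.range n, r i ∈ A := by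
  induction A, Set.toFinite A using Set.Finite.induction_on with
  | empty => exact ⟨0, fun _ => 1, by simp⟩
  | @insert a A _ _ ih =>
    obtain ⟨n, r, h1, h2, h3⟩ := ih
    by_cases h : ∃ i ∈ List.range n, CjIn X a (r i)
    · exact ⟨n, r, h1, by rintro b (rfl | hb); exacts [h, h2 b hb], fun i hi => Or.inr (h3 i hi)⟩
    · have e : ∀ i ∈ List.range n, Function.update r n a i = r i := fun i hi =>
        Function.update_of_ne (List.mem_range.1 hi).ne _ _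
      refine ⟨n + 1, Function.update r n a, ?_, ?_, ?_⟩
      · rw [List.range_succ, List.pairwise_append]
        refine ⟨List.Pairwise.imp_of_mem (fun hi hj => by rw [e _ hi, e _ hj]; exact id) h1, by simp, fun i hi j hj => ?_⟩
        rw [List.mem_singleton.1 hj, e _ hi, Function.update_self]
        exact fun c => h ⟨i, hi, c.symm⟩
      · rintro b (rfl | hb)
        · exact ⟨n, by simp, by rw [Function.update_self]; exact CjIn.refl _ _⟩
        · obtain ⟨i, hi, c⟩ := h2 b hb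
          exact ⟨i, by rw [List.mem_range] at hi ⊢; omega, by rwa [e _ hi]⟩
      · intro i hi
        rw [List.range_succ, List.mem_append, List.mem_singleton] at hi
        rcases hi with hi | rfl
        · rw [e _ hi]; exact Or.inr (h3 i hi)
        · simp

theorem sm_cls (φ : G → ℕ) {n : ℕ} (h : ∀ a ∈ A, sm {y | y ∈ A ∧ CjIn X a y} φ = n) : sm A φ = ncl X A * n := by
  rw [sm_fiber (C := (fun a => {y | CjIn X a y}) '' A) (f := fun a => {y | CjIn X a y}) fun x hx => ⟨x, hx, rfl⟩,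
    sm_const (n := n), ncl]
  rintro _ ⟨a, ha, rfl⟩
  rw [← h a ha]; congr 1; ext y
  exact and_congr_right fun _ => cls_eq_iff.trans ⟨CjIn.symm, CjIn.symm⟩

theorem ncl_mul_const {k : ℕ} (h : ∀ a ∈ A, {y | y ∈ A ∧ CjIn X a y}.ncard = k) : ncl X A * k = A.ncard := by
  rw [← sm_cls (fun _ => 1) fun a ha => by rw [sm_const fun _ _ => rfl, h a ha, mul_one], sm_const fun _ _ => rfl, mul_one]

theorem card_cent_cjIn {a b : G} (h : CjIn X a b) : Nat.card ↥(X ⊓ 𝐂[b]) = Nat.card ↥(X ⊓ 𝐂[a]) := by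
  obtain ⟨g, hg, rfl⟩ := h; exact card_inf_cent_conj hg

/-- the commuting pairs formula -/
theorem ncl_mul (h : CInv X A) : ncl X A * Nat.card X = sm A fun a => Nat.card ↥(X ⊓ 𝐂[a]) := by
  refine (sm_cls _ fun a ha => ?_).symm
  rw [sm_const fun y hy => card_cent_cjIn hy.2, ← card_class_mul X a, mul_comm]
  congr 2; ext y; exact ⟨fun h => h.2, fun e => ⟨h.mem ha e, e⟩⟩

/-- non-conjugate representatives whose classes have the right total size are complete -/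
theorem reps_of_count {ι : Type} {L : List ι} {r : ι → G} {c : ι → ℕ} (h : CInv X A)
    (hL : L.Pairwise fun i j => ¬ CjIn X (r i) (r j)) (h2 : ∀ i ∈ L, r i ∈ A)
    (hc : ∀ i ∈ L, Nat.card ↥(X ⊓ 𝐂[r i]) * c i = Nat.card X) (hA : A.ncard ≤ sumL L c) :
    ∀ a ∈ A, ∃ i ∈ L, CjIn X a (r i) := by
  have e := ncard_eq_sum (S := {b | ∃ i ∈ L, CjIn X (r i) b}) (L := L) (T := fun i => {b | CjIn X (r i) b}) (b := c)
    (Set.toFinite _) (hL.imp fun h x _ a b => h (a.trans b.symm)) (fun x hx => hx) fun i hi => by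
      rw [Set.inter_eq_right.2 (show {b | CjIn X (r i) b} ⊆ {b | ∃ i ∈ L, CjIn X (r i) b} from fun b hb => ⟨i, hi, hb⟩)]
      exact Nat.eq_of_mul_eq_mul_left Nat.card_pos ((card_class_mul X (r i)).trans (hc i hi).symm)
  have := Set.eq_of_subset_of_ncard_le (s := {b | ∃ i ∈ L, CjIn X (r i) b}) (t := A)
    (fun b ⟨i, hi, hb⟩ => h.mem (h2 i hi) hb) (e ▸ hA)
  exact fun a ha => (this.ge ha).imp fun i hi => ⟨hi.1, hi.2.symm⟩

theorem ncl_count {ι : Type} {L : List ι} {r : ι → G} {c : ι → ℕ} (h : CInv X A)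
    (hL : L.Pairwise fun i j => ¬ CjIn X (r i) (r j)) (h2 : ∀ i ∈ L, r i ∈ A)
    (hc : ∀ i ∈ L, Nat.card ↥(X ⊓ 𝐂[r i]) * c i = Nat.card X) (hA : A.ncard ≤ sumL L c) : ncl X A = L.length :=
  ncl_reps hL (reps_of_count h hL h2 hc hA) h2

/-- a complete list of representatives whose class sizes add up to at most the size is irredundant -/
theorem ncl_count' {ι : Type} {L : List ι} {r : ι → G} {c : ι → ℕ} (h : CInv X A)
    (h1 : ∀ a ∈ A, ∃ i ∈ L, CjIn X a (r i)) (h2 : ∀ i ∈ L, r i ∈ A)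
    (hc : ∀ i ∈ L, Nat.card ↥(X ⊓ 𝐂[r i]) * c i = Nat.card X) (hA : sumL L c ≤ A.ncard) : ncl X A = L.length := by
  refine ncl_reps ?_ h1 h2
  have cc : ∀ i ∈ L, {b | CjIn X (r i) b}.ncard = c i := fun i hi =>
    Nat.eq_of_mul_eq_mul_left Nat.card_pos ((card_class_mul X (r i)).trans (hc i hi).symm)
  have hA' : sumL L c ≤ {b | ∃ i ∈ L, CjIn X (r i) b}.ncard := hA.trans (Set.ncard_le_ncard fun a ha =>
    (h1 a ha).imp fun i hi => ⟨hi.1, hi.2.symm⟩)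
  clear h1 h2 hc hA
  induction L with
  | nil => simp
  | cons i L ih =>
    have le : {b | ∃ i ∈ L, CjIn X (r i) b}.ncard ≤ sumL L c := ncard_le_sum (T := fun i => {b | CjIn X (r i) b})
      (Set.toFinite _) (fun x hx => hx) fun j hj => cc j (List.mem_cons_of_mem _ hj) ▸
        Set.ncard_le_ncard Set.inter_subset_right
    have e : {b | ∃ j ∈ i :: L, CjIn X (r j) b} = {b | CjIn X (r i) b} ∪ {b | ∃ j ∈ L, CjIn X (r j) b} := by ext; simp
    rw [sumL_cons, e] at hA'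
    have u := Set.ncard_union_add_ncard_inter {b | CjIn X (r i) b} {b | ∃ j ∈ L, CjIn X (r j) b}
    rw [cc i (by simp)] at u
    refine List.pairwise_cons.2 ⟨fun j hj c => ?_, ih (fun j hj => cc j (List.mem_cons_of_mem _ hj)) (by omega)⟩
    have : 0 < ({b | CjIn X (r i) b} ∩ {b | ∃ j ∈ L, CjIn X (r j) b}).ncard :=
      (Set.ncard_pos (Set.toFinite _)).2 ⟨r j, c, j, hj, CjIn.refl _ _⟩
    omega

/-- classes with a given value of an equivariant map -/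
theorem ncl_root1 (ρ : G → G) (hρ : ∀ g ∈ X, ∀ a ∈ A, ρ (g * a * g⁻¹) = g * ρ a * g⁻¹) (r : G) :
    ncl X {a | a ∈ A ∧ ρ a = r} = ncl (X ⊓ 𝐂[r]) {a | a ∈ A ∧ ρ a = r} :=
  ncl_eq_of_iff fun a ha b hb => ⟨fun ⟨g, hg, e⟩ => ⟨g, ⟨hg, mem_cent1_iff.2 (mul_inv_eq_iff_eq_mul.1 (by
    rw [← ha.2, ← hρ g hg a ha.1, e, hb.2, ha.2]))⟩, e⟩, fun h => h.mono inf_le_left⟩

theorem ncl_root {ι : Type} {L : List ι} {r : ι → G} (h : CInv X A) (ρ : G → G)
    (hρ : ∀ g ∈ X, ∀ a ∈ A, ρ (g * a * g⁻¹) = g * ρ a * g⁻¹) (hL : L.Pairwise fun i j => ¬ CjIn X (r i) (r j))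
    (h1 : ∀ a ∈ A, ∃ i ∈ L, CjIn X (ρ a) (r i)) :
    ncl X A = sumL L fun i => ncl (X ⊓ 𝐂[r i]) {a | a ∈ A ∧ ρ a = r i} := by
  rw [ncl_list (T := fun i => {a | a ∈ A ∧ ρ a = r i}) (hL.imp fun h a ha b hb ⟨g, hg, e⟩ =>
    h ⟨g, hg, by rw [← ha.2, ← hρ g hg a ha.1, e, hb.2]⟩) (fun a ha => ?_) fun i _ b hb => ⟨b, hb.1, CjIn.refl _ _⟩]
  · exact sumL_congr fun i _ => ncl_root1 ρ hρ _
  · obtain ⟨i, hi, g, hg, e⟩ := h1 a ha
    exact ⟨i, hi, _, ⟨h g hg a ha, by rw [hρ g hg a ha, e]⟩, g, hg, rfl⟩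

/-- translation by a central element -/
theorem ncl_mul_left {x : G} (hx : X ≤ 𝐂[x]) (A : Set G) : ncl X ((fun a => x * a) '' A) = ncl X A := by
  have e : ∀ g ∈ X, ∀ a, g * (x * a) * g⁻¹ = x * (g * a * g⁻¹) := fun g hg a => by
    rw [← mul_assoc, mem_cent1_iff.1 (hx hg)]; group
  exact (ncl_map' _ (fun a _ b _ => ⟨fun ⟨g, hg, h⟩ => ⟨g, hg, by rw [e g hg, h]⟩,
    fun ⟨g, hg, h⟩ => ⟨g, hg, mul_left_cancel (a := x) (by rw [← e g hg, h])⟩⟩) rfl).symm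

theorem ncl_cj (g : G) (X : Subgroup G) (A : Set G) : ncl (cj g X) ((fun a => g * a * g⁻¹) '' A) = ncl X A :=
  (ncl_map' _ (fun a _ b _ => ⟨fun ⟨k, hk, h⟩ => ⟨g * k * g⁻¹, mem_cj'.2 ⟨k, hk, rfl⟩, by rw [← h]; group⟩,
    fun ⟨k, hk, h⟩ => by
      obtain ⟨k', hk', rfl⟩ := mem_cj'.1 hk
      exact ⟨k', hk', (MulAut.conj g).injective (by simp only [MulAut.conj_apply]; rw [← h]; group)⟩⟩) rfl).symm

/-- a central factor does not matter -/
theorem ncl_sup {Z : Subgroup G} (hZ : ∀ z ∈ Z, ∀ a ∈ A, z * a = a * z) (hN : X ≤ 𝐍(Z)) : ncl (Z ⊔ X) A = ncl X A :=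
  ncl_eq_of_iff fun a ha b hb => ⟨fun ⟨g, hg, e⟩ => by
    obtain ⟨z, hz, x, hx, rfl⟩ := (mem_sup_of_norm_right hN).1 hg
    refine ⟨x, hx, (MulAut.conj z).injective ?_⟩
    simp only [MulAut.conj_apply]
    rw [hZ z hz b hb, mul_inv_cancel_right, ← e]; group, fun h => h.mono le_sup_right⟩

/-! ### the largest prime -/

/-- elements whose order has `p` as its largest prime divisor -/
def LP (G : Type*) [Group G] (p : ℕ) : Set G := {g | PiElt (Set.Iic p) g ∧ ¬ PiElt (Set.Iio p) g}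

/-- the number of `C(x)`-classes of elements of `C(x)` whose order only has prime divisors `< p` -/
noncomputable def nP (p : ℕ) (x : G) : ℕ := ncl 𝐂[x] {y | y ∈ 𝐂[x] ∧ PiElt (Set.Iio p) y}

theorem nP_conj (p : ℕ) {x y : G} (h : IsConj x y) : nP p y = nP p x := by
  obtain ⟨g, rfl⟩ := isConj_iff.1 h
  rw [nP, nP, ← ncl_cj g 𝐂[x], ← cj_centralizer_singleton]
  congr 1; ext y
  constructor
  · rintro ⟨h1, h2⟩
    obtain ⟨a, ha, rfl⟩ := mem_cj'.1 h1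
    exact ⟨a, ⟨ha, piElt_conj.1 h2⟩, rfl⟩
  · rintro ⟨a, ha, rfl⟩; exact ⟨mem_cj'.2 ⟨a, ha.1, rfl⟩, piElt_conj.2 ha.2⟩

theorem nP_zpowers (p : ℕ) {x y : G} (h : zpowers x = zpowers y) : nP p x = nP p y := by
  rw [nP, nP, ← cent_zpowers, h, cent_zpowers]

theorem ncl_Iic (G : Type*) [Group G] [Finite G] (p : ℕ) : ncl ⊤ {g : G | PiElt (Set.Iic p) g} =
    ncl ⊤ {g : G | PiElt (Set.Iio p) g} + ncl ⊤ (LP G p) := by
  rw [ncl_split (PiElt (Set.Iio p)) fun a _ b _ ⟨g, _, e⟩ h => e ▸ piElt_conj.2 h]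
  congr 2; ext a
  exact ⟨fun h => h.2, fun h => ⟨PiElt.mono h Set.Iio_subset_Iic_self, h⟩⟩

theorem LP_inv (p : ℕ) : CInv ⊤ (LP G p) := fun g _ a ha => by simpa [LP] using ha

theorem ncl_fib {p : ℕ} {x : G} (hp : p.Prime) (hx : PiElt {p} x) (h1 : x ≠ 1) :
    ncl (⊤ ⊓ 𝐂[x]) {a | a ∈ LP G p ∧ constt {p} a = x} = nP p x := by
  rw [nP, top_inf_eq, ← ncl_mul_left (le_refl 𝐂[x]) {y | y ∈ 𝐂[x] ∧ PiElt (Set.Iio p) y}]
  congr 1; ext a
  constructor
  · rintro ⟨h2, rfl⟩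
    replace h2 := h2.1
    refine ⟨constt {p}ᶜ a, ⟨mem_cent1_iff.2 (constt_comm _ _ _), fun q hq hd => ?_⟩, constt_mul_compl _ _⟩
    exact lt_of_le_of_ne (h2.of_mem_zpowers (constt_mem_zpowers _ _) q hq hd) (constt_piElt {p}ᶜ a q hq hd)
  · rintro ⟨y, h3, rfl⟩
    have h2 := h3.1
    replace h3 := h3.2
    have c := (mem_cent1_iff.1 h2).symm
    have e : constt {p} (x * y) = x := constt_unique hx (h3.mono fun q hq e => absurd hq (by rw [e]; simp)) c rfl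
    refine ⟨⟨(hx.mono (by simp)).mul (h3.mono Set.Iio_subset_Iic_self) c, fun h4 => h1 ?_⟩, e⟩
    exact hx.eq_one (((e ▸ h4.of_mem_zpowers (constt_mem_zpowers _ _)) : PiElt _ x).mono
      fun q hq e => absurd hq (by rw [e]; simp))

theorem LP_constt {p : ℕ} {a : G} (ha : a ∈ LP G p) : constt {p} a ≠ 1 := fun e =>
  ha.2 fun q hq hd => lt_of_le_of_ne (ha.1 q hq hd) (constt_eq_one_iff.1 e q hq hd)

/-- classes with largest prime `p`, from representatives of the classes of non-trivial `p`-elements -/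
theorem ncl_LP {ι : Type} {p : ℕ} (hp : p.Prime) {L : List ι} {r : ι → G} (hL : L.Pairwise fun i j => ¬ IsConj (r i) (r j))
    (h1 : ∀ x, PiElt {p} x → x ≠ 1 → ∃ i ∈ L, IsConj (r i) x) (h2 : ∀ i ∈ L, PiElt {p} (r i) ∧ r i ≠ 1) :
    ncl ⊤ (LP G p) = sumL L fun i => nP p (r i) := by
  rw [ncl_root (LP_inv p) (constt {p}) (fun g _ a _ => constt_conj _ _ _) (hL.imp fun h c => h c.isConj) fun a ha =>
    (h1 _ (constt_piElt _ _) (LP_constt ha)).imp fun i hi => ⟨hi.1, cjIn_top.2 hi.2.symm⟩]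
  exact sumL_congr fun i hi => ncl_fib hp (h2 i hi).1 (h2 i hi).2

theorem orderOf_eq_of_not_sq {p : ℕ} (hp : p.Prime) (h : ¬ p * p ∣ Nat.card G) {x : G} (hx : PiElt {p} x) (h1 : x ≠ 1) :
    orderOf x = p := by
  obtain ⟨k, hk⟩ := (piElt_singleton_iff hp).1 hx
  match k, hk with
  | 0, hk => exact absurd (orderOf_eq_one_iff.1 hk) h1
  | 1, hk => simpa using hk
  | k + 2, hk => exact absurd ((Dvd.intro_left (p ^ k) (by rw [hk]; ring)).trans (orderOf_dvd_natCard x)) h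

/-- the case of a Sylow subgroup of prime order -/
theorem ncl_LP_cyc {p k : ℕ} (hp : p.Prime) (h : ¬ p * p ∣ Nat.card G) {u : G} (hu : orderOf u = p)
    (hN : Nat.card 𝐍(zpowers u) = Nat.card 𝐂[u] * k) : ncl ⊤ (LP G p) * k = (p - 1) * nP p u := by
  obtain ⟨n, r, h1, h2, h3⟩ := exists_reps ⊤ ((zpowers u : Set G) \ {1})
  have ez : ∀ a ∈ (zpowers u : Set G) \ {1}, zpowers a = zpowers u := fun a ha =>
    (eq_bot_or_eq_of_prime_card (by rwa [Nat.card_zpowers, hu]) (zpowers_le.2 ha.1)).resolve_left fun e =>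
      ha.2 (zpowers_eq_bot.1 e)
  have e1 := ncl_mul_const (X := ⊤) (A := (zpowers u : Set G) \ {1}) (k := k) fun a ha => by
    have := card_norm_zpowers a
    rw [← cent_zpowers, ez a ha, cent_zpowers, hN] at this
    rw [Nat.eq_of_mul_eq_mul_left Nat.card_pos this]
    congr 1; ext y
    exact ⟨fun h => ⟨h.1.1, h.2.isConj⟩, fun h => ⟨⟨h.1, fun e => ha.2 (by
      have := h.2; rwa [show y = 1 from e, isConj_one_left] at this)⟩, cjIn_top.2 h.2⟩⟩
  rw [ncl_reps h1 h2 h3, Set.ncard_diff_singleton_of_mem (zpowers u).one_mem,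
    show (zpowers u : Set G).ncard = p by rw [← hu, ← Nat.card_zpowers]; rfl] at e1
  rw [ncl_LP hp (h1.imp fun h c => h (cjIn_top.2 c)) (fun x hx x1 => ?_) fun i hi =>
    ⟨((piElt_of_orderOf_prime (π := {p}) hp hu).2 rfl).of_mem_zpowers (h3 i hi).1, (h3 i hi).2⟩,
    sumL_const fun i hi => nP_zpowers p (ez _ (h3 i hi)), ← e1, mul_right_comm]
  obtain ⟨d, -, j, -, -, e⟩ := conj_pow_of_sylow hp (mem_top u) hu (by rwa [card_top]) (mem_top x)
    (orderOf_eq_of_not_sq hp h hx x1)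
  obtain ⟨i, hi, c⟩ := h2 (d * x * d⁻¹) ⟨e ▸ pow_mem (mem_zpowers u) j, fun e => x1 (conj_eq_one_iff.1 e)⟩
  exact ⟨i, hi, c.isConj.symm.trans (isConj_iff.2 ⟨d, rfl⟩).symm⟩

/-- `C(x) = ⟨x⟩ × I` -/
theorem nP_dprod {p : ℕ} (hp : p.Prime) {x : G} (hx : orderOf x = p) {I : Subgroup G} (h : DProd (zpowers x) I 𝐂[x]) :
    nP p x = ncl I {y | y ∈ I ∧ PiElt (Set.Iio p) y} := by
  have e : {y | y ∈ 𝐂[x] ∧ PiElt (Set.Iio p) y} = {y | y ∈ I ∧ PiElt (Set.Iio p) y} := by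
    ext y
    refine and_congr_left fun hy => ⟨fun h1 => ?_, fun h1 => h.right_le h1⟩
    obtain ⟨a, ha, b, hb, rfl⟩ := h.exists_mul h1
    have c : Commute a b := mem_centralizer_iff.1 (h.cent hb) a ha
    have e := pow_orderOf_eq_one (a * b)
    rw [c.mul_pow, mul_eq_one_iff_eq_inv] at e
    have : a ^ orderOf (a * b) ∈ zpowers x ⊓ I := mem_inf.2 ⟨pow_mem ha _, e ▸ I.inv_mem (pow_mem hb _)⟩
    rw [h.inf_eq, mem_bot] at this
    rw [(((piElt_of_orderOf_prime (π := {p}) hp hx).2 rfl).of_mem_zpowers ha).eq_one fun q hq hd e =>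
      absurd (hy q hq (hd.trans (orderOf_dvd_of_pow_eq_one this))) (by rw [e]; simp), one_mul]
    exact hb
  rw [nP, e]
  conv_lhs => rw [← h.sup_eq]
  exact ncl_sup (fun z hz a ha => mem_centralizer_iff.1 (show a ∈ 𝐂(zpowers x) from
    (cent_zpowers x).symm ▸ h.right_le ha.1) z hz) (h.right_le.trans (cent1_le_norm x))

theorem nP_self {p : ℕ} (hp : p.Prime) {x : G} (hx : orderOf x = p) (h : 𝐂[x] = zpowers x) : nP p x = 1 :=
  ncl_one (r := 1) ⟨one_mem _, piElt_one _⟩ fun a ha => by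
    rw [(((piElt_of_orderOf_prime (π := {p}) hp hx).2 rfl).of_mem_zpowers (h ▸ ha.1)).eq_one
      (ha.2.mono fun q hq e => absurd hq (by rw [e]; simp))]
    exact CjIn.refl _ _

end CA.J4
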