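import Cfsg.Agent.Lib.J4.Elev2
import Cfsg.Agent.Lib.J4.Cls0

/-!
The nine classes of elements of order divisible by 11 in a group of type `J4`.
-/

set_option autoImplicit false
set_option linter.unusedSectionVars false
set_option linter.unusedVariables false

namespace CA.J4
open Cfsg CA.Gol CA.Ex2 CA.XS Subgroup
open scoped commutatorElement

variable {G : Type*} [Group G] [Finite G]

/-- classes of `π`-elements of a semidirect product of a normal `π'`-group with a `π`-group -/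
theorem ncl_semi {π : Set ℕ} {N K M : Subgroup G} (hN : N ⊴ M) (e : N ⊔ K = M) (h1 : PiGrp πᶜ N) (h2 : PiGrp π K) :
    ncl M {y | y ∈ M ∧ PiElt π y} = ncl K K := by
  have KM : K ≤ M := e ▸ le_sup_right
  have d : ∀ g ∈ M, ∃ a ∈ N, ∃ b ∈ K, a * b = g := fun g hg =>
    (mem_sup_of_norm_right (KM.trans hN.norm)).1 (e ▸ hg)
  refine (ncl_congr (A := {y | y ∈ M ∧ PiElt π y}) (B := K) (fun a ha => ?_) fun b hb => ⟨b, ⟨KM hb, h2.piElt hb⟩, CjIn.refl _ _⟩).trans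
    (ncl_eq_of_iff fun a ha b hb => ⟨fun ⟨g, hg, h⟩ => ?_, fun h => h.mono KM⟩)
  swap
  · obtain ⟨o, ho, k, hk, rfl⟩ := d g hg
    have : b * (k * a * k⁻¹)⁻¹ ∈ N ⊓ K := mem_inf.2 ⟨by
      rw [← h, show o * k * a * (o * k)⁻¹ * (k * a * k⁻¹)⁻¹ = o * (k * a * k⁻¹ * o⁻¹ * (k * a * k⁻¹)⁻¹) by group]
      exact mul_mem ho (conj_mem_of_mem_normalizer (hN.norm (KM (conj_H hk ha))) (inv_mem ho)),
      mul_mem hb (inv_mem (conj_H hk ha))⟩
    rw [(disjoint_of_coprime_natCard (h1.coprime' h2)).eq_bot, mem_bot, mul_inv_eq_one] at this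
    exact ⟨k, hk, this.symm⟩
  · obtain ⟨x, hx, h⟩ := exists_cj_le_of_le_sup (S := K) (Or.inr (solvable_of_abelian inferInstance))
      (zpowers_le.2 (hN.norm ha.1)) (h1.coprime' (piGrp_zpowers.2 ha.2)) fun y hy => by
        obtain ⟨o, ho, k, hk, h⟩ := d y (zpowers_le.2 ha.1 hy)
        exact ⟨o⁻¹, inv_mem ho, by rwa [← h, inv_mul_cancel_left]⟩
    exact ⟨_, h (conj_mem_cj.2 (mem_zpowers a)), x, hN.le hx, rfl⟩

namespace St
variable (S : St G)

/-- the complement `SL₂(3)` in the centralizer of an element of class `11A` -/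
noncomputable def K24 : Subgroup G := pker S.π ⊓ 𝐂[S.xa]

theorem card_K24 : Nat.card S.K24 = 24 := by rw [K24, S.jh.card_ker_cent S.xa_L, S.jh.card_E_cent11 S.xa_L.1 S.xa_ord]

theorem K24_pi : PiGrp (Set.Iio 11) S.K24 := fun q hq hd => by
  rw [S.card_K24] at hd
  have := Nat.le_of_dvd (by norm_num) hd
  by_contra h
  rw [Set.mem_Iio, not_lt] at h
  interval_cases q <;> simp_all (config := {decide := true})

theorem Ua_K24 : S.Ua ⊔ S.K24 = 𝐂[S.xa] := eq_of_le_of_card_le (sup_le S.Ua_normal.le inf_le_right) (by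
  rw [card_sup_of_disjoint (B := S.K24) (Or.inl (inf_le_right.trans S.Ua_normal.norm))
    (disjoint_of_coprime_natCard (by rw [S.card_Ua.1, S.card_K24]; norm_num)).eq_bot, S.card_Ua.1, S.card_Ua.2, S.card_K24])

theorem K24_p : Nat.card ↥(S.K24 ⊓ 𝐂[S.p]) = 6 := by
  rw [K24, inf_right_comm, S.jh.ker_inf_cent, inf_eq_left.2 (sup_le (zpowers_le.2 S.z_xa) (zpowers_le.2 S.p_xa)), S.jh.card_Z]

theorem fq_ord : orderOf S.fq = 4 := by
  have : Fact (Nat.Prime 2) := ⟨Nat.prime_two⟩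
  exact orderOf_eq_prime_pow (p := 2) (x := S.fq) (n := 1) (by rw [pow_one, pow_two, S.fq_sq]; exact S.jh.ez.ne_one)
    (by rw [show 2 ^ (1 + 1) = 2 * 2 from rfl, pow_mul, pow_two S.fq, S.fq_sq, pow_two, S.jh.z_sq])

theorem fq_K : S.fq ∈ S.K24 := ⟨S.jh.E_le_ker (S.jh.c_mem (by norm_num)), S.fq_xa⟩

theorem K24_fq : Nat.card ↥(S.K24 ⊓ 𝐂[S.fq]) = 4 := by
  have a := card_dvd_of_le (inf_le_left (a := S.K24) (b := 𝐂[S.fq]))
  have b := orderOf_dvd_card_of_mem (show S.fq ∈ S.K24 ⊓ 𝐂[S.fq] from ⟨S.fq_K, self_mem_cent1 _⟩)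
  have c : ¬ 3 ∣ Nat.card ↥(S.K24 ⊓ 𝐂[S.fq]) := fun h => by
    obtain ⟨r, hr, o⟩ := exists_orderOf_eq_prime (by norm_num) h
    have := (orderOf_dvd_card_of_mem (show S.fq ∈ 𝐂[r] ⊓ 𝐂[S.xa] from ⟨mem_cent1_comm.1 hr.2, S.fq_xa⟩)).trans
      (S.c66 o S.xa_ord (mem_cent1_comm.1 hr.1.2))
    rw [S.fq_ord] at this; norm_num at this
  have cQ := S.jh.card_E_cent11 S.xa_L.1 S.xa_ord
  have d : Nat.card ↥(S.K24 ⊓ 𝐂[S.fq]) ≠ 8 := fun h => by
    have e := eq_of_le_of_card_le ((sylowIn_of_card (k := 3) Nat.prime_two (inf_le_inf_right _ S.jh.E_le_ker) cQ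
      (M := S.K24) (by rw [S.card_K24]; norm_num)).le_of_norm' (piGrp_of_card_pow (k := 3) Nat.prime_two h) inf_le_left
      (inf_le_left.trans (norms_inf (inf_le_left.trans ((pker_le_dom _).trans S.jh.E_norm))
        (inf_le_right.trans le_normalizer)))) (cQ.trans h.symm).le
    have := mem_cent1_iff.1 (e.ge ⟨S.jh.c_mem (by norm_num), S.fq_p ▸ conj_H S.p_xa S.fq_xa⟩).2
    exact S.jh.ez.ne_one (S.fq_comm ▸ commutatorElement_eq_one_iff_mul_comm.2 this.symm)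
  rw [S.card_K24] at a
  rw [S.fq_ord] at b
  have := Nat.le_of_dvd (by norm_num) a
  generalize Nat.card ↥(S.K24 ⊓ 𝐂[S.fq]) = n at *
  interval_cases n <;> omega

theorem K24_np : ¬ CjIn S.K24 S.p S.p⁻¹ := fun ⟨g, hg, h⟩ => by
  obtain ⟨e, he, y, hy, rfl⟩ := S.jh.mem_ker.1 hg.1
  have c := mem_cent_iff.1 (cent_zpowers S.p ▸ self_mem_cent1 S.p) y hy
  have : (S.p * S.p)⁻¹ ∈ S.E ⊓ zpowers S.p := mem_inf.2 ⟨by
    rw [mul_inv_rev]; nth_rewrite 1 [← h]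
    rw [mul_assoc e, c, show e * (S.p * y) * (e * y)⁻¹ * S.p⁻¹ = e * (S.p * e⁻¹ * S.p⁻¹) by group]
    exact mul_mem he (conj_mem_of_mem_normalizer (S.jh.E_norm S.jh.p_mem) (inv_mem he)),
    inv_mem (mul_mem (mem_zpowers _) (mem_zpowers _))⟩
  rw [S.jh.E_inf_P, mem_bot, inv_eq_one, ← pow_two, ← orderOf_dvd_iff_pow_eq_one, S.jh.p_ord] at this
  norm_num at this

theorem ncl_K24 : ncl S.K24 S.K24 = 7 := by
  have Kz : S.K24 ≤ 𝐂[S.z] := inf_le_left.trans (pker_le_dom _)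
  have zK : S.z ∈ S.K24 := ⟨S.jh.E_le_ker S.jh.z_mem, S.z_xa⟩
  have pK : S.p ∈ S.K24 := ⟨S.jh.p_ker, S.p_xa⟩
  have cz : ∀ y, S.K24 ⊓ 𝐂[S.z * y] = S.K24 ⊓ 𝐂[y] := fun y => Subgroup.ext fun g => by
    rw [mem_inf, mem_inf]
    refine and_congr_right fun hg => ?_
    rw [mem_cent1_iff, mem_cent1_iff, ← mul_assoc, mem_cent1_iff.1 (Kz hg), mul_assoc, mul_assoc, mul_right_inj]
  have ci : 𝐂[S.p⁻¹] = 𝐂[S.p] := by rw [← cent_zpowers, zpowers_inv, cent_zpowers]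
  have o : ∀ i, orderOf (![1, S.z, S.fq, S.p, S.p⁻¹, S.z * S.p, S.z * S.p⁻¹] i) = ![1, 2, 4, 3, 3, 6, 6] i := fun i => by
    have := S.jh.zp_ord
    fin_cases i
    exacts [orderOf_one, S.z_ord, S.fq_ord, S.jh.p_ord, (orderOf_inv _).trans S.jh.p_ord, this, by
      rwa [← orderOf_inv, S.jh.zp, mul_inv_rev, S.jh.ez.inv] at this]
  refine ncl_count (L := List.finRange 7) (r := ![1, S.z, S.fq, S.p, S.p⁻¹, S.z * S.p, S.z * S.p⁻¹])
    (c := ![1, 1, 6, 4, 4, 4, 4]) (fun g hg a ha => conj_H hg ha)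
    ((by decide : (List.finRange 7).Pairwise fun i j => ![1, 2, 4, 3, 3, 6, 6] i ≠ ![1, 2, 4, 3, 3, 6, 6] j ∨
      (i = 3 ∧ j = 4) ∨ (i = 5 ∧ j = 6)).imp fun h c => ?_) (fun i _ => ?_) (fun i _ => ?_) (S.card_K24.le.trans (by decide))
  · rcases h with h | ⟨rfl, rfl⟩ | ⟨rfl, rfl⟩
    · exact h (by rw [← o, ← o, orderOf_eq_of_isConj c.isConj])
    · exact S.K24_np c
    · obtain ⟨g, hg, e⟩ := c
      exact S.K24_np ⟨g, hg, mul_left_cancel (a := S.z) (by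
        rw [← mul_assoc, ← mul_assoc, ← mem_cent1_iff.1 (Kz hg), mul_assoc g]; exact e)⟩
  · fin_cases i
    exacts [one_mem _, zK, S.fq_K, pK, inv_mem pK, mul_mem zK pK, mul_mem zK (inv_mem pK)]
  · have a : Nat.card ↥(S.K24 ⊓ 𝐂[S.p⁻¹]) = 6 := ci ▸ S.K24_p
    rw [S.card_K24]
    fin_cases i
    exacts [by simpa using S.card_K24, by simpa [inf_eq_left.2 Kz] using S.card_K24, congrArg (· * 6) S.K24_fq,
      congrArg (· * 4) S.K24_p, congrArg (· * 4) a, congrArg (· * 4) (cz _ ▸ S.K24_p), congrArg (· * 4) (cz _ ▸ a)]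

theorem nP_xa : nP 11 S.xa = 7 := (ncl_semi S.Ua_normal S.Ua_K24 (S.Ua_pi.mono (by simp)) S.K24_pi).trans S.ncl_K24

theorem nP_xb : nP 11 S.xb = 2 := by
  refine ncl_reps (L := [0, 1]) (r := ![1, S.t]) (by
    simp only [List.pairwise_cons]; simpa using fun c : CjIn _ 1 S.t => by
      have := orderOf_eq_of_isConj c.isConj; rw [S.t_ord, orderOf_one] at this; omega) (fun a ha => ?_) fun i _ => ?_
  · obtain ⟨g, hg, e⟩ := S.syl_xb.exists_conj_mem ha.1 fun q hq hd => by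
      have a := hd.trans (orderOf_dvd_card_of_mem ha.1)
      have b : q < 11 := ha.2 q hq hd
      have := hq.two_le
      rw [S.c242] at a
      interval_cases q <;> simp_all
    rcases (mem_zp2 (sq_of_conj S.t_ord (IsConj.refl _))).1 e with e | e
    exacts [⟨0, by simp, g, hg, e⟩, ⟨1, by simp, g, hg, e⟩]
  · fin_cases i
    exacts [⟨one_mem _, piElt_one _⟩, ⟨S.t_xb, (piElt_of_orderOf_prime Nat.prime_two S.t_ord).2 (by simp)⟩]

theorem n11 (S : St G) : ncl ⊤ (LP G 11) = 9 := by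
  have : Fact (Nat.Prime 11) := ⟨by norm_num⟩
  rw [ncl_LP (L := [0, 1]) (r := ![S.xa, S.xb]) (by norm_num) (by simpa using S.not_conj_ab) (fun x hx h1 => ?_)
    fun i _ => ?_]
  · simp [sumL_cons, sumL_nil, S.nP_xa, S.nP_xb]
  · obtain ⟨g, -, e⟩ := S.Ua_syl.exists_conj_mem (mem_top x) hx
    rcases S.cls11 ((CA.orderOf_conj' g x).symm.trans
      (orderOf_eq_prime (S.Ua_exp e) fun e => h1 (conj_eq_one_iff.1 e))) with h | h
    exacts [⟨0, by simp, h⟩, ⟨1, by simp, h⟩]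
  · fin_cases i
    exacts [⟨(piElt_of_orderOf_prime this.out S.xa_ord).2 rfl, ne_one11 S.xa_ord⟩,
      ⟨(piElt_of_orderOf_prime this.out S.xb_ord).2 rfl, ne_one11 S.xb_ord⟩]

end St

end CA.J4
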