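import Cfsg.Agent.Lib.J4.Cls0
import Cfsg.Agent.Lib.J4.MCls
import Cfsg.Agent.Lib.J4.D2Two

/-!
The classes of `2`-elements whose involution is `t`, and the reduction of the count of the classes of `2`-elements.
-/

set_option autoImplicit false
set_option linter.unusedSectionVars false
set_option linter.unusedVariables false

namespace CA.J4
open Cfsg CA.Gol CA.Ex2 CA.XS Subgroup
open scoped Pointwise

def tbT : List (ℕ × ℕ × ℕ) :=
  [(0x4d000, 0x0, 0xbdab49ca307b9ac5a928398a418820),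
   (0x4e000, 0x41000, 0xda194d874a2b1309ee82c85b2a97),
   (0x6c000, 0x44000, 0xbca281ceb4725ac288e1790cbb2a00),
   (0x6f000, 0x55000, 0x4ab31b8c2b248d63e0151571450f7),
   (0x99000, 0x48000, 0xbca281ceb4725ac288e1790cbb2a00),
   (0x9a000, 0x59000, 0x4ab31b8c2b248d63e0151571450f7),
   (0xb8000, 0x18000, 0xbdab49ca307b9ac5a928398a418820),
   (0xbb000, 0x4d000, 0xda194d874a2b1309ee82c85b2a97),
   (0x145000, 0x9000, 0xbdab49ca307b9ac5a928398a418820),
   (0x146000, 0x5c000, 0xda194d874a2b1309ee82c85b2a97),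
   (0x164000, 0x41000, 0xbca281ceb4725ac288e1790cbb2a00),
   (0x167000, 0x0, 0x4ab31b8c2b248d63e0151571450f7),
   (0x191000, 0x4d000, 0xbca281ceb4725ac288e1790cbb2a00),
   (0x192000, 0xc000, 0x4ab31b8c2b248d63e0151571450f7),
   (0x1b0000, 0x11000, 0xbdab49ca307b9ac5a928398a418820),
   (0x1b3000, 0x50000, 0xda194d874a2b1309ee82c85b2a97),
   (0x24c000, 0x11000, 0x4ab31b8c2b248d63e0151571450f7),
   (0x24f000, 0x50000, 0xbca281ceb4725ac288e1790cbb2a00),
   (0x26d000, 0x55000, 0xda194d874a2b1309ee82c85b2a97),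
   (0x26e000, 0x14000, 0xbdab49ca307b9ac5a928398a418820),
   (0x298000, 0x59000, 0xda194d874a2b1309ee82c85b2a97),
   (0x29b000, 0xc000, 0xbdab49ca307b9ac5a928398a418820),
   (0x2b9000, 0x1d000, 0x4ab31b8c2b248d63e0151571450f7),
   (0x2ba000, 0x5c000, 0xbca281ceb4725ac288e1790cbb2a00),
   (0x344000, 0x44000, 0x4ab31b8c2b248d63e0151571450f7),
   (0x347000, 0x55000, 0xbca281ceb4725ac288e1790cbb2a00),
   (0x365000, 0x48000, 0xda194d874a2b1309ee82c85b2a97),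
   (0x366000, 0x1d000, 0xbdab49ca307b9ac5a928398a418820),
   (0x390000, 0x44000, 0xda194d874a2b1309ee82c85b2a97),
   (0x393000, 0x5000, 0xbdab49ca307b9ac5a928398a418820),
   (0x3b1000, 0x48000, 0x4ab31b8c2b248d63e0151571450f7),
   (0x3b2000, 0x59000, 0xbca281ceb4725ac288e1790cbb2a00),
   (0x419000, 0x9000, 0xbca281ceb4725ac288e1790cbb2a00),
   (0x41a000, 0x18000, 0x4ab31b8c2b248d63e0151571450f7),
   (0x438000, 0x4d000, 0xbdab49ca307b9ac5a928398a418820),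
   (0x43b000, 0xc000, 0xda194d874a2b1309ee82c85b2a97),
   (0x4cd000, 0x55000, 0xbdab49ca307b9ac5a928398a418820),
   (0x4ce000, 0x0, 0xda194d874a2b1309ee82c85b2a97),
   (0x4ec000, 0x5000, 0xbca281ceb4725ac288e1790cbb2a00),
   (0x4ef000, 0x14000, 0x4ab31b8c2b248d63e0151571450f7),
   (0x511000, 0xc000, 0xbca281ceb4725ac288e1790cbb2a00),
   (0x512000, 0x4d000, 0x4ab31b8c2b248d63e0151571450f7),
   (0x530000, 0x44000, 0xbdab49ca307b9ac5a928398a418820),
   (0x533000, 0x11000, 0xda194d874a2b1309ee82c85b2a97),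
   (0x5c5000, 0x5c000, 0xbdab49ca307b9ac5a928398a418820),
   (0x5c6000, 0x1d000, 0xda194d874a2b1309ee82c85b2a97),
   (0x5e4000, 0x0, 0xbca281ceb4725ac288e1790cbb2a00),
   (0x5e7000, 0x41000, 0x4ab31b8c2b248d63e0151571450f7),
   (0x618000, 0x18000, 0xda194d874a2b1309ee82c85b2a97),
   (0x61b000, 0x59000, 0xbdab49ca307b9ac5a928398a418820),
   (0x639000, 0x5c000, 0x4ab31b8c2b248d63e0151571450f7),
   (0x63a000, 0x1d000, 0xbca281ceb4725ac288e1790cbb2a00),
   (0x6cc000, 0x50000, 0x4ab31b8c2b248d63e0151571450f7),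
   (0x6cf000, 0x11000, 0xbca281ceb4725ac288e1790cbb2a00),
   (0x6ed000, 0x14000, 0xda194d874a2b1309ee82c85b2a97),
   (0x6ee000, 0x41000, 0xbdab49ca307b9ac5a928398a418820),
   (0x710000, 0x5000, 0xda194d874a2b1309ee82c85b2a97),
   (0x713000, 0x50000, 0xbdab49ca307b9ac5a928398a418820),
   (0x731000, 0x9000, 0x4ab31b8c2b248d63e0151571450f7),
   (0x732000, 0x18000, 0xbca281ceb4725ac288e1790cbb2a00),
   (0x7c4000, 0x5000, 0x4ab31b8c2b248d63e0151571450f7),
   (0x7c7000, 0x14000, 0xbca281ceb4725ac288e1790cbb2a00),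
   (0x7e5000, 0x9000, 0xda194d874a2b1309ee82c85b2a97),
   (0x7e6000, 0x48000, 0xbdab49ca307b9ac5a928398a418820),
   (0x801000, 0x50000, 0x993542b2b3cc5220341ae2d3b937),
   (0x802000, 0x1d000, 0xbd1a378aae958ab884f3430c452600),
   (0x820000, 0x50000, 0x42223d0ae526a45da41430cd7cc77),
   (0x823000, 0x59000, 0xb84b24a9671d99133d13812ad151c0),
   (0x8d5000, 0xc000, 0x42223d0ae526a45da41430cd7cc77),
   (0x8d6000, 0x9000, 0xb84b24a9671d99133d13812ad151c0),
   (0x8f4000, 0x44000, 0x993542b2b3cc5220341ae2d3b937),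
   (0x8f7000, 0x59000, 0xbd1a378aae958ab884f3430c452600),
   (0x909000, 0x5000, 0x993542b2b3cc5220341ae2d3b937),
   (0x90a000, 0x5c000, 0xbd1a378aae958ab884f3430c452600),
   (0x928000, 0x9000, 0x42223d0ae526a45da41430cd7cc77),
   (0x92b000, 0x18000, 0xb84b24a9671d99133d13812ad151c0),
   (0x9dd000, 0x55000, 0x42223d0ae526a45da41430cd7cc77),
   (0x9de000, 0x48000, 0xb84b24a9671d99133d13812ad151c0),
   (0x9fc000, 0x11000, 0x993542b2b3cc5220341ae2d3b937),
   (0x9ff000, 0x18000, 0xbd1a378aae958ab884f3430c452600),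
   (0xa00000, 0x1d000, 0xb84b24a9671d99133d13812ad151c0),
   (0xa03000, 0x48000, 0x42223d0ae526a45da41430cd7cc77),
   (0xa21000, 0x4d000, 0xbd1a378aae958ab884f3430c452600),
   (0xa22000, 0x18000, 0x993542b2b3cc5220341ae2d3b937),
   (0xad4000, 0x9000, 0xbd1a378aae958ab884f3430c452600),
   (0xad7000, 0xc000, 0x993542b2b3cc5220341ae2d3b937),
   (0xaf5000, 0x4d000, 0xb84b24a9671d99133d13812ad151c0),
   (0xaf6000, 0x14000, 0x42223d0ae526a45da41430cd7cc77),
   (0xb08000, 0x5c000, 0xb84b24a9671d99133d13812ad151c0),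
   (0xb0b000, 0x11000, 0x42223d0ae526a45da41430cd7cc77),
   (0xb29000, 0xc000, 0xbd1a378aae958ab884f3430c452600),
   (0xb2a000, 0x4d000, 0x993542b2b3cc5220341ae2d3b937),
   (0xbdc000, 0x48000, 0xbd1a378aae958ab884f3430c452600),
   (0xbdf000, 0x59000, 0x993542b2b3cc5220341ae2d3b937),
   (0xbfd000, 0xc000, 0xb84b24a9671d99133d13812ad151c0),
   (0xbfe000, 0x4d000, 0x42223d0ae526a45da41430cd7cc77),
   (0xc55000, 0x1d000, 0x42223d0ae526a45da41430cd7cc77),
   (0xc56000, 0x14000, 0xb84b24a9671d99133d13812ad151c0),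
   (0xc74000, 0x1d000, 0x993542b2b3cc5220341ae2d3b937),
   (0xc77000, 0x50000, 0xbd1a378aae958ab884f3430c452600),
   (0xc81000, 0x9000, 0x993542b2b3cc5220341ae2d3b937),
   (0xc82000, 0x14000, 0xbd1a378aae958ab884f3430c452600),
   (0xca0000, 0x41000, 0x42223d0ae526a45da41430cd7cc77),
   (0xca3000, 0x44000, 0xb84b24a9671d99133d13812ad151c0),
   (0xd5d000, 0x44000, 0x42223d0ae526a45da41430cd7cc77),
   (0xd5e000, 0x55000, 0xb84b24a9671d99133d13812ad151c0),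
   (0xd7c000, 0x48000, 0x993542b2b3cc5220341ae2d3b937),
   (0xd7f000, 0x11000, 0xbd1a378aae958ab884f3430c452600),
   (0xd89000, 0x5c000, 0x993542b2b3cc5220341ae2d3b937),
   (0xd8a000, 0x55000, 0xbd1a378aae958ab884f3430c452600),
   (0xda8000, 0x18000, 0x42223d0ae526a45da41430cd7cc77),
   (0xdab000, 0x5000, 0xb84b24a9671d99133d13812ad151c0),
   (0xe54000, 0x0, 0xbd1a378aae958ab884f3430c452600),
   (0xe57000, 0x55000, 0x993542b2b3cc5220341ae2d3b937),
   (0xe75000, 0x50000, 0xb84b24a9671d99133d13812ad151c0),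
   (0xe76000, 0x5000, 0x42223d0ae526a45da41430cd7cc77),
   (0xe80000, 0x0, 0xb84b24a9671d99133d13812ad151c0),
   (0xe83000, 0x59000, 0x42223d0ae526a45da41430cd7cc77),
   (0xea1000, 0x44000, 0xbd1a378aae958ab884f3430c452600),
   (0xea2000, 0x41000, 0x993542b2b3cc5220341ae2d3b937),
   (0xf5c000, 0x41000, 0xbd1a378aae958ab884f3430c452600),
   (0xf5f000, 0x0, 0x993542b2b3cc5220341ae2d3b937),
   (0xf7d000, 0x11000, 0xb84b24a9671d99133d13812ad151c0),
   (0xf7e000, 0x5c000, 0x42223d0ae526a45da41430cd7cc77),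
   (0xf88000, 0x41000, 0xb84b24a9671d99133d13812ad151c0),
   (0xf8b000, 0x0, 0x42223d0ae526a45da41430cd7cc77),
   (0xfa9000, 0x5000, 0xbd1a378aae958ab884f3430c452600),
   (0xfaa000, 0x14000, 0x993542b2b3cc5220341ae2d3b937)]

/-- the square of the code is `t` -/
def sqT (m r : ℕ) : Bool := eqE (mulE (m, r) (m, r)) (DD, oneC)

theorem sqT_i2 : allLt (fun j => !(ev (hi j)) || !(sqT (hi j) i2C)) 4096 = true := by decide +kernel
theorem sqT_s : allLt (fun j => !(ev (hi j)) || !(sqT (hi j) sC)) 4096 = true := by decide +kernel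
theorem sqT_j2 : allLt (fun j => !(ev (hi j)) || (!(sqT (hi j) j2C) || anyL tbT fun x => Nat.beq (hi j) x.1 &&
    (okE x.2 && eqE (mulE x.2 (x.1, j2C)) (mulE (0x4d000, j2C) x.2)))) 4096 = true := by decide +kernel

variable {G : Type*} [Group G] [Finite G]

/-- the involution of a cyclic `2`-group -/
noncomputable def rt2 (a : G) : G := a ^ (orderOf a / 2)

theorem rt2_conj (g a : G) : rt2 (g * a * g⁻¹) = g * rt2 a * g⁻¹ := by
  rw [rt2, rt2, conj_pow, ← MulAut.conj_apply g a, MulEquiv.orderOf_eq]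

theorem rt2_ord {a : G} (h2 : PiElt {2} a) (h1 : a ≠ 1) : orderOf (rt2 a) = 2 := by
  obtain ⟨k, hk⟩ := (piElt_singleton_iff Nat.prime_two).1 h2
  obtain ⟨k, rfl⟩ : ∃ j, k = j + 1 := Nat.exists_eq_succ_of_ne_zero fun e => h1 (by
    rw [e, pow_zero] at hk; exact orderOf_eq_one_iff.1 hk)
  have e : orderOf a / 2 = 2 ^ k := by rw [hk, pow_succ]; simp
  rw [rt2, e, orderOf_pow' _ (by positivity), hk, Nat.gcd_eq_right (pow_dvd_pow _ (Nat.le_succ k)), pow_succ]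
  simp

theorem rt2_eq {a r : G} (h2 : PiElt {2} a) (hr : orderOf r = 2) (h : r ∈ zpowers a) : rt2 a = r := by
  obtain ⟨i, hi, e⟩ := exists_pow_lt h
  have h1 : a ^ (i * 2) = 1 := by rw [pow_mul, ← e, ← hr, pow_orderOf_eq_one]
  obtain ⟨c, hc⟩ := orderOf_dvd_of_pow_eq_one h1
  have h0 : i ≠ 0 := fun e0 => by rw [e0, pow_zero] at e; rw [e, orderOf_one] at hr; omega
  have hc1 : c = 1 := by
    have hp := orderOf_pos a
    rcases c with _ | _ | c
    · omega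
    · rfl
    · nlinarith
  rw [rt2, e]; congr 1; rw [hc1] at hc; omega

theorem rt2_set {r : G} (hr : orderOf r = 2) :
    {a | a ∈ {a : G | a ∈ {g : G | PiElt {2} g} ∧ ¬ a = 1} ∧ rt2 a = r} = {g | PiElt {2} g ∧ r ∈ zpowers g} := by
  ext a
  refine ⟨fun ⟨h, e⟩ => ⟨h.1, e ▸ npow_mem_zpowers _ _⟩, fun ⟨h, e⟩ => ⟨⟨h, fun e1 => ?_⟩, rt2_eq h hr e⟩⟩
  rw [e1, zpowers_one_eq_bot, mem_bot] at e
  rw [e, orderOf_one] at hr; omega

namespace St
variable (S : St G)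

/-- an element of order `4` with square `t` -/
noncomputable def w4 : G := S.e (0x4d000, j2C)

theorem t_eq : S.t = S.e (DD, oneC) := (S.mm.el_v DD).symm

theorem sq_t_iff {m r : ℕ} (hm : ev m = true) (hr : inM24 r = true) : S.e (m, r) * S.e (m, r) = S.t ↔ sqT m r = true := by
  have := okE_mk hm hr
  rw [S.t_eq, S.mm.el_mul this this, S.mm.el_eq_iff (okE_mul this this) (okE_mk DD_ev oneC_in)]; rfl

theorem w4_sq : S.w4 * S.w4 = S.t := (S.sq_t_iff (by decide +kernel) j2C_in).2 (by decide +kernel)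

theorem t_ne1 : S.t ≠ 1 := fun e => by have := S.t_ord; rw [e, orderOf_one] at this; omega

theorem cls_sq_t {a : G} (h : a * a = S.t) : pel S.μ a ∉ Spor.M22 ∧ CjIn 𝐂[S.t] a S.w4 := by
  have ha : a ∈ 𝐂[S.t] := mem_cent1_iff.2 (by rw [← h, mul_assoc])
  obtain ⟨hM, hD⟩ := S.mem_Ct.1 ha
  have tV : S.t ∈ S.V := S.mm.v_mem DD_ev
  have h2 : pel S.μ a ^ 2 = 1 := by rw [pow_two, ← pel_mul _ hM hM, h, S.mm.mu_v tV]
  have h1 : pel S.μ a ≠ 1 := fun e => by
    obtain ⟨m, hm, e1⟩ := S.mm.dec' hM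
    rw [e, pel_one, mul_one] at e1
    exact S.t_ne1 (by rw [← h, e1, S.mm.v_sq hm])
  have : Fact (Nat.Prime 2) := ⟨Nat.prime_two⟩
  have ho := orderOf_eq_prime h2 h1
  have key : ∀ d ∈ Spor.M22, ∀ r, inM24 r = true → d * pel S.μ a * d⁻¹ = perm r → ∃ j < 4096, ev (hi j) = true ∧
      sqT (hi j) r = true ∧ CjIn 𝐂[S.t] a (S.e (hi j, r)) := fun d hd r hr e => by
    have kd := S.k_Ct (M22_le_D2 hd)
    have kM := S.mm.k_mem (M22_le hd)
    obtain ⟨m, hm, e1⟩ := S.mm.exists_el' (mul_mem (mul_mem kM hM) (inv_mem kM)) (r := r) (by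
      rw [pel_mul _ (mul_mem kM hM) (inv_mem kM), pel_mul _ kM hM, pel_inv _ kM, S.mm.mu_k (M22_le hd), e])
    obtain ⟨j, hj, ej, e2⟩ := S.mm.exists_hi (S.mm.v_mem hm)
    have e3 : pel S.κ d * a * (pel S.κ d)⁻¹ = S.e (hi j, r) := by rw [e1]; simp only [el, e2]
    refine ⟨j, hj, ej, (S.sq_t_iff ej hr).1 ?_, _, kd, e3⟩
    rw [← e3, conj_mul, h, mem_cent1_iff.1 kd, mul_inv_cancel_right]
  have n22 : pel S.μ a ∉ Spor.M22 := fun hi2 => by
    obtain ⟨d, hd, e⟩ := cls_i2 hi2 ho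
    obtain ⟨j, hj, e1, e2, -⟩ := key d hd _ (in22_24 i2C_in) e
    have := allLt_iff.1 sqT_i2 j hj
    rw [e1, e2] at this; exact absurd this (by decide)
  refine ⟨n22, ?_⟩
  obtain ⟨d, hd, e | e⟩ := cls_out hD n22 ho
  · obtain ⟨j, hj, e1, e2, e3⟩ := key d hd _ j2C_in e
    have := allLt_iff.1 sqT_j2 j hj
    simp only [e1, e2, Bool.not_true, Bool.false_or, anyL_iff, Bool.and_eq_true, beq_iff] at this
    obtain ⟨x, -, e4, e5, e6⟩ := this
    rw [← e4] at e6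
    have e7 := S.mm.conjE e5 (okE_mk e1 j2C_in) (okE_mk (by decide +kernel) j2C_in) e6
    refine e3.trans ⟨_, mem_cent1_iff.2 ?_, e7⟩
    have e8 : S.e x.2 * S.t * (S.e x.2)⁻¹ = S.t := by
      rw [← (S.sq_t_iff e1 j2C_in).2 e2, ← conj_mul, e7, (S.sq_t_iff e1 j2C_in).2 e2]; exact S.w4_sq
    rw [mul_inv_eq_iff_eq_mul] at e8; exact e8
  · obtain ⟨j, hj, e1, e2, -⟩ := key d hd _ sC_in e
    have := allLt_iff.1 sqT_s j hj
    rw [e1, e2] at this; exact absurd this (by decide)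

theorem root_t {a : G} (h2 : PiElt {2} a) (ht : S.t ∈ zpowers a) : a = S.t ∨ a * a = S.t := by
  have ha : a ∈ 𝐂[S.t] := mem_cent1_comm.1 (zpowers_le.2 (self_mem_cent1 a) ht)
  have e := rt2_eq h2 S.t_ord ht
  obtain ⟨k, hk⟩ := (piElt_singleton_iff Nat.prime_two).1 h2
  rw [rt2, hk] at e
  rcases k with _ | _ | _ | k
  · exact absurd (by simpa using e.symm) S.t_ne1
  · left; simpa using e
  · right; rw [← pow_two]; simpa using e
  · exfalso
    have hb := pow_mem ha (2 ^ k)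
    obtain ⟨hM, hD⟩ := S.mem_Ct.1 hb
    refine (S.cls_sq_t (a := a ^ 2 ^ k * a ^ 2 ^ k) ?_).1 ?_
    · rw [← e, ← pow_add, ← pow_add]; congr 1
      rw [pow_succ, Nat.mul_div_cancel _ (by norm_num)]; ring
    · rw [pel_mul _ hM hM]
      by_cases h : pel S.μ (a ^ 2 ^ k) ∈ Spor.M22
      · exact mul_mem h h
      · exact mul_mem22 hD hD h h

theorem n2t : ncl 𝐂[S.t] {g | PiElt {2} g ∧ S.t ∈ zpowers g} = 2 := by
  have tt : S.t * S.t = 1 := by rw [← pow_two, ← S.t_ord, pow_orderOf_eq_one]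
  refine ncl_reps (L := [true, false]) (r := fun b => Bool.rec S.w4 S.t b) ?_ ?_ ?_
  · simp only [List.pairwise_cons, List.mem_singleton, forall_eq, List.not_mem_nil, IsEmpty.forall_iff, implies_true,
      List.Pairwise.nil, and_true]
    rintro ⟨g, hg, e⟩
    refine S.t_ne1 ?_
    rw [← S.w4_sq, ← e, conj_mul, tt]; simp
  · rintro a ⟨h2, ht⟩
    rcases S.root_t h2 ht with e | e
    · exact ⟨true, by simp, e ▸ CjIn.refl _ _⟩
    · exact ⟨false, by simp, (S.cls_sq_t e).2⟩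
  · rintro (_ | _) -
    · refine ⟨(piElt_singleton_iff' Nat.prime_two).2 ⟨2, ?_⟩, ?_⟩
      · show S.w4 ^ 2 ^ 2 = 1
        rw [pow_two 2, pow_mul, pow_two S.w4, S.w4_sq, pow_two, tt]
      · show S.t ∈ zpowers S.w4
        rw [← S.w4_sq, ← pow_two]; exact npow_mem_zpowers _ _
    · exact ⟨(piElt_singleton_iff Nat.prime_two).2 ⟨1, S.t_ord⟩, mem_zpowers _⟩

theorem n2 (hz : ncl 𝐂[S.z] {g | PiElt {2} g ∧ S.z ∈ zpowers g} = 7) : ncl ⊤ {g : G | PiElt {2} g} = 10 := by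
  rw [ncl_split (fun a => a = 1) (fun a _ b _ ⟨g, _, e⟩ e1 => by rw [← e, e1]; simp)]
  have e1 : {a | a ∈ {g : G | PiElt {2} g} ∧ a = 1} = {1} := by
    ext a
    exact ⟨fun h => h.2, fun h => ⟨by rw [h]; exact (piElt_singleton_iff Nat.prime_two).2 ⟨0, orderOf_one⟩, h⟩⟩
  rw [e1, ncl_single, ncl_root (L := [true, false]) (r := fun b => Bool.rec S.t S.z b) ?_ rt2
    (fun g _ a _ => rt2_conj g a) ?_ ?_]
  · rw [sumL_cons, sumL_cons, sumL_nil]
    show 1 + (ncl (⊤ ⊓ 𝐂[S.z]) _ + (ncl (⊤ ⊓ 𝐂[S.t]) _ + 0)) = 10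
    rw [top_inf_eq, top_inf_eq, rt2_set S.z_ord, rt2_set S.t_ord, hz, S.n2t]
  · rintro g - a ⟨h2, h1⟩
    refine ⟨?_, fun e => h1 (by simpa using e)⟩
    show PiNum {2} (orderOf _)
    rw [← MulAut.conj_apply g a, MulEquiv.orderOf_eq]; exact h2
  · simp only [List.pairwise_cons, List.mem_singleton, forall_eq, List.not_mem_nil, IsEmpty.forall_iff, implies_true,
      List.Pairwise.nil, and_true]
    exact fun h => S.not_conj (cjIn_top.1 h)
  · rintro a ⟨h2, h1⟩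
    rcases S.two' (rt2_ord h2 h1) with h | h
    · exact ⟨true, by simp, cjIn_top.2 h.symm⟩
    · exact ⟨false, by simp, cjIn_top.2 h.symm⟩

end St

end CA.J4
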