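import Cfsg.Agent.Lib.J4.HCls

/-!
The fusion of the involutions of `H`.
-/

set_option autoImplicit false
set_option linter.unusedSectionVars false
set_option linter.unusedVariables false

namespace CA.J4
open Cfsg CA.Gol CA.Ex2 CA.XS Subgroup
open scoped Pointwise

variable {G : Type*} [Group G] [Finite G]

theorem ind_le (P : Prop) : ind P ≤ 1 := by unfold ind; split_ifs <;> omega
theorem ind_eq_one {P : Prop} : ind P = 1 ↔ P := ⟨fun h => by_contra fun a => by rw [ind_neg a] at h; omega, ind_pos⟩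
theorem ind_eq_zero {P : Prop} : ind P = 0 ↔ ¬ P := ⟨fun h a => by rw [ind_pos a] at h; omega, ind_neg⟩

namespace St
variable (S : St G)

/-- number of conjugates of `a` in a pair -/
noncomputable def mu2 (a : G) (u A d : ℕ) : ℕ := PS S.E S.c S.z S.p (fun x => ind (IsConj a x)) u A d
/-- abbreviation -/
abbrev R (x : G) (u A d : ℕ) : Prop := Rp S.E S.c S.z S.p x u A d

theorem ind_zt {x : G} (h : x * x = 1) (h1 : x ≠ 1) : ind (IsConj S.z x) + ind (IsConj S.t x) = 1 := by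
  rcases S.two' (orderOf_eq_prime (by rw [pow_two, h]) h1) with a | a
  · rw [ind_pos a, ind_neg (S.not_zt a)]
  · rw [ind_pos a, ind_neg fun b => S.not_zt b a]

theorem mu2_add {k : G} {u A d : ℕ} (a : NA S.c S.z S.p k A d) (n : ℕ) (H : (Nat.blt u 4096 && Nat.beq (J4.mm A A) I13 &&
    Nat.beq (lin A u) u && (Nat.beq d 1 || Nat.beq (qf u) 0) && Nat.blt n 4096 &&
    (!(Nat.beq u 0) || !(Nat.beq (lin A n) n))) = true) : S.mu2 S.z u A d + S.mu2 S.t u A d = 2 := by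
  simp only [Bool.and_eq_true, Bool.or_eq_true, beq_iff, blt_iff, Bool.not_eq_true', beq_false_iff] at H
  obtain ⟨⟨⟨⟨⟨h1, h2⟩, h3⟩, h4⟩, h5⟩, h6⟩ := H
  have key : ∀ x, S.R x u A d → ind (IsConj S.z x) + ind (IsConj S.t x) = 1 := fun x r =>
    S.ind_zt ((S.jh.rp_inv S.sq_NP r h2).2 ⟨h3, fun e => h4.resolve_left (by omega)⟩) fun e => by
      subst e
      have := S.jh.rp_unique r (S.jh.rp_E (one_mem _))
      rw [JH.wv_one S.jh] at this
      exact h6.elim (· this.1) (· (by rw [this.2 n h5, lin_I13 (by omega)]))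
  have r := S.jh.rp_c a h1
  have := key _ r
  have := key _ (S.jh.rp_z r)
  rw [mu2, mu2, S.jh.ps_eq r, S.jh.ps_eq r]; omega

theorem mu2_even {k : G} {u A d : ℕ} (a : NA S.c S.z S.p k A d) (hu : u < 4096) (e : ℕ) (H : (Nat.blt e 4096 &&
    Nat.beq (lin A e) e && Nat.beq (Nat.add (bf e u) (Nat.land d (qf e))) 1) = true) (b : G) :
    S.mu2 b u A d = 0 ∨ S.mu2 b u A d = 2 := by
  have r := S.jh.rp_c a hu
  obtain ⟨g, -, e1⟩ := S.jh.conj_xz r H
  rw [mu2, S.jh.ps_eq r, ← e1, ind_congr isConj_conj_iff]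
  have := ind_le (IsConj b (S.c u * k)); omega

theorem ind_sq' {a : G} (ha : orderOf a = 2) (x : G) (h : ind (IsConj a x) ≠ 0) : x * x = 1 :=
  sq_of_conj ha (by_contra fun c => h (ind_neg c))
theorem ind_inv (a : G) (A : Subgroup G) : ∀ g ∈ A, ∀ x, ind (IsConj a (g * x * g⁻¹)) = ind (IsConj a x) :=
  fun _ _ _ => ind_congr isConj_conj_iff

theorem card_E_cls {a : G} (ha : orderOf a = 2) : {x | x ∈ S.E ∧ IsConj a x}.ncard =
    ind (IsConj a 1) + ind (IsConj a S.z) + 693 * S.mu2 a 1 I13 0 + 1386 * S.mu2 a 21 I13 0 := by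
  rw [mu2, mu2, ← S.jh.fh_one_inv S.sq_NP (ind_sq' ha) (ind_inv a _), FH, sm_ind]
  congr 1; ext x
  exact ⟨fun b => ⟨⟨S.jh.E_le b.1, S.jh.pi_E b.1⟩, b.2⟩, fun b =>
    ⟨JH.mem_E_of_sq S.jh b.1.1 b.1.2 (sq_of_conj ha b.2 ▸ one_mem _), b.2⟩⟩

theorem ty_E : S.mu2 S.t 1 I13 0 = 0 ∧ S.mu2 S.t 21 I13 0 = 2 ∧ S.mu2 S.z 1 I13 0 = 2 ∧ S.mu2 S.z 21 I13 0 = 0 := by
  have h1 := S.class_t3.trans (Set.ncard_le_ncard (t := {x | x ∈ S.E ∧ IsConj S.t x}) fun y hy => S.class_t3_sub hy)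
  have h2 : 2 ≤ {x | x ∈ S.E ∧ IsConj S.z x}.ncard := by
    rw [← Set.ncard_pair (a := S.z) (b := S.v 0x2b) (by
      rw [S.z_eq', Ne, S.mm.v_eq_iff T0_ev (by decide +kernel)]; decide +kernel)]
    refine Set.ncard_le_ncard ?_
    rintro x (rfl | rfl)
    · exact ⟨S.jh.z_mem, IsConj.refl _⟩
    · exact ⟨(S.v_mem_E (by decide +kernel)).2 (by decide +kernel), S.conj_tetrad (by rw [card_fs]; decide +kernel)⟩
  rw [S.card_E_cls S.t_ord, ind_neg S.nt_one, ind_neg fun a => S.not_conj a.symm] at h1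
  rw [S.card_E_cls S.z_ord, ind_neg S.nz_one, ind_pos (IsConj.refl _)] at h2
  have a1 := S.mu2_add S.jh.na_one (u := 1) 0 (by decide +kernel)
  have a2 := S.mu2_add S.jh.na_one (u := 21) 0 (by decide +kernel)
  have b1 := S.mu2_even S.jh.na_one (u := 1) (by norm_num) 128 (by decide +kernel) S.t
  have b2 := S.mu2_even S.jh.na_one (u := 21) (by norm_num) 64 (by decide +kernel) S.t
  omega

theorem ty_I0 : S.mu2 S.t 0 AI 0 = 1 := by
  obtain ⟨k, hk, a, e⟩ := S.jh.na_I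
  have r : S.R k 0 AI 0 := by simpa [S.jh.c_zero] using S.jh.rp_c a (u := 0) (by norm_num)
  have e1 : pel S.π k ≠ 1 := fun b => by have := i2_ord; rw [← e, b, orderOf_one] at this; omega
  have t1t := S.conj_duad (s := fs 0x800008) (by rw [card_fs]; decide +kernel)
  have t1z : IsConj S.z (S.v 0x800008 * S.z) := by
    conv_rhs => rw [S.z_eq', S.v_mul (c := 0x1490) (by decide +kernel)]
    exact S.conj_tetrad (by rw [card_fs]; decide +kernel)
  obtain ⟨l, hl, e2⟩ := S.jh.conj_invol_L hk (S.v_mem_L (m := 0x800008) (by decide +kernel))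
    (orderOf_eq_prime (by rw [pow_two]; exact (S.jh.rp_inv S.sq_NP r (by decide +kernel)).2 ⟨lin_zero _, fun _ => by
      decide +kernel⟩) fun b => e1 (by rw [b, pel_one])) ((orderOf_eq_of_isConj t1t).symm.trans S.t_ord)
    (fun b => e1 (by rw [b, S.jh.pi_E S.jh.z_mem])) fun b => S.not_conj (b ▸ t1t.symm)
  rw [mu2, S.jh.ps_eq r, ← ind_inv S.t _ l hl.1, ← ind_inv S.t _ l hl.1 (k * S.z), ← conj_mul,
    S.jh.z_conj hl.1 (mem_zpowers _)]
  rcases e2 with e2 | e2 <;> rw [e2]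
  · rw [ind_pos t1t, ind_neg (S.not_zt t1z)]
  · rw [mul_assoc, S.jh.z_sq, mul_one, ind_pos t1t, ind_neg (S.not_zt t1z)]

theorem beta_pos : IsConj S.z (S.e (0, sC)) ∨ IsConj S.z (S.e (0x44000, sC)) := by
  by_contra! h
  have h1 := S.ncard_E_le S.z_ord (bA := 16) (bB := 0) ((S.mm.ncard_over_le r2A_in (p := fun m => memL (red m) LA)
    (fun a b _ _ e => by rw [e]) fun m hm hx => (S.zA hm (S.fx_of_conj S.z_ord hm r2A_in hx)).1 hx).trans
      (by decide +kernel)) (by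
    rw [Nat.le_zero, Set.ncard_eq_zero (Set.toFinite _), Set.eq_empty_iff_forall_notMem]
    rintro x ⟨a, b, c⟩
    obtain ⟨m, hm, rfl⟩ := S.mm.exists_el' b c
    cases e : memL (red m) LB
    · obtain ⟨n, -, e1⟩ := S.mm.clsB1 hm (S.fx_of_conj S.z_ord hm r2B_in a) e
      exact h.2 (IsConj.trans (by rw [St.e, ← e1]; exact isConj_conj_iff.2 a) S.tyS.2)
    · obtain ⟨n, -, e1⟩ := S.mm.clsB0 hm e
      exact h.1 (IsConj.trans (by rw [St.e, ← e1]; exact isConj_conj_iff.2 a) S.tyS.1))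
  rw [S.card_E_cls S.z_ord, S.ty_E.2.2.1] at h1
  omega

theorem types : S.mu2 S.t 508 AI 0 = 0 ∧ S.mu2 S.t 20 AI 0 = 2 ∧ S.mu2 S.t 0 AJ0 1 = 1 ∧ S.mu2 S.t 0 AS0 1 = 2 ∧
    ind (IsConj S.z (S.e (0, sC))) + ind (IsConj S.z (S.e (0x44000, sC))) = 1 := by
  have h1 := dbl_count S.z S.t
  have h2 := S.sm_Ct_z (φ := fun _ => 1) fun _ _ _ => rfl
  simp only [mul_one] at h2
  rw [h2, S.jh.sm_H_inv S.sq_NP (ind_sq' S.t_ord) (ind_inv S.t _), S.card_Ct, S.jh.card_H, ind_neg S.nt_one,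
    ind_neg fun a => S.not_conj a.symm] at h1
  simp only [← mu2.eq_def] at h1
  rw [S.ty_E.1, S.ty_E.2.1, S.ty_I0] at h1
  obtain ⟨k, -, a, -⟩ := S.jh.na_I
  obtain ⟨l, b, -⟩ := S.jh.na_J
  have b1 := S.mu2_even a (u := 508) (by norm_num) 20 (by decide +kernel) S.t
  have b2 := S.mu2_even a (u := 20) (by norm_num) 448 (by decide +kernel) S.t
  have b3 := S.mu2_add b (u := 0) 1 (by decide +kernel)
  have b4 := S.mu2_even S.jh.na_S (u := 0) (by norm_num) 97 (by decide +kernel) S.t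
  have c1 := ind_le (IsConj S.z (S.e (0, sC)))
  have c2 := ind_le (IsConj S.z (S.e (0x44000, sC)))
  have c3 : ind (IsConj S.z (S.e (0, sC))) = 1 ∨ ind (IsConj S.z (S.e (0x44000, sC))) = 1 :=
    S.beta_pos.imp ind_pos ind_pos
  omega

theorem types_z : S.mu2 S.z 0 AI 0 = 1 ∧ S.mu2 S.z 508 AI 0 = 2 ∧ S.mu2 S.z 20 AI 0 = 0 ∧ S.mu2 S.z 0 AJ0 1 = 1 ∧
    S.mu2 S.z 0 AS0 1 = 0 := by
  obtain ⟨k, -, a, -⟩ := S.jh.na_I
  obtain ⟨l, b, -⟩ := S.jh.na_J
  have b0 := S.mu2_add a (u := 0) 4 (by decide +kernel)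
  have b1 := S.mu2_add a (u := 508) 4 (by decide +kernel)
  have b2 := S.mu2_add a (u := 20) 4 (by decide +kernel)
  have b3 := S.mu2_add b (u := 0) 1 (by decide +kernel)
  have b4 := S.mu2_add S.jh.na_S (u := 0) 1 (by decide +kernel)
  have := S.types
  have := S.ty_I0
  omega

/-- an involution of `H` over the class of `s0` is of type `t` -/
theorem t_of_s0 {x : G} (hx : x ∈ 𝐂[S.z]) (h2 : x * x = 1) (h : pel S.π x ∈ clD (perm sC)) : IsConj S.t x := by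
  have o : x ≠ 1 := fun e => by
    obtain ⟨d, -, e1⟩ := h
    have := CA.orderOf_conj' d s0
    rw [show d * s0 * d⁻¹ = _ from e1, e, pel_one, orderOf_one, s0_ord] at this; omega
  refine (S.two' (orderOf_eq_prime (by rw [pow_two, h2]) o)).resolve_left fun a => ?_
  have h1 := S.jh.sm_cl_inv (φ := fun x => ind (IsConj S.z x)) (ind_inv S.z _) (perm sC)
  obtain ⟨⟨l1, b1⟩, l2, b2⟩ := S.jh.na_S12
  rw [S.jh.fh_S S.sq_NP (ind_sq' S.z_ord), S.jh.sum_lab S.jh.na_S S.jh.lab_S.1 (ind_inv S.z _),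
    S.jh.sum_lab b1 S.jh.lab_S.2.1 (ind_inv S.z _), S.jh.sum_lab b2 S.jh.lab_S.2.2 (ind_inv S.z _),
    show PS _ _ _ _ _ 0 AS0 1 = 0 from S.types_z.2.2.2.2] at h1
  simp only [mul_zero, add_zero, sm, FH, Finset.sum_eq_zero_iff, Set.Finite.mem_toFinset] at h1
  exact ind_eq_zero.1 (h1 _ h x ⟨hx, rfl⟩) a

/-- the second complement -/
noncomputable def κ' : M24 →* G := MonoidHom.mk' (fun g => S.ν (symmDiff {pt 23} {(g : Pm) (pt 23)}) * S.κ g) fun a b => by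
  have ev2 : ∀ x y : GolayPt, Even (symmDiff ({x} : Finset GolayPt) {y}).card := fun x y => by revert x y; decide
  rw [map_mul, mul_assoc, ← mul_assoc (S.κ a), mul_inv_eq_iff_eq_mul.1 (S.mm.acts a _ (ev2 _ _)), ← mul_assoc, ← mul_assoc,
    ← mul_assoc, ← S.mm.todd.mul _ _ (ev2 _ _) (by rw [card_smul]; exact ev2 _ _), smul_symmDiff, Finset.smul_finset_singleton,
    Finset.smul_finset_singleton, symmDiff_assoc]
  congr 4
  exact (symmDiff_symmDiff_cancel_left _ _).symm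

theorem exists_swap : ∃ S' : St G, S'.z = S.z ∧ S'.p = S.p ∧ IsConj S'.z (S'.e (0, sC)) := by
  rcases S.beta_pos with h | h
  · exact ⟨S, rfl, rfl, h⟩
  have ev2 : ∀ x y : GolayPt, Even (symmDiff ({x} : Finset GolayPt) {y}).card := fun x y => by revert x y; decide
  have e : ∀ g ∈ M24, pel S.κ' g = S.ν (symmDiff {pt 23} {g (pt 23)}) * pel S.κ g := fun g hg => by
    rw [pel_of_mem _ hg, pel_of_mem _ hg]; rfl
  refine ⟨⟨S.z, S.p, S.s, S.E, S.V, S.π, S.c, S.ν, S.κ', S.jh, ⟨S.mm.todd, S.mm.cent, S.mm.act, fun g => ?_⟩, S.z_eq, ?_,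
    S.duad, S.two⟩, rfl, rfl, ?_⟩
  · have := S.mm.acts_vk (S.mm.todd.nu_mem (ev2 (pt 23) ((g : Pm) (pt 23)))) g.2
    rwa [← e _ g.2, pel_of_mem _ g.2] at this
  · rw [e _ (perm_mem_M24 p0C_in), perm_pt (inM24_valid p0C_in) (by norm_num), show ap p0C 23 = 23 by decide +kernel,
      symmDiff_self, Finset.bot_eq_empty, S.mm.todd.empty, one_mul, S.p_eq]
  · obtain ⟨v, -, e1⟩ := S.mm.conj_span (r := sC) (o := 0x44000) (m := DD) (Es := eS) sC_in (by decide +kernel)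
    show IsConj S.z (S.ν (fs 0) * pel S.κ' (perm sC))
    rw [S.mm.v_zero, one_mul, e _ (perm_mem_M24 sC_in), show perm sC (pt 23) = pt 0 from s0_23,
      show symmDiff {pt 23} {pt 0} = fs DD by rw [fs_DD]; decide]
    rw [St.e, ← e1] at h
    exact isConj_conj_iff.1 h

end St

end CA.J4
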