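import Cfsg.Agent.Lib.J4.Cls2zD
import Cfsg.Agent.Lib.J4.HTy
import Cfsg.Agent.Lib.J4.Cls0
import Cfsg.Agent.Lib.J4.D2Two

/-!
The seven classes of 2-elements of `H = C(z)` that have `z` as a power.
-/

set_option autoImplicit false
set_option linter.unusedSectionVars false
set_option linter.unusedVariables false

namespace CA.J4
open Cfsg CA.Gol CA.Ex2 CA.XS Subgroup
open scoped Pointwise

/-- representatives of the classes of 2-elements of `D2` -/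
def zRL : List ℕ := [oneC, i2C, j2C, sC, 0xb84434564a6b8e42d13333d8b846c0, 0xb8445219a878eaa731733cad04c680,
  0xb8443352a86c5f07498952e67b1480, 0x443b48957b96a89a6861e0da1537, 0x444519ee940ebb0cb3ac53443597,
  0x443256145c4e82a9269becd93997]

variable {G : Type*} [Group G] [Finite G]

theorem odd_pow_ne {x : G} (h : PiElt {2} x) (h1 : x ≠ 1) (n : ℕ) (hn : Odd n) : x ^ n ≠ 1 := fun e => by
  obtain ⟨k, hk⟩ := (piElt_singleton_iff' Nat.prime_two).1 h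
  exact h1 (orderOf_eq_one_iff.1 (Nat.eq_one_of_dvd_coprimes (Nat.Coprime.pow_left k (Nat.coprime_two_left.2 hn))
    (orderOf_dvd_of_pow_eq_one hk) (orderOf_dvd_of_pow_eq_one e)))

/-- the 2-elements with `z` as a power -/
def ZS (z : G) : Set G := {g | PiElt {2} g ∧ z ∈ zpowers g}

theorem ZS_mem {z g : G} (h : g ∈ ZS z) : g ∈ 𝐂[z] := mem_cent1_comm.1 (zpowers_le.2 (self_mem_cent1 g) h.2)
theorem ZS_conj {z g l : G} (h : g ∈ ZS z) (hl : l ∈ 𝐂[z]) : l * g * l⁻¹ ∈ ZS z := ⟨piElt_conj.2 h.1, by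
  rw [← cj_zpowers, mem_cj, mul_assoc, ← mem_cent1_iff.1 hl]; simpa using h.2⟩

namespace JX
variable {z p s : G} {E : Subgroup G} {π : ↥𝐂[z] →* Pm} {c : ℕ → G} (h : JX z p s E π c)
include h

theorem ZS_ne {g : G} (hg : g ∈ ZS z) : g ≠ 1 := fun e => by
  have := hg.2
  rw [e, zpowers_one_eq_bot, mem_bot] at this
  have o := h.z_ord; rw [this, orderOf_one] at o; omega

theorem mem_E_of_two {x : G} (hx : x ∈ 𝐂[z]) (e : pel π x = 1) (h2 : PiElt {2} x) : x ∈ E := by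
  obtain ⟨k, hk⟩ := (piElt_singleton_iff' Nat.prime_two).1 h2
  have hk' : x ^ 2 ^ k ∈ E := hk ▸ one_mem _
  clear hk h2
  induction k generalizing x with
  | zero => simpa using hk'
  | succ k ih =>
    exact JH.mem_E_of_sq h hx e (ih (mul_mem hx hx) (by rw [pel_mul _ hx hx, e, mul_one]) (by
      rwa [← pow_two, ← pow_mul, ← pow_succ']))

theorem na_omP (i : ℕ) : NA c z p (p ^ i) (omP i) 0 := by
  induction i with
  | zero => rw [pow_zero]; exact h.na_one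
  | succ i ih => rw [pow_succ']; exact h.na_mul h.na_p ih

theorem na_mI {g : ℕ} (hg : in22 g = true) (i : ℕ) : ∃ k, NA c z p k (mI g i) 0 ∧ pel π k = perm g := by
  obtain ⟨k, a, e⟩ := h.na_lift (perm_mem22 hg)
  rw [code_perm22 hg] at a
  exact ⟨_, h.na_mul (h.na_omP i) a, by rw [pel_mul _ (pow_mem h.p_mem i) a.mem, pel_pow _ h.p_mem, h.pi_p, one_pow, one_mul, e]⟩

variable (hq : ∀ k ∈ 𝐍(zpowers p), k * k ≠ z) {D : ZD} (H : okZ D = true)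
include hq H

theorem z_test' {x : G} {u : ℕ} (r : Rp E c z p x u D.A D.d) (ho : ∀ n, Odd n → x ^ n ≠ 1) :
    ind (z ∈ zpowers x) = zTest D u := by
  simp only [okZ, Bool.and_eq_true, beq_iff] at H
  obtain ⟨⟨⟨⟨⟨⟨h1, h2⟩, h3⟩, h4⟩, h5⟩, -⟩, -⟩ := H
  have := h.z_test hq (A := D.A) (B := I13) (k := D.k) (h1.symm ▸ r) ho (h1.symm ▸ h2) (fun i hi => by
    have := allLt_iff.1 h3 i hi
    rw [h1]; simpa [beq_false_iff] using this)
  rwa [h1, h4, h5] at this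

theorem zs_mv {k x : G} {u : ℕ} (a : NA c z p k D.A D.d) (r : Rp E c z p x u D.A D.d) (hx : x ∈ ZS z) :
    u = D.w0 ∨ ∃ l ∈ 𝐂[z], Rp E c z p (l * x * l⁻¹) D.u0 D.A D.d := by
  have t := h.z_test' hq H r (odd_pow_ne hx.1 (h.ZS_ne hx))
  rw [ind_pos hx.2] at t
  rw [okZ, Bool.and_eq_true, Bool.and_eq_true] at H
  obtain ⟨⟨-, h6⟩, h7⟩ := H
  have := allLt_iff.1 h7 u r.lt
  rw [← t] at this
  simp only [Bool.or_eq_true, beq_iff] at this
  refine (this.resolve_left one_ne_zero).imp_right fun e => ?_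
  rw [← e]
  refine wk_ind (P := fun v => Mv E c z p u D.A v D.A D.d) (fun v m => m.trans ?_) _ _ _ (h.mv_refl u _ _) x r
  rw [mvZ, force_eq]
  have l : t4z D.T v < 16 := Nat.lt_succ_of_le Nat.and_le_right
  cases b : Nat.blt (t4z D.T v) 12
  · have := allLt_iff.1 h6 (t4z D.T v - 12) (by omega)
    simp only [Bool.and_eq_true, beq_iff] at this
    obtain ⟨l, m, -⟩ := h.na_mI this.1.1 (nth D.js (t4z D.T v - 12))
    rw [this.1.2] at m
    rw [cnd_false, Nat.sub_eq]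
    exact h.mv_lift m a this.2 v
  · rw [cnd_true, force_eq]
    exact h.mv_E (Nat.pow_lt_pow_right (by norm_num) (blt_iff.1 b)) v _ _

theorem zs_rep {k : G} (a : NA c z p k D.A D.d) (H' : okRep D = true) :
    ∃ x ∈ ZS z, x ≠ z ∧ pel π x = pel π k ∧ ∀ y, Rp E c z p y D.u0 D.A D.d → CjIn 𝐂[z] y x := by
  rw [okRep, Bool.and_eq_true, Bool.and_eq_true, Bool.and_eq_true, Bool.and_eq_true, blt_iff, beq_iff, beq_iff,
    Bool.not_eq_true', beq_false_iff] at H'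
  obtain ⟨⟨⟨⟨h1, h2⟩, h3⟩, h4⟩, h5⟩ := H'
  have r := h.rp_c a h1
  have n : ∀ a ∈ zpowers z, c D.u0 * k ≠ a := fun a ha e => h2 (by
    rw [e] at r
    rw [(h.rp_unique r (h.rp_E (h.ez.zp_le ha))).1, (JH.wv_eq_zero h (h.ez.zp_le ha)).2 ha])
  have h6 : pw1 D.A D.k = I13 := by
    simp only [okZ, Bool.and_eq_true, beq_iff] at H; exact H.1.1.1.1.1.2
  have m := (h.rp_in_E (h6 ▸ h.rp_pow r D.k)).1
  have t : PiElt {2} (c D.u0 * k) := by
    have := orderOf_dvd_card_of_mem m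
    rw [h.card_E, orderOf_dvd_iff_pow_eq_one, ← pow_mul] at this
    obtain ⟨j, hj⟩ := Nat.dvd_of_mod_eq_zero h4
    exact (piElt_singleton_iff' Nat.prime_two).2 ⟨16, by
      rw [show 2 ^ 16 = 8 * 8192 by norm_num, hj, mul_right_comm, pow_mul, this, one_pow]⟩
  refine ⟨_, ⟨t, ?_⟩, n z (mem_zpowers z), h.rp_pi a r, fun y r' => ?_⟩
  · exact ind_eq_one.1 ((h.z_test' hq H r (odd_pow_ne t (n 1 (one_mem _)))).trans h3)
  · rcases (h.rp_pair r).1 r' with rfl | rfl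
    · exact CjIn.refl _ _
    · exact CjIn.symm (h.conj_xz r h5)

theorem zs_in {k x : G} (a : NA c z p k D.A D.d) (hk : pel π k ^ (D.k + 1) = 1) (H' : (force (mm OM D.A) (fun W => !(Nat.beq (pw1 W D.k) I13)) &&
    force (mm OM (mm OM D.A)) fun W => !(Nat.beq (pw1 W D.k) I13)) = true) (hx : x ∈ ZS z) (e : pel π x = pel π k) :
    ∃ u, ∃ l ∈ 𝐂[z], Rp E c z p (l * x * l⁻¹) u D.A D.d := by
  rw [Bool.and_eq_true, force_eq, force_eq, Bool.not_eq_true', Bool.not_eq_true', beq_false_iff, beq_false_iff] at H'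
  have m := h.mem_E_of_two (pow_mem (ZS_mem hx) (D.k + 1)) (by rw [pel_pow _ (ZS_mem hx), e, hk]) (hx.1.pow _)
  have key : ∀ {u A B}, Rp E c z p x u (mm A B) D.d → pw1 (mm A B) D.k = I13 := fun r => by
    have := h.rp_pow r D.k
    generalize D.k = j at *
    cases j <;> exact h.rp_of_E this m
  obtain ⟨u, r | r | r⟩ := h.exists_rp (ZS_mem hx) a e
  exacts [⟨u, 1, one_mem _, by simpa using r⟩, absurd (key r) H'.1, absurd (key r) H'.2]

theorem zs_out {k x : G} (a : NA c z p k D.A D.d) (H' : (Nat.beq (mm D.A OM) (mm OM (mm OM D.A)) &&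
    Nat.beq (mm (mm OM D.A) OM) (mm OM (mm OM (mm OM D.A)))) = true) (hx : x ∈ ZS z) (e : pel π x = pel π k) :
    ∃ u, ∃ l ∈ 𝐂[z], Rp E c z p (l * x * l⁻¹) u D.A D.d := by
  rw [Bool.and_eq_true, beq_iff, beq_iff] at H'
  obtain ⟨u, r | r | r⟩ := h.exists_rp (ZS_mem hx) a e
  · exact ⟨u, 1, one_mem _, by simpa using r⟩
  · exact ⟨_, h.mv_lift h.na_p a H'.1 u x r⟩
  · exact ⟨_, ((h.mv_lift h.na_p (h.na_om a).1 H'.2 u).trans (h.mv_lift h.na_p a H'.1 _)) x r⟩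

/-- every element over the coset can be moved to the target -/
theorem zs_all {k x : G} (a : NA c z p k D.A D.d) (hx : x ∈ ZS z)
    (hw : (Nat.beq D.w0 4096 || Nat.beq D.w0 0 && Nat.beq D.A I13) = true)
    (m : ∃ u, ∃ l ∈ 𝐂[z], Rp E c z p (l * x * l⁻¹) u D.A D.d) :
    x = z ∨ ∃ y, CjIn 𝐂[z] x y ∧ Rp E c z p y D.u0 D.A D.d := by
  obtain ⟨u, l, hl, r⟩ := m
  rcases h.zs_mv hq H a r (ZS_conj hx hl) with e | ⟨l', hl', r'⟩
  · simp only [Bool.or_eq_true, Bool.and_eq_true, beq_iff] at hw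
    rcases hw with b | ⟨b, b'⟩
    · have := r.lt; omega
    · rw [b', e, b] at r
      obtain ⟨r1, r2⟩ := h.rp_in_E r
      have := (h.ez.mem_zp.1 ((JH.wv_eq_zero h r1).1 r2)).resolve_left (h.ZS_ne (ZS_conj hx hl))
      refine Or.inl ?_
      rw [show x = l⁻¹ * (l * x * l⁻¹) * l⁻¹⁻¹ by group, this, h.z_conj (inv_mem hl) (mem_zpowers z)]
  · exact Or.inr ⟨_, CjIn.trans ⟨l, hl, rfl⟩ ⟨l', hl', rfl⟩, r'⟩

theorem zs_cos {r j : ℕ} (H' : okIn D r j = true ∨ okOut D r = true) : ∃ k, NA c z p k D.A D.d ∧ pel π k = perm r ∧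
    ∀ x ∈ ZS z, pel π x = perm r → x = z ∨ ∃ y, CjIn 𝐂[z] x y ∧ Rp E c z p y D.u0 D.A D.d := by
  rcases H' with H' | H'
  · rw [okIn, Bool.and_eq_true, Bool.and_eq_true, Bool.and_eq_true, Bool.and_eq_true, Bool.and_eq_true, beq_iff, beq_iff,
      beq_iff] at H'
    obtain ⟨⟨⟨⟨⟨h1, h2⟩, h3⟩, h4⟩, h5⟩, h6⟩ := H'
    obtain ⟨k, a, e⟩ := h.na_mI h1 j
    rw [h2, ← h3] at a
    exact ⟨k, a, e, fun x hx e1 => h.zs_all hq H a hx h6 (h.zs_in hq H a (by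
      rw [e, perm_pow' (in22_24 h1), h4, perm_oneC]) h5 hx (e1.trans e.symm))⟩
  · rw [okOut, Bool.and_eq_true, Bool.and_eq_true, Bool.and_eq_true, Bool.and_eq_true, Bool.and_eq_true, Bool.and_eq_true,
      beq_iff, beq_iff, Bool.not_eq_true'] at H'
    obtain ⟨⟨⟨⟨⟨⟨h1, h2⟩, h3⟩, h4⟩, h5⟩, h6⟩, h7⟩ := H'
    obtain ⟨k, a, e⟩ := h.na_out (g := perm r) (memD2.2 ⟨perm_mem_M24 h1, (st_iff DD_lt).1 (by rwa [code_perm' h1])⟩)
      (by rw [mem22_code, code_perm' h1, h3]; decide)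
    rw [code_perm' h1, h4, ← h5] at a
    exact ⟨k, a, e, fun x hx e1 => h.zs_all hq H a hx h7 (h.zs_out hq H a h6 hx (e1.trans e.symm))⟩

theorem zs_none {r j : ℕ} (H' : okIn D r j = true ∨ okOut D r = true) (h0 : D.u0 = 4096) {x : G} (hx : x ∈ ZS z)
    (e : pel π x = perm r) : x = z := by
  obtain ⟨k, -, -, K⟩ := h.zs_cos hq H H'
  exact (K x hx e).resolve_right fun ⟨y, _, r⟩ => by have := r.lt; omega

theorem zs_one {r j : ℕ} (H' : okIn D r j = true ∨ okOut D r = true) (H'' : okRep D = true) :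
    ∃ x ∈ ZS z, x ≠ z ∧ pel π x = perm r ∧ ∀ y ∈ ZS z, pel π y = perm r → y = z ∨ CjIn 𝐂[z] y x := by
  obtain ⟨k, a, e, K⟩ := h.zs_cos hq H H'
  obtain ⟨x, hx, x1, e1, K'⟩ := h.zs_rep hq H a H''
  exact ⟨x, hx, x1, e1.trans e, fun y hy e2 => (K y hy e2).imp_right fun ⟨w, a, b⟩ => a.trans (K' w b)⟩

omit hq H in
theorem not_cj_of {x y : G} (hx : x ∈ 𝐂[z]) {a b : ℕ} (e1 : pel π x = perm a) (e2 : pel π y = perm b) (n : ℕ)
    (H : (inM24 a && inM24 b && (!(beqB (in22 a) (in22 b)) ||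
      !(beqB (Nat.beq (powC a n) oneC) (Nat.beq (powC b n) oneC)))) = true) : ¬ CjIn 𝐂[z] x y := by
  rintro ⟨l, hl, rfl⟩
  rw [pel_conj _ hl hx, e1] at e2
  simp only [Bool.and_eq_true, Bool.or_eq_true, Bool.not_eq_true'] at H
  obtain ⟨⟨ha, hb⟩, H⟩ := H
  have k1 : in22 a = true ↔ in22 b = true := by
    rw [← code_perm' ha, ← code_perm' hb, ← mem22_code, ← mem22_code, ← e2]
    exact ⟨conj_mem22 (h.pi_mem hl), fun m => by simpa [mul_assoc] using conj_mem22 (inv_mem (h.pi_mem hl)) m⟩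
  have k2 : Nat.beq (powC a n) oneC = true ↔ Nat.beq (powC b n) oneC = true := by
    rw [beq_iff, beq_iff, ← perm_eq_iff (inM24_pow ha n) oneC_in, ← perm_eq_iff (inM24_pow hb n) oneC_in, ← perm_pow' ha,
      ← perm_pow' hb, perm_oneC, ← e2, conj_pow, conj_eq_one_iff]
  rw [Bool.eq_iff_iff.2 k1, Bool.eq_iff_iff.2 k2] at H
  revert H
  cases in22 b <;> cases Nat.beq (powC b n) oneC <;> decide

end JX

theorem St.n2z' (S : St G) (cls2 : ∀ g ∈ D2, PiElt {2} g → ∃ r ∈ zRL, ∃ d ∈ D2, d * g * d⁻¹ = perm r) :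
    ncl 𝐂[S.z] {g | PiElt {2} g ∧ S.z ∈ zpowers g} = 7 := by
  have h := S.jh
  have hq := S.sq_NP
  obtain ⟨x1, a1, b1, c1, d1⟩ := h.zs_one hq zD_one_ok (j := 0) (Or.inl zD_one_c) zD_one_r
  obtain ⟨x2, a2, -, c2, d2⟩ := h.zs_one hq zD_i2_ok (j := 2) (Or.inl zD_i2_c) zD_i2_r
  obtain ⟨x3, a3, -, c3, d3⟩ := h.zs_one hq zD_s_ok (j := 0) (Or.inr zD_s_c) zD_s_r
  obtain ⟨x4, a4, -, c4, d4⟩ := h.zs_one hq zD_i4b_ok (j := 1) (Or.inl zD_i4b_c) zD_i4b_r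
  obtain ⟨x5, a5, -, c5, d5⟩ := h.zs_one hq zD_o4b_ok (j := 0) (Or.inr zD_o4b_c) zD_o4b_r
  obtain ⟨x6, a6, -, c6, d6⟩ := h.zs_one hq zD_o8_ok (j := 0) (Or.inr zD_o8_c) zD_o8_r
  have a0 : S.z ∈ ZS S.z := ⟨(piElt_of_orderOf_prime Nat.prime_two S.z_ord).2 rfl, mem_zpowers _⟩
  have c0 : pel S.π S.z = perm oneC := (h.pi_E h.z_mem).trans perm_oneC.symm
  have zz : ∀ {y}, CjIn 𝐂[S.z] S.z y → y = S.z := fun ⟨l, hl, e⟩ => by rw [← e, h.z_conj hl (mem_zpowers _)]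
  refine ncl_reps (L := [0, 1, 2, 3, 4, 5, 6]) (r := fun i => [S.z, x1, x2, x3, x4, x5, x6].getD i 1) ?_ (fun a ha => ?_) ?_
  · simp only [List.pairwise_cons, List.mem_cons, List.not_mem_nil, or_false, forall_eq_or_imp, forall_eq,
      IsEmpty.forall_iff, implies_true, List.Pairwise.nil, and_true, List.getD_cons_zero, List.getD_cons_succ]
    refine ⟨⟨fun a => b1 (zz a), ?_, ?_, ?_, ?_, ?_⟩, ⟨?_, ?_, ?_, ?_, ?_⟩, ⟨?_, ?_, ?_, ?_⟩, ⟨?_, ?_, ?_⟩, ⟨?_, ?_⟩, ?_⟩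
    exacts [h.not_cj_of (ZS_mem a0) c0 c2 1 (by decide +kernel), h.not_cj_of (ZS_mem a0) c0 c3 1 (by decide +kernel),
      h.not_cj_of (ZS_mem a0) c0 c4 1 (by decide +kernel), h.not_cj_of (ZS_mem a0) c0 c5 1 (by decide +kernel),
      h.not_cj_of (ZS_mem a0) c0 c6 1 (by decide +kernel),
      h.not_cj_of (ZS_mem a1) c1 c2 1 (by decide +kernel), h.not_cj_of (ZS_mem a1) c1 c3 1 (by decide +kernel),
      h.not_cj_of (ZS_mem a1) c1 c4 1 (by decide +kernel), h.not_cj_of (ZS_mem a1) c1 c5 1 (by decide +kernel),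
      h.not_cj_of (ZS_mem a1) c1 c6 1 (by decide +kernel),
      h.not_cj_of (ZS_mem a2) c2 c3 2 (by decide +kernel), h.not_cj_of (ZS_mem a2) c2 c4 2 (by decide +kernel),
      h.not_cj_of (ZS_mem a2) c2 c5 2 (by decide +kernel), h.not_cj_of (ZS_mem a2) c2 c6 2 (by decide +kernel),
      h.not_cj_of (ZS_mem a3) c3 c4 2 (by decide +kernel), h.not_cj_of (ZS_mem a3) c3 c5 2 (by decide +kernel),
      h.not_cj_of (ZS_mem a3) c3 c6 2 (by decide +kernel),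
      h.not_cj_of (ZS_mem a4) c4 c5 4 (by decide +kernel), h.not_cj_of (ZS_mem a4) c4 c6 4 (by decide +kernel),
      h.not_cj_of (ZS_mem a5) c5 c6 4 (by decide +kernel)]
  · have ha' : a ∈ ZS S.z := ha
    obtain ⟨r, hr, d, hd, e⟩ := cls2 _ (h.pi_mem (ZS_mem ha')) (by
      rw [pel_of_mem _ (ZS_mem ha')]; exact (piElt_coe.1 (show PiElt {2} ((⟨a, (ZS_mem ha')⟩ : 𝐂[S.z]) : G) from ha.1)).map _)
    obtain ⟨l, hl, rfl⟩ := h.exists_pi hd
    rw [← pel_conj _ hl (ZS_mem ha')] at e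
    have hb := ZS_conj ha' hl
    have c : CjIn 𝐂[S.z] a (l * a * l⁻¹) := ⟨l, hl, rfl⟩
    generalize l * a * l⁻¹ = b at e hb c
    have K0 : b = S.z → ∃ i ∈ [0, 1, 2, 3, 4, 5, 6], CjIn 𝐂[S.z] a ([S.z, x1, x2, x3, x4, x5, x6].getD i 1) :=
      fun e => ⟨0, by simp, e ▸ c⟩
    have K : ∀ i ∈ [0, 1, 2, 3, 4, 5, 6], b = S.z ∨ CjIn 𝐂[S.z] b ([S.z, x1, x2, x3, x4, x5, x6].getD i 1) →
        ∃ i ∈ [0, 1, 2, 3, 4, 5, 6], CjIn 𝐂[S.z] a ([S.z, x1, x2, x3, x4, x5, x6].getD i 1) :=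
      fun i hi e => e.elim K0 fun e => ⟨i, hi, c.trans e⟩
    simp only [zRL, List.mem_cons, List.not_mem_nil, or_false] at hr
    rcases hr with rfl | rfl | rfl | rfl | rfl | rfl | rfl | rfl | rfl | rfl
    · exact K 1 (by simp) (d1 b hb e)
    · exact K 2 (by simp) (d2 b hb e)
    · exact K0 (h.zs_none hq zD_j2_ok (j := 0) (Or.inr zD_j2_c) rfl hb e)
    · exact K 3 (by simp) (d3 b hb e)
    · exact K0 (h.zs_none hq zD_i4a_ok (j := 1) (Or.inl zD_i4a_c) rfl hb e)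
    · exact K 4 (by simp) (d4 b hb e)
    · exact K0 (h.zs_none hq zD_i8_ok (j := 1) (Or.inl zD_i8_c) rfl hb e)
    · exact K0 (h.zs_none hq zD_o4a_ok (j := 0) (Or.inr zD_o4a_c) rfl hb e)
    · exact K 5 (by simp) (d5 b hb e)
    · exact K 6 (by simp) (d6 b hb e)
  · simp only [List.mem_cons, List.not_mem_nil, or_false, forall_eq_or_imp, forall_eq]
    exact ⟨a0, a1, a2, a3, a4, a5, a6⟩

theorem St.n2z (S : St G) : ncl 𝐂[S.z] {g | PiElt {2} g ∧ S.z ∈ zpowers g} = 7 :=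
  S.n2z' fun g hg h2 => (cls2 hg h2).imp fun r h => ⟨h.1, h.2.imp fun d h => ⟨M22_le_D2 h.1, h.2⟩⟩

end CA.J4
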