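import Cfsg.Agent.Lib.J4.Cls62
import Cfsg.Agent.Lib.J4.CentT

/-!
The nine classes of `2`-elements of `C(p) = 6.M22`.
-/

set_option autoImplicit false
set_option linter.unusedSectionVars false
set_option linter.unusedVariables false

namespace CA.J4
open Cfsg CA.Gol CA.Ex2 CA.XS Subgroup
open scoped Pointwise

/-- power of a code -/
def powE (a : ℕ × ℕ) (n : ℕ) : ℕ × ℕ := Nat.rec (0, oneC) (fun _ ih => mulE ih a) n
/-- the code is the identity -/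
def oneE (a : ℕ × ℕ) : Bool := eqE a (0, oneC)

theorem okE_one : okE (0, oneC) = true := by decide +kernel
theorem okE_pow {a : ℕ × ℕ} (ha : okE a = true) (n : ℕ) : okE (powE a n) = true := by
  induction n with
  | zero => exact okE_one
  | succ n ih => exact okE_mul ih ha

/-- the duad fixed by `p` -/
def y3 : ℕ := 0x800008
def g31 : ℕ := 0x199b484833782ac5a92825847b962e
def g32 : ℕ := 0xb99b28523343aaa4b16f258a718820
def g33 : ℕ := 0x1a6554342f98284b1cd062c4ab962e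
def K3 : List ℕ := [0x1d5105bc06b0a6aa11a964827b962e, 0x199b484833782ac5a92825847b962e, 0x1cd2ba5855904c48310d53c07b962e,
  0x1bcd6aac546852c412123cc0ab962e, 0x1d208b4c09589e7ab2462342ab962e, 0x1a6554342f98284b1cd062c4ab962e]
def X3 : List (ℕ × ℕ) := [(0x0, 0xbdab49ca307b9ac5a928398a418820), (0x5f000, 0xbdab49ca307b9ac5a928398a418820),
  (0x1b3000, 0xbdab49ca307b9ac5a928398a418820), (0x1ec000, 0xbdab49ca307b9ac5a928398a418820),
  (0x5f000, 0x1ae8d7d42880247312d35244cb962e), (0x1ec000, 0x1ae8d7d42880247312d35244cb962e),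
  (0x44c000, 0x1ae8d7d42880247312d35244cb962e), (0x5ff000, 0x1ae8d7d42880247312d35244cb962e),
  (0x0, 0x1dab29d030401aa4b16f39844b962e), (0x5f000, 0x1dab29d030401aa4b16f39844b962e),
  (0x1b3000, 0x1dab29d030401aa4b16f39844b962e), (0x1ec000, 0x1dab29d030401aa4b16f39844b962e)]
def W3 : List ℕ := [0x0, 0x5f000, 0x1b3000, 0x1ec000, 0x2ae000, 0x2f1000, 0x31d000, 0x342000, 0x413000, 0x44c000, 0x5a0000,
  0x5ff000, 0x6bd000, 0x6e2000, 0x70e000, 0x751000, 0x801000, 0x85e000, 0x9b2000, 0x9ed000, 0xaaf000, 0xaf0000, 0xb1c000,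
  0xb43000, 0xc12000, 0xc4d000, 0xda1000, 0xdfe000, 0xebc000, 0xee3000, 0xf0f000, 0xf50000]
/-- the representatives -/
def R3 : List (ℕ × ℕ) := [(0, oneC), (T0, oneC), (y3, oneC), (0xf, oneC), (0x5f000, g31), (0x1ec000, g32), (0x413000, g32),
  (0x5f000, g33), (0x1b3000, g33)]
/-- membership in `M ∩ C(p)` -/
def inL3 (a : ℕ × ℕ) : Bool := okE a && (fx p0C a.1 && cmC a.2 p0C)

theorem lev1 : all24 (pAnd (pCj p0C p0C) (pSet y3 y3)) 0xb86636522443c56534b281aab01d2e 0xbb0b2aa2277015322c2f11930a36c3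
    (fun c => Nat.beq (powC c 12) oneC && (!(Nat.beq (powC c 4) oneC) ||
      anyL K3 fun k => anyL [oneC, g31, g32, g33] (iw k c))) = true := by decide +kernel
theorem K3_chk : allL K3 (fun k => inL3 (0, k) && fx k y3) = true := by decide +kernel
theorem lev2 : allL [oneC, g31, g32, g33] (fun r => allL W3 fun m => oneE (powE (m, r) 8) &&
    (allLt (fun n => !(eqE (powE (m, r) n) (y3, oneC)) && !(eqE (powE (m, r) n) (0xf, oneC))) 8 ||
      anyL X3 fun x => anyL R3 fun b => eqE (mulE x (m, r)) (mulE b x))) = true := by decide +kernel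
theorem X3_chk : allL X3 inL3 = true := by decide +kernel
theorem R3_chk : allL R3 (fun a => inL3 a && oneE (powE a 8)) = true := by decide +kernel
theorem W3_chk : allLt (fun j => !(ev (hi j)) || (!(fx p0C (hi j)) || anyL W3 fun u => ev u && eqv (hi j) u)) 4096 = true := by
  decide +kernel
theorem nc32 : all24 (pAnd (pCj p0C p0C) (pCj g32 g32)) 0xb3242381261d10ebc4259ae152354f 0x5dc8e3d545030563062d9c1037d132
    (fun c => allL W3 fun m => !(eqE (mulE (m, c) (0x1ec000, g32)) (mulE (0x413000, g32) (m, c)))) = true := by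
  decide +kernel
theorem nc33 : all24 (pAnd (pCj p0C p0C) (pCj g33 g33)) 0x541c188ce014eeb43485931f6a5526 0x6904371e762d54665c2b8810993e90
    (fun c => allL W3 fun m => !(eqE (mulE (m, c) (0x5f000, g33)) (mulE (0x1b3000, g33) (m, c)))) = true := by
  decide +kernel
/-- the orders differ -/
def sepE (a b : ℕ × ℕ) : Bool := anyL [1, 2, 4] fun n => !(beqB (oneE (powE a n)) (oneE (powE b n)))
theorem R3_sep : R3.Pairwise fun a b => sepE a b = true ∨ (a, b) ∈ [((T0, oneC), (y3, oneC)), ((T0, oneC), (0xf, oneC)),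
    ((y3, oneC), (0xf, oneC)), ((0x5f000, g31), (0x1ec000, g32)), ((0x5f000, g31), (0x413000, g32)),
    ((0x1ec000, g32), (0x413000, g32)), ((0x5f000, g33), (0x1b3000, g33))] := by decide +kernel

variable {G : Type*} [Group G] [Finite G]

namespace MM
variable {V : Subgroup G} {ν : Finset GolayPt → G} {κ : M24 →* G} (h : MM V ν κ)
include h

theorem el_pow {a : ℕ × ℕ} (ha : okE a = true) (n : ℕ) : el ν κ a ^ n = el ν κ (powE a n) := by
  induction n with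
  | zero => rw [pow_zero, ← h.el_one]; rfl
  | succ n ih => rw [pow_succ, ih, h.el_mul (okE_pow ha n) ha]; rfl

theorem el_pow_one {a : ℕ × ℕ} (ha : okE a = true) (n : ℕ) : el ν κ a ^ n = 1 ↔ oneE (powE a n) = true := by
  rw [h.el_pow ha, ← h.el_one, h.el_eq_iff (okE_pow ha n) okE_one]; rfl

theorem not_conj_sep {a b : ℕ × ℕ} (ha : okE a = true) (hb : okE b = true) (H : sepE a b = true) :
    ¬ IsConj (el ν κ a) (el ν κ b) := fun c => by
  obtain ⟨n, -, e⟩ := anyL_iff.1 H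
  rw [Bool.not_eq_true', ← Bool.not_eq_true, beqB_iff, Bool.eq_iff_iff, ← h.el_pow_one ha, ← h.el_pow_one hb,
    ← orderOf_dvd_iff_pow_eq_one, ← orderOf_dvd_iff_pow_eq_one, orderOf_eq_of_isConj c] at e
  exact e Iff.rfl

end MM

namespace St
variable (S : St G)

theorem e_L {a : ℕ × ℕ} (h : inL3 a = true) : okE a = true ∧ S.e a ∈ 𝐂[S.p] := by
  simp only [inL3, Bool.and_eq_true] at h
  refine ⟨h.1, ?_⟩
  have := (S.mm.el_comm_k (okE_ev h.1) (perm_mem_M24 (okE_in h.1)) p0C_in).2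
    ⟨h.2.1, by rw [code_perm' (okE_in h.1)]; exact h.2.2⟩
  rwa [code_perm' (okE_in h.1), ← S.p_eq] at this

theorem y3_t : IsConj S.t (S.v y3) := S.conj_duad (by rw [card_fs]; decide +kernel)
theorem y3_z : IsConj S.z (S.v 0xf) := S.conj_tetrad (by rw [card_fs]; decide +kernel)
theorem y3_mul : S.v y3 * S.z = S.v 0xf := by rw [S.z_eq']; exact S.v_mul (by decide +kernel)
theorem y3_L : S.v y3 ∈ 𝐂[S.z] ⊓ 𝐂[S.p] := S.v_mem_L (by decide +kernel)
theorem y3_M : 𝐂[S.v y3] ≤ 𝐍(S.V) := S.cent_duad (by rw [card_fs]; decide +kernel)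

theorem cent_f {x : G} (hx : x ∈ 𝐂[S.p]) (h : x ∈ 𝐂[S.v 0xf]) : x ∈ 𝐂[S.v y3] := by
  have := mem_cent1_iff.1 h
  rw [← S.y3_mul, ← mul_assoc, mul_assoc _ S.z, ← mem_cent1_iff.1 (S.cent_p hx), ← mul_assoc] at this
  exact mem_cent1_iff.2 (mul_right_cancel this)

theorem dec3 {x : G} (hx : x ∈ 𝐂[S.p]) (hM : x ∈ 𝐍(S.V)) :
    ∃ m ∈ W3, ev m = true ∧ ∃ g ∈ M24, x = S.e (m, code g) ∧ g * perm p0C = perm p0C * g := by
  obtain ⟨m, hm, g, hg, rfl⟩ := S.mm.decE hM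
  rw [S.p_eq, S.mm.el_comm_k hm hg p0C_in] at hx
  obtain ⟨u, hu, e1, e2⟩ := S.mm.v_cases p0C_in hm hx.1 W3_chk
  exact ⟨u, hu, e1, g, hg, by rw [e, MM.el_code, MM.el_code, e2], (cmC_iff' p0C_in).1 hx.2⟩

/-- a `2`-element of `C(p)` with `z` as a power is `z` -/
theorem eq_z_of_root {a : G} (ha : a ∈ 𝐂[S.p]) (h2 : PiElt {2} a) (hz : S.z ∈ zpowers a) : a = S.z := by
  have key : ∀ b ∈ 𝐂[S.p], b * b ≠ S.z := fun b hb e => by
    have hb' : b ∈ 𝐂[S.z] ⊓ 𝐂[S.p] := ⟨S.cent_p hb, hb⟩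
    have sq : ∀ x k, x ∈ 𝐂[S.z] ⊓ 𝐂[S.p] → k ∈ 𝐂[S.z] ⊓ 𝐂[S.p] → pel S.π x = pel S.π k → x * x = S.z → k * k = 1 → False :=
      fun x k hx hk e1 e2 e3 => by
        rcases JH.lift_unique S.jh hx hk e1 (e2 ▸ mem_zpowers _) (e3 ▸ one_mem _) with e4 | e4
        · exact S.jh.ez.ne_one (by rw [← e2, e4, e3])
        · refine S.jh.ez.ne_one ?_
          rw [← e2, e4, mul_assoc, ← mul_assoc S.z, ← mem_cent1_iff.1 hk.1, mul_assoc, S.jh.z_sq, mul_one, e3]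
    by_cases e1 : pel S.π b = 1
    · exact sq b 1 hb' (one_mem _) (by rw [e1, pel_one]) e (mul_one 1)
    · have : Fact (Nat.Prime 2) := ⟨Nat.prime_two⟩
      have oy := (orderOf_eq_of_isConj S.y3_t).symm.trans S.t_ord
      obtain ⟨d, hd, e2⟩ := cls_i2 (S.jh.pi_L hb') (orderOf_eq_prime (by
        rw [pow_two, ← pel_mul _ hb'.1 hb'.1, e, JH.pi_z S.jh]) e1)
      obtain ⟨d', hd', e3⟩ := cls_i2 (S.jh.pi_L S.y3_L) (S.jh.orderOf_pi S.y3_L.1 (by norm_num) oy fun e =>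
        S.not_zt (S.jh.eq_z_of_ker S.y3_L oy e ▸ IsConj.refl _) S.y3_t)
      obtain ⟨l, hl, e4⟩ := S.jh.exists_conj_pi hb'.1 (mul_mem (inv_mem hd') hd) (conj_of_conj e2 e3)
      exact sq _ _ (conj_H hl hb') S.y3_L e4 (by rw [conj_mul, e, JH.conj_z S.jh hl.1]) (by rw [← pow_two, ← oy, pow_orderOf_eq_one])
  obtain ⟨k, hk⟩ := (piElt_singleton_iff Nat.prime_two).1 h2
  obtain ⟨i, hi, e⟩ := exists_pow_lt hz
  rcases Nat.even_or_odd' i with ⟨j, rfl | rfl⟩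
  · exact (key (a ^ j) (pow_mem ha j) (by rw [e, ← pow_add, two_mul])).elim
  · have o := S.z_ord
    rw [e, Nat.Coprime.orderOf_pow (by rw [hk]; exact Nat.Coprime.pow_left _ (by simp))] at o
    obtain rfl : j = 0 := by omega
    simpa using e.symm

theorem cls_D3 {a : G} (ha : a ∈ 𝐂[S.p]) (h2 : PiElt {2} a) (hy : S.v y3 ∈ zpowers a ∨ S.v 0xf ∈ zpowers a) :
    ∃ b ∈ R3, CjIn 𝐂[S.p] a (S.e b) := by
  have cy : a ∈ 𝐂[S.v y3] := by
    rcases hy with h | h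
    · exact mem_cent1_comm.1 (zpowers_le.2 (self_mem_cent1 a) h)
    · exact S.cent_f ha (mem_cent1_comm.1 (zpowers_le.2 (self_mem_cent1 a) h))
  obtain ⟨m, -, hm, g, hg, rfl, cg⟩ := S.dec3 ha (S.y3_M cy)
  have fy := (S.mm.el_comm_v hm hg (by decide +kernel)).1 cy
  have sy : g • fs y3 = fs y3 := by
    have e1 : fs y3 = {pt 3, pt 23} := by decide +kernel
    have := (S.mm.comm_pair (S.y3_M cy) (p := pt 3) (q := pt 23) (by decide)).1 (by rw [← e1]; exact mem_cent1_comm.1 cy)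
    rw [S.mm.mu_el (okE_code hm hg), perm_code] at this
    rw [e1, smul_pair]; exact this
  have l1 := all24_sound lev1 hg ((sat_cj' p0C_in p0C_in cg).and (sat_set sy))
  have g2 : PiElt {2} g := by
    have := h2.pel S.μ
    rwa [S.mm.mu_el (okE_code hm hg), perm_code] at this
  simp only [Bool.and_eq_true, Bool.or_eq_true, Bool.not_eq_true', beq_iff, ← code_pow, code_eq_one_iff] at l1
  have g4 : g ^ 4 = 1 := by
    obtain ⟨k, hk⟩ := (piElt_singleton_iff Nat.prime_two).1 g2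
    refine orderOf_dvd_iff_pow_eq_one.1 (Nat.Coprime.dvd_of_dvd_mul_right (k := orderOf g) (n := 3) (by
      rw [hk]; exact Nat.Coprime.pow_left _ (by norm_num)) (orderOf_dvd_of_pow_eq_one l1.1))
  obtain ⟨k, hk, l2⟩ := anyL_iff.1 (l1.2.resolve_left (by rw [beq_false_iff, g4, code_one]; simp))
  obtain ⟨r, hr, l3⟩ := anyL_iff.1 l2
  have k1 := allL_iff.1 K3_chk k hk
  rw [Bool.and_eq_true] at k1
  obtain ⟨k2, k3⟩ := S.e_L k1.1
  have ri : inM24 r = true := (show ∀ r ∈ [oneC, g31, g32, g33], inM24 r = true by decide +kernel) r hr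
  have c1 := S.mm.el_conj_k hm (k := k) (r := code g) (r' := r) (by
    simp [okE_in k2, mem_M24_iff_code.1 hg, ri, l3])
  rw [e, S.mm.el_k] at k3
  have k4 : pel S.κ (perm k) ∈ 𝐂[S.v y3] := mem_cent1_comm.1 ((S.mm.v_comm_k (by decide +kernel)
    (perm_mem_M24 (okE_in k2))).2 (by rw [code_perm' (okE_in k2)]; exact k1.2))
  have k5 : pel S.κ (perm k) ∈ 𝐂[S.v 0xf] := by
    rw [← S.y3_mul]; exact mem_cent1_iff.2 (by
      rw [← mul_assoc, mem_cent1_iff.1 k4, mul_assoc, mem_cent1_iff.1 (S.cent_p k3), mul_assoc])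
  have zp : ∀ y, pel S.κ (perm k) ∈ 𝐂[y] → y ∈ zpowers (S.e (m, code g)) →
      y ∈ zpowers (pel S.κ (perm k) * S.e (m, code g) * (pel S.κ (perm k))⁻¹) := fun y h1 h2 => by
    rw [← cj_zpowers]; exact mem_cj'.2 ⟨y, h2, by rw [mem_cent1_iff.1 h1, mul_inv_cancel_right]⟩
  replace hy := hy.imp (zp _ k4) (zp _ k5)
  refine Exists.imp (fun b hb => ⟨hb.1, CjIn.trans ⟨_, k3, rfl⟩ hb.2⟩) (?_ : ∃ b ∈ R3, CjIn 𝐂[S.p]
    (pel S.κ (perm k) * S.e (m, code g) * (pel S.κ (perm k))⁻¹) (S.e b))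
  obtain ⟨u, hu, eu, g', hg', e2, -⟩ := S.dec3 (conj_H k3 ha) (conj_H (S.mm.k_mem (perm_mem_M24 (okE_in k2))) (S.y3_M cy))
  have e3 := congrArg (pel S.μ) (c1.symm.trans e2)
  have ev' : ev (apM k m) = true := by have := ev_apM (perm k) hm; rwa [code_perm' (okE_in k2)] at this
  rw [S.mm.mu_el (okE_mk ev' ri), S.mm.mu_el (okE_code eu hg'), perm_code] at e3
  rw [← e3, code_perm' ri] at e2
  rw [e2] at hy ⊢
  have l4 := allL_iff.1 (allL_iff.1 lev2 r hr) u hu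
  rw [Bool.and_eq_true, Bool.or_eq_true, ← S.mm.el_pow_one (okE_mk eu ri)] at l4
  rcases l4.2 with l5 | l5
  · have le := Nat.le_of_dvd (by norm_num) (orderOf_dvd_of_pow_eq_one l4.1)
    have no : ∀ y, ev y = true → S.v y ∈ zpowers (S.e (u, r)) → ∃ n < 8, eqE (powE (u, r) n) (y, oneC) = true :=
      fun y ey h => by
        obtain ⟨n, hn, e⟩ := exists_pow_lt h
        refine ⟨n, lt_of_lt_of_le hn le, ?_⟩
        rw [← S.mm.el_eq_iff (okE_pow (okE_mk eu ri) n) (okE_mk ey oneC_in), ← S.mm.el_pow (okE_mk eu ri), S.mm.el_v]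
        exact e.symm
    rcases hy with h | h <;> obtain ⟨n, hn, e⟩ := no _ (by decide +kernel) h <;>
      simpa [e] using allLt_iff.1 l5 n hn
  · obtain ⟨x, hx, l6⟩ := anyL_iff.1 l5
    obtain ⟨b, hb, l7⟩ := anyL_iff.1 l6
    obtain ⟨x1, x2⟩ := S.e_L (allL_iff.1 X3_chk x hx)
    have b1 := allL_iff.1 R3_chk b hb
    rw [Bool.and_eq_true] at b1
    exact ⟨b, hb, _, x2, S.mm.conjE x1 (okE_mk eu ri) (S.e_L b1.1).1 l7⟩

theorem nc3 {m m' r y n k ki : ℕ} (H : all24 (pAnd (pCj p0C p0C) (pCj r r)) k ki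
    (fun c => allL W3 fun u => !(eqE (mulE (u, c) (m, r)) (mulE (m', r) (u, c)))) = true)
    (H' : (okE (m, r) && okE (m', r) && ev y && eqE (powE (m, r) n) (y, oneC) && eqE (powE (m', r) n) (y, oneC)) = true)
    (hy : ∀ x ∈ 𝐂[S.p], x ∈ 𝐂[S.v y] → x ∈ 𝐍(S.V)) : ¬ CjIn 𝐂[S.p] (S.e (m, r)) (S.e (m', r)) := fun ⟨x, hx, e⟩ => by
  simp only [Bool.and_eq_true] at H'
  obtain ⟨⟨⟨⟨a1, a2⟩, a3⟩, a4⟩, a5⟩ := H'
  rw [← S.mm.el_eq_iff (okE_pow a1 n) (okE_mk a3 oneC_in), ← S.mm.el_pow a1, S.mm.el_v] at a4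
  rw [← S.mm.el_eq_iff (okE_pow a2 n) (okE_mk a3 oneC_in), ← S.mm.el_pow a2, S.mm.el_v] at a5
  have xM := hy x hx (mem_cent1_iff.2 (mul_inv_eq_iff_eq_mul.1 (by
    conv_lhs => rw [v, ← a4, ← conj_pow, e, a5])))
  obtain ⟨u, hu, eu, g, hg, rfl, cg⟩ := S.dec3 hx xM
  rw [mul_inv_eq_iff_eq_mul] at e
  have e1 := congrArg (pel S.μ) e
  rw [pel_mul _ xM (S.mm.el_mem a1), pel_mul _ (S.mm.el_mem a2) xM, S.mm.mu_el a1, S.mm.mu_el a2,
    S.mm.mu_el (okE_code eu hg), perm_code] at e1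
  have := allL_iff.1 (all24_sound H hg ((sat_cj' p0C_in p0C_in cg).and (sat_cj' (okE_in a1) (okE_in a1) e1))) u hu
  rw [S.mm.el_mul (okE_code eu hg) a1, S.mm.el_mul a2 (okE_code eu hg),
    S.mm.el_eq_iff (okE_mul (okE_code eu hg) a1) (okE_mul a2 (okE_code eu hg))] at e
  simp [e] at this

theorem nc3' {a b : ℕ × ℕ} (H : (okE a && okE b && eqE (powE a 2) (y3, oneC) && eqE (powE b 2) (0xf, oneC)) = true) :
    ¬ CjIn 𝐂[S.p] (S.e a) (S.e b) := fun c => by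
  simp only [Bool.and_eq_true] at H
  obtain ⟨⟨⟨a1, a2⟩, a4⟩, a5⟩ := H
  rw [← S.mm.el_eq_iff (okE_pow a1 2) (by decide +kernel), ← S.mm.el_pow a1, S.mm.el_v] at a4
  rw [← S.mm.el_eq_iff (okE_pow a2 2) (by decide +kernel), ← S.mm.el_pow a2, S.mm.el_v] at a5
  have := c.isConj.pow 2
  rw [a4, a5] at this
  exact S.not_zt S.y3_z (S.y3_t.trans this)

/-- the classes with largest prime `3` -/
theorem n3 : nP 3 S.p = 9 := by
  have R : ∀ b ∈ R3, (okE b = true ∧ S.e b ∈ 𝐂[S.p]) ∧ S.e b ^ 8 = 1 := fun b hb => by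
    have b1 := allL_iff.1 R3_chk b hb
    rw [Bool.and_eq_true] at b1
    exact ⟨S.e_L b1.1, (S.mm.el_pow_one (S.e_L b1.1).1 8).2 b1.2⟩
  have ez : S.e (T0, oneC) = S.z := by rw [e, S.mm.el_v, S.z_eq]
  have cz : ∀ b, CjIn 𝐂[S.p] S.z b → b = S.z := fun b ⟨g, hg, e⟩ => by rw [← e, JH.conj_z S.jh (S.cent_p hg)]
  have fz : S.v 0xf ≠ S.z := fun e => S.t_ne_one S.y3_t (mul_eq_right.1 (S.y3_mul.trans e))
  refine ncl_reps (L := R3) (r := S.e) (R3_sep.imp_of_mem fun {a b} ha hb h => ?_) (fun a ha => ?_) fun b hb =>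
    ⟨(R b hb).1.2, piElt_Iio_three.2 (piElt_of_pow_eq_one (n := 8) (fun q hq h =>
      (Nat.prime_dvd_prime_iff_eq hq Nat.prime_two).1 (hq.dvd_of_dvd_pow (show q ∣ 2 ^ 3 from h))) (R b hb).2)⟩
  · rcases h with h | h
    · exact fun c => S.mm.not_conj_sep (R a ha).1.1 (R b hb).1.1 h c.isConj
    simp only [List.mem_cons, Prod.mk.injEq, List.not_mem_nil, or_false] at h
    rcases h with ⟨rfl, rfl⟩ | ⟨rfl, rfl⟩ | ⟨rfl, rfl⟩ | ⟨rfl, rfl⟩ | ⟨rfl, rfl⟩ | ⟨rfl, rfl⟩ | ⟨rfl, rfl⟩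
    · rw [ez, e, S.mm.el_v]; exact fun c => S.not_zt c.isConj S.y3_t
    · rw [ez, e, S.mm.el_v]; exact fun c => fz (cz _ c)
    · rw [e, e, S.mm.el_v, S.mm.el_v]; exact fun c => S.not_zt S.y3_z (S.y3_t.trans c.isConj)
    · exact S.nc3' (by decide +kernel)
    · exact S.nc3' (by decide +kernel)
    · exact S.nc3 (y := 0xf) (n := 2) nc32 (by decide +kernel) fun x h1 h2 => S.y3_M (S.cent_f h1 h2)
    · exact S.nc3 (y := 0xf) (n := 4) nc33 (by decide +kernel) fun x h1 h2 => S.y3_M (S.cent_f h1 h2)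
  · obtain ⟨h1, h2⟩ := ha
    rw [piElt_Iio_three] at h2
    by_cases a1 : a = 1
    · exact ⟨(0, oneC), by simp [R3], by rw [a1, e, S.mm.el_one]; exact CjIn.refl _ _⟩
    obtain ⟨k, hk⟩ := (piElt_singleton_iff Nat.prime_two).1 h2
    obtain ⟨i, hi, oi⟩ := exists_orderOf_eq_prime (A := zpowers a) Nat.prime_two (by
      rw [Nat.card_zpowers, hk]; exact dvd_pow_self 2 fun e => a1 (orderOf_eq_one_iff.1 (by rw [hk, e, pow_zero])))
    by_cases iz : i = S.z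
    · exact ⟨(T0, oneC), by simp [R3], by rw [ez, S.eq_z_of_root h1 h2 (iz ▸ hi)]; exact CjIn.refl _ _⟩
    have iL := zpowers_le.2 h1 hi
    obtain ⟨l, hl, e1⟩ := S.jh.conj_invol_L ⟨S.cent_p iL, iL⟩ S.y3_L oi ((orderOf_eq_of_isConj S.y3_t).symm.trans S.t_ord) iz
      fun e => S.not_zt (e ▸ IsConj.refl _) S.y3_t
    have m : l * i * l⁻¹ ∈ zpowers (l * a * l⁻¹) := by rw [← cj_zpowers]; exact mem_cj'.2 ⟨i, hi, rfl⟩
    obtain ⟨b, hb, c⟩ := S.cls_D3 (conj_H hl.2 h1) (piElt_conj.2 h2) (by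
      rcases e1 with e | e
      · exact Or.inl (e ▸ m)
      · exact Or.inr (S.y3_mul ▸ e ▸ m))
    exact ⟨b, hb, CjIn.trans ⟨l, hl.2, rfl⟩ c⟩

end St
end CA.J4
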