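import Cfsg.Agent.Lib.J4.Cls62

/-!
The classes with largest prime `5` or `7`: class counts in `2^3·L3(2)` and `S5`.
-/

set_option autoImplicit false
set_option linter.unusedSectionVars false
set_option linter.unusedVariables false

namespace CA.J4
open Cfsg CA.Gol CA.Ex2 CA.XS Subgroup

section small
variable {Γ : Type} [Group Γ] [Fintype Γ] [DecidableEq Γ]

theorem card_cent_filter (m : Γ) : Nat.card ↥(⊤ ⊓ 𝐂[m]) = (Finset.univ.filter fun g => g * m = m * g).card := by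
  rw [top_inf_eq, ← Set.ncard_coe_finset]
  show (𝐂[m] : Set Γ).ncard = _
  congr 1; ext g; simpa using mem_cent1_iff

/-- representatives with distinct invariants (order of the centralizer, a power being trivial) -/
theorem reps_small {A : Set Γ} (h : CInv ⊤ A) {L : List (Γ × ℕ × ℕ)} {n k : ℕ} (hn : Nat.card Γ = n)
    (h1 : ∀ a ∈ L, (Finset.univ.filter fun g => g * a.1 = a.1 * g).card = a.2.1 ∧ a.2.1 * a.2.2 = n)
    (hL : L.Pairwise fun a b => a.2.1 ≠ b.2.1 ∨ (a.1 ^ k = 1 ∧ b.1 ^ k ≠ 1)) (h2 : ∀ a ∈ L, a.1 ∈ A)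
    (hA : A.ncard ≤ sumL L fun a => a.2.2) :
    L.Pairwise (fun a b => ¬ CjIn ⊤ a.1 b.1) ∧ ∀ a ∈ A, ∃ b ∈ L, CjIn ⊤ a b.1 := by
  have p : L.Pairwise (fun a b => ¬ CjIn ⊤ a.1 b.1) := hL.imp_of_mem fun {a b} ha hb e c => by
    rcases e with e | e
    · exact e (by rw [← (h1 a ha).1, ← (h1 b hb).1, ← card_cent_filter, ← card_cent_filter, card_cent_cjIn c])
    · obtain ⟨g, -, e1⟩ := c
      exact e.2 (by rw [← e1, conj_pow, e.1]; simp)
  exact ⟨p, reps_of_count h p h2 (fun a ha => by rw [card_cent_filter, (h1 a ha).1, (h1 a ha).2, card_top, hn]) hA⟩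

end small

/-- class representatives of `S5` -/
def clS5L : List (S5 × ℕ × ℕ) := [(1, 120, 1), (Equiv.swap 0 1, 12, 10), (Equiv.swap 0 1 * Equiv.swap 2 3, 8, 15),
  (Equiv.swap 0 1 * Equiv.swap 1 2, 6, 20), (Equiv.swap 0 1 * Equiv.swap 1 2 * Equiv.swap 3 4, 6, 20),
  (Equiv.swap 0 1 * Equiv.swap 1 2 * Equiv.swap 2 3, 4, 30),
  (Equiv.swap 0 1 * Equiv.swap 1 2 * Equiv.swap 2 3 * Equiv.swap 3 4, 5, 24)]

theorem classes_S5 : Nat.card (ConjClasses S5) = 7 := by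
  obtain ⟨h1, h2⟩ := reps_small (A := Set.univ) (L := clS5L) (k := 3) (fun _ _ _ _ => trivial) card_S5 (by decide +kernel)
    (by decide +kernel) (fun _ _ => trivial) (by rw [Set.ncard_univ, card_S5]; decide +kernel)
  rw [← ncl_univ, ncl_reps h1 h2 fun _ _ => trivial]; rfl

def l2 : L3 := ⟨!![1, 0, 1; 0, 1, 0; 0, 0, 1], by decide⟩
def l3 : L3 := ⟨!![0, 1, 0; 0, 0, 1; 1, 0, 0], by decide⟩
def l4 : L3 := ⟨!![1, 1, 0; 0, 1, 1; 0, 0, 1], by decide⟩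
/-- class representatives of the `{2,3}`-elements of `L3(2)` -/
def LL3 : List (L3 × ℕ × ℕ) := [(1, 168, 1), (l2, 8, 21), (l3, 3, 56), (l4, 4, 42)]

theorem L3_ord : ∀ g : L3, g ^ 7 = 1 ∨ g ^ 3 = 1 ∨ g ^ 4 = 1 := by decide +kernel
theorem LL3_cent : ∀ a ∈ LL3, (Finset.univ.filter fun g => g * a.1 = a.1 * g).card = a.2.1 ∧ a.2.1 * a.2.2 = 168 := by
  decide +kernel
theorem L3_cls : LL3.Pairwise (fun a b => ¬ CjIn ⊤ a.1 b.1) ∧ ∀ a : L3, a ^ 3 = 1 ∨ a ^ 4 = 1 → ∃ b ∈ LL3, CjIn ⊤ a b.1 :=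
  reps_small (A := {a | a ^ 3 = 1 ∨ a ^ 4 = 1}) (k := 1) (fun g _ a ha => ha.imp (fun e => by rw [conj_pow, e]; simp)
    fun e => by rw [conj_pow, e]; simp) card_L3 LL3_cent (by decide +kernel)
    (show ∀ a ∈ LL3, a.1 ^ 3 = 1 ∨ a.1 ^ 4 = 1 by decide +kernel) (by
      rw [show {a : L3 | a ^ 3 = 1 ∨ a ^ 4 = 1} = ↑(Finset.univ.filter fun a : L3 => a ^ 3 = 1 ∨ a ^ 4 = 1) by ext; simp,
        Set.ncard_coe_finset]
      decide +kernel)
theorem l3_cent : ∀ v : L3, v * l3 = l3 * v → v = l3 ^ 0 ∨ v = l3 ^ 1 ∨ v = l3 ^ 2 ∨ v = l3 ^ 3 := by decide +kernel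
theorem l4_cent : ∀ v : L3, v * l4 = l4 * v → v = l4 ^ 0 ∨ v = l4 ^ 1 ∨ v = l4 ^ 2 ∨ v = l4 ^ 3 := by decide +kernel
theorem L3_inv {w : L3} (h : w * w = 1) (h1 : w ≠ 1) : CjIn ⊤ w l2 := by
  obtain ⟨b, hb, g, -, e⟩ := L3_cls.2 w (Or.inr (by rw [show w ^ 4 = w * w * (w * w) by simp [pow_succ, mul_assoc], h, mul_one]))
  have e2 : b.1 * b.1 = 1 := by rw [← e, conj_mul, h]; simp
  have e1 : b.1 ≠ 1 := fun a => h1 (conj_eq_one_iff.1 (e.trans a))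
  exact ⟨g, trivial, e.trans ((show ∀ b ∈ LL3, b.1 * b.1 = 1 → b.1 ≠ 1 → b.1 = l2 by decide +kernel) b hb e2 e1)⟩

/-- an extension `2^3.L3(2)` with the centralizer orders found in `J4` -/
structure X1344 {Γ : Type*} [Group Γ] (ψ : Γ →* L3) : Prop where
  hs : Function.Surjective ψ
  sq : ∀ z ∈ ψ.ker, z * z = 1
  cZ : Nat.card ψ.ker = 8
  cz : 𝐂(ψ.ker) ≤ ψ.ker
  c1 : ∀ z ∈ ψ.ker, z ≠ 1 → Nat.card 𝐂[z] = 192
  c2 : ∀ a, a * a = 1 → a ∉ ψ.ker → Nat.card 𝐂[a] = 16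
  ex : ∃ a, a * a = 1 ∧ a ∉ ψ.ker

namespace X1344
variable {Γ : Type*} [Group Γ] [Finite Γ] {ψ : Γ →* L3} (h : X1344 ψ)
include h

theorem inv {a : Γ} (ha : a ∈ ψ.ker) : a⁻¹ = a := inv_eq_of_mul_eq_one_right (h.sq a ha)
theorem comm {a b : Γ} (ha : a ∈ ψ.ker) (hb : b ∈ ψ.ker) : a * b = b * a := by
  rw [← h.inv (mul_mem ha hb), mul_inv_rev, h.inv ha, h.inv hb]
theorem cjZ (g : Γ) {a : Γ} (ha : a ∈ ψ.ker) : g * a * g⁻¹ ∈ ψ.ker := (MonoidHom.normal_ker ψ).conj_mem a ha g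

theorem card_comap (U : Subgroup L3) : Nat.card (U.comap ψ) = 8 * Nat.card U := by
  have := card_mul_relIndex (show ψ.ker ≤ U.comap ψ from fun a ha => by rw [mem_comap, MonoidHom.mem_ker.1 ha]; exact one_mem _)
  rw [← this, h.cZ, relIndex_ker, map_comap_eq_self_of_surjective h.hs]

theorem card : Nat.card Γ = 1344 := by
  have := h.card_comap ⊤
  rwa [comap_top, card_top, card_top, card_L3] at this

theorem fib (a : Γ) : {x | ψ x = ψ a} = (fun z => a * z) '' ψ.ker := by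
  ext x
  exact ⟨fun e => ⟨a⁻¹ * x, by simp [MonoidHom.mem_ker, show ψ x = ψ a from e], by simp⟩,
    by rintro ⟨z, hz, rfl⟩; simp [MonoidHom.mem_ker.1 hz]⟩

theorem ncard_mul (a : Γ) (W : Subgroup Γ) : ((fun z => a * z) '' W).ncard = Nat.card W :=
  Set.ncard_image_of_injective _ (mul_right_injective a)

theorem hyp {g : Γ} (hg : g ∉ ψ.ker) (h4 : 2 < Nat.card ↥(ψ.ker ⊓ 𝐂[g])) :
    Nat.card ↥(ψ.ker ⊓ 𝐂[g]) = 4 ∧ Hyp (ψ.ker ⊓ 𝐂[g]) ψ.ker := by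
  have d := card_dvd_of_le (inf_le_left (a := ψ.ker) (b := 𝐂[g]))
  rw [h.cZ] at d
  have : Nat.card ↥(ψ.ker ⊓ 𝐂[g]) ≠ 8 := fun e => hg (h.cz (mem_cent_iff.2 fun z hz => mem_cent1_iff.1
    ((eq_of_le_of_card_eq inf_le_left (e.trans h.cZ.symm)).ge hz).2))
  have le := Nat.le_of_dvd (by norm_num) d
  have e : Nat.card ↥(ψ.ker ⊓ 𝐂[g]) = 4 := by interval_cases Nat.card ↥(ψ.ker ⊓ 𝐂[g]) <;> omega
  exact ⟨e, hyp_of_card inf_le_left (by rw [e, h.cZ])⟩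

theorem cent_le {g : Γ} (hg : ψ g * ψ g ≠ 1) : Nat.card ↥(ψ.ker ⊓ 𝐂[g]) ≤ 2 := by
  by_contra h4
  obtain ⟨-, -, H⟩ := h.hyp (g := g) (fun e => hg (by rw [MonoidHom.mem_ker.1 e, mul_one])) (by omega)
  rw [← map_mul] at hg
  refine hg (h.cz (mem_cent_iff.2 fun z hz => (mul_inv_eq_iff_eq_mul.1 ?_).symm))
  have c : z * (g * z * g⁻¹) ∈ ψ.ker ⊓ 𝐂[g] := (H _ hz _ (h.cjZ g hz)).2 (by
    rw [mem_inf, mem_inf, ← conj_cent_iff (g := g) (a := z), mul_inv_cancel_right]; simp [hz, h.cjZ g hz])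
  have e := mem_cent1_iff.1 c.2
  calc g * g * z * (g * g)⁻¹ = g * z * g⁻¹ * (g * z * g⁻¹) * (g * g * z * (g * g)⁻¹) := by
        rw [h.sq _ (h.cjZ g hz), one_mul]
    _ = g * z * g⁻¹ * (g * (z * (g * z * g⁻¹)) * g⁻¹) := by group
    _ = z := by rw [← e, mul_inv_cancel_right, h.comm hz (h.cjZ g hz), ← mul_assoc, h.sq _ (h.cjZ g hz), one_mul]

theorem nZ (g : Γ) : g ∈ 𝐍(ψ.ker) := by rw [normalizer_eq_top]; trivial

theorem cent3 {g : Γ} (hg : ψ g = l3) : Nat.card ↥(ψ.ker ⊓ 𝐂[g]) = 2 := by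
  have : Fact (Nat.Prime 3) := ⟨by norm_num⟩
  have g3 : g ^ 3 ∈ ψ.ker := by rw [MonoidHom.mem_ker, map_pow, hg]; decide +kernel
  have m := card_modEq_card_inf_cent (p := 3) (P := zpowers (g ^ 4)) (N := ψ.ker) (fun ⟨x, i, e⟩ => ⟨1, Subtype.ext (by
    show x ^ 3 ^ 1 = 1
    rw [← e, pow_one, ← zpow_natCast, ← zpow_mul, mul_comm, zpow_mul, zpow_natCast,
      show (g ^ 4) ^ 3 = (g ^ 3 * g ^ 3) ^ 2 by group, h.sq _ g3]; simp)⟩) (zpowers_le.2 (h.nZ _))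
  rw [cent_zpowers, show ψ.ker ⊓ 𝐂[g ^ 4] = ψ.ker ⊓ 𝐂[g] from Subgroup.ext fun z => by
    rw [mem_inf, mem_inf]
    refine and_congr_right fun hz => ?_
    rw [mem_cent1_iff, mem_cent1_iff, pow_succ, ← mul_assoc, h.comm hz g3, mul_assoc,
      mul_assoc, mul_right_inj], h.cZ, Nat.ModEq] at m
  have := h.cent_le (g := g) (by rw [hg]; decide +kernel)
  omega

theorem cent4 {g : Γ} (hg : ψ g = l4) : Nat.card ↥(ψ.ker ⊓ 𝐂[g]) = 2 := by
  have : Fact (Nat.Prime 2) := ⟨by norm_num⟩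
  have g3 : g ^ 4 ∈ ψ.ker := by rw [MonoidHom.mem_ker, map_pow, hg]; decide +kernel
  have m := dvd_card_inf_cent (p := 2) (P := zpowers g) (N := ψ.ker) (fun ⟨x, i, e⟩ => ⟨3, Subtype.ext (by
    show x ^ 2 ^ 3 = 1
    rw [← e, ← zpow_natCast, ← zpow_mul, mul_comm, zpow_mul, zpow_natCast,
      show g ^ 2 ^ 3 = g ^ 4 * g ^ 4 by group, h.sq _ g3]; simp)⟩) (zpowers_le.2 (h.nZ _)) (by rw [h.cZ]; norm_num)
  rw [cent_zpowers] at m
  have := h.cent_le (g := g) (by rw [hg]; decide +kernel)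
  have := Nat.card_pos (α := ↥(ψ.ker ⊓ 𝐂[g]))
  omega

theorem ncl_cyc {m : L3} (hc : ∀ v, v * m = m * v → v = m ^ 0 ∨ v = m ^ 1 ∨ v = m ^ 2 ∨ v = m ^ 3)
    (h2 : ∀ g, ψ g = m → Nat.card ↥(ψ.ker ⊓ 𝐂[g]) = 2) : ncl ⊤ {a | ψ a = m} = 2 := by
  rw [ncl_eq_of_iff (Y := ψ.ker) fun a ha b hb => ⟨fun ⟨g, _, e⟩ => ?_, fun c => c.mono le_top⟩]
  · have := ncl_mul (X := ψ.ker) (A := {a | ψ a = m}) fun g hg a ha => by simpa [MonoidHom.mem_ker.1 hg] using ha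
    obtain ⟨a, rfl⟩ := h.hs m
    rw [sm_const (S := {x | ψ x = ψ a}) h2, h.fib, h.ncard_mul, h.cZ] at this
    rw [h.fib]
    omega
  · have e1 := congrArg ψ e
    rw [map_mul, map_mul, map_inv, show ψ a = m from ha, show ψ b = m from hb, mul_inv_eq_iff_eq_mul] at e1
    obtain ⟨j, e2⟩ : ∃ j : ℕ, ψ g = m ^ j := by rcases hc _ e1 with e | e | e | e <;> exact ⟨_, e⟩
    refine ⟨g * (a ^ j)⁻¹, by simp [MonoidHom.mem_ker, e2, show ψ a = m from ha], ?_⟩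
    rw [← e]; group

theorem ncl_ker : ncl ⊤ {a | ψ a = 1} = 2 := by
  obtain ⟨z, hz, oz⟩ := exists_orderOf_eq_prime (A := ψ.ker) Nat.prime_two (by rw [h.cZ]; norm_num)
  have z1 : z ≠ 1 := fun e => by rw [e, orderOf_one] at oz; omega
  refine ncl_count (ι := ℕ) (L := [1, 7]) (r := fun i => if i = 1 then 1 else z) (c := id) (fun g _ a ha => h.cjZ g ha)
    (List.pairwise_pair.2 fun ⟨g, _, e⟩ => z1 (by rw [← show _ = z from e]; simp)) (by simpa using hz) ?_ (le_of_eq h.cZ)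
  simp only [List.mem_cons, List.not_mem_nil, or_false]
  rintro _ (rfl | rfl)
  · simp
  · rw [top_inf_eq, if_neg (by norm_num), h.c1 z hz z1, card_top, h.card]; rfl

theorem exists_a : ∃ a, ψ a = l2 ∧ a * a = 1 := by
  obtain ⟨a, a2, ha⟩ := h.ex
  obtain ⟨w, -, e⟩ := L3_inv (w := ψ a) (by rw [← map_mul, a2, map_one]) ha
  obtain ⟨g, rfl⟩ := h.hs w
  exact ⟨g * a * g⁻¹, by simpa using e, by rw [conj_mul, a2]; simp⟩

/-- squares are commutators -/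
theorem sq_comm {x : Γ} (hx : x * x ∈ ψ.ker) : ∃ z ∈ ψ.ker, x * x = x * z * x⁻¹ * z⁻¹ := by
  by_cases x1 : x ∈ ψ.ker
  · exact ⟨1, one_mem _, by simp [h.sq x x1]⟩
  obtain ⟨a, ha, a2⟩ := h.exists_a
  obtain ⟨w, -, e⟩ := L3_inv (w := ψ x) (by rw [← map_mul]; exact hx) x1
  obtain ⟨g, rfl⟩ := h.hs w
  obtain ⟨z, hz, e1⟩ := (h.fib a).le (show ψ (g * x * g⁻¹) = ψ a by simpa [ha] using e)
  refine ⟨g⁻¹ * z * g⁻¹⁻¹, h.cjZ _ hz, (MulAut.conj g).injective ?_⟩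
  rw [map_mul, map_mul, map_mul, map_mul, map_inv, map_inv, MulAut.conj_apply, MulAut.conj_apply,
    ← show a * z = g * x * g⁻¹ from e1, show g * (g⁻¹ * z * g⁻¹⁻¹) * g⁻¹ = z by group, mul_inv_rev, h.inv hz, inv_eq_of_mul_eq_one_right a2,
    show a * z * z * (z * a) * z = a * (z * z) * z * a * z by group, h.sq z hz]
  group

theorem ncl_inv : ncl ⊤ {a | ψ a = l2} = 3 := by
  obtain ⟨a, ha, a2⟩ := h.exists_a
  have ai : a⁻¹ = a := inv_eq_of_mul_eq_one_right a2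
  have a1 : a ∉ ψ.ker := fun e => absurd (ha.symm.trans e) (by decide +kernel)
  obtain ⟨cW, HW⟩ := h.hyp a1 (by
    have := card_le_sq_cent (Z := ψ.ker) ⟨abelian_iff'.2 fun a ha b hb => h.comm ha hb, fun z hz => by
      rw [pow_two, h.sq z hz]⟩ (h.nZ a) a2
    rw [h.cZ] at this
    by_contra c
    have := Nat.mul_le_mul (not_lt.1 c) (not_lt.1 c); omega)
  set W := ψ.ker ⊓ 𝐂[a]
  obtain ⟨z, hz, zW⟩ : ∃ z ∈ ψ.ker, z ∉ W := by
    by_contra c; push Not at c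
    have := card_le_of_le' (show ψ.ker ≤ W from c); rw [cW, h.cZ] at this; omega
  -- squares in the coset
  have sqa : ∀ w ∈ ψ.ker, a * w * (a * w) = 1 ↔ w ∈ W := fun w hw => by
    rw [mul_eq_one_iff_eq_inv, mul_inv_rev, ai, h.inv hw, eq_comm]
    exact ⟨fun e => ⟨hw, mem_cent1_iff.2 e⟩, fun e => mem_cent1_iff.1 e.2⟩
  set r := a * z * (a * z) with hr
  have rZ : r ∈ ψ.ker := by
    rw [hr, show a * z * (a * z) = a * z * a⁻¹ * z by rw [ai]; group]; exact mul_mem (h.cjZ a hz) hz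
  have r1 : r ≠ 1 := fun e => zW ((sqa z hz).1 e)
  have rW : r ∈ W := ⟨rZ, mem_cent1_iff.2 (by
    rw [hr, ← mul_assoc a, ← mul_assoc a, a2, one_mul, show a * z * (a * z) * a = (a * z * a⁻¹) * (a * a) * z * a by group, a2,
      mul_one, h.comm (h.cjZ a hz) hz, ai, mul_assoc, mul_assoc, mul_assoc, a2, mul_one])⟩
  have sqb : ∀ w ∈ ψ.ker, w ∉ W → a * w * (a * w) = r := fun w hw wW => by
    have c : z * w ∈ W := (HW.2 z hz w hw).2 (iff_of_false zW wW)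
    rw [show w = z * (z * w) by rw [← mul_assoc, h.sq z hz, one_mul],
      show a * (z * (z * w)) * (a * (z * (z * w))) = a * z * (z * w * a) * (z * (z * w)) by group, mem_cent1_iff.1 c.2,
      h.comm hz c.1, show a * z * (a * (z * w)) * (z * w * z) = a * z * a * (z * w * (z * w)) * z by group, h.sq _ c.1, hr]
    group
  have cR : Nat.card (zpowers r) = 2 := by
    have : Fact (Nat.Prime 2) := ⟨Nat.prime_two⟩
    rw [Nat.card_zpowers, orderOf_eq_prime (by rw [pow_two, h.sq r rZ]) r1]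
  have HR : Hyp (zpowers r) W := hyp_of_card (zpowers_le.2 rW) (by rw [cW, cR])
  have T1 : {x | x ∈ {a | ψ a = l2} ∧ x * x = 1} = (fun w => a * w) '' W := by
    rw [← ha, h.fib]; ext x
    exact ⟨by rintro ⟨⟨w, hw, rfl⟩, e⟩; exact ⟨w, (sqa w hw).1 e, rfl⟩,
      by rintro ⟨w, hw, rfl⟩; exact ⟨⟨w, hw.1, rfl⟩, (sqa w hw.1).2 hw⟩⟩
  have T2 : {x | x ∈ {a | ψ a = l2} ∧ ¬ x * x = 1} = (fun w => a * z * w) '' W := by
    rw [← ha, h.fib]; ext x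
    refine ⟨?_, ?_⟩
    · rintro ⟨⟨w, hw, rfl⟩, e⟩
      exact ⟨z * w, (HW.2 z hz w hw).2 (iff_of_false zW fun c => e ((sqa w hw).2 c)), by
        simp only [mul_assoc]; rw [← mul_assoc z z, h.sq z hz, one_mul]⟩
    · rintro ⟨w, hw, rfl⟩
      refine ⟨⟨z * w, mul_mem hz hw.1, (mul_assoc _ _ _).symm⟩, fun e => zW ?_⟩
      simp only [mul_assoc a z] at e
      exact ((HW.2 z hz w hw.1).1 ((sqa _ (mul_mem hz hw.1)).1 e)).2 hw
  -- the class of `a`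
  have clsa : ∀ w ∈ W, ∃ k, k * a * k⁻¹ = a * w := fun w hw => by
    have c := card_class_mul ((⊤ ⊓ 𝐂[l2]).comap ψ) a
    rw [h.card_comap, card_cent_filter, show _ = 8 from (LL3_cent (l2, 8, 21) (by simp [LL3])).1, inf_eq_right.2 (fun k hk => by
      rw [mem_comap, top_inf_eq, mem_cent1_iff, ← ha, ← map_mul, ← map_mul, mem_cent1_iff.1 hk]), h.c2 a a2 a1] at c
    obtain ⟨k, -, e⟩ := (Set.eq_of_subset_of_ncard_le (s := {y | ∃ k ∈ (⊤ ⊓ 𝐂[l2]).comap ψ, k * a * k⁻¹ = y})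
      (t := (fun w => a * w) '' W) (fun y ⟨k, hk, e⟩ => T1.le ⟨by
        rw [Set.mem_setOf_eq, ← e, map_mul, map_mul, ha, mem_cent1_iff.1 hk.2, map_inv, mul_inv_cancel_right], by
        rw [← e, conj_mul, a2]; simp⟩) (by rw [h.ncard_mul, cW]; omega)).ge ⟨w, hw, rfl⟩
    exact ⟨k, e⟩
  -- the stabilizer of `Z / ⟨r⟩`
  have zr : ∀ x ∈ zpowers r, ∀ k ∈ 𝐂[r], k * x * k⁻¹ = x := fun x hx k hk => by
    rw [mem_cent_iff.1 (show k ∈ 𝐂(zpowers r) by rwa [cent_zpowers]) x hx |>.symm, mul_inv_cancel_right]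
  have Nsq : ∀ k ∈ stabQ ψ.ker r, k * k ∈ zpowers r := fun k hk => by
    obtain ⟨w, hw, e⟩ := h.sq_comm (x := k) (h.cz (mem_cent_iff.2 fun w hw => (mul_inv_eq_iff_eq_mul.1 (by
      have e := hk.2.2 w hw
      calc k * k * w * (k * k)⁻¹ = k * (k * w * k⁻¹ * w⁻¹) * k⁻¹ * (k * w * k⁻¹ * w⁻¹) * w := by group
        _ = w := by rw [zr _ e k hk.1, h.sq _ (zpowers_le.2 rZ e), one_mul])).symm))
    exact e ▸ hk.2.2 w hw
  have aN : a ∈ stabQ ψ.ker r := ⟨mem_cent1_comm.1 rW.2, h.nZ a, fun w hw => by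
    rw [ai, h.inv hw, mul_assoc _ a]
    by_cases c : w ∈ W
    · rw [(sqa w hw).2 c]; exact one_mem _
    · rw [sqb w hw c]; exact mem_zpowers r⟩
  have Na : ∀ k ∈ stabQ ψ.ker r, a * (k * a * k⁻¹) ∈ zpowers r := fun k hk => by
    have := mul_mem (Nsq _ (mul_mem aN hk)) (inv_mem (Nsq k hk))
    convert this using 1
    rw [show a * k * (a * k) * (k * k)⁻¹ = a * k * a * (k * (k * k)⁻¹ * k⁻¹) * k by group, zr _ (inv_mem (Nsq k hk)) k hk.1]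
    group
  -- elements normalizing the coset
  have st : ∀ k, ψ (k * a * k⁻¹) = l2 → k ∈ 𝐂[r] ∧ a * (k * a * k⁻¹) ∈ W ∧ z * (k * z * k⁻¹) ∈ W ∧
      (∀ w ∈ W, k * w * k⁻¹ * w⁻¹ ∈ zpowers r) ∧ (z * (k * z * k⁻¹) ∈ zpowers r → k ∈ stabQ ψ.ker r) := fun k hk => by
    obtain ⟨c, hc, e⟩ := T1.le (show k * a * k⁻¹ ∈ {x | x ∈ {a | ψ a = l2} ∧ x * x = 1} from
      ⟨hk, by rw [conj_mul, a2]; simp⟩)
    have e : a * c = k * a * k⁻¹ := e
    have nW : ∀ w ∈ ψ.ker, k * w * k⁻¹ ∈ W ↔ w ∈ W := fun w hw => by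
      rw [← sqa w hw, ← conj_eq_one_iff (a := k), ← conj_mul, ← conj_mul, ← e, mul_assoc a c, sqa _ (mul_mem hc.1 (h.cjZ k hw)),
        HW.2 _ hc.1 _ (h.cjZ k hw)]
      simp [show c ∈ W from hc]
    have kr : k ∈ 𝐂[r] := mem_cent1_iff.2 (mul_inv_eq_iff_eq_mul.1 (by
      conv_lhs => rw [hr, ← conj_mul, ← conj_mul, ← e, mul_assoc a c]
      exact sqb _ (mul_mem hc.1 (h.cjZ k hz)) fun x => zW ((nW z hz).1 (((HW.2 _ hc.1 _ (h.cjZ k hz)).1 x).1 hc))))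
    have kW : ∀ w ∈ W, k * w * k⁻¹ * w⁻¹ ∈ zpowers r := fun w hw => by
      rw [h.inv hw.1, HR.2 _ ((nW w hw.1).2 hw) w hw]
      exact ⟨fun x => by have := zr _ x k⁻¹ (inv_mem kr); rw [← this] at x; simpa [mul_assoc] using x,
        fun x => by rwa [zr _ x k kr]⟩
    have kz : z * (k * z * k⁻¹) ∈ W := (HW.2 z hz _ (h.cjZ k hz)).2 (nW z hz).symm
    refine ⟨kr, by rw [← e, ← mul_assoc, a2, one_mul]; exact hc, kz, kW, fun x => ⟨kr, h.nZ k, fun w hw => ?_⟩⟩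
    by_cases c : w ∈ W
    · exact kW w c
    · have c1 : z * w ∈ W := (HW.2 z hz w hw).2 (iff_of_false zW c)
      have := mul_mem x (kW _ c1)
      rw [show z * (k * z * k⁻¹) * (k * (z * w) * k⁻¹ * (z * w)⁻¹) = z * (k * (z * z) * w * k⁻¹ * w⁻¹) * z⁻¹ by group, h.sq z hz,
        mul_one, h.comm hz (mul_mem (h.cjZ k hw) (inv_mem hw)), mul_inv_cancel_right] at this
      exact this
  obtain ⟨c, hc, cr⟩ : ∃ c ∈ W, c ∉ zpowers r := by
    by_contra c; push Not at c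
    have := card_le_of_le' (show W ≤ zpowers r from c); rw [cW, cR] at this; omega
  obtain ⟨k1, e1⟩ := clsa c hc
  have key : ∀ k, ψ (k * a * k⁻¹) = l2 → (a * (k * a * k⁻¹) ∈ zpowers r ↔ z * (k * z * k⁻¹) ∈ zpowers r) := fun k hk => by
    obtain ⟨s1, s2, s3, s4, s5⟩ := st k hk
    refine ⟨fun x => ?_, fun x => Na k (s5 x)⟩
    by_contra y
    have p1 : ψ (k1 * a * k1⁻¹) = l2 := by rw [e1, map_mul, MonoidHom.mem_ker.1 hc.1, mul_one, ha]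
    obtain ⟨t1, t2, t3, t4, t5⟩ := st k1 p1
    have n1 : z * (k1 * z * k1⁻¹) ∉ zpowers r := fun q => cr (by
      have := Na k1 (t5 q); rwa [e1, ← mul_assoc, a2, one_mul] at this)
    have q1 : a * (k * k1 * a * (k * k1)⁻¹) = a * (k * a * k⁻¹) * (k * c * k⁻¹ * c⁻¹) * c := by
      rw [show k * k1 * a * (k * k1)⁻¹ = k * (k1 * a * k1⁻¹) * k⁻¹ by group, e1]; group
    have p2 : ψ (k * k1 * a * (k * k1)⁻¹) = l2 := by
      rw [show k * k1 * a * (k * k1)⁻¹ = k * (k1 * a * k1⁻¹) * k⁻¹ by group, e1, ← conj_mul, map_mul, hk,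
        MonoidHom.mem_ker.1 (h.cjZ k hc.1), mul_one]
    have := Na _ ((st _ p2).2.2.2.2 (by
      rw [show z * (k * k1 * z * (k * k1)⁻¹) = z * (k * z * k⁻¹) * ((k * (z⁻¹ * (k1 * z * k1⁻¹)) * k⁻¹ *
        (z⁻¹ * (k1 * z * k1⁻¹))⁻¹) * (z⁻¹ * (k1 * z * k1⁻¹))) by group, h.inv hz, HR.2 _ s3 _
          (mul_mem (zpowers_le.2 rW (s4 _ t3)) t3), mul_mem_cancel_left (s4 _ t3)]
      exact iff_of_false y n1))
    rw [q1, mul_mem_cancel_left (mul_mem x (s4 c hc))] at this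
    exact cr this
  rw [ncl_split (fun x => x * x = 1) fun x _ y _ ⟨g, _, e⟩ e1 => by rw [← e, conj_mul, e1]; simp, T1,
    ncl_one (A := (fun w => a * w) '' W) (r := a * 1) ⟨1, one_mem _, rfl⟩ (by
      rintro _ ⟨w, hw, rfl⟩
      obtain ⟨k, e⟩ := clsa w hw
      exact CjIn.symm ⟨k, trivial, by rw [mul_one, e]⟩), T2]
  have := ncl_mul_const (X := ⊤) (A := (fun w => a * z * w) '' W) (k := 2) (by
    rintro _ ⟨w, hw, rfl⟩
    rw [← cR, ← h.ncard_mul (a * z * w)]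
    congr 1; ext y
    constructor
    · rintro ⟨⟨v, hv, rfl⟩, k, -, e⟩
      have e : k * (a * z * w) * k⁻¹ = a * z * v := e
      have p : ψ (k * a * k⁻¹) = l2 := by
        have := congrArg ψ e
        rwa [← conj_mul, ← conj_mul, map_mul ψ (_ * _), map_mul ψ _ (k * z * k⁻¹), MonoidHom.mem_ker.1 (h.cjZ k hz),
          MonoidHom.mem_ker.1 (h.cjZ k hw.1), map_mul ψ (a * z), map_mul ψ a, MonoidHom.mem_ker.1 hz,
          MonoidHom.mem_ker.1 hv.1, mul_one, mul_one, mul_one, mul_one, ha] at this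
      obtain ⟨s1, s2, s3, s4, s5⟩ := st k p
      refine ⟨_, mul_mem ((HR.2 _ s2 _ s3).2 (key k p)) (s4 w hw), ?_⟩
      show a * z * w * _ = a * z * v
      rw [← e, mul_assoc, h.comm hw.1 (mul_mem (mul_mem s2.1 s3.1) (mul_mem (h.cjZ k hw.1) (inv_mem hw.1))),
        show a * z * (a * (k * a * k⁻¹) * (z * (k * z * k⁻¹)) * (k * w * k⁻¹ * w⁻¹) * w) =
          a * (z * (a * (k * a * k⁻¹))) * (z * (k * z * k⁻¹)) * (k * w * k⁻¹) by group, h.comm hz s2.1,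
        show a * (a * (k * a * k⁻¹) * z) * (z * (k * z * k⁻¹)) * (k * w * k⁻¹) =
          a * a * (k * a * k⁻¹) * (z * z) * (k * z * k⁻¹) * (k * w * k⁻¹) by group, a2, h.sq z hz]
      group
    · rintro ⟨x, hx, rfl⟩
      refine ⟨⟨w * x, mul_mem hw (zpowers_le.2 rW hx), (mul_assoc _ _ _).symm⟩, ?_⟩
      obtain ⟨i, hi, rfl⟩ := exists_pow_lt hx
      rw [← Nat.card_zpowers, cR] at hi
      interval_cases i
      · simpa using CjIn.refl _ _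
      · refine ⟨z, trivial, ?_⟩
        show z * (a * z * w) * z⁻¹ = a * z * w * r ^ 1
        have e : a * z * r = z * a := by
          rw [show z * a = (a * z)⁻¹ by rw [mul_inv_rev, h.inv hz, ai]]
          exact eq_inv_of_mul_eq_one_left (by rw [← h.sq r rZ, hr]; group)
        rw [pow_one, mul_assoc (a * z), h.comm hw.1 rZ, ← mul_assoc (a * z), e, mul_assoc a, h.comm hz hw.1]
        group)
  rw [h.ncard_mul, cW] at this
  omega

theorem main : ncl ⊤ {y : Γ | PiElt (Set.Iio 5) y} = 9 := by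
  rw [ncl_list (A := {y : Γ | PiElt (Set.Iio 5) y}) (L := LL3) (T := fun m => {a | ψ a = m.1}) (L3_cls.1.imp fun c a ha b hb ⟨g, _, e⟩ =>
    c ⟨ψ g, trivial, by rw [← show ψ a = _ from ha, ← show ψ b = _ from hb, ← e]; simp⟩) (fun a ha => ?_) fun m hm b hb =>
    ⟨b, piElt_of_pow_eq_one (n := 12 + 12) (fun q hq d => ?_) (by
      rw [pow_add]; refine h.sq _ ?_
      rw [MonoidHom.mem_ker, map_pow, show ψ b = _ from hb]
      exact (show ∀ m ∈ LL3, m.1 ^ 12 = 1 by decide +kernel) m hm), CjIn.refl _ _⟩]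
  · simp only [LL3, sumL_cons, sumL_nil]
    rw [h.ncl_ker, h.ncl_inv, h.ncl_cyc l3_cent fun _ => h.cent3, h.ncl_cyc l4_cent fun _ => h.cent4]
  · obtain ⟨m, hm, w, -, e⟩ := L3_cls.2 (ψ a) ((L3_ord (ψ a)).elim (fun e => Or.inl (by
      rw [(PiElt.map ha ψ).eq_one (piElt_of_pow_eq_one (n := 7) (fun q hq d => by
        rw [(Nat.prime_dvd_prime_iff_eq hq (by norm_num)).1 d]; simp) e), one_pow])) id)
    obtain ⟨g, rfl⟩ := h.hs w
    exact ⟨m, hm, g * a * g⁻¹, by simpa using e, g, trivial, rfl⟩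
  · have := Nat.le_of_dvd (by norm_num) d
    rw [Set.mem_Iio]; by_contra c
    interval_cases q <;> first | omega | exact absurd hq (by norm_num)

end X1344

variable {G : Type*} [Group G] [Finite G]

theorem ncl_coe (J : Subgroup G) (P : G → Prop) : ncl J {y | y ∈ J ∧ P y} = ncl ⊤ {y : J | P y} :=
  (ncl_map' (X := ⊤) J.subtype (fun a _ b _ => ⟨fun ⟨g, _, e⟩ => ⟨g, g.2, congrArg Subtype.val e⟩,
    fun ⟨g, hg, e⟩ => ⟨⟨g, hg⟩, trivial, Subtype.ext e⟩⟩) (Set.ext fun y =>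
      ⟨by rintro ⟨x, hx, rfl⟩; exact ⟨x.2, hx⟩, fun hy => ⟨⟨y, hy.1⟩, hy.2, rfl⟩⟩)).symm

theorem card_cent_coe {J : Subgroup G} (a : J) : Nat.card 𝐂[a] = Nat.card ↥(J ⊓ 𝐂[(a : G)]) := by
  rw [← card_map_subtype]; congr 2; ext x
  exact ⟨by rintro ⟨y, hy, rfl⟩; exact ⟨y.2, mem_cent1_iff.2 (congrArg Subtype.val (mem_cent1_iff.1 hy))⟩,
    fun hx => ⟨⟨x, hx.1⟩, mem_cent1_iff.2 (Subtype.ext (mem_cent1_iff.1 hx.2)), rfl⟩⟩

namespace St
variable (S : St G)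

/-- the classes with largest prime `7` -/
theorem n7 (S : St G) : ∃ u : G, orderOf u = 7 ∧ nP 7 u = 7 := by
  obtain ⟨-, I, d, ⟨e⟩⟩ := S.X7
  refine ⟨_, S.s7_ord, ?_⟩
  rw [nP_dprod (by norm_num) S.s7_ord d]
  refine Eq.trans ?_ ((ncl_self I).trans ((card_conjClasses_equiv e).trans classes_S5))
  congr 1; ext y
  refine ⟨fun h => h.1, fun h => ⟨h, fun q hq d => ?_⟩⟩
  have := d.trans (orderOf_dvd_card_of_mem h)
  rw [Nat.card_congr e.toEquiv, card_S5, show 120 = Nat.factorial 5 by rfl, hq.dvd_factorial] at this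
  exact lt_of_le_of_lt this (by norm_num)

/-- the classes with largest prime `5` -/
theorem n5 (S : St G) : ∃ u : G, orderOf u = 5 ∧ nP 5 u = 9 := by
  obtain ⟨u, ou, F⟩ := S.exists_F5'
  obtain ⟨J, d, ZJ, cJ, ψ, k, hs⟩ := F.exists_J ou
  have m : ∀ a : J, a ∈ ψ.ker ↔ (a : G) ∈ S.Z := fun a => by rw [← k, mem_pker, pel_coe]; simp
  have cc : ∀ a : J, Nat.card ↥(𝐂[u] ⊓ 𝐂[(a : G)]) = 5 * Nat.card 𝐂[a] := fun a => by
    rw [card_cent_coe, ← (d.inf_of_left_le (L := 𝐂[(a : G)]) (zpowers_le.2 (mem_cent1_comm.1 (d.right_le a.2)))).card_eq,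
      Nat.card_zpowers, ou]
  have two : ∀ a ∈ 𝐂[u], a * a = 1 → a ∈ J := fun a ha a2 => dprod_mem_right d ha (by
    rw [Nat.card_zpowers, ou]
    exact Nat.Coprime.coprime_dvd_right (orderOf_dvd_of_pow_eq_one (show a ^ 2 = 1 by rwa [pow_two])) (by norm_num))
  refine ⟨u, ou, ?_⟩
  rw [nP_dprod (by norm_num) ou d, ncl_coe]
  simp only [piElt_coe]
  refine X1344.main (ψ := ψ) ⟨hs, fun z hz => Subtype.ext (by rw [coe_mul, ← pow_two]; exact F.el.2 _ ((m z).1 hz)), ?_,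
    fun x hx => ?_, fun z hz z1 => ?_, fun a a2 ha => ?_, ?_⟩
  · rw [← F.cZ, ← k, pker, pcomap, card_map_subtype]; rfl
  · rw [m]
    have := (le_inf F.cz (inf_le_left.trans le_rfl)) (show (x : G) ∈ 𝐂[u] ⊓ 𝐂(S.Z) from ⟨d.right_le x.2,
      mem_cent_iff.2 fun z hz => congrArg Subtype.val (mem_cent_iff.1 hx ⟨z, ZJ hz⟩ ((m _).2 hz))⟩)
    have e : (S.Z ⊔ zpowers u) ⊓ J = S.Z := by
      rw [dedekind_left (Or.inl (zpowers_le.2 (F.nm (self_mem_cent1 u)))) ZJ, d.inf_eq, sup_bot_eq]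
    exact e.le ⟨this.1, x.2⟩
  · have := S.card_Cz_cent ((F.zt z (d.right_le z.2)).2 ⟨(m z).1 hz, fun e => z1 (Subtype.ext e)⟩)
      (mem_cent1_comm.1 (d.right_le z.2)) fun y hy oy => S.jh.card_CH5 hy (oy.trans ou)
    rw [cc] at this; omega
  · have : Fact (Nat.Prime 2) := ⟨Nat.prime_two⟩
    have := S.card_X5t ou ((S.two' (i := a) (orderOf_eq_prime (by rw [pow_two]; exact congrArg Subtype.val a2) fun e =>
      ha (by rw [m, e]; exact one_mem _))).resolve_left fun c => ha ((m a).2 ((F.zt a (d.right_le a.2)).1 c).1)) (d.right_le a.2)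
    rw [cc] at this; omega
  · obtain ⟨i, hi, t⟩ := S.exists_t5 (mem_cent1_comm.1 (F.le S.z_Z)) ou
    have i2 := sq_of_conj S.t_ord t
    exact ⟨⟨i, two i hi.1 i2⟩, Subtype.ext i2, fun c => S.not_zt ((F.zt i hi.1).2 ⟨(m _).1 c, S.t_ne_one t⟩) t⟩

end St
end CA.J4
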