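import Cfsg.Agent.Lib.J4.Rk1

/-!
Pairs of conjugates of `V` in a group of type `J4`.
-/

set_option autoImplicit false
set_option linter.unusedSectionVars false
set_option linter.unusedVariables false

namespace CA.J4
open Cfsg CA.Gol CA.Ex2 CA.XS Subgroup
open scoped Pointwise commutatorElement

theorem no_pq {Γ : Type*} [Group Γ] {a c : Γ} {p q : ℕ} (hc : a * c = c * a) (ha : a ^ p = 1) (hq : c ^ q = 1)
    (cop : p.Coprime q) (H : ∀ w : Γ, w ^ (p * q) = 1 → w ^ p = 1 ∨ w ^ q = 1) : a = 1 ∨ c = 1 := by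
  have h : Commute a c := hc
  rcases H (a * c) (by rw [h.mul_pow, pow_mul, ha, mul_comm, pow_mul, hq]; simp) with e | e <;> rw [h.mul_pow] at e
  · rw [ha, one_mul] at e
    exact Or.inr (orderOf_eq_one_iff.1 (Nat.eq_one_of_dvd_coprimes cop (orderOf_dvd_of_pow_eq_one e)
      (orderOf_dvd_of_pow_eq_one hq)))
  · rw [hq, mul_one] at e
    exact Or.inl (orderOf_eq_one_iff.1 (Nat.eq_one_of_dvd_coprimes cop (orderOf_dvd_of_pow_eq_one ha)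
      (orderOf_dvd_of_pow_eq_one e)))

theorem S5_no10 : ∀ w : S5, w ^ (2 * 5) = 1 → w ^ 2 = 1 ∨ w ^ 5 = 1 := by decide +kernel
theorem S5_no15 : ∀ w : S5, w ^ (3 * 5) = 1 → w ^ 3 = 1 ∨ w ^ 5 = 1 := by decide +kernel

theorem Y2_no6 {g : Pm} (hg : g ∈ Y2) (h : g ^ 6 = 1) : g ^ 3 = 1 ∨ g ^ 2 = 1 := by
  have := all24_sound (leaf := fun c => !(Nat.beq (powC c 6) oneC) || (Nat.beq (powC c 3) oneC || Nat.beq (powC c 2) oneC))
    (k := 0x505068022d592b494de2b24e3bb1c5) (ki := 0x19dac52e33486027dcd52d00e222d2) (by decide +kernel) hg.1.1 (satY2 hg)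
  have i := mem_M24_iff_code.1 hg.1.1
  have key : ∀ n, g ^ n = 1 ↔ Nat.beq (powC (code g) n) oneC = true := fun n => by
    rw [beq_iff, ← perm_eq_iff (inM24_pow i n) oneC_in, ← perm_pow' i, perm_code, perm_oneC]
  rw [(key 6).1 h] at this
  rw [key, key]; simpa using this

theorem arithA {d l k : ℕ} (c : d * l = 2752512) (l77 : l ≤ 77) (d7 : ¬ 7 ∣ d) (k4 : k ≤ 4) (d2 : d ∣ 2 ^ k * 244823040) :
    d = 49152 ∧ 2 ^ k = 16 := by
  obtain ⟨j, rfl⟩ : 7 ∣ l := ((Nat.Prime.dvd_mul (by norm_num)).1 (c ▸ (by norm_num : 7 ∣ 2752512))).resolve_left d7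
  have j11 : j ≤ 11 := by omega
  have h : d * j = 393216 := by rw [Nat.mul_left_comm] at c; omega
  have a : d ∣ 65536 * 3 * 2 := ⟨j, h.symm⟩
  have b : ¬ 2 ^ (k + 11) ∣ d := fun e => by
    have := e.trans d2
    rw [pow_add] at this
    exact absurd (Nat.dvd_of_mul_dvd_mul_left (by positivity) this) (by norm_num)
  interval_cases k <;> interval_cases j <;> omega

variable {G : Type*} [Group G] [Finite G]

theorem eq_zpowers_of_card {A : Subgroup G} {y : G} (hy : y ∈ A) (ho : orderOf y = 2) (hc : Nat.card A = 2) :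
    A = zpowers y := (eq_of_le_of_card_eq (zpowers_le.2 hy) (by rw [Nat.card_zpowers, ho, hc])).symm

namespace St
variable (S : St G)

theorem L3_no6 (S : St G) (w : L3) (h : w ^ (3 * 2) = 1) : w ^ 3 = 1 ∨ w ^ 2 = 1 := by
  obtain ⟨e⟩ := S.kY_equiv
  obtain ⟨⟨x, hx⟩, rfl⟩ := e.surjective w
  obtain ⟨g, hg, rfl⟩ := (S.mem_kap Y2_24).1 hx
  have key : ∀ n, e ⟨_, hx⟩ ^ n = 1 ↔ g ^ n = 1 := fun n => by
    rw [← map_pow, map_eq_one_iff _ e.injective, Subtype.ext_iff, coe_pow, coe_one, ← pel_pow _ (Y2_24 hg)]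
    exact ⟨fun a => S.mm.k_inj (pow_mem (Y2_24 hg) n) (one_mem _) (by rw [a, pel_one]), fun a => by rw [a, pel_one]⟩
  rw [key] at h ⊢; rw [key]; exact Y2_no6 hg h

theorem z_ord' {y : G} (h : IsConj S.z y) : orderOf y = 2 := (orderOf_eq_of_isConj h).symm.trans S.z_ord

/-- the five-local fact needed -/
def Five (S : St G) : Prop := ∀ u ∈ 𝐂[S.z], orderOf u = 5 → ¬ 25 ∣ Nat.card G ∧ Nat.card 𝐍(zpowers u) = 26880

set_option maxHeartbeats 800000 in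
theorem five_core (h5 : S.Five) {u y y' : G} (ou : orderOf u = 5) (hy : IsConj S.z y) (hy' : IsConj S.z y')
    (cy : y ∈ 𝐂[u]) (cy' : y' ∈ 𝐂[u]) {Y0 : Subgroup G} (h0 : Y0 ≤ 𝐂[u] ⊓ 𝐂[y]) (y0 : y ∈ Y0) (c0 : Nat.card Y0 = 480) :
    y' ∈ Y0 := by
  obtain ⟨u0, hu, ho, h⟩ := S.exists_five
  obtain ⟨b1, b2⟩ := h5 u0 (cent_le_cent1 S.z_Z hu) ho
  wlog e : 𝐂[u] = 𝐂[u0] generalizing u y y' Y0
  · obtain ⟨g, hg⟩ := exists_cj_prime (by norm_num) ou b1 (Q := zpowers u0) (by rw [Nat.card_zpowers, ho])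
    have c : ∀ {a b}, a ∈ 𝐂[b] → g * a * g⁻¹ ∈ 𝐂[g * b * g⁻¹] := fun a => by
      rw [← cj_centralizer_singleton]; exact mem_cj'.2 ⟨_, a, rfl⟩
    have := this (u := g * u * g⁻¹) (Y0 := cj g Y0) (by rw [CA.orderOf_conj', ou]) (isConj_conj_iff.2 hy)
      (isConj_conj_iff.2 hy') (c cy) (c cy') (by
        rw [← cj_centralizer_singleton, ← cj_centralizer_singleton, ← cj_inf]; exact cj_mono _ h0)
      (mem_cj'.2 ⟨_, y0, rfl⟩) (by rw [card_cj, c0]) (by rw [← cent_zpowers, ← cj_zpowers, ← hg, cent_zpowers])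
    simpa [mem_cj, mul_assoc] using this
  rw [e] at cy cy' h0
  have uN := centralizer_le_normalizer _ hu
  have hN : 𝐂[u0] ≤ 𝐍(S.Z) := (cent1_le_norm u0).trans
    ((eq_of_le_of_card_le inf_le_right (b2 ▸ h)).ge.trans inf_le_left)
  have ZC : S.Z ≤ 𝐂[u0] := cent_zpowers u0 ▸ cents_symm (zpowers_le.2 hu)
  have hL : S.Z = S.L ⊓ 𝐍(zpowers u0) := eq_of_le_of_card_le (le_inf S.Z_le_L (ZC.trans (cent1_le_norm u0))) (by
    have h2 := (S.card_norm_N (by norm_num) (by norm_num) uN ho fun Q => norm5_ge).trans (card_le_of_le inf_le_right)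
    rw [S.card_Z]; omega)
  obtain ⟨f, f1, -, f3, -⟩ := S.exists_f
  have u5 : pel f u0 ^ 5 = 1 := by rw [← pel_pow _ uN, show u0 ^ 5 = 1 from ho ▸ pow_orderOf_eq_one u0, pel_one]
  have u1 : (pel f u0).1 ≠ 1 := fun a => by
    have : u0 ∈ S.L := f1 ▸ mem_pker.2 ⟨uN, Prod.ext a ((f3 _ uN).2 hu)⟩
    have := orderOf_dvd_card_of_mem this
    rw [ho, S.card_L] at this; norm_num at this
  have fc : ∀ {a b}, a ∈ 𝐍(S.Z) → b ∈ 𝐍(S.Z) → a ∈ 𝐂[b] → pel f a * pel f b = pel f b * pel f a := fun ha hb c => by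
    rw [← pel_mul _ ha hb, ← pel_mul _ hb ha, mem_cent1_iff.1 c]
  have K : ∀ x ∈ 𝐂[u0], x ∈ 𝐂(S.Z) → ∀ p, p.Coprime 5 → (∀ w : S5, w ^ (p * 5) = 1 → w ^ p = 1 ∨ w ^ 5 = 1) →
      x ^ p = 1 → x ∈ S.Z := fun x hx hz p cop H hp => by
    have := (no_pq (congrArg Prod.fst (fc (hN hx) uN hx)) (by
      rw [← Prod.pow_fst, ← pel_pow _ (hN hx), hp, pel_one, Prod.fst_one]) (congrArg Prod.fst u5) cop H).resolve_right u1
    exact hL ▸ ⟨f1 ▸ mem_pker.2 ⟨hN hx, Prod.ext this ((f3 _ (hN hx)).2 hz)⟩, cent1_le_norm u0 hx⟩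
  have K3 : ∀ x ∈ 𝐂[u0], orderOf x = 3 → x ∉ 𝐂(S.Z) := fun x hx ox hz => by
    have := orderOf_dvd_card_of_mem (K x hx hz 3 (by norm_num) S5_no15 (ox ▸ pow_orderOf_eq_one x))
    rw [ox, S.card_Z] at this; norm_num at this
  have c960 : ∀ y, IsConj S.z y → y ∈ 𝐂[u0] → Nat.card ↥(𝐂[u0] ⊓ 𝐂[y]) = 960 := fun y hy cy =>
    S.card_Cz_cent hy (mem_cent1_comm.1 cy) fun x hx ox => S.jh.card_CH5 hx (ox.trans ho)
  have inZ : ∀ y, IsConj S.z y → y ∈ 𝐂[u0] → y ∈ S.Z := fun y hy cy => by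
    obtain ⟨x, hx, ox⟩ := exists_orderOf_eq_prime (p := 3) (by norm_num) (by rw [c960 y hy cy]; norm_num)
    have y2 : y ^ 2 = 1 := S.z_ord' hy ▸ pow_orderOf_eq_one y
    refine K y cy ((f3 _ (hN cy)).1 ((no_pq (congrArg Prod.snd (fc (hN hx.1) (hN cy) hx.2)) (by
      rw [← Prod.pow_snd, ← pel_pow _ (hN hx.1), show x ^ 3 = 1 from ox ▸ pow_orderOf_eq_one x, pel_one, Prod.snd_one]) (by
      rw [← Prod.pow_snd, ← pel_pow _ (hN cy), y2, pel_one, Prod.snd_one]) (by norm_num) S.L3_no6).resolve_left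
      fun a => K3 x hx.1 ox ((f3 _ (hN hx.1)).1 a))) 2 (by norm_num) S5_no10 y2
  have yZ := inZ y hy cy
  have yZ' := inZ y' hy' cy'
  obtain ⟨x, hx, ox⟩ := exists_orderOf_eq_prime (p := 3) (by norm_num) (by rw [c0]; norm_num)
  have xN := hN (h0 hx).1
  have : Fact (Nat.Prime 3) := ⟨by norm_num⟩
  have m3 := card_modEq_card_inf_cent (isPGroup_zpowers ox) (zpowers_le.2 xN)
  rw [cent_zpowers, S.card_Z] at m3
  have d8 := card_dvd_of_le (inf_le_left (a := S.Z) (b := 𝐂[x]))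
  have n8 : Nat.card ↥(S.Z ⊓ 𝐂[x]) ≠ 8 := fun a => K3 x (h0 hx).1 ox (by
    rw [← zpowers_le, cents_comm, cent_zpowers]
    exact (eq_of_le_of_card_eq inf_le_left (a.trans S.card_Z.symm)).ge.trans inf_le_right)
  rw [S.card_Z] at d8
  have l8 := Nat.le_of_dvd (by norm_num) d8
  have c2 : S.Z ⊓ 𝐂[x] = zpowers y := eq_zpowers_of_card ⟨yZ, mem_cent1_comm.1 (h0 hx).2⟩ (S.z_ord' hy) (by
    generalize Nat.card ↥(S.Z ⊓ 𝐂[x]) = n at *
    interval_cases n <;> simp_all [Nat.ModEq])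
  have H := hyp_of_card h0 (by rw [c960 y hy cy, c0])
  have ZY : S.Z ≤ 𝐂[u0] ⊓ 𝐂[y] := le_inf ZC fun a ha => cent_le_cent1 yZ (S.V_cent_Z (S.Z_le_V ha))
  by_contra hn
  have a1 := conj_mem_of_mem_normalizer xN yZ'
  have a2 := conj_mem_of_mem_normalizer xN a1
  have n1 : x * y' * x⁻¹ ∉ Y0 := fun a => hn (by simpa [mul_assoc] using conj_H (inv_mem hx) a)
  have n2 : x * (x * y' * x⁻¹) * x⁻¹ ∉ Y0 := fun a => n1 (by simpa [mul_assoc] using conj_H (inv_mem hx) a)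
  have b : y' * (x * y' * x⁻¹) * (x * (x * y' * x⁻¹) * x⁻¹) ∈ S.Z ⊓ 𝐂[x] := ⟨mul_mem (mul_mem yZ' a1) a2, by
    have x3 : x * (x * (x * y' * x⁻¹) * x⁻¹) * x⁻¹ = y' := by
      rw [show x * (x * (x * y' * x⁻¹) * x⁻¹) * x⁻¹ = x ^ 3 * y' * (x ^ 3)⁻¹ by rw [pow_three]; group,
        show x ^ 3 = 1 from ox ▸ pow_orderOf_eq_one x]; simp
    refine mem_cent1_comm.1 (mem_cent1_iff.2 ?_)
    rw [← mul_inv_eq_iff_eq_mul, ← conj_mul, ← conj_mul, x3,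
      S.mm.comm_V (S.Z_le_V (mul_mem a1 a2)) (S.Z_le_V yZ'), mul_assoc y']⟩
  rw [c2] at b
  have := (H.2 _ (ZY (mul_mem yZ' a1)) _ (ZY a2)).1 (zpowers_le.2 y0 b)
  exact n2 (this.1 ((H.2 _ (ZY yZ') _ (ZY a1)).2 (iff_of_false hn n1)))

theorem five_M {u : G} (hu : u ∈ 𝐍(S.V)) (ou : orderOf u = 5) : Nat.card ↥(𝐍(S.V) ⊓ 𝐂[u]) = 480 ∧
    ∃ y ∈ S.V, IsConj S.z y ∧ y ∈ 𝐂[u] ∧ ∀ y' ∈ S.V, IsConj S.z y' → y' ∈ 𝐂[u] → y' = y := by
  have o5 : orderOf (S.k yC) = 5 := S.k_ord (by norm_num) (by decide +kernel)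
  obtain ⟨d, hd, i, h0, hi, e⟩ := conj_pow_of_sylow (by norm_num) (S.k_mem yC_24) o5 (by rw [S.mm.card_M]; norm_num) hu ou
  have c : 𝐂[d * u * d⁻¹] = 𝐂[S.k yC] := by rw [e, ← cent_zpowers, cent_pow_eq (by norm_num) o5 h0 hi, cent_zpowers]
  have m : ∀ a, d * a * d⁻¹ ∈ 𝐂[S.k yC] ↔ a ∈ 𝐂[u] := fun a => by
    rw [← c, ← cj_centralizer_singleton, mem_cj]; simp [mul_assoc]
  have cv : ∀ m, ev m = true → (S.v m ∈ 𝐂[S.k yC] ↔ fx yC m = true) := fun m hm => by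
    rw [S.mm.v_comm_k hm (perm_mem_M24 yC_24), code_perm' yC_24, fx]
  have e0 : ev 0x29e000 = true := by decide +kernel
  refine ⟨by rw [← card_inf_cent_conj hd, c, S.mm.card_cent_k yC_24, card_C5]; decide +kernel,
    d⁻¹ * S.v 0x29e000 * d⁻¹⁻¹, S.mm.conj_mem_V (inv_mem hd) (S.mm.v_mem e0),
    isConj_conj_iff.2 ((S.v_z_iff e0).2 (by decide +kernel)), (m _).1 (by simpa [mul_assoc] using (cv _ e0).2 (by decide +kernel)),
    fun y hy hz hc => ?_⟩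
  rw [← S.mm.forall_V (P := fun x => IsConj S.z x → x ∈ 𝐂[S.k yC] → x = S.v 0x29e000)
    (p := fun m => !(Nat.beq (wt m) 4) || (!(fx yC m) || eqv m 0x29e000)) (by decide +kernel) (fun m hm hp a b => by
      rw [(S.v_z_iff hm).1 a, (cv m hm).1 b] at hp
      exact (S.mm.v_eq_iff hm e0).2 (by simpa using hp)) (S.mm.conj_mem_V hd hy) (isConj_conj_iff.2 hz) ((m y).2 hc)]
  group

/-- the part of a conjugate of `V` inside `M` -/
def BB (g : G) : Subgroup G := cj g S.V ⊓ 𝐍(S.V)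
/-- the intersection of `M` with a conjugate -/
def Dg (g : G) : Subgroup G := 𝐍(S.V) ⊓ cj g 𝐍(S.V)

theorem BB_sq (g : G) : ∀ x ∈ S.BB g, x * x = 1 := fun x hx => sq_cj S.V_sq g x hx.1
theorem Dg_inv (g : G) : S.Dg g⁻¹ = cj g⁻¹ (S.Dg g) := by rw [Dg, Dg, cj_inf, cj_inv_cj, inf_comm]
theorem V_inf_cj (g : G) : S.V ⊓ cj g 𝐍(S.V) = cj g (S.BB g⁻¹) := by rw [BB, cj_inf, cj_cj_inv]
theorem V_inf_Dg (g : G) : S.V ⊓ S.Dg g = cj g (S.BB g⁻¹) := by rw [Dg, ← inf_assoc, inf_eq_left.2 S.mm.V_le, S.V_inf_cj]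
theorem inter_inv (g : G) : S.V ⊓ cj g⁻¹ S.V = cj g⁻¹ (S.V ⊓ cj g S.V) := by rw [cj_inf, cj_inv_cj, inf_comm]
theorem BB_le_Dg (g : G) : S.BB g ≤ S.Dg g := fun x hx => ⟨hx.2, cj_mono g S.mm.V_le hx.1⟩
theorem Dg_norm_V (g : G) : S.Dg g ≤ 𝐍(cj g S.V) := by rw [← cj_normalizer]; exact inf_le_right
theorem Dg_norm_BB (g : G) : S.Dg g ≤ 𝐍(S.BB g) := norms_inf (S.Dg_norm_V g) (inf_le_left.trans le_normalizer)
theorem card_Dg (g : G) : Nat.card (S.Dg g) = Nat.card (S.BB g⁻¹) * Nat.card (pmap S.μ (S.Dg g)) := by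
  rw [S.mm.card_eq (A := S.Dg g) inf_le_left, S.V_inf_Dg, card_cj]
theorem mu_Dg (g : G) : pmap S.μ (S.Dg g) ≤ M24 := fun x hx => by
  obtain ⟨y, hy, rfl⟩ := (mem_pmap_of_le (X := S.Dg g) inf_le_left).1 hx
  exact S.mm.mu_mem hy.1
theorem card_Dg_dvd (g : G) : Nat.card (S.Dg g) ∣ Nat.card (S.BB g⁻¹) * 244823040 := by
  rw [S.card_Dg, ← card_M24]; exact Nat.mul_dvd_mul_left _ (card_dvd_of_le (S.mu_Dg g))

theorem card_BB_le (g : G) : Nat.card (S.BB g) ≤ Nat.card ↥(S.V ⊓ cj g S.V) * 64 := by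
  rw [S.mm.card_eq (A := S.BB g) inf_le_right]
  exact Nat.mul_le_mul (card_le_of_le (inf_le_inf_left _ inf_le_left))
    (card_le64 (S.mm.mu_le24 inf_le_right (S.BB_sq g)) (S.mm.mu_sq inf_le_right (S.BB_sq g)))

theorem card_Dg_le {g : G} {X : Subgroup G} (hV : S.V ≤ X) (hD : S.Dg g ≤ X) :
    Nat.card (S.Dg g) * 2048 ≤ Nat.card (S.BB g⁻¹) * Nat.card X := by
  have := card_mul_card_le hD hV
  rwa [S.mm.card_V, inf_comm, S.V_inf_Dg, card_cj] at this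

theorem eq_of_t' {y g k : G} (ht : IsConj S.t y) (hg : y ∈ cj g S.V) (hk : y ∈ cj k S.V) : cj g S.V = cj k S.V := by
  have := S.eq_of_t (g := g⁻¹ * k) (mem_cj.1 hg) (by simpa using isConj_conj_iff (g := g⁻¹).2 ht)
    (by rw [mem_cj] at hk ⊢; simpa [mul_assoc] using hk)
  rw [← cj_eq_of_mem_normalizer this, cj_cj, mul_inv_cancel_left, cj_eq_of_mem_normalizer this]

theorem inter_mul {m g : G} (hm : m ∈ 𝐍(S.V)) : S.V ⊓ cj (m * g) S.V = cj m (S.V ⊓ cj g S.V) := by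
  rw [cj_inf, cj_eq_of_mem_normalizer hm, cj_cj]

/-! ### the first two orbits -/

theorem sev_mem {x n : G} (hx : x ∈ 𝐍(S.Z)) (ox : x ^ 7 = 1) (hn : n ∈ 𝐍(S.Z)) : x ∈ cj n 𝐍(S.V) := by
  obtain ⟨f, -, -, -, h⟩ := S.exists_f
  have a := conj_H (inv_mem hn) hx
  rw [mem_cj, ← inv_inv n]
  simp only [inv_inv n⁻¹]
  exact h _ a (eq_one_of_coprime (q := 7) (by
    rw [← Prod.pow_fst, ← pel_pow _ a, conj_pow, ox]; simp) (by rw [card_S5]; norm_num))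

theorem inter1 {n : G} (hn : n ∈ 𝐍(S.Z)) (hM : n ∉ 𝐍(S.V)) : S.V ⊓ cj n S.V = S.Z := by
  have hZ : S.Z ≤ S.V ⊓ cj n S.V := le_inf S.Z_le_V ((cj_eq_of_mem_normalizer hn).ge.trans (cj_mono n S.Z_le_V))
  refine le_antisymm (fun x hx => ?_) hZ
  have nt : ∀ m, ev m = true → S.v m ∈ S.V ⊓ cj n S.V → anyL ZL (fun z => ev z && pZ (red z) &&
      Nat.beq (wt (Nat.xor m z)) 2) = true → False := fun m hm a b => by
    obtain ⟨z, -, c⟩ := anyL_iff.1 b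
    simp only [Bool.and_eq_true, beq_iff] at c
    have := mul_mem a (hZ ((S.memZ c.1.1).2 c.1.2))
    rw [← S.mm.v_xor hm c.1.1] at this
    exact hM (S.eq_of_t this.1 (S.v_t (ev_xor hm c.1.1) c.2) this.2)
  have k7 : ∀ a, (inM24 a && nZ a && ordIs a 7) = true → S.k a ∈ 𝐍(S.V ⊓ cj n S.V) := fun a ha => by
    simp only [Bool.and_eq_true] at ha
    have := S.sev_mem (S.k_normZ (by rw [ha.1.1, ha.1.2]; rfl))
      (S.k_ord (q := 7) (by norm_num) (by rw [ha.1.1, ha.2]; rfl) ▸ pow_orderOf_eq_one _) hn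
    rw [cj_normalizer] at this
    exact zpowers_le.1 (norms_inf (zpowers_le.2 (S.k_mem ha.1.1)) (zpowers_le.2 this))
  refine S.mm.forall_V (P := fun x => x ∈ S.V ⊓ cj n S.V → x ∈ S.Z) (p := fun m => pZ (red m) ||
    (anyL ZL (fun z => ev z && pZ (red z) && Nat.beq (wt (Nat.xor m z)) 2) ||
    anyL [(0x192b23a2e66167453d2b8582d70811, 0x736c832c3378a0a652493923528ee0),
      (0x188f9d055616c99290b81c6dbb831, 0xd48a824ad7decb931143cc6613a20)] fun a =>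
      (inM24 a.1 && nZ a.1 && ordIs a.1 7) && (inM24 a.2 && nZ a.2 && ordIs a.2 7) &&
      force (Nat.xor m (apM a.1 (apM a.2 m))) fun w => anyL ZL fun z => ev z && pZ (red z) && Nat.beq (wt (Nat.xor w z)) 2))
    (by decide +kernel) (fun m hm hp a => ?_) hx.1 hx
  rw [Bool.or_eq_true, Bool.or_eq_true] at hp
  rcases hp with b | b | b
  · exact (S.memZ hm).2 b
  · exact (nt m hm a b).elim
  obtain ⟨c, -, e⟩ := anyL_iff.1 b
  rw [Bool.and_eq_true, Bool.and_eq_true, force_eq] at e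
  have i1 : inM24 c.1 = true := by have := e.1.1; simp only [Bool.and_eq_true] at this; exact this.1.1
  have i2 : inM24 c.2 = true := by have := e.1.2; simp only [Bool.and_eq_true] at this; exact this.1.1
  have e2 : ev (apM c.2 m) = true := by rw [← code_perm' i2]; exact ev_apM _ hm
  have e1 : ev (apM c.1 (apM c.2 m)) = true := by rw [← code_perm' i1]; exact ev_apM _ e2
  have := mul_mem a (conj_mem_of_mem_normalizer (k7 _ e.1.1) (conj_mem_of_mem_normalizer (k7 _ e.1.2) a))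
  rw [S.mm.conj_v (perm_mem_M24 i2) hm, code_perm' i2, S.mm.conj_v (perm_mem_M24 i1) e2, code_perm' i1,
    ← S.mm.v_xor hm e1] at this
  exact (nt _ (ev_xor hm e1) this e.2).elim

theorem BB1 {n : G} (hn : n ∈ 𝐍(S.Z)) (hM : n ∉ 𝐍(S.V)) : S.BB n = cj n S.W :=
  (eq_of_le_of_card_le (le_inf (cj_mono n S.W_le_V) (((cj_mono n S.W_le_L).trans
    (cj_eq_of_mem_normalizer (S.L_normal.norm hn)).le).trans S.L_le_M)) (by
    have := S.card_BB_le n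
    rw [S.inter1 hn hM, S.card_Z] at this
    rw [card_cj, S.card_W]; exact this)).symm

theorem card_Dg1 {n : G} (hn : n ∈ 𝐍(S.Z)) (hM : n ∉ 𝐍(S.V)) : Nat.card (S.Dg n) ≤ 33030144 := by
  have := S.card_Dg_le (g := n) (X := 𝐍(S.Z) ⊓ 𝐍(S.V))
    (le_inf (S.V_cent_Z.trans (centralizer_le_normalizer _)) S.mm.V_le)
    (le_inf (S.inter1 hn hM ▸ norms_inf inf_le_left (S.Dg_norm_V n)) inf_le_left)
  rw [S.BB1 (inv_mem hn) (fun a => hM (inv_mem_iff.1 a)), card_cj, S.card_W, S.card_NM] at this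
  omega

theorem exists_h : ∃ h ∈ 𝐂[S.z], S.V ⊓ cj h S.V = zpowers S.z := by
  obtain ⟨y, m, τ, d⟩ := JH.exists_TD S.jh
  obtain ⟨k, hk, e⟩ := JH.exists_cj S.jh d S.V_le_H S.V_sq S.mm.card_V.ge
  obtain ⟨l, hl, e1, a⟩ := JH.lift S.jh _ (hr_mem (i := 6) (by norm_num))
  have w := JH.wm_act S.jh hl.1 a fun w hw => matOf_lt _ hw
  have key : JH.VV S.jh d ⊓ cj l (JH.VV S.jh d) ≤ zpowers S.z := fun x hx => by
    obtain ⟨x', hx', rfl⟩ := mem_cj'.1 hx.2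
    have xH := JH.V_le S.jh d hx'
    obtain ⟨a, ha, e2⟩ := memAH.1 (JH.V_pi S.jh d hx')
    have a0 : a = 0 := by
      by_contra h0
      have := JH.V_pi S.jh d hx.1
      rw [pel_conj _ hl.1 xH, e1, e2] at this
      have := (memSO.1 (conj_SO (e1 ▸ S.jh.pi_mem hl.1) ha h0 this)).2
      rw [← st_iff OH_lt, code_hr (by norm_num)] at this
      exact absurd this (by decide +kernel)
    rw [a0, ta_zero] at e2
    have xE := JH.mem_E_of_sq S.jh xH e2 (by rw [JH.V_sq S.jh d _ hx']; exact one_mem _)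
    have b1 := ((JH.memUH S.jh).1 (JH.memUH_of S.jh d hx' xE)).2
    have b2 := ((JH.memUH S.jh).1 (JH.memUH_of S.jh d hx.1 (JH.cjE S.jh hl.1 xE))).2
    rw [w _ xE, code_hr (by norm_num)] at b2
    have := allLt_iff.1 (show allLt (fun w => Nat.beq w 0 || !(Nat.blt (lin (matOf (nth HR 6)) w) 64)) 64 = true
      by decide +kernel) _ b1
    rw [blt_iff.2 b2] at this
    have := (JH.wv_eq_zero S.jh xE).1 (by simpa [beq_iff] using this)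
    rwa [S.jh.z_conj hl.1 this]
  have hH := conj_H (inv_mem hk) hl.1
  refine ⟨_, hH, le_antisymm ?_ (zpowers_le.2 ⟨S.z_mem_V, mem_cj_of_fix (JH.conj_z S.jh hH) S.z_mem_V⟩)⟩
  rw [cj_eq_iff.1 e, cj_cj, show k⁻¹ * l * k⁻¹⁻¹ * k⁻¹ = k⁻¹ * l by group, ← cj_cj, ← cj_inf]
  exact (cj_mono _ key).trans (by rw [cj_zpowers, JH.conj_z S.jh (inv_mem hk)])

theorem inter2_inv {h : G} (hh : h ∈ 𝐂[S.z]) (e : S.V ⊓ cj h S.V = zpowers S.z) : S.V ⊓ cj h⁻¹ S.V = zpowers S.z := by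
  rw [S.inter_inv, e, cj_zpowers, JH.conj_z S.jh (inv_mem hh)]

theorem BB2 {h : G} (hh : h ∈ 𝐂[S.z]) (e : S.V ⊓ cj h S.V = zpowers S.z) : S.BB h = cj h (S.V ⊓ S.E) :=
  (eq_of_le_of_card_le (le_inf (cj_mono h inf_le_left) (((cj_mono h inf_le_right).trans
    (cj_eq_of_mem_normalizer (S.jh.E_norm hh)).le).trans S.E_le_M)) (by
    have := S.card_BB_le h
    rw [e, Nat.card_zpowers, S.z_ord] at this
    rw [card_cj, S.card_U.1]; exact this)).symm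

theorem card_Dg2 {h : G} (hh : h ∈ 𝐂[S.z]) (e : S.V ⊓ cj h S.V = zpowers S.z) : Nat.card (S.Dg h) ≤ 17694720 := by
  have := S.card_Dg_le (g := h) (X := 𝐂[S.z] ⊓ 𝐍(S.V)) (le_inf S.V_le_H S.mm.V_le)
    (le_inf (fun x hx => by
      have := conj_mem_of_mem_normalizer (e ▸ norms_inf inf_le_left (S.Dg_norm_V h) hx) (mem_zpowers S.z)
      exact mem_cent1_iff.2 (mul_inv_eq_iff_eq_mul.1 ((S.jh.ez.mem_zp.1 this).resolve_left
        (S.z_ne_one (isConj_iff.2 ⟨x, rfl⟩))))) inf_le_left)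
  rw [S.BB2 (inv_mem hh) (S.inter2_inv hh e), card_cj, S.card_U.1, S.card_HM] at this
  omega

/-! ### classes of involutions in `M` -/

theorem exists_yB : ∃ yB ∈ 𝐍(S.V), IsConj S.z yB ∧ pel S.μ yB = perm r2B ∧ Nat.card ↥(𝐍(S.V) ⊓ 𝐂[yB]) = 491520 ∧
    (∀ y ∈ 𝐍(S.V), y ∉ S.V → IsConj S.z y → ¬ S.IsA y → CjIn 𝐍(S.V) y yB) ∧
    ∀ g, S.V ⊓ cj g S.V = ⊥ → ∀ y ∈ S.BB g, ¬ IsConj S.t y := by
  obtain ⟨n, hn, hM⟩ := SetLike.not_le_iff_exists.1 S.not_N_le_M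
  obtain ⟨h, hh, e⟩ := S.exists_h
  have t3 := S.conj_duad t3_card
  have w3 : S.v 3 ∈ S.W := S.memW' (by decide +kernel)
  have m1 : n * S.v 3 * n⁻¹ ∈ S.BB n := S.BB1 hn hM ▸ mem_cj'.2 ⟨_, w3, rfl⟩
  have m2 : h * S.v 3 * h⁻¹ ∈ S.BB h := S.BB2 hh e ▸ mem_cj'.2 ⟨_, ⟨S.W_le_V w3, S.t3_E⟩, rfl⟩
  have c1 := isConj_conj_iff (g := n).2 t3
  have c2 := isConj_conj_iff (g := h).2 t3
  have tr : ∀ {g k y y'}, y ∈ S.BB g → y' ∈ S.BB k → IsConj S.t y' → CjIn 𝐍(S.V) y y' →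
      Nat.card ↥(S.V ⊓ cj g S.V) = Nat.card ↥(S.V ⊓ cj k S.V) := fun {g k y y'} a b c ⟨m, hm, e⟩ => by
    rw [← S.eq_of_t' (g := m * g) c (by rw [← e, ← cj_cj]; exact mem_cj'.2 ⟨_, a.1, rfl⟩) b.1, S.inter_mul hm, card_cj]
  have k1 : Nat.card ↥(S.V ⊓ cj n S.V) = 8 := by rw [S.inter1 hn hM, S.card_Z]
  have k2 : Nat.card ↥(S.V ⊓ cj h S.V) = 2 := by rw [e, Nat.card_zpowers, S.z_ord]
  have v1 : n * S.v 3 * n⁻¹ ∉ S.V := fun a => hM (S.eq_of_t a c1 m1.1)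
  have v2 : h * S.v 3 * h⁻¹ ∉ S.V := fun a => by
    rw [cj_eq_of_mem_normalizer (S.eq_of_t a c2 m2.1), inf_idem, S.mm.card_V] at k2; omega
  have n12 : ¬ CjIn 𝐍(S.V) (n * S.v 3 * n⁻¹) (h * S.v 3 * h⁻¹) := fun a => by have := tr m1 m2 c2 a; omega
  have main : ∀ bz bo, IsConj S.z bz → (∀ y ∈ 𝐍(S.V), y ∉ S.V → y * y = 1 → ¬ S.IsA y → CjIn 𝐍(S.V) y bz ∨ CjIn 𝐍(S.V) y bo) →
      IsConj S.t bo ∧ (∀ y ∈ 𝐍(S.V), y ∉ S.V → IsConj S.z y → ¬ S.IsA y → CjIn 𝐍(S.V) y bz) ∧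
      ∀ g, S.V ⊓ cj g S.V = ⊥ → ∀ y ∈ S.BB g, ¬ IsConj S.t y := fun bz bo hz H => by
    have T : ∀ y ∈ 𝐍(S.V), y ∉ S.V → IsConj S.t y → CjIn 𝐍(S.V) y (S.e (uA, r2A)) ∨ CjIn 𝐍(S.V) y bo := fun y a b c => by
      by_cases hA : S.IsA y
      · exact Or.inl (S.clsAt a b c hA)
      · exact Or.inr ((H y a b (sq_of_conj S.t_ord c) hA).resolve_left fun d => S.not_zt hz (c.trans d.isConj))
    have T1 := T _ m1.2 v1 c1
    have T2 := T _ m2.2 v2 c2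
    have ho : IsConj S.t bo := by
      rcases T1 with a | a
      · exact c2.trans (T2.resolve_left fun b => n12 (a.trans b.symm)).isConj
      · exact c1.trans a.isConj
    refine ⟨ho, fun y a b c d => (H y a b (sq_of_conj S.z_ord c) d).resolve_right fun e => S.not_zt (c.trans e.isConj) ho,
      fun g hg y hy ht => ?_⟩
    have : CjIn 𝐍(S.V) y (n * S.v 3 * n⁻¹) ∨ CjIn 𝐍(S.V) y (h * S.v 3 * h⁻¹) := by
      rcases T y hy.2 (fun a => S.t_ne_one ht (mem_bot.1 (hg ▸ (⟨a, hy.1⟩ : y ∈ S.V ⊓ cj g S.V)))) ht with a | a <;>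
        rcases T1 with b | b <;> rcases T2 with c | c
      exacts [Or.inl (a.trans b.symm), Or.inl (a.trans b.symm), Or.inr (a.trans c.symm), absurd (b.trans c.symm) n12,
        absurd (b.trans c.symm) n12, Or.inr (a.trans c.symm), Or.inl (a.trans b.symm), Or.inl (a.trans b.symm)]
    rcases this with a | a
    · have := tr hy m1 c1 a; rw [hg, card_bot] at this; omega
    · have := tr hy m2 c2 a; rw [hg, card_bot] at this; omega
  have o0 : okE (0, r2B) = true := by decide +kernel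
  have o1 : okE (uB, r2B) = true := by decide +kernel
  rcases S.exists_zB with hz | hz
  · obtain ⟨-, a, b⟩ := main _ _ hz fun y => S.clsB
    exact ⟨_, S.mm.el_mem o0, hz, S.mm.mu_el o0, S.card_CB0, a, b⟩
  · obtain ⟨c, a, b⟩ := main _ _ hz fun y a b c d => (S.clsB a b c d).symm
    exact ⟨_, S.mm.el_mem o1, hz, S.mm.mu_el o1, S.card_CB1 fun d => S.not_zt hz (c.trans d), a, b⟩

/-! ### conjugates meeting `V` trivially -/

section far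
variable {g : G} (hg : S.V ⊓ cj g S.V = ⊥)
include hg

theorem far_inv : S.V ⊓ cj g⁻¹ S.V = ⊥ := by rw [S.inter_inv, hg, cj_bot]

theorem far_not_t : ∀ y ∈ S.BB g, ¬ IsConj S.t y := by
  obtain ⟨_, -, -, -, -, -, h⟩ := S.exists_yB
  exact h g hg

theorem far_pure {y : G} (hy : y ∈ S.BB g) (h1 : y ≠ 1) : IsConj S.z y :=
  (S.two' (orderOf_eq_prime (by rw [pow_two, S.BB_sq g y hy]) h1)).resolve_right (S.far_not_t hg y hy)

theorem far_notV {y : G} (hy : y ∈ S.BB g) (h1 : y ≠ 1) : y ∉ S.V := fun a =>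
  h1 (mem_bot.1 (hg ▸ (⟨a, hy.1⟩ : y ∈ S.V ⊓ cj g S.V)))

theorem far_sylow {q k : ℕ} (hq : q.Prime) {Q A : Subgroup G} (hQ : Q ≤ 𝐍(S.V)) (cQ : Nat.card Q = q ^ k)
    (hn : ¬ q ^ (k + 1) ∣ 501397585920) (hA : A ≤ S.V) (h1 : A ≠ ⊥) (hN : 𝐍(Q) ≤ 𝐍(A)) : ¬ q ^ k ∣ Nat.card (S.Dg g) := by
  intro hd
  have hs := sylowIn_of_card hq hQ cQ (S.mm.card_M ▸ hn)
  obtain ⟨P, -, hP, cP⟩ := exists_sylow_card (M := S.Dg g) (Q := ⊥) hq IsPGroup.of_bot bot_le hd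
    fun a => hn (a.trans (S.mm.card_M ▸ card_dvd_of_le inf_le_left))
  obtain ⟨m, hm, e1⟩ := hs.exists_cj (sylowIn_of_card hq (hP.trans inf_le_left) cP (S.mm.card_M ▸ hn))
  obtain ⟨m', hm', e2⟩ := hs.exists_cj (sylowIn_of_card hq (le_cj_iff.1 (hP.trans inf_le_right)) (by rw [card_cj, cP])
    (S.mm.card_M ▸ hn))
  have n1 : m⁻¹ * g * m' ∈ 𝐍(A) := hN (mem_normalizer_iff_cj.2 (by
    rw [← cj_cj, ← e2, cj_cj, mul_inv_cancel_right, e1, cj_inv_cj]))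
  have : cj m A ≤ S.V ⊓ cj g S.V := le_inf ((cj_mono m hA).trans (cj_eq_of_mem_normalizer hm).le) (by
    rw [← cj_eq_of_mem_normalizer n1, cj_cj, show m * (m⁻¹ * g * m') = g * m' by group, ← cj_cj]
    exact cj_mono g ((cj_mono m' hA).trans (cj_eq_of_mem_normalizer hm').le))
  rw [hg, le_bot_iff, cj_eq_bot] at this
  exact h1 this

theorem far7 : ¬ 7 ∣ Nat.card (S.Dg g) :=
  S.far_sylow hg (q := 7) (k := 1) (by norm_num) (zpowers_le.2 (S.k_mem sgC_in)) (by rw [Nat.card_zpowers, S.sg_ord]; rfl)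
    (by norm_num) S.Z_le_V (fun e => by have := S.card_Z; rw [e, card_bot] at this; omega) S.norm_sg

theorem far27 : ¬ 27 ∣ Nat.card (S.Dg g) :=
  S.far_sylow hg (q := 3) (k := 3) (by norm_num) S.R0_le_M S.R0_heis.1 (by norm_num) (zpowers_le.2 S.z_mem_V)
    (fun e => S.jh.ez.ne_one (mem_bot.1 (e ▸ mem_zpowers _))) (S.norm_R0.trans (cent1_le_norm _))

theorem far5 (h5 : S.Five) (hd : 5 ∣ Nat.card (S.Dg g)) : Nat.card (S.BB g) % 5 = 2 := by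
  obtain ⟨u, hu, ou⟩ := exists_orderOf_eq_prime (by norm_num) hd
  obtain ⟨c1, y, y1, y2, y3, y4⟩ := S.five_M hu.1 ou
  obtain ⟨-, x, x1, x2, x3, x4⟩ := S.five_M (u := g⁻¹ * u * g⁻¹⁻¹) (by simpa using mem_cj.1 hu.2) (by rw [CA.orderOf_conj', ou])
  have m : ∀ a, a ∈ 𝐂[g⁻¹ * u * g⁻¹⁻¹] ↔ g * a * g⁻¹ ∈ 𝐂[u] := fun a => by rw [← cj_centralizer_singleton, mem_cj_inv]
  have z' := isConj_conj_iff (g := g).2 x2
  have a := S.five_core h5 ou y2 z' y3 ((m x).1 x3) (Y0 := 𝐍(S.V) ⊓ 𝐂[u]) (fun a ha => ⟨ha.2, mem_cent1_iff.2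
    (mul_inv_eq_iff_eq_mul.1 (y4 _ (S.mm.conj_mem_V ha.1 y1) (isConj_conj_iff.2 y2) (conj_H ha.2 y3)))⟩) ⟨S.mm.V_le y1, y3⟩ c1
  have : Fact (Nat.Prime 5) := ⟨by norm_num⟩
  have h := card_modEq_card_inf_cent (isPGroup_zpowers ou) (zpowers_le.2 (S.Dg_norm_BB g hu))
  rw [cent_zpowers, show S.BB g ⊓ 𝐂[u] = zpowers (g * x * g⁻¹) from le_antisymm (fun b hb => by
    by_cases b1 : b = 1
    · rw [b1]; exact one_mem _
    obtain ⟨c, hc, rfl⟩ := mem_cj'.1 hb.1.1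
    rw [x4 c hc (isConj_conj_iff.1 (S.far_pure hg hb.1 b1)) ((m c).2 hb.2)]; exact mem_zpowers _)
    (zpowers_le.2 ⟨⟨mem_cj'.2 ⟨x, x1, rfl⟩, a.1⟩, a.2⟩), Nat.card_zpowers, S.z_ord' z'] at h
  exact h

theorem far_dvd24 (h : ∀ y ∈ S.BB g, y ≠ 1 → ¬ S.IsA y) : Nat.card (S.BB g) ∣ 24 := by
  rw [S.mm.card_eq (A := S.BB g) inf_le_right, show S.V ⊓ S.BB g = ⊥ from
    eq_bot_iff.2 ((inf_le_inf_left _ inf_le_left).trans hg.le), card_bot, one_mul]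
  refine card_dvd24 fun x hx x1 => ?_
  obtain ⟨y, hy, rfl⟩ := (mem_pmap_of_le (X := S.BB g) inf_le_right).1 hx
  exact not_not.1 (h y hy fun e => x1 (by rw [e, pel_one]))

theorem far_cent {y : G} (hy : y ∈ S.BB g) : cj g (S.BB g⁻¹) ≤ 𝐂[y] := fun b hb => by
  rw [← S.V_inf_cj, cj_normalizer] at hb
  have y1 : y ∈ cj g S.V := hy.1
  have b1 : b ∈ S.V := hb.1
  have : b * y * b⁻¹ * y⁻¹ ∈ S.V ⊓ cj g S.V := ⟨by
    rw [show b * y * b⁻¹ * y⁻¹ = b * (y * b⁻¹ * y⁻¹) by group]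
    exact mul_mem b1 (S.mm.conj_mem_V hy.2 (inv_mem b1)), (cj g S.V).mul_mem (conj_mem_of_mem_normalizer hb.2 y1) ((cj g S.V).inv_mem y1)⟩
  rw [hg, mem_bot, mul_inv_eq_one, mul_inv_eq_iff_eq_mul] at this
  exact mem_cent1_iff.2 this

omit hg in
theorem relIndex77 {y : G} (hy : y ∈ S.V) (hz : IsConj S.z y) : 𝐍(S.V).relIndex 𝐂[y] = 77 := by
  obtain ⟨m, hm, rfl⟩ := S.mm.exists_v hy
  obtain ⟨r, -, e, h1, -⟩ := S.wt_spec hm
  rw [beq_iff.1 ((S.v_z_iff hm).1 hz), ← card_fs] at h1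
  have := card_inf_mul_relIndex 𝐍(S.V) 𝐂[S.v m]
  rw [S.card_cent_z hz, ← e, inf_comm, S.mm.card_cent_tetrad h1] at this
  rw [show S.ν (fs m) = S.v r from e.symm]; omega

theorem typeA' {y : G} (hy : y ∈ S.BB g) (h1 : y ≠ 1) (hA : S.IsA y) :
    Nat.card ↥(S.Dg g ⊓ 𝐂[y]) = 49152 ∧ Nat.card (S.BB g⁻¹) = 16 := by
  have hz := S.far_pure hg hy h1
  have nV := S.far_notV hg hy h1
  obtain ⟨n, hn, e⟩ := S.clsAz hy.2 nV hz hA
  have c := S.card_CA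
  rw [← e, card_inf_cent_conj hn, ← card_inf_mul_relIndex (cj g 𝐍(S.V)), ← inf_assoc, inf_comm _ 𝐍(S.V)] at c
  have l77 : (cj g 𝐍(S.V)).relIndex (𝐍(S.V) ⊓ 𝐂[y]) ≤ 77 := by
    obtain ⟨x, hx, rfl⟩ := mem_cj'.1 hy.1
    rw [← S.relIndex77 hx (isConj_conj_iff.1 hz), ← relIndex_cj g 𝐍(S.V) 𝐂[x], cj_centralizer_singleton]
    exact relIndex_le_of_le_right inf_le_right (relIndex_ne_zero' _ _)
  have b16 : Nat.card (S.BB g⁻¹) ≤ 16 := card_cj g (S.BB g⁻¹) ▸ S.card_le16_A (S.V_inf_cj g ▸ inf_le_left) (fun x hx a => by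
    obtain ⟨x, hx', rfl⟩ := mem_cj'.1 hx
    exact S.far_not_t (S.far_inv hg) x hx' (isConj_conj_iff.1 a)) hy.2 nV (S.BB_sq g y hy) hA (S.far_cent hg hy)
  obtain ⟨k, hk⟩ := (piGrp_singleton_iff_card Nat.prime_two).1 (piGrp_of_sq (S.BB_sq g⁻¹))
  have d1 := card_dvd_of_le (inf_le_left (a := S.Dg g) (b := 𝐂[y]))
  have d7 : ¬ 7 ∣ Nat.card ↥(S.Dg g ⊓ 𝐂[y]) := fun a => S.far7 hg (a.trans d1)
  have d2 := d1.trans (S.card_Dg_dvd g)
  rw [hk] at b16 d2 ⊢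
  have k4 : k ≤ 4 := (Nat.pow_le_pow_iff_right (by norm_num : 1 < 2)).1 b16
  change Nat.card ↥(S.Dg g ⊓ 𝐂[y]) * _ = _ at c
  exact arithA c l77 d7 k4 d2

theorem typeA {y : G} (hy : y ∈ S.BB g) (h1 : y ≠ 1) (hA : S.IsA y) : Nat.card (S.BB g) = 16 := by
  have h := (S.typeA' hg hy h1 hA).2
  by_contra hn
  have := S.far_dvd24 (S.far_inv hg) fun x hx x1 a => hn (by simpa using (S.typeA' (S.far_inv hg) hx x1 a).2)
  rw [h] at this; norm_num at this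

theorem typeB (h5 : S.Five) (hB : ∀ y ∈ S.BB g, y ≠ 1 → ¬ S.IsA y) {y : G} (hy : y ∈ S.BB g) (h1 : y ≠ 1)
    (hd : 5 ∣ Nat.card (S.Dg g)) : Nat.card (S.Dg g) ≤ 15360 ∧ S.Dg g ≤ 𝐂[y] := by
  have two : ∀ {g}, Nat.card (S.BB g) % 5 = 2 → Nat.card (S.BB g) ∣ 24 → Nat.card (S.BB g) = 2 := fun {g} a b => by
    obtain ⟨k, hk⟩ := (piGrp_singleton_iff_card Nat.prime_two).1 (piGrp_of_sq (S.BB_sq g))
    rw [hk] at a b ⊢
    have : k < 5 := (Nat.pow_lt_pow_iff_right (by norm_num : 1 < 2)).1 ((Nat.le_of_dvd (by norm_num) b).trans_lt (by norm_num))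
    interval_cases k <;> omega
  have b1 := S.far_dvd24 hg hB
  have c1 := two (S.far5 hg h5 hd) b1
  have c2 := two (S.far5 (S.far_inv hg) h5 (by rwa [S.Dg_inv, card_cj])) (S.far_dvd24 (S.far_inv hg) fun x hx x1 a => by
    have := (S.typeA' (S.far_inv hg) hx x1 a).2
    rw [inv_inv] at this; omega)
  have oy := S.z_ord' (S.far_pure hg hy h1)
  have hc : S.Dg g ≤ 𝐂[y] := fun x hx => by
    have := conj_mem_of_mem_normalizer (S.Dg_norm_BB g hx) hy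
    rw [eq_zpowers_of_card hy oy c1, mem_zp2 (S.BB_sq g y hy)] at this
    exact mem_cent1_iff.2 (mul_inv_eq_iff_eq_mul.1 (this.resolve_left fun a => h1 (conj_eq_one_iff.1 a)))
  obtain ⟨k, hk, e⟩ := class_2B (S.mm.mu_mem hy.2) (S.mu_ord hy.2 (S.far_notV hg hy h1) (S.BB_sq g y hy))
    (not_not.1 (hB y hy h1))
  have : Nat.card (pmap S.μ (S.Dg g)) ≤ 7680 := by
    rw [← card_C2B, ← e, card_inf_cent_conj hk]
    exact card_le_of_le (le_inf (S.mu_Dg g) ((pmap_mono _ hc).trans (pmap_cent1 _ hy.2)))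
  exact ⟨by rw [S.card_Dg, c2]; omega, hc⟩

theorem typeR (h5 : S.Five) (hB : S.BB g = ⊥) {s : ℕ} (hs : Nat.card (S.Dg g) * s = 501397585920) (hle : s ≤ 136980480) :
    ∃ m ∈ [506, 384, 253, 207, 176], s = 215040 * m := by
  have c := S.card_Dg g⁻¹
  rw [inv_inv, hB, card_bot, one_mul, S.Dg_inv, card_cj, ← S.Dg_inv] at c
  have n5 : ¬ 5 ∣ Nat.card (S.Dg g) := fun a => by have := S.far5 hg h5 a; rw [hB, card_bot] at this; omega
  have n7 := S.far7 hg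
  have n27 := S.far27 hg
  have d := card_dvd_of_le (S.mu_Dg g⁻¹)
  rw [card_M24, ← c] at d
  have d2 : Nat.card (S.Dg g) ∣ 2331648 := by
    have a : Nat.card (S.Dg g) ∣ 6994944 := Nat.Coprime.dvd_of_dvd_mul_right (n := 35)
      (show Nat.Coprime _ (5 * 7) from Nat.Coprime.mul_right ((Nat.Prime.coprime_iff_not_dvd (by norm_num)).2 n5).symm
        ((Nat.Prime.coprime_iff_not_dvd (by norm_num)).2 n7).symm) d
    obtain ⟨c, hc⟩ := a
    have : 3 ∣ c := by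
      by_contra h3
      exact n27 (Nat.Coprime.dvd_of_dvd_mul_right (Nat.Coprime.pow_left 3 ((Nat.Prime.coprime_iff_not_dvd Nat.prime_three).2 h3))
        (hc ▸ by norm_num))
    obtain ⟨c, rfl⟩ := this
    exact ⟨c, Nat.eq_of_mul_eq_mul_left (show 0 < 3 by norm_num) (by rw [Nat.mul_left_comm, ← hc])⟩
  obtain ⟨m, hm⟩ := d2
  have p : 0 < Nat.card (S.Dg g) := Nat.card_pos
  have e : s = 215040 * m := Nat.eq_of_mul_eq_mul_left p (by rw [hs, Nat.mul_left_comm, ← hm])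
  exact ⟨m, m24_orders (S.mu_Dg g⁻¹) (c ▸ n5) (c ▸ n7) (c ▸ n27) (c ▸ hm.symm) (by omega), e⟩

end far

end St

end CA.J4
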