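import Cfsg.Agent.Lib.J4.Ifc2
import Cfsg.Agent.Lib.J4.Rk2

/-!
The 5-local structure of a group of type `J4`.
-/

set_option autoImplicit false
set_option linter.unusedSectionVars false
set_option linter.unusedVariables false

namespace CA.J4
open Cfsg CA.Gol CA.Ex2 CA.XS Subgroup
open scoped Pointwise commutatorElement

/-- number of fixed codes of type `z` -/
def fixZ (A : ℕ) : ℕ := force A fun A => countLt (fun n => Nat.beq (lin A n % 4096) (n % 4096) &&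
  (Nat.beq n 4096 || Nat.beq (t2 LE (n % 4096)) 1)) 8192

theorem fixZ_chk : allLt (fun j => Nat.beq j 0 || force (powC yC j) fun g => allLt (fun i =>
    force (mI g i) fun A => !(Nat.beq (itr A 5 1 % 4096) 1) || Nat.beq (fixZ A) 7) 3) 5 = true := by decide +kernel

theorem S5_cent5 : ∀ b : S5, b ^ 5 = 1 → b ≠ 1 → ∀ a : S5, a * b = b * a → ∃ i < 5, a = b ^ i := by decide +kernel

variable {G : Type*} [Group G] [Finite G]

theorem conj_cent_iff {g a b : G} : g * a * g⁻¹ ∈ 𝐂[g * b * g⁻¹] ↔ a ∈ 𝐂[b] := by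
  rw [← cj_centralizer_singleton, mem_cj]; simp [mul_assoc]

theorem card_cent2_conj (g a b : G) : Nat.card ↥(𝐂[g * a * g⁻¹] ⊓ 𝐂[g * b * g⁻¹]) = Nat.card ↥(𝐂[a] ⊓ 𝐂[b]) := by
  rw [← cj_centralizer_singleton, ← cj_centralizer_singleton, ← cj_inf, card_cj]

theorem mem_norm_of_conj {A : Subgroup G} {g : G} (h : ∀ a ∈ A, g * a * g⁻¹ ∈ A) : g ∈ 𝐍(A) :=
  mem_normalizer_of_cj_le (cj_le_iff'.2 h)

theorem elemAb_cj5 {q : ℕ} {A : Subgroup G} (g : G) (h : IsElementaryAbelian q A) : IsElementaryAbelian q (cj g A) :=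
  ⟨(abelian_cj g).2 h.1, fun a ha => by
    obtain ⟨b, hb, rfl⟩ := mem_cj'.1 ha
    rw [conj_pow, h.2 b hb]; simp⟩

theorem dprod_mem_right {A B M : Subgroup G} (h : DProd A B M) {x : G} (hx : x ∈ M)
    (cop : (Nat.card A).Coprime (orderOf x)) : x ∈ B := by
  obtain ⟨a, ha, b, hb, rfl⟩ := h.exists_mul hx
  have c : Commute a b := (mem_centralizer_iff.1 (h.cent hb) a ha)
  have e := pow_orderOf_eq_one (a * b)
  rw [c.mul_pow, mul_eq_one_iff_eq_inv] at e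
  have : a ^ orderOf (a * b) ∈ A ⊓ B := mem_inf.2 ⟨pow_mem ha _, e ▸ B.inv_mem (pow_mem hb _)⟩
  rw [h.inf_eq, mem_bot] at this
  rw [orderOf_eq_one_iff.1 (Nat.eq_one_of_dvd_coprimes cop (orderOf_dvd_card_of_mem ha) (orderOf_dvd_of_pow_eq_one this)),
    one_mul]
  exact hb

theorem exists_psi8 {Z : Subgroup G} (el : IsElementaryAbelian 2 Z) (cZ : Nat.card Z = 8) :
    ∃ ψ : ↥𝐍(Z) →* L3, pker ψ = 𝐂(Z) := by
  obtain ⟨e1⟩ := nonempty_mulAut_equiv_GL (n := 3) el cZ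
  obtain ⟨e2⟩ := nonempty_GL3
  refine ⟨(e1.trans e2).toMonoidHom.comp Z.normalizerMonoidHom, ?_⟩
  rw [← pker_normalizerMonoidHom]
  ext x
  simp only [mem_pker]
  refine and_congr_right fun hx => ?_
  rw [pel_of_mem _ hx, pel_of_mem _ hx]; simp

theorem card_le_sq_cent {Z : Subgroup G} (el : IsElementaryAbelian 2 Z) {i : G} (hi : i ∈ 𝐍(Z)) (h2 : i * i = 1) :
    Nat.card Z ≤ Nat.card ↥(Z ⊓ 𝐂[i]) * Nat.card ↥(Z ⊓ 𝐂[i]) := by
  rw [← card_cent1_mul_card_comm el.1 hi]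
  refine Nat.mul_le_mul_left _ (card_le_of_le fun x hx => ?_)
  obtain ⟨n, hn, rfl⟩ := (mem_comm_zpowers_iff el.1 hi).1 hx
  have m := conj_mem_of_mem_normalizer hi hn
  have n2 : n⁻¹ = n := inv_eq_of_mul_eq_one_right (by rw [← pow_two, el.2 n hn])
  have i2 : i⁻¹ = i := inv_eq_of_mul_eq_one_right h2
  have c : i * n * i⁻¹ * n = n * (i * n * i⁻¹) := mem_centralizer_iff.1 (abelian_iff.1 el.1 hn) _ m
  refine mem_inf.2 ⟨by rw [commutatorElement_def]; exact mul_mem m (inv_mem hn), mem_cent1_iff.2 ?_⟩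
  rw [commutatorElement_def, n2, i2] at *
  calc i * n * i * n * i = i * (n * (i * n * i)) := by group
    _ = _ := by rw [← c]

namespace St
variable (S : St G)

theorem not25 (S : St G) : ¬ 25 ∣ Nat.card G := by rw [S.card_G]; norm_num

theorem zE_lab {n : ℕ} (hn : n < 8192) (h : IsConj S.z (S.c n)) :
    (Nat.beq n 4096 || Nat.beq (t2 LE (n % 4096)) 1) = true := by
  have r := S.jh.rp_E (S.jh.c_mem hn)
  rw [JH.wv_c S.jh hn] at r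
  have := allLt_iff.1 LE_chk (n % 4096) (Nat.mod_lt _ (by norm_num))
  rw [force_eq] at this
  simp only [Bool.or_eq_true, Bool.and_eq_true, beq_iff] at this ⊢
  rcases this with (⟨-, a | a⟩ | a) | a
  · refine Or.inl (by_contra fun b => S.z_ne_one h ?_)
    rw [show n = 0 by omega, S.jh.c_zero]
  · have := (JH.sq_iff S.jh (S.jh.c_mem hn)).1 (sq_of_conj S.z_ord h)
    rw [JH.wv_c S.jh hn, a] at this; omega
  · exact Or.inr a.1
  · obtain ⟨l, -, r'⟩ := S.jh.mv_wk _ _ r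
    rw [a.2] at r'
    have := S.ty_E.2.2.2
    rw [mu2, S.jh.ps_eq r', ind_pos (isConj_conj_iff.2 h)] at this; omega

theorem zE_of_five {x w : G} (hx : x ∈ 𝐂[S.z]) (ox : orderOf x = 5) (hw : w ∈ 𝐂[S.z] ⊓ 𝐂[x]) (hz : IsConj S.z w) :
    w ∈ S.E := by
  have w2 := sq_of_conj S.z_ord hz
  refine JH.mem_E_of_sq S.jh hw.1 (by_contra fun a => ?_) (w2 ▸ one_mem _)
  have o := S.jh.orderOf_pi hw.1 Nat.prime_two (S.z_ord' hz) a
  have o5 := S.jh.orderOf_pi hx (by norm_num) ox (S.jh.pi_ne_one hx (by norm_num) ox le_rfl)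
  have d5 : 5 ∣ Nat.card ↥(D2 ⊓ 𝐂[pel S.π w]) := o5 ▸ orderOf_dvd_card_of_mem (show _ ∈ D2 ⊓ 𝐂[pel S.π w] from
    ⟨S.jh.pi_mem hx, mem_cent1_iff.2 (by rw [← pel_mul _ hx hw.1, ← pel_mul _ hw.1 hx, mem_cent1_iff.1 hw.2])⟩)
  by_cases b : pel S.π w ∈ Spor.M22
  · obtain ⟨d, hd, e⟩ := cls_i2 b o
    rw [← card_inf_cent_conj (M22_le_D2 hd), e, card_CD_i2] at d5; norm_num at d5
  · obtain ⟨d, hd, e | e⟩ := cls_out (S.jh.pi_mem hw.1) b o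
    · rw [← card_inf_cent_conj (M22_le_D2 hd), e, card_CD_j2] at d5; norm_num at d5
    · exact S.not_zt hz (S.t_of_s0 hw.1 w2 ⟨d⁻¹, inv_mem (M22_le_D2 hd), by rw [show perm sC = s0 from rfl, ← e]; group⟩)

theorem zc5 {x : G} (hx : x ∈ 𝐂[S.z]) (ox : orderOf x = 5) : zc S.z (𝐂[S.z] ⊓ 𝐂[x]) ≤ 7 := by
  have o := S.jh.orderOf_pi hx (by norm_num) ox (S.jh.pi_ne_one hx (by norm_num) ox le_rfl)
  obtain ⟨d, hd, j, j0, hj, e⟩ := conj_pow_of_sylow (by norm_num) y0_mem y0_ord (by rw [card_M22]; norm_num)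
    (mem22_of_odd (S.jh.pi_mem hx) (by rw [o]; decide)) o
  obtain ⟨l, hl, e1⟩ := S.jh.exists_conj_pi hx hd e
  have hx' := conj_H hl.1 hx
  obtain ⟨i, hi, a⟩ := S.jh.exists_aq hx' (e1 ▸ pow_mem y0_mem j)
  have ho' : orderOf (l * x * l⁻¹) = 5 := by rw [CA.orderOf_conj', ox]
  rw [← zc_cj S.z l, cj_inf, cj_eq_of_mem hl.1, cj_centralizer_singleton]
  have h1 := S.jh.itr_eq hx' a (k := 5) (by rw [← ho', pow_orderOf_eq_one]; exact one_mem _) (n := 1) (by norm_num)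
  have := allLt_iff.1 fixZ_chk j hj
  rw [beq_false_iff.2 j0.ne', Bool.false_or, force_eq] at this
  have := allLt_iff.1 this i hi
  rw [e1, code_pow, cy] at h1 a
  rw [force_eq, h1] at this
  have h2 : fixZ (mI (powC yC j) i) = 7 := by simpa [beq_iff] using this
  rw [← h2, fixZ, force_eq]
  have h3 := S.jh.fam.ncard (P := fun w => ∃ n < 8192, S.c n = w ∧ (Nat.beq (lin (mI (powC yC j) i) n % 4096) (n % 4096) &&
    (Nat.beq n 4096 || Nat.beq (t2 LE (n % 4096)) 1)) = true) (p := fun n => Nat.beq (lin (mI (powC yC j) i) n % 4096) (n % 4096) &&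
    (Nat.beq n 4096 || Nat.beq (t2 LE (n % 4096)) 1)) fun n hn _ => ⟨fun ⟨m, hm, b, c⟩ => by
      rwa [← S.jh.fam.inj m hm n hn rfl rfl b], fun b => ⟨n, hn, rfl, b⟩⟩
  simp only [Bool.true_and] at h3
  rw [← h3]
  refine Set.ncard_le_ncard fun w hw => ?_
  have b := S.zE_of_five hx' ho' hw.1 hw.2
  obtain ⟨n, hn, -, rfl⟩ := S.jh.fam.surj w b
  exact ⟨b, n, hn, rfl, by
    rw [S.zE_lab hn hw.2, beq_iff.2 ((S.jh.c_comm_iff hx' (by rw [ho']; decide) a hn).1 hw.1.2)]; rfl⟩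

theorem zc5' {x w : G} (hw : IsConj S.z w) (hx : x ∈ 𝐂[w]) (ox : orderOf x = 5) : zc S.z (𝐂[w] ⊓ 𝐂[x]) ≤ 7 := by
  obtain ⟨g, rfl⟩ := isConj_iff.1 hw
  obtain ⟨y, rfl⟩ : ∃ y, x = g * y * g⁻¹ := ⟨g⁻¹ * x * g, by group⟩
  rw [← cj_centralizer_singleton, ← cj_centralizer_singleton, ← cj_inf, zc_cj]
  exact S.zc5 (conj_cent_iff.1 hx) (by rwa [CA.orderOf_conj'] at ox)

theorem y_ord : orderOf (S.k yC) = 5 := S.k_ord (by norm_num) (by decide +kernel)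
theorem y_Ct : S.k yC ∈ 𝐂[S.t] := S.k_Ct (M22_le_D2 y0_mem)

theorem card_X5t {u i : G} (ou : orderOf u = 5) (hi : IsConj S.t i) (hu : i ∈ 𝐂[u]) : Nat.card ↥(𝐂[u] ⊓ 𝐂[i]) = 80 := by
  obtain ⟨g, rfl⟩ := isConj_iff.1 hi
  obtain ⟨y, rfl⟩ : ∃ y, u = g * y * g⁻¹ := ⟨g⁻¹ * u * g, by group⟩
  rw [CA.orderOf_conj'] at ou
  obtain ⟨d, hd, j, j0, hj, e⟩ := conj_pow_of_sylow (by norm_num) S.y_Ct S.y_ord (by rw [S.card_Ct]; norm_num)
    (mem_cent1_comm.1 (conj_cent_iff.1 hu)) ou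
  rw [card_cent2_conj, inf_comm, ← card_inf_cent_conj hd, e, ← cent_zpowers (S.k yC ^ j),
    cent_pow_eq (by norm_num) S.y_ord j0 hj, cent_zpowers]
  have := S.mm.card_cent_kv (k := 0x2b0f28013573e8a5a2c698da188ae4) (ki := 0xa60d3d07373cb65b22aaa2e030892) (n := 10)
    yC_24 DD_ev (by decide +kernel)
  rwa [show countLt _ 4096 = 8 by decide +kernel, inf_right_comm, inf_eq_right.2 S.cent_t] at this

theorem five_t {u i : G} (ou : orderOf u = 5) (hi : IsConj S.t i) (hu : i ∈ 𝐂[u]) :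
    ∃ y, IsConj S.z y ∧ y ∈ 𝐂[u] ∧ 𝐂[u] ⊓ 𝐂[i] ≤ 𝐂[y] := by
  obtain ⟨g, rfl⟩ := isConj_iff.1 hi
  obtain ⟨x, rfl⟩ : ∃ y, u = g * y * g⁻¹ := ⟨g⁻¹ * u * g, by group⟩
  rw [CA.orderOf_conj'] at ou
  obtain ⟨-, y, hy, yz, yc, H⟩ := S.five_M (S.cent_t (mem_cent1_comm.1 (conj_cent_iff.1 hu))) ou
  refine ⟨_, isConj_conj_iff.2 yz, conj_cent_iff.2 yc, fun a ha => ?_⟩
  obtain ⟨b, rfl⟩ : ∃ b, a = g * b * g⁻¹ := ⟨g⁻¹ * a * g, by group⟩
  have b1 := conj_cent_iff.1 ha.1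
  refine conj_cent_iff.2 (mem_cent1_iff.2 (mul_inv_eq_iff_eq_mul.1 (H _ (S.mm.conj_mem_V (S.cent_t (conj_cent_iff.1 ha.2)) hy)
    (isConj_conj_iff.2 yz) (conj_H b1 yc))))

theorem exists_t5 {u : G} (hu : u ∈ 𝐂[S.z]) (ou : orderOf u = 5) : ∃ i ∈ 𝐂[u] ⊓ 𝐂[S.z], IsConj S.t i := by
  obtain ⟨y, yz, yc, H⟩ := S.five_t S.y_ord (IsConj.refl _) (mem_cent1_comm.1 S.y_Ct)
  obtain ⟨g, e⟩ := isConj_iff.1 yz.symm
  have h1 : g * S.k yC * g⁻¹ ∈ 𝐂[S.z] := e ▸ conj_cent_iff.2 (mem_cent1_comm.1 yc)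
  obtain ⟨d, hd, j, j0, hj, e1⟩ := conj_pow_of_sylow (by norm_num) hu ou (by rw [S.jh.card_H]; norm_num) h1
    (by rw [CA.orderOf_conj', S.y_ord])
  refine ⟨d * (g * S.t * g⁻¹) * d⁻¹, ⟨?_, conj_H hd (e ▸ conj_cent_iff.2 (H ⟨mem_cent1_comm.1 S.y_Ct, self_mem_cent1 _⟩))⟩,
    isConj_conj_iff.2 (isConj_conj_iff.2 (IsConj.refl _))⟩
  rw [← cent_zpowers, ← cent_pow_eq (by norm_num) ou j0 hj, cent_zpowers, ← e1]
  exact conj_cent_iff.2 (conj_cent_iff.2 (mem_cent1_comm.1 S.y_Ct))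

/-- the data of the 5-local structure -/
structure F5 (u : G) (Z : Subgroup G) : Prop where
  el : IsElementaryAbelian 2 Z
  cZ : Nat.card Z = 8
  zt : ∀ w ∈ 𝐂[u], IsConj S.z w ↔ w ∈ Z ∧ w ≠ 1
  le : Z ≤ 𝐂[u]
  nm : 𝐂[u] ≤ 𝐍(Z)
  cz : 𝐂[u] ⊓ 𝐂(Z) ≤ Z ⊔ zpowers u
  cX : Nat.card 𝐂[u] = 6720
  cN : Nat.card 𝐍(zpowers u) = 26880

theorem exists_F5' : ∃ u, orderOf u = 5 ∧ S.F5 u S.Z := by
  obtain ⟨u, hu, ou, h⟩ := S.exists_five
  have ZC : S.Z ≤ 𝐂[u] := cent_zpowers u ▸ cents_symm (zpowers_le.2 hu)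
  have ZZ : ∀ w ∈ S.Z, S.Z ≤ 𝐂[w] := fun w hw a ha => cent_le_cent1 hw (S.V_cent_Z (S.Z_le_V ha))
  have k1 : ∀ w ∈ S.Z, w ≠ 1 → ∀ y ∈ 𝐂[w] ⊓ 𝐂[u], IsConj S.z y → y ∈ S.Z := fun w hw w1 y hy yz => by
    have := Set.eq_of_subset_of_ncard_le (s := {y | y ∈ S.Z ∧ IsConj S.z y}) (t := {y | y ∈ 𝐂[w] ⊓ 𝐂[u] ∧ IsConj S.z y})
      (fun a ha => ⟨⟨ZZ w hw ha.1, ZC ha.1⟩, ha.2⟩)
      ((S.zc5' (S.Z_conj hw w1) (mem_cent1_comm.1 (ZC hw)) ou).trans S.zc_Z.ge)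
    exact (this.ge ⟨hy, yz⟩).1
  have k2 : ∀ w ∈ S.Z, w ≠ 1 → 𝐂[u] ⊓ 𝐂[w] ≤ 𝐂[u] ⊓ 𝐍(S.Z) := fun w hw w1 g hg => ⟨hg.1, mem_norm_of_conj fun a ha => by
    by_cases a1 : a = 1
    · simp [a1]
    · exact k1 w hw w1 _ ⟨conj_H hg.2 (ZZ w hw ha), conj_H hg.1 (ZC ha)⟩ (isConj_conj_iff.2 (S.Z_conj ha a1))⟩
  have : Fact (Nat.Prime 2) := ⟨Nat.prime_two⟩
  have k3 : ∀ i ∈ 𝐍(S.Z), orderOf i = 2 → ∃ w ∈ S.Z, w ≠ 1 ∧ i ∈ 𝐂[w] := fun i hi oi => by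
    have := inf_cent_ne_bot_of_dvd (isPGroup_zpowers oi) (zpowers_le.2 hi) (by rw [S.card_Z]; norm_num)
    obtain ⟨⟨w, hw⟩, w1⟩ := ne_bot_iff_exists_ne_one.1 this
    rw [cent_zpowers] at hw
    exact ⟨w, hw.1, fun a => w1 (Subtype.ext a), mem_cent1_comm.1 hw.2⟩
  have k4 : ∀ i ∈ 𝐂[u] ⊓ 𝐍(S.Z), IsConj S.z i → i ∈ S.Z := fun i hi iz => by
    obtain ⟨w, hw, w1, c⟩ := k3 i hi.2 (S.z_ord' iz)
    exact k1 w hw w1 i ⟨c, hi.1⟩ iz
  have k5 : ∀ i ∈ 𝐂[u] ⊓ 𝐍(S.Z), orderOf i = 2 → 𝐂[u] ⊓ 𝐂[i] ≤ 𝐂[u] ⊓ 𝐍(S.Z) := fun i hi oi => by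
    rcases S.two' oi with a | a
    · exact k2 i (k4 i hi a) (S.z_ne_one a)
    · obtain ⟨y, yz, yc, H⟩ := S.five_t ou a hi.1
      obtain ⟨w, hw, w1, c⟩ := k3 i hi.2 oi
      exact (le_inf inf_le_left H).trans (k2 y (k1 w hw w1 y ⟨mem_cent1_comm.1 (H ⟨ZC hw, mem_cent1_comm.1 c⟩), yc⟩ yz)
        (S.z_ne_one yz))
  obtain ⟨i, hi, it⟩ := S.exists_t5 (cent_le_cent1 S.z_Z hu) ou
  have nm : 𝐂[u] ≤ 𝐍(S.Z) := fun g hg => mem_norm_of_conj fun a ha => by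
    by_cases a1 : a = 1
    · simp [a1]
    · have az := S.Z_conj ha a1
      exact k4 _ (conj_mem_of_two_classes inf_le_left k5 (k2 _ S.z_Z (S.z_ne_one (IsConj.refl _)) hi)
        ⟨ZC ha, le_normalizer ha⟩ ((orderOf_eq_of_isConj it).symm.trans S.t_ord) (S.z_ord' az)
        (fun b => S.not_zt (az.trans b.symm) it) g hg) (isConj_conj_iff.2 az)
  have c1 : Nat.card 𝐂[u] ≤ 6720 := by
    rw [← card_class_mul 𝐂[u] S.z, inf_comm, S.jh.card_CH5 (cent_le_cent1 S.z_Z hu) ou]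
    exact Nat.mul_le_mul_left 960 ((Set.ncard_le_ncard (t := {y | y ∈ S.Z ∧ IsConj S.z y}) (by
      rintro _ ⟨g, hg, rfl⟩
      exact ⟨conj_mem_of_mem_normalizer (nm hg) S.z_Z, isConj_conj_iff.2 (IsConj.refl _)⟩)).trans S.zc_Z.le)
  have c2 : {y | y ∈ zpowers u ∧ IsConj u y}.ncard ≤ 4 := by
    have : ((zpowers u : Set G) \ {1}).ncard = 4 := by
      rw [Set.ncard_diff_singleton_of_mem (one_mem _), ← Nat.card_coe_set_eq, SetLike.coe_sort_coe, Nat.card_zpowers, ou]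
    refine this ▸ Set.ncard_le_ncard fun y hy => ⟨hy.1, fun a => ?_⟩
    have := orderOf_eq_of_isConj hy.2
    rw [ou, show y = 1 from a, orderOf_one] at this; omega
  have c3 := h.trans (card_le_of_le inf_le_right)
  have c4 := card_norm_zpowers u
  have c5 : Nat.card 𝐂[u] = 6720 := by nlinarith
  have c6 : Nat.card 𝐍(zpowers u) = 26880 := by nlinarith
  refine ⟨u, ou, S.Z_elem, S.card_Z, fun w hw => ⟨fun a => ⟨k4 w ⟨hw, nm hw⟩ a, S.z_ne_one a⟩, fun a => S.Z_conj a.1 a.2⟩,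
    ZC, nm, fun x hx => ?_, c5, c6⟩
  have uN := centralizer_le_normalizer _ hu
  have hL : S.Z = S.L ⊓ 𝐍(zpowers u) := eq_of_le_of_card_le (le_inf S.Z_le_L (ZC.trans (cent1_le_norm u))) (by
    have h2 := (S.card_norm_N (by norm_num) (by norm_num) uN ou fun Q => norm5_ge).trans (card_le_of_le inf_le_right)
    rw [S.card_Z]; omega)
  obtain ⟨f, f1, -, f3, -⟩ := S.exists_f
  have u5 : pel f u ^ 5 = 1 := by rw [← pel_pow _ uN, show u ^ 5 = 1 from ou ▸ pow_orderOf_eq_one u, pel_one]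
  have u1 : (pel f u).1 ≠ 1 := fun a => by
    have : u ∈ S.L := f1 ▸ mem_pker.2 ⟨uN, Prod.ext a ((f3 _ uN).2 hu)⟩
    have := orderOf_dvd_card_of_mem this
    rw [ou, S.card_L] at this; norm_num at this
  obtain ⟨j, -, e⟩ := S5_cent5 _ (congrArg Prod.fst u5) u1 (pel f x).1 (by
    rw [← Prod.fst_mul, ← Prod.fst_mul, ← pel_mul _ (nm hx.1) uN, ← pel_mul _ uN (nm hx.1), mem_cent1_iff.1 hx.1])
  have uj := inv_mem (pow_mem uN j)
  have : x * (u ^ j)⁻¹ ∈ S.Z := hL ▸ ⟨f1 ▸ mem_pker.2 ⟨mul_mem (nm hx.1) uj, Prod.ext (by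
      rw [pel_mul _ (nm hx.1) uj, pel_inv _ (pow_mem uN j), pel_pow _ uN, Prod.fst_mul, e]; simp)
      ((f3 _ (mul_mem (nm hx.1) uj)).2 (mul_mem hx.2 (inv_mem (pow_mem hu j))))⟩,
    cent1_le_norm u (mul_mem hx.1 (inv_mem (pow_mem (self_mem_cent1 u) j)))⟩
  simpa using mul_mem (mem_sup_left this) (mem_sup_right (pow_mem (mem_zpowers u) j) : u ^ j ∈ S.Z ⊔ zpowers u)

theorem exists_F5 {u : G} (ou : orderOf u = 5) : ∃ Z, S.F5 u Z := by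
  obtain ⟨u0, o0, h⟩ := S.exists_F5'
  obtain ⟨g, e⟩ := exists_cj_prime (by norm_num) o0 S.not25 (Q := zpowers u) (by rw [Nat.card_zpowers, ou])
  have c : 𝐂[u] = cj g 𝐂[u0] := by rw [← cent_zpowers, e, ← cj_centralizer, cent_zpowers]
  refine ⟨cj g S.Z, elemAb_cj5 g h.el, by rw [card_cj, h.cZ], fun w hw => ?_, c ▸ cj_mono g h.le, ?_, ?_,
    by rw [c, card_cj, h.cX], by rw [e, ← cj_normalizer, card_cj, h.cN]⟩
  · rw [c] at hw
    obtain ⟨a, ha, rfl⟩ := mem_cj'.1 hw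
    rw [isConj_conj_iff, h.zt a ha, mem_cj, Ne, Ne, conj_eq_one_iff]; simp [mul_assoc]
  · rw [c, ← cj_normalizer]; exact cj_mono g h.nm
  · rw [c, e, ← cj_centralizer, ← cj_inf, ← cj_sup]; exact cj_mono g h.cz

theorem five : S.Five := fun u _ ou => ⟨S.not25, (S.exists_F5 ou).choose_spec.cN⟩
theorem c5 : S.C5 := fun u ou => (S.exists_F5 ou).choose_spec.cX

variable {S}

theorem F5.exists_J {u : G} {Z : Subgroup G} (h : S.F5 u Z) (ou : orderOf u = 5) : ∃ J, DProd (zpowers u) J 𝐂[u] ∧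
    Z ≤ J ∧ Nat.card J = 1344 ∧ ∃ ψ : J →* L3, pker ψ = Z ∧ Function.Surjective ψ := by
  obtain ⟨J, d⟩ := exists_dprod (by norm_num) ou (by rw [h.cX]; norm_num)
  have ZJ : Z ≤ J := fun a ha => dprod_mem_right d (h.le ha) (by
    rw [Nat.card_zpowers, ou]
    exact Nat.Coprime.coprime_dvd_right (orderOf_dvd_of_pow_eq_one (h.el.2 a ha)) (by norm_num))
  have cJ : Nat.card J = 1344 := by have := d.card_eq; rw [Nat.card_zpowers, ou, h.cX] at this; omega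
  obtain ⟨ψ, hψ⟩ := exists_psi8 h.el h.cZ
  have JN := d.right_le.trans h.nm
  have k : pker ψ ⊓ J = Z := le_antisymm (by
    rw [hψ]
    refine (le_inf ((le_inf (inf_le_right.trans d.right_le) inf_le_left).trans h.cz) inf_le_right).trans ?_
    rw [dedekind_left (Or.inl (zpowers_le.2 (h.nm (self_mem_cent1 u)))) ZJ, d.inf_eq, sup_bot_eq])
    (le_inf (hψ ▸ abelian_iff.1 h.el.1) ZJ)
  have t : pmap ψ J = ⊤ := eq_top_of_card_eq _ (by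
    have := card_pmap_mul ψ JN
    rw [k, h.cZ, cJ] at this; rw [card_L3]; omega)
  refine ⟨J, d, ZJ, cJ, ψ.comp (inclusion JN), ?_, fun y => ?_⟩
  · refine Eq.trans ?_ k; ext x
    rw [mem_inf, mem_pker, mem_pker]
    refine ⟨fun ⟨a, b⟩ => ⟨⟨JN a, ?_⟩, a⟩, fun ⟨⟨a, b⟩, c⟩ => ⟨c, ?_⟩⟩
    · rw [pel_of_mem _ a] at b; rw [pel_of_mem _ (JN a)]; exact b
    · rw [pel_of_mem _ a] at b; rw [pel_of_mem _ c]; exact b
  · obtain ⟨x, hx, e⟩ := (mem_pmap_of_le JN).1 (t ▸ mem_top y)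
    exact ⟨⟨x, hx⟩, by rw [← e, pel_of_mem _ (JN hx)]; rfl⟩

theorem F5.nonsplit {u : G} {Z K : Subgroup G} (h : S.F5 u Z) (ou : orderOf u = 5) (hK : K ≤ 𝐂[u]) (h1 : Z ⊓ K = ⊥) :
    ¬ 8 ∣ Nat.card K := fun h8 => by
  have : Fact (Nat.Prime 2) := ⟨Nat.prime_two⟩
  obtain ⟨P, hP, cP⟩ : ∃ P ≤ K, Nat.card P = 2 ^ 3 := by
    obtain ⟨P, cP⟩ := Sylow.exists_subgroup_card_pow_prime (G := K) 2 (n := 3) h8
    exact ⟨P.map K.subtype, map_subtype_le P, by rw [card_map_subtype, cP]⟩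
  have pP : IsPGroup 2 P := IsPGroup.of_card cP
  obtain ⟨i, hi, oi⟩ := exists_orderOf_eq_prime (A := 𝐙(P)) Nat.prime_two (by
    rcases (pP.to_le inf_le_left).card_eq_or_dvd with a | a
    · exact absurd (card_eq_one.1 a) (center_ne_bot_pgroup pP fun b => by rw [b, card_bot] at cP; omega)
    · exact a)
  have iK := hP hi.1
  have iZ : i ∉ Z := fun a => by
    have : i ∈ Z ⊓ K := ⟨a, iK⟩
    rw [h1, mem_bot] at this; rw [this, orderOf_one] at oi; omega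
  have it := (S.two' oi).resolve_left fun a => iZ ((h.zt i (hK iK)).1 a).1
  have Pi : P ≤ 𝐂[i] := fun a ha => mem_cent1_iff.2 (mem_centralizer_iff.1 hi.2 a ha)
  have c1 := card_dvd_of_le (show (Z ⊓ 𝐂[i]) ⊔ P ≤ 𝐂[u] ⊓ 𝐂[i] from sup_le (inf_le_inf_right _ h.le) (le_inf (hP.trans hK) Pi))
  rw [S.card_X5t ou it (hK iK), card_sup_of_disjoint (Or.inl (norms_inf ((hP.trans hK).trans h.nm) (Pi.trans le_normalizer)))
    (eq_bot_iff.2 (h1 ▸ inf_le_inf inf_le_left hP)), cP] at c1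
  have c2 := card_le_sq_cent h.el (h.nm (hK iK)) (by rw [← pow_two, ← oi, pow_orderOf_eq_one])
  have c3 := card_dvd_of_le (inf_le_left (a := Z) (b := 𝐂[i]))
  rw [h.cZ] at c2 c3
  have c4 := Nat.le_of_dvd (by norm_num) c3
  generalize Nat.card ↥(Z ⊓ 𝐂[i]) = n at *
  interval_cases n <;> omega

variable (S)

theorem exists_R20 : ∃ R : Subgroup G, zpowers (S.k yC) ≤ R ∧ R ≤ 𝐍(zpowers (S.k yC)) ∧ Nat.card R = 20 ∧
    R ⊓ 𝐂(zpowers (S.k yC)) = zpowers (S.k yC) := by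
  have f24 := in22_24 fC_in
  have n : zpowers (S.k fC) ≤ 𝐍(zpowers (S.k yC)) := zpowers_le.2 (mem_norm_zpowers (by
    rw [S.k_conj (b := powC yC 2) (by decide +kernel), ← S.k_pow yC_24]; exact pow_mem (mem_zpowers _) _))
  have o : orderOf (S.k fC) = 4 := by
    have : Fact (Nat.Prime 2) := ⟨Nat.prime_two⟩
    rw [S.mm.orderOf_k (perm_mem_M24 f24)]
    exact orderOf_eq_prime_pow (p := 2) (n := 1) (by
      rw [perm_pow' f24, ← perm_oneC, perm_eq_iff (inM24_pow f24 _) oneC_in]; decide +kernel) f0_pow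
  have k : zpowers (S.k fC) ⊓ 𝐂(zpowers (S.k yC)) = ⊥ := eq_bot_iff.2 fun x hx => by
    obtain ⟨j, hj, rfl⟩ := exists_pow_lt hx.1
    have := (mem_inf.1 hx).2
    rw [cent_zpowers, S.k_pow f24, ← one_mul (S.k (powC fC j)), S.mm.vk_comm_k (one_mem _) (perm_mem_M24 (inM24_pow f24 j))
      (perm_mem_M24 yC_24), perm_mul' (inM24_pow f24 j) yC_24, perm_mul' yC_24 (inM24_pow f24 j),
      perm_eq_iff (inM24_mul (inM24_pow f24 j) yC_24) (inM24_mul yC_24 (inM24_pow f24 j))] at this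
    rw [o] at hj
    have h0 : j = 0 := by
      have := this.2
      revert this; interval_cases j <;> decide +kernel
    rw [h0, pow_zero]; exact one_mem _
  have l : zpowers (S.k yC) ≤ 𝐂(zpowers (S.k yC)) := by rw [cent_zpowers]; exact zpowers_le.2 (self_mem_cent1 _)
  refine ⟨zpowers (S.k yC) ⊔ zpowers (S.k fC), le_sup_left, sup_le le_normalizer n, ?_, ?_⟩
  · rw [card_sup_of_disjoint (Or.inl n) (eq_bot_iff.2 (k ▸ le_inf inf_le_right (inf_le_left.trans l))),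
      Nat.card_zpowers, Nat.card_zpowers, o, S.y_ord]
  · rw [dedekind_left (Or.inl n) l, k, sup_bot_eq]

theorem res5572 (S : St G) (Q : Subgroup G) (hQ : Nat.card Q = 5) :
    ¬ (25 ∣ Nat.card G) ∧
    (∃ J : Subgroup G, IsInternalDirectProduct Q J 𝐂(Q) ∧
      ∃ (E : Subgroup ↥J) (_ : E.Normal), IsElementaryAbelian 2 E ∧ Nat.card ↥E = 8 ∧
        Nonempty (↥J ⧸ E ≃* L3) ∧ ∀ K : Subgroup ↥J, ¬ E.IsComplement' K) ∧
    (∃ R : Subgroup G, Q ≤ R ∧ R ≤ 𝐍(Q) ∧ Nat.card ↥R = 20 ∧ R ⊓ 𝐂(Q) = Q) ∧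
    Nat.card ↥𝐍(Q) = 2 ^ 8 * 3 * 5 * 7 := by
  obtain ⟨g, e⟩ := exists_cj_prime (by norm_num) S.y_ord S.not25 hQ
  refine ⟨S.not25, ?_, ?_, ?_⟩
  · have ou : orderOf (g * S.k yC * g⁻¹) = 5 := by rw [CA.orderOf_conj', S.y_ord]
    obtain ⟨Z, h⟩ := S.exists_F5 ou
    obtain ⟨J, d, ZJ, cJ, ψ, k, su⟩ := h.exists_J ou
    rw [e, cj_zpowers, cent_zpowers]
    have k' : ψ.ker = Z.subgroupOf J := by rw [← pker_subgroupOf, k]
    have c : Nat.card ψ.ker = 8 := by rw [k', card_subgroupOf_of_le ZJ, h.cZ]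
    refine ⟨J, idp_of_dprod d, ψ.ker, inferInstance, ⟨⟨⟨fun a b => Subtype.ext (Subtype.ext
      (mem_centralizer_iff.1 (abelian_iff.1 h.el.1 (mem_subgroupOf.1 (k' ▸ b.2))) _ (mem_subgroupOf.1 (k' ▸ a.2))))⟩⟩,
      fun a ha => Subtype.ext (h.el.2 _ (mem_subgroupOf.1 (k' ▸ ha)))⟩, c,
      ⟨QuotientGroup.quotientKerEquivOfSurjective ψ su⟩, fun K hK => ?_⟩
    refine h.nonsplit ou (K := K.map J.subtype) ((map_subtype_le K).trans d.right_le) (eq_bot_iff.2 ?_) ?_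
    · rintro _ ⟨a, y, hy, rfl⟩
      exact congrArg Subtype.val (mem_bot.1 (hK.disjoint.eq_bot ▸ (⟨k' ▸ mem_subgroupOf.2 a, hy⟩ : y ∈ ψ.ker ⊓ K)))
    · have := hK.card_mul
      rw [c, cJ] at this
      rw [card_map_subtype, show Nat.card K = 168 by omega]; norm_num
  · obtain ⟨R, h1, h2, h3, h4⟩ := S.exists_R20
    rw [e]
    exact ⟨cj g R, cj_mono g h1, cj_normalizer g _ ▸ cj_mono g h2, by rw [card_cj, h3],
      by rw [← cj_centralizer, ← cj_inf, h4]⟩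
  · rw [e, ← cj_normalizer, card_cj, (S.exists_F5 S.y_ord).choose_spec.cN]; norm_num

end St

end CA.J4
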