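import Cfsg.Agent.Lib.J4.Cls0
import Cfsg.Agent.Lib.J4.Big
import Cfsg.Agent.Lib.J4.Five

/-!
The class number of a group of type `J4` from the local counts.
-/

set_option autoImplicit false
set_option linter.unusedSectionVars false
set_option linter.unusedVariables false

namespace CA.J4
open Cfsg CA.Gol CA.Ex2 CA.XS Subgroup

variable {G : Type*} [Group G] [Finite G]

theorem ncl_step {a p : ℕ} (h : ∀ q, q.Prime → q ∣ Nat.card G → q < p → q ≤ a) (hl : a < p) :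
    ncl ⊤ {g : G | PiElt (Set.Iic p) g} = ncl ⊤ {g : G | PiElt (Set.Iic a) g} + ncl ⊤ (LP G p) := by
  rw [ncl_Iic]; congr 2; ext g
  exact ⟨fun hg q hq hd => h q hq (hd.trans (orderOf_dvd_natCard g)) (hg q hq hd),
    fun hg q hq hd => lt_of_le_of_lt (hg q hq hd) hl⟩

theorem piElt_Iic_two {g : G} : PiElt (Set.Iic 2) g ↔ PiElt {2} g :=
  ⟨fun h q hq hd => le_antisymm (h q hq hd) hq.two_le, fun h q hq hd => (h q hq hd).le⟩

theorem piElt_Iio_three {g : G} : PiElt (Set.Iio 3) g ↔ PiElt {2} g :=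
  ⟨fun h q hq hd => le_antisymm (Nat.lt_succ_iff.1 (h q hq hd)) hq.two_le, fun h q hq hd => by rw [h q hq hd]; simp⟩

namespace St
variable (S : St G)

theorem prime_mem (S : St G) {q : ℕ} (hq : q.Prime) (h : q ∣ Nat.card G) : q ∈ [2, 3, 5, 7, 11, 23, 29, 31, 37, 43] := by
  rw [S.card_G, show 86775571046077562880 = 2 ^ 21 * (3 ^ 3 * (5 * (7 * (11 ^ 3 * (23 * (29 * (31 * (37 * 43))))))))
    by norm_num] at h
  have e : ∀ r, r.Prime → q ∣ r → q = r := fun r hr => (Nat.prime_dvd_prime_iff_eq hq hr).1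
  simp only [hq.dvd_mul, hq.prime.dvd_pow_iff_dvd (show 21 ≠ 0 by norm_num),
    hq.prime.dvd_pow_iff_dvd (show 3 ≠ 0 by norm_num)] at h
  rcases h with h | h | h | h | h | h | h | h | h | h <;> simp [e _ (by norm_num) h]

theorem ncl_primes (S : St G) : Nat.card (ConjClasses G) = ncl ⊤ {g : G | PiElt {2} g} + ncl ⊤ (LP G 3) +
    ncl ⊤ (LP G 5) + ncl ⊤ (LP G 7) + ncl ⊤ (LP G 11) + ncl ⊤ (LP G 23) + ncl ⊤ (LP G 29) + ncl ⊤ (LP G 31) +
    ncl ⊤ (LP G 37) + ncl ⊤ (LP G 43) := by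
  have st : ∀ a p, (∀ q ∈ [2, 3, 5, 7, 11, 23, 29, 31, 37, 43], q < p → q ≤ a) → a < p →
      ncl ⊤ {g : G | PiElt (Set.Iic p) g} = ncl ⊤ {g : G | PiElt (Set.Iic a) g} + ncl ⊤ (LP G p) := fun a p h hl =>
    ncl_step (fun q hq hd => h q (S.prime_mem hq hd)) hl
  rw [← ncl_univ, show (Set.univ : Set G) = {g : G | PiElt (Set.Iic 43) g} from (Set.eq_univ_of_forall fun g q hq hd =>
    (show ∀ q ∈ [2, 3, 5, 7, 11, 23, 29, 31, 37, 43], q ≤ 43 by decide) q
      (S.prime_mem hq (hd.trans (orderOf_dvd_natCard g)))).symm,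
    st 37 43 (by decide) (by decide), st 31 37 (by decide) (by decide), st 29 31 (by decide) (by decide),
    st 23 29 (by decide) (by decide), st 11 23 (by decide) (by decide), st 7 11 (by decide) (by decide),
    st 5 7 (by decide) (by decide), st 3 5 (by decide) (by decide), st 2 3 (by decide) (by decide)]
  simp only [piElt_Iic_two]

theorem exists_ord (S : St G) {q : ℕ} (hq : q.Prime) (h : q ∣ 86775571046077562880) : ∃ u : G, orderOf u = q := by
  obtain ⟨x, -, ox⟩ := exists_orderOf_eq_prime (A := (⊤ : Subgroup G)) hq (by rwa [card_top, S.card_G])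
  exact ⟨x, ox⟩

theorem LP_big {q k : ℕ} (h : S.Big q k) (hq : q ∈ [23, 29, 31, 37, 43]) : ncl ⊤ (LP G q) * k = q - 1 := by
  obtain ⟨hp, hd, hn⟩ := big_spec q hq
  obtain ⟨u, hu⟩ := S.exists_ord hp hd
  rw [ncl_LP_cyc hp (by rwa [S.card_G]) hu (by rw [(h u hu).2, (h u hu).1, Nat.card_zpowers, hu]),
    nP_self hp hu (h u hu).1, mul_one]

theorem LP3 : ncl ⊤ (LP G 3) = nP 3 S.p := by
  rw [ncl_LP (L := [0]) (r := fun _ => S.p) (by norm_num) (by simp) (fun x hx h1 => ⟨0, by simp, S.conj3 ?_⟩)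
    fun _ _ => ⟨(piElt_of_orderOf_prime (by norm_num) S.jh.p_ord).2 rfl, fun e => by
      have := S.jh.p_ord; rw [e, orderOf_one] at this; omega⟩, sumL_cons, sumL_nil, add_zero]
  obtain ⟨g, -, e⟩ := S.R0_syl_top.exists_conj_mem (mem_top x) hx
  have : Fact (Nat.Prime 3) := ⟨by norm_num⟩
  rw [← CA.orderOf_conj' g]
  exact orderOf_eq_prime (S.R0_heis.2.2.2 _ e) fun e => h1 (conj_eq_one_iff.1 e)

theorem LP5 (S : St G) {u : G} (hu : orderOf u = 5) : ncl ⊤ (LP G 5) = nP 5 u := by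
  have := ncl_LP_cyc (k := 4) (by norm_num) S.not25 hu (by
    rw [S.c5 u hu, (S.res5572 (zpowers u) (by rw [Nat.card_zpowers, hu])).2.2.2]; norm_num)
  omega

theorem LP7 (S : St G) {u : G} (hu : orderOf u = 7) : ncl ⊤ (LP G 7) = 2 * nP 7 u := by
  have := ncl_LP_cyc (k := 3) (by norm_num) S.not49 hu (by
    rw [S.card_cent7 hu, (S.res5573 (zpowers u) (by rw [Nat.card_zpowers, hu])).2.2.2]; norm_num)
  omega

/-- the class number from the local counts -/
theorem cls62 (S : St G) (h11 : S.C11) (n2 : ncl ⊤ {g : G | PiElt {2} g} = 10) (n3 : nP 3 S.p = 9)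
    (n5 : ∃ u : G, orderOf u = 5 ∧ nP 5 u = 9) (n7 : ∃ u : G, orderOf u = 7 ∧ nP 7 u = 7)
    (n11 : ncl ⊤ (LP G 11) = 9) : Nat.card (ConjClasses G) = 62 := by
  obtain ⟨u, hu, e5⟩ := n5
  obtain ⟨w, hw, e7⟩ := n7
  have b1 := S.LP_big (S.big23 S.c5 h11) (by simp)
  have b2 := S.LP_big (S.big29 S.c5 h11) (by simp)
  have b3 := S.LP_big (S.big31 S.c5 h11) (by simp)
  have b4 := S.LP_big (S.big37 S.c5 h11) (by simp)
  have b5 := S.LP_big (S.big43 S.c5 h11) (by simp)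
  rw [S.ncl_primes, n2, S.LP3, n3, S.LP5 hu, e5, S.LP7 hw, e7, n11]
  omega

end St
end CA.J4
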