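import Cfsg.Agent.Lib.J4.Iface

/-!
Conjugacy classes of elements of prime order in `D2 = M22 : 2`.
-/

set_option autoImplicit false
set_option linter.unusedVariables false

namespace CA.J4
open Cfsg CA.Gol CA.Ex2 CA.XS Subgroup
open scoped Pointwise

def i2C : ℕ := 0xbacea991c87c58db5130a98b218440
def j2C : ℕ := 0x4eafb0e27a21ac5882e818a492937
def u3C : ℕ := 0xbd9d47a0b03ac23ac6499b14d30880
def w7C : ℕ := 0xb9603792b335a915854e4b2423a1a0

def cl_i2 : List ℕ :=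
  [0x2bac8492a279d8d8c0c15cc72bd140, 0x489d5311b42b2cb09e6a88ef27c100, 0x7c450491962b6a7720cb0dc729d140,
   0x2b6b6991411d1d162ee23a4d27c100, 0x9a16e491a1bb0f5844c2b14727d140, 0x4d191b92b619c41538cb6be722c100,
   0xbc031490eb9d5ac438d613c722d140, 0x356cc791c24c5103b4a158e7205157, 0x1da21790e8355ac58a70726f205145,
   0x9da8d4902e308f55b0b155df204103, 0x4c6b07916d1d841722ec398b205153, 0x30ad54914cbd1d109c6d5ccb20410f,
   0x4c1b1b92d51ac22439e761a7205145, 0xbd051491679d98d539f50987204105, 0x4d6829918e2b576384d150c127c117,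
   0x9d8e14922c2ba085886dabc12bd146, 0x2ad82492079a22eb04756dc127d146, 0x1b98a31036488f58d2eb694127c113,
   0x786b64910dbc1d112c6c3cc122d146, 0x7b0ebb91424d1d16da61a8c122c106, 0xb89ab491d57c5100d867614129d146,
   0x49c4d79116341d1ab0ab082721d157, 0x32dcc490f49d422b34aa881f2bc103, 0x32d02791b11b0f5b066e802f24d145,
   0x1b9a879055485768c2e7600b235153, 0x9a8ee49182bb576a45e1a807234105, 0x4b035b91cb3451069e76100b21d14f,
   0xb8587491d6345541546b680b29c10f, 0x2b04b312271ba8a6d8150a6727c117, 0x79dcd491709d841ab008894d2bd143,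
   0x1d1b1990eb4d42253816616f27c106, 0x9d60c4904e785763b41145cd22d143, 0x2b62749028b8acb6541073cd29d143,
   0x19e81b91ae7b2cba8811524d22c113, 0xbb115492d12ac2269c0e84cd27d143, 0x1b175792010222e69ca2b1a724d157,
   0x9d5624922d03a8a3846cb18b2bc10f, 0x485d679190036a712e6888ef235145, 0x34434491b5032cb729e715c729c105,
   0x340f17902c00acb43aedaa4b21d153, 0x34590b904700576721f56a6721d145, 0xbb556492b101c4162caea4df234103,
   0x1c574012ad49c4172a6cb14d27c117, 0x2c171011817b6a743862b4cd2bd149, 0x2acec011c21c554b34c1aa6f27c113,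
   0x7a02e012ab29d8d8447615cd29d149, 0x49e21012ca2adaca8af470e727c106, 0x29d0d01051b8576ab12e83c729d146,
   0xb84f60120c7a22e12ccda95329d143, 0x34277922b1ba08654b61267235157, 0x3aaa492c132dac8d1e23cc72bc105,
   0xa0b792ae49d8d0da7141af21d145, 0x1da14928b9aa2ea887665cb23410f, 0x218e792c732c22846f568cb24d153,
   0x322b4904ab86a76d8b4719f29c103, 0x636b91a84b0f512cb0719f21d153]
def cl_j2 : List ℕ :=
  [0xba8ae10c9043eb16cc343b16695920, 0x7c8a11c2b34a16d8aaeeb118638814, 0x9c88e188a7452356dc2f8316650136,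
   0x7cc8eb5ea240cb131c325356c04134, 0x93c8ea1e3745aa5608330196d82923, 0x19eae83cb645c91628209996da0932,
   0x8a3350ca7b3c95320148358b93ae9, 0xb0a2e54ab441c85680307b1661dd33, 0x550ae7c2b34022460c37b196d3c922,
   0x51d7780da804cb563c3671a2495122, 0x1422e3d08044cb564836b996d78d2a, 0x85a2e980b242aa4350221b56cbbd27,
   0xa5cae04e23408953402a9356cb1d2f, 0x7a0a074db2bc175308271c48cb2934, 0x382aebd88a44a2533c231356c9d130,
   0xeae92a2f440a46d827a316614d37]
def cl_s0 : List ℕ :=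
  [0xb9d6a312927c6a20b8b064d281d9a0, 0x95c6b31e04a36afb452264caa4040e, 0x8357433ad58c9e2bb1281cca1200ea,
   0x79d70345c8b9182b50aaacd32005a3, 0xa1d6c35ae3706028bcb554d20911a8, 0x356d01c692491616baea13c0829d93,
   0x8266db8a8e8aec6ac9e708068230aa, 0x5356e3502c222e27d53204cb688cf0, 0xab57733c9008dc2a292094cb1b20ec,
   0x132c9198903ce817280543ef16caab, 0x91d613547743082500b68cd2fa41ae, 0x8b5683498183862059347ccb555ce4,
   0x13ee4329966c240a04b174d353a06b, 0x23572322b6550021852ebccac83cf1, 0x6356f35e2ab02827412344ca40c8f5,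
   0x19d713425402ac2620a40cd2ebd5af, 0x71d75305e0a594225cac84d23445b2, 0x41d763300f9562280ca124d37729b4,
   0xb35633020465d029452fa4caaab8e1, 0xb490b03630a9cd42a9e29dc64625c1, 0xb56030d51abe424113774cb0650f6,
   0x10c0a312cc6c5d7454b094d213d1eb, 0x60074349ab0ba0f888a854d27b12f5, 0x1d643290e1c022ac8b1b4d347b1b7]
def cl_u3 : List ℕ :=
  [0xa41f6404a249d8b9c5a493946adc60, 0xb425438cb79a1ab4c5867b944a8820, 0x141b719cb43064b245f363949ad900,
   0xa5c62a84b671a72645a45a547441e0, 0xbc1820a0b620deb346496b953ad0e0, 0xb08902b2545356f0a4c38cd0e382b7,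
   0x1413489cd72c82b40df35398da8096, 0xa4277504c28bd1538da42ad9270136, 0xa5ea28b4d02ba6858c8154987481f6,
   0xb89d4548d08ac87a8d282bd81981b6, 0x80a366d640094cf5256e24d033d197, 0xa4142910c0445eb28c2d4b993adcf6,
   0xa08b75b4c0aa92788c8173d889c256, 0x15d5473cc05c48828e67ac9814c1b6, 0xbc0b47a4c03a9b588d129ad8470836,
   0xa08c0ab6567322f1a4815cd0a3c0b7, 0x141a04bcd4904b520e6742d9175d56, 0x809206acd70c8a740dd523d919d156,
   0x85c807b8d43b54808eab9c98548a36, 0xbc1e0248c269d4b98d280b985ad236, 0x802743564263da53a56e1c50455837,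
   0x8002242cd44927168dd5929872ddf6, 0x1025023cd76a1d148e670a9952d176, 0xa01d7790d03ae51a8c2d9a98928916,
   0xb82745a0c2abc3138e497298d2c096, 0x974616501d48f7262a34d013d9b7, 0x890928d4435c708cb14bd959dd76,
   0x41020a8d72267590cb16ad87751f6, 0x40373c4d49912b68d457b988a8a56, 0x5e706c4c20bea838d452498b4d1d6]

theorem i2C_in : in22 i2C = true := by decide +kernel
theorem j2C_in : inM24 j2C = true := by decide +kernel
theorem u3C_in : in22 u3C = true := by decide +kernel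
theorem w7C_in : in22 w7C = true := by decide +kernel
theorem j2_mem : perm j2C ∈ D2 := ⟨perm_mem_M24 j2C_in, (st_iff DD_lt).1 (by rw [code_perm' j2C_in]; decide +kernel)⟩
theorem j2_not_mem : perm j2C ∉ Spor.M22 := by rw [mem22_code, code_perm' j2C_in]; decide +kernel
theorem u3_ord : orderOf (perm u3C) = 3 := order_perm (in22_24 u3C_in) (by norm_num) (by decide +kernel)
theorem w7_ord : orderOf (perm w7C) = 7 := order_perm (in22_24 w7C_in) (by norm_num) (by decide +kernel)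
theorem i2_ord : orderOf (perm i2C) = 2 := order_perm (in22_24 i2C_in) (by norm_num) (by decide +kernel)
theorem j2_ord : orderOf (perm j2C) = 2 := order_perm j2C_in (by norm_num) (by decide +kernel)
theorem s0_ord : orderOf s0 = 2 := order_perm sC_in (by norm_num) (by decide +kernel)

/-- `r` fixes (`sw = false`) or swaps (`sw = true`) the distinct points `a`, `b` -/
def prT (r : ℕ) (sw : Bool) (a b : ℕ) : Bool :=
  !(Nat.beq a b) && Nat.beq (ap r a) (Bool.rec a b sw) && Nat.beq (ap r b) (Bool.rec b a sw)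

/-- certificate that all elements of `D2` of the given type conjugate to `r0` in `M24` are conjugate to `r` under `M22` -/
def clsOK (r0 k r : ℕ) (sw : Bool) (L : List ℕ) : Bool :=
  (inM24 k && inM24 r0 && inM24 r && iw k r0 r) && allL L (fun c => inM24 c && cmC c r) &&
    allLt (fun a => allLt (fun b => !(prT r sw a b) || anyL L fun c => Nat.beq (ap c a) 0 && Nat.beq (ap c b) 23) 24) 24

theorem cls_sound {r0 k0 r : ℕ} {sw : Bool} {L : List ℕ} (H : clsOK r0 k0 r sw L = true) {g : Pm}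
    (h : ∃ k ∈ M24, k * g * k⁻¹ = perm r0) (h0 : g (pt 0) = pt (Bool.rec 0 23 sw))
    (h1 : g (pt 23) = pt (Bool.rec 23 0 sw)) : ∃ d ∈ Spor.M22, d * g * d⁻¹ = perm r := by
  rw [clsOK, Bool.and_eq_true, Bool.and_eq_true] at H
  obtain ⟨⟨H1, H2⟩, H3⟩ := H
  have e0 := perm_conj H1
  simp only [Bool.and_eq_true] at H1
  obtain ⟨k1, hk1, e1⟩ := h
  obtain ⟨k, hk, e⟩ : ∃ k ∈ M24, k * g * k⁻¹ = perm r :=
    ⟨perm k0 * k1, mul_mem (perm_mem_M24 H1.1.1.1) hk1, by rw [← e0, ← e1]; group⟩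
  have hr := H1.1.2
  have := allLt_iff.1 (allLt_iff.1 H3 _ (ix_lt (k (pt 0)))) _ (ix_lt (k (pt 23)))
  have hP : prT r sw (ix (k (pt 0))) (ix (k (pt 23))) = true := by
    have a0 := conj_apply k g (pt 0)
    have a1 := conj_apply k g (pt 23)
    rw [e, h0] at a0
    rw [e, h1] at a1
    rw [prT, ← code_perm' hr, ap_code_ix, ap_code_ix, a0, a1, Bool.and_eq_true, Bool.and_eq_true, beq_iff, beq_iff,
      Bool.not_eq_true', beq_false_iff]
    exact ⟨⟨fun e => pt0_ne (k.injective (ix_inj e)), by cases sw <;> rfl⟩, by cases sw <;> rfl⟩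
  rw [hP, Bool.not_true, Bool.false_or, anyL_iff] at this
  obtain ⟨c, hc, e2⟩ := this
  have hc' := allL_iff.1 H2 c hc
  rw [Bool.and_eq_true] at hc' e2
  rw [← code_perm' hc'.1, beq_iff, beq_iff, ap_code_ix, ap_code_ix] at e2
  have cm := (cmC_iff' hr).1 (by rw [code_perm' hc'.1]; exact hc'.2)
  refine ⟨perm c * k, mem22.2 ⟨mul_mem (perm_mem_M24 hc'.1) hk, ?_, ?_⟩, ?_⟩
  · exact (eq_pt_iff (by norm_num)).2 e2.1
  · exact (eq_pt_iff (by norm_num)).2 e2.2
  · rw [show perm c * k * g * (perm c * k)⁻¹ = perm c * (k * g * k⁻¹) * (perm c)⁻¹ by group, e, cm,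
      mul_inv_cancel_right]

theorem fix_ne {g : Pm} (h : g (pt 0) = pt 0) : (fixS g).card ≠ 0 := fun e => card_fixS_eq_zero.1 e _ h

theorem cls_i2 {g : Pm} (hg : g ∈ Spor.M22) (ho : orderOf g = 2) : ∃ d ∈ Spor.M22, d * g * d⁻¹ = perm i2C :=
  cls_sound (r0 := r2A) (k0 := 0xa44450cce405a43bbcc96b2ae5c10a) (sw := false) (L := cl_i2) (by decide +kernel)
    (class_2A (M22_le hg) ho (fix_ne (mem22.1 hg).2.1)) (mem22.1 hg).2.1 (mem22.1 hg).2.2

theorem cls_out {g : Pm} (hg : g ∈ D2) (hn : g ∉ Spor.M22) (ho : orderOf g = 2) :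
    ∃ d ∈ Spor.M22, d * g * d⁻¹ = perm j2C ∨ d * g * d⁻¹ = s0 := by
  have h := swap_of_not_mem hg hn
  obtain ⟨k, hk, e | e⟩ := class_two hg.1 ho
  · exact (cls_sound (r0 := r2A) (k0 := 0x79eeb016ca2044cab626722704c874) (sw := true) (L := cl_j2)
      (by decide +kernel) ⟨k, hk, e⟩ h.1 h.2).imp fun d a => ⟨a.1, Or.inl a.2⟩
  · exact (cls_sound (r0 := r2B) (k0 := 0x181016caa44cee71199472cb1b414f) (r := sC) (sw := true) (L := cl_s0)
      (by decide +kernel) ⟨k, hk, e⟩ h.1 h.2).imp fun d a => ⟨a.1, Or.inr a.2⟩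

theorem mem22_of_odd {g : Pm} (hg : g ∈ D2) (ho : Odd (orderOf g)) : g ∈ Spor.M22 := by
  by_contra hn
  obtain ⟨k, hk⟩ := ho
  have h2 : g ^ (2 * k) ∈ Spor.M22 := by rw [pow_mul, pow_two]; exact pow_mem (mul_mem22 hg hg hn hn) k
  apply hn
  rw [← Subgroup.mul_mem_cancel_left _ h2, ← pow_succ, ← hk, pow_orderOf_eq_one]; exact one_mem _

theorem cls_u3 {g : Pm} (hg : g ∈ D2) (ho : orderOf g = 3) : ∃ d ∈ Spor.M22, d * g * d⁻¹ = perm u3C := by
  have hg := mem22_of_odd hg (by rw [ho]; decide)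
  exact cls_sound (r0 := r3A) (k0 := 0x69d639d50505186539e2b46f092481) (sw := false) (L := cl_u3) (by decide +kernel)
    (class_3A (M22_le hg) ho (fix_ne (mem22.1 hg).2.1)) (mem22.1 hg).2.1 (mem22.1 hg).2.2

/-- elements of order `q` are conjugate to powers of `r` when `q` divides the order once -/
theorem conj_pow_of_sylow {G : Type*} [Group G] [Finite G] {q : ℕ} (hq : q.Prime) {M : Subgroup G} {r g : G}
    (hr : r ∈ M) (hro : orderOf r = q) (hM : ¬ q * q ∣ Nat.card M) (hg : g ∈ M) (ho : orderOf g = q) :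
    ∃ d ∈ M, ∃ i, 0 < i ∧ i < q ∧ d * g * d⁻¹ = r ^ i := by
  obtain ⟨d, hd, h⟩ := (sylow_zpowers hq hr hro hM).exists_conj_mem hg (by rw [piElt_of_orderOf_prime hq ho]; rfl)
  obtain ⟨i, hi, e⟩ := exists_pow_lt h
  refine ⟨d, hd, i, Nat.pos_of_ne_zero ?_, hro ▸ hi, e⟩
  rintro rfl
  have : orderOf (d * g * d⁻¹) = q := by rw [CA.orderOf_conj', ho]
  rw [e, pow_zero, orderOf_one] at this
  exact hq.one_lt.ne this

theorem cent_pow_eq {G : Type*} [Group G] [Finite G] {q i : ℕ} (hq : q.Prime) {r : G} (hr : orderOf r = q)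
    (h0 : 0 < i) (hi : i < q) : zpowers (r ^ i) = zpowers r := by
  symm
  refine eq_zpowers_of_prime_card (by rwa [Nat.card_zpowers, hr]) (pow_mem (mem_zpowers r) i) fun e => ?_
  have := Nat.le_of_dvd h0 (orderOf_dvd_of_pow_eq_one e)
  omega

theorem card_CD_i2 : Nat.card ↥(D2 ⊓ 𝐂[perm i2C]) = 768 :=
  card_centD2 (k := 0x21d134ca27b5345c141b1d9591077) (ki := 0x1c8c90e8a7d5c55a5b634e220c117) (in22_24 i2C_in) (by decide +kernel)
theorem card_CD_j2 : Nat.card ↥(D2 ⊓ 𝐂[perm j2C]) = 2688 :=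
  card_centD2 (k := 0x1ecc34c8a9260d285747c46ea8917) (ki := 0x546893ccd391944c1c1b4d7128957) j2C_in (by decide +kernel)
theorem card_CD_s0 : Nat.card ↥(D2 ⊓ 𝐂[s0]) = 640 :=
  card_centD2 (k := 0x26ae5d9a3644d4390505202593e77) (ki := 0x4aac08dc81522f99ec65b48a824b7) sC_in (by decide +kernel)
theorem card_CD_u3 : Nat.card ↥(D2 ⊓ 𝐂[perm u3C]) = 72 :=
  card_centD2 (k := 0x152e1b1f10d2cb84947120d3692b7) (ki := 0x342e22a0b8d072626a6416c299df7) (in22_24 u3C_in)
    (by decide +kernel)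
theorem card_CD_y0 : Nat.card ↥(D2 ⊓ 𝐂[y0]) = 10 :=
  card_centD2 (k := 0x19f659213622b28953468dc1508f7) (ki := 0x51a883171a94ef98d2e0d95230897) (in22_24 yC_in)
    (by decide +kernel)
theorem card_CD_w7 : Nat.card ↥(D2 ⊓ 𝐂[perm w7C]) = 14 :=
  card_centD2 (k := 0x41c1956c9399aa594931d22c13d17) (ki := 0x464644cb6155a45b2017b94938e97) (in22_24 w7C_in)
    (by decide +kernel)
theorem card_CD_x0 : Nat.card ↥(D2 ⊓ 𝐂[x0]) = 11 :=
  card_centD2 (k := 0x5a2a425e462db23cca3a54c270617) (ki := 0x58c7532a188daf752535953041057) (in22_24 xC_in)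
    (by decide +kernel)

theorem card_inf_cent_conj {G : Type*} [Group G] {D : Subgroup G} {d g : G} (hd : d ∈ D) :
    Nat.card ↥(D ⊓ 𝐂[d * g * d⁻¹]) = Nat.card ↥(D ⊓ 𝐂[g]) := by
  rw [← card_cj d (D ⊓ 𝐂[g]), cj_inf, cj_eq_of_mem hd, cj_centralizer_singleton]

theorem card_CD3 {g : Pm} (hg : g ∈ D2) (ho : orderOf g = 3) : Nat.card ↥(D2 ⊓ 𝐂[g]) = 72 := by
  obtain ⟨d, hd, e⟩ := cls_u3 hg ho
  rw [← card_inf_cent_conj (M22_le_D2 hd), e, card_CD_u3]

theorem card_CD_prime {q n : ℕ} (hq : q.Prime) {r g : Pm} (hr : r ∈ D2) (hro : orderOf r = q)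
    (hM : ¬ q * q ∣ 887040) (hc : Nat.card ↥(D2 ⊓ 𝐂[r]) = n) (hg : g ∈ D2) (ho : orderOf g = q) :
    Nat.card ↥(D2 ⊓ 𝐂[g]) = n := by
  obtain ⟨d, hd, i, h0, hi, e⟩ := conj_pow_of_sylow hq hr hro (by rwa [card_D2]) hg ho
  rw [← card_inf_cent_conj hd, e, ← cent_zpowers, cent_pow_eq hq hro h0 hi, cent_zpowers, hc]

theorem card_CD5 {g : Pm} (hg : g ∈ D2) (ho : orderOf g = 5) : Nat.card ↥(D2 ⊓ 𝐂[g]) = 10 :=
  card_CD_prime (by norm_num) (M22_le_D2 y0_mem) y0_ord (by norm_num) card_CD_y0 hg ho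
theorem card_CD7 {g : Pm} (hg : g ∈ D2) (ho : orderOf g = 7) : Nat.card ↥(D2 ⊓ 𝐂[g]) = 14 :=
  card_CD_prime (by norm_num) (M22_le_D2 (perm_mem22 w7C_in)) w7_ord (by norm_num) card_CD_w7 hg ho
theorem card_CD11 {g : Pm} (hg : g ∈ D2) (ho : orderOf g = 11) : Nat.card ↥(D2 ⊓ 𝐂[g]) = 11 :=
  card_CD_prime (by norm_num) (M22_le_D2 x0_mem) x0_ord (by norm_num) card_CD_x0 hg ho

end CA.J4
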