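import Cfsg.Agent.Lib.Golay.Chain

/-!
A kernel checker for certificates of double coset enumerations.

A fact `(i, m, e, a, j, b)` says `w i * ψ m * t = ψ a * w j * ψ b` (for `e = 1`) or `w i * ψ m = ψ a * w j` (for `e = 0`).
-/

set_option autoImplicit false
set_option linter.unusedSectionVars false
set_option linter.unusedVariables false

namespace CA.J4.Dce
open CA.Gol

/-- arithmetic of the control group -/
structure Sys where
  mul : ℕ → ℕ → ℕ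
  eq : ℕ → ℕ → Bool
  ok : ℕ → Bool
  inP : ℕ → Bool
  tau : ℕ → ℕ
  one : ℕ

variable {Γ : Type*} [Group Γ]

structure Snd (Y : Sys) (ψ : ℕ → Γ) (t : Γ) : Prop where
  mul_ok : ∀ a b, Y.ok a = true → Y.ok b = true → Y.ok (Y.mul a b) = true
  mul : ∀ a b, Y.ok a = true → Y.ok b = true → ψ (Y.mul a b) = ψ a * ψ b
  eq : ∀ a b, Y.ok a = true → Y.ok b = true → Y.eq a b = true → ψ a = ψ b
  one_ok : Y.ok Y.one = true
  one : ψ Y.one = 1
  tau_ok : ∀ p, Y.ok p = true → Y.inP p = true → Y.ok (Y.tau p) = true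
  tau : ∀ p, Y.ok p = true → Y.inP p = true → ψ p * t = t * ψ (Y.tau p)
  tt : t * t = 1

/-- header fields of a record -/
def hd (r s n : ℕ) : ℕ := Nat.land (Nat.shiftRight r s) n
def rl (r : ℕ) : ℕ := hd r 0 15
def ep (r : ℕ) : ℕ := hd r 4 15
def fi (r : ℕ) : ℕ := hd r 8 255
def fj (r : ℕ) : ℕ := hd r 16 255
def k1 (r : ℕ) : ℕ := hd r 24 4095
def k2 (r : ℕ) : ℕ := hd r 36 4095
def k3 (r : ℕ) : ℕ := hd r 48 4095
/-- element fields of a record -/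
def ef (r n : ℕ) : ℕ := Nat.land (Nat.shiftRight r n) 0xffffffffffffffffffffffffffffffffffff
def em (r : ℕ) : ℕ := ef r 64
def ea (r : ℕ) : ℕ := ef r 208
def eb (r : ℕ) : ℕ := ef r 352
def ex (r : ℕ) : ℕ := ef r 496
def ey (r : ℕ) : ℕ := ef r 640
/-- the record with number `k` -/
def rc (T k : ℕ) : ℕ := fld 784 T k

/-- the meaning of a record -/
structure Hold (Y : Sys) (ψ : ℕ → Γ) (t : Γ) (w : ℕ → Γ) (r : ℕ) : Prop where
  om : Y.ok (em r) = true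
  oa : Y.ok (ea r) = true
  ob : Y.ok (eb r) = true
  h0 : ep r = 0 → w (fi r) * ψ (em r) = ψ (ea r) * w (fj r)
  h1 : ep r = 1 → w (fi r) * ψ (em r) * t = ψ (ea r) * w (fj r) * ψ (eb r)

/-- `a * b = c` -/
def m2 (Y : Sys) (a b c : ℕ) : Bool := force (Y.mul a b) fun u => Y.eq u c
/-- `a * b * c = d` -/
def m3 (Y : Sys) (a b c d : ℕ) : Bool := force (Y.mul a b) fun u => force (Y.mul u c) fun v => Y.eq v d
/-- `a * b = c * d` -/
def m4 (Y : Sys) (a b c d : ℕ) : Bool := force (Y.mul a b) fun u => force (Y.mul c d) fun v => Y.eq u v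

section
variable {Y : Sys} {ψ : ℕ → Γ} {t : Γ} (h : Snd Y ψ t)
include h

theorem Snd.m2 {a b c : ℕ} (ha : Y.ok a = true) (hb : Y.ok b = true) (hc : Y.ok c = true) (e : m2 Y a b c = true) :
    ψ a * ψ b = ψ c := by
  rw [Dce.m2, force_eq] at e
  rw [← h.mul a b ha hb]; exact h.eq _ _ (h.mul_ok a b ha hb) hc e

theorem Snd.m3 {a b c d : ℕ} (ha : Y.ok a = true) (hb : Y.ok b = true) (hc : Y.ok c = true) (hd : Y.ok d = true)
    (e : m3 Y a b c d = true) : ψ a * ψ b * ψ c = ψ d := by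
  rw [Dce.m3, force_eq, force_eq] at e
  rw [← h.mul a b ha hb, ← h.mul _ c (h.mul_ok a b ha hb) hc]
  exact h.eq _ _ (h.mul_ok _ c (h.mul_ok a b ha hb) hc) hd e

theorem Snd.m4 {a b c d : ℕ} (ha : Y.ok a = true) (hb : Y.ok b = true) (hc : Y.ok c = true) (hd : Y.ok d = true)
    (e : m4 Y a b c d = true) : ψ a * ψ b = ψ c * ψ d := by
  rw [Dce.m4, force_eq, force_eq] at e
  rw [← h.mul a b ha hb, ← h.mul c d hc hd]
  exact h.eq _ _ (h.mul_ok a b ha hb) (h.mul_ok c d hc hd) e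
end

/-- constants of an enumeration: states `(par, dm)`, the triangle `t c t = e t f`, the quadrangles
`t c1 t c2 t = d1 t d2` -/
structure Cst where
  par : ℕ → ℕ
  dm : ℕ → ℕ
  c : ℕ
  e : ℕ
  f : ℕ
  q : ℕ → ℕ → ℕ

structure CSnd (Y : Sys) (C : Cst) (ψ : ℕ → Γ) (t : Γ) (w : ℕ → Γ) : Prop where
  w0 : w 0 = 1
  w1 : w 1 = t
  df : ∀ j, C.par j < j → w j = w (C.par j) * ψ (C.dm j) * t
  tri : t * ψ C.c * t = ψ C.e * t * ψ C.f
  qok : ∀ u i, Y.ok (C.q u i) = true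
  quad : ∀ u, t * ψ (C.q u 0) * t * ψ (C.q u 1) * t = ψ (C.q u 2) * t * ψ (C.q u 3)

def rDef (Y : Sys) (C : Cst) (r : ℕ) : Bool :=
  Nat.beq (ep r) 1 && Nat.beq (fi r) (C.par (fj r)) && Nat.blt (fi r) (fj r) && Nat.beq (em r) (C.dm (fj r)) &&
    Nat.beq (ea r) Y.one && Nat.beq (eb r) Y.one
def rBase (r : ℕ) : Bool := Nat.beq (ep r) 0 && Nat.beq (fi r) 0 && Nat.beq (fj r) 0 && Nat.beq (em r) (ea r)
def rTau (Y : Sys) (r : ℕ) : Bool :=
  Nat.beq (ep r) 0 && Nat.beq (fi r) 1 && Nat.beq (fj r) 1 && Y.inP (ea r) && force (Y.tau (ea r)) fun u => Y.eq u (em r)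
def rInv (Y : Sys) (r f : ℕ) : Bool :=
  Nat.beq (fi r) (fj f) && Nat.beq (fj r) (fi f) && m2 Y (ea r) (ea f) Y.one &&
    ((Nat.beq (ep r) 0 && Nat.beq (ep f) 0 && m2 Y (em f) (em r) Y.one) ||
      (Nat.beq (ep r) 1 && Nat.beq (ep f) 1 && Nat.beq (em r) (eb f) && Nat.beq (eb r) (em f)))
def rComp (Y : Sys) (r f g : ℕ) : Bool :=
  Nat.beq (ep f) 0 && Nat.beq (ep r) (ep g) && Nat.beq (fi r) (fi f) && Nat.beq (fj f) (fi g) && Nat.beq (fj r) (fj g) &&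
    Nat.beq (eb r) (eb g) && m2 Y (em f) (em g) (em r) && m2 Y (ea f) (ea g) (ea r)
def rCoin (Y : Sys) (r f g : ℕ) : Bool :=
  Nat.beq (ep r) 0 && Nat.beq (ep f) 1 && Nat.beq (ep g) 1 && Nat.beq (fi f) (fi g) && Nat.beq (fi r) (fj g) &&
    Nat.beq (fj r) (fj f) && force (ex r) fun p => Y.ok p && Y.inP p && m2 Y (em f) p (em g) &&
      m2 Y (ea g) (ea r) (ea f) && force (Y.tau p) fun u => m3 Y (em r) (eb f) u (eb g)
def rTri (Y : Sys) (r f g s : ℕ) : Bool :=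
  Nat.beq (ep r) 1 && Nat.beq (ep f) 1 && Nat.beq (ep g) 1 && Nat.beq (ep s) 1 && Nat.beq (fi s) 1 && Nat.beq (fj s) 1 &&
    Nat.beq (fi f) (fi g) && Nat.beq (fi r) (fj f) && Nat.beq (fj r) (fj g) && force (ex r) fun p => Y.ok p && Y.inP p &&
      m4 Y (em g) p (em f) (ea s) && m2 Y (eb f) (em s) (em r) && m2 Y (ea f) (ea r) (ea g) &&
        force (Y.tau p) fun u => m3 Y (eb g) u (eb s) (eb r)
def rQuad (Y : Sys) (C : Cst) (r f g s : ℕ) : Bool :=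
  Nat.beq (ep r) 1 && Nat.beq (ep f) 1 && Nat.beq (ep g) 1 && Nat.beq (ep s) 1 && Nat.beq (fj f) (fi g) &&
    Nat.beq (fi f) (fi s) && Nat.beq (fi r) (fj g) && Nat.beq (fj r) (fj s) && force (hd r 60 15) fun z =>
    force (ex r) fun p => force (ey r) fun q => Y.ok p && Y.inP p && Y.ok q && Y.inP q &&
      m4 Y (em g) p (eb f) (C.q z 0) && m4 Y (em s) q (em f) (C.q z 2) && m3 Y (ea f) (ea g) (ea r) (ea s) &&
        (force (Y.tau p) fun u => m3 Y (eb g) u (C.q z 1) (em r)) && force (Y.tau q) fun u => m3 Y (eb s) u (C.q z 3) (eb r)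
def rShift (Y : Sys) (r f : ℕ) : Bool :=
  Nat.beq (ep r) 1 && Nat.beq (ep f) 1 && Nat.beq (fi r) (fi f) && Nat.beq (fj r) (fj f) && Nat.beq (ea r) (ea f) &&
    force (ex r) fun p => Y.ok p && Y.inP p && m2 Y (em f) p (em r) && force (Y.tau p) fun u => m2 Y (eb f) u (eb r)
def rAx (C : Cst) (r : ℕ) : Bool :=
  Nat.beq (ep r) 1 && Nat.beq (fi r) 1 && Nat.beq (fj r) 1 && Nat.beq (em r) C.c && Nat.beq (ea r) C.e && Nat.beq (eb r) C.f

def okR (Y : Sys) (r : ℕ) : Bool := force (em r) Y.ok && force (ea r) Y.ok && force (eb r) Y.ok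

/-- check of the record with number `k` -/
def chkR (Y : Sys) (C : Cst) (T k : ℕ) : Bool :=
  force (rc T k) fun r => okR Y r && force (rl r) fun n =>
    (Nat.beq n 0 && rDef Y C r) || (Nat.beq n 1 && rBase r) || (Nat.beq n 2 && rTau Y r) || (Nat.beq n 9 && rAx C r) ||
    (Nat.blt (k1 r) k && force (rc T (k1 r)) fun f =>
      (Nat.beq n 3 && rInv Y r f) || (Nat.beq n 8 && rShift Y r f) ||
      (Nat.blt (k2 r) k && force (rc T (k2 r)) fun g =>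
        (Nat.beq n 4 && rComp Y r f g) || (Nat.beq n 5 && rCoin Y r f g) ||
        (Nat.blt (k3 r) k && force (rc T (k3 r)) fun s =>
          (Nat.beq n 6 && rTri Y r f g s) || (Nat.beq n 7 && rQuad Y C r f g s))))

section
variable {Y : Sys} {C : Cst} {ψ : ℕ → Γ} {t : Γ} {w : ℕ → Γ} (h : Snd Y ψ t) (hC : CSnd Y C ψ t w) {r f g s : ℕ}
  (om : Y.ok (em r) = true) (oa : Y.ok (ea r) = true) (ob : Y.ok (eb r) = true)
include h hC om oa ob

theorem sDef (e : rDef Y C r = true) : Hold Y ψ t w r := by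
  simp only [rDef, Bool.and_eq_true, beq_iff, blt_iff] at e
  obtain ⟨⟨⟨⟨⟨e1, e2⟩, e3⟩, e4⟩, e5⟩, e6⟩ := e
  refine ⟨om, oa, ob, fun x => by omega, fun _ => ?_⟩
  rw [e5, e6, h.one, hC.df (fj r) (e2 ▸ e3), ← e2, ← e4, one_mul, mul_one]

theorem sBase (e : rBase r = true) : Hold Y ψ t w r := by
  simp only [rBase, Bool.and_eq_true, beq_iff] at e
  obtain ⟨⟨⟨e1, e2⟩, e3⟩, e4⟩ := e
  refine ⟨om, oa, ob, fun _ => ?_, fun x => by omega⟩
  rw [e2, e3, e4, hC.w0, one_mul, mul_one]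

theorem sTau (e : rTau Y r = true) : Hold Y ψ t w r := by
  simp only [rTau, Bool.and_eq_true, beq_iff, force_eq] at e
  obtain ⟨⟨⟨⟨e1, e2⟩, e3⟩, e4⟩, e5⟩ := e
  refine ⟨om, oa, ob, fun _ => ?_, fun x => by omega⟩
  rw [e2, e3, hC.w1, h.tau _ oa e4, h.eq _ _ (h.tau_ok _ oa e4) om e5]

theorem sAx (e : rAx C r = true) : Hold Y ψ t w r := by
  simp only [rAx, Bool.and_eq_true, beq_iff] at e
  obtain ⟨⟨⟨⟨⟨e1, e2⟩, e3⟩, e4⟩, e5⟩, e6⟩ := e
  refine ⟨om, oa, ob, fun x => by omega, fun _ => ?_⟩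
  rw [e2, e3, e4, e5, e6, hC.w1, hC.tri]

theorem sInv (F : Hold Y ψ t w f) (e : rInv Y r f = true) : Hold Y ψ t w r := by
  simp only [rInv, Bool.and_eq_true, Bool.or_eq_true, beq_iff] at e
  obtain ⟨⟨⟨e1, e2⟩, e3⟩, e4⟩ := e
  have a := h.m2 oa F.oa h.one_ok e3
  rw [h.one] at a
  have a := eq_inv_of_mul_eq_one_left a
  rcases e4 with ⟨⟨e4, e5⟩, e6⟩ | ⟨⟨⟨e4, e5⟩, e6⟩, e7⟩
  · refine ⟨om, oa, ob, fun _ => ?_, fun x => by omega⟩
    have b := h.m2 F.om om h.one_ok e6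
    rw [h.one] at b
    rw [e1, e2, a, eq_inv_of_mul_eq_one_right b, ← mul_left_cancel_iff (a := ψ (ea f)), ← mul_assoc, ← F.h0 e5]; group
  · refine ⟨om, oa, ob, fun x => by omega, fun _ => ?_⟩
    rw [e1, e2, a, e6, e7, ← mul_left_cancel_iff (a := ψ (ea f)), ← mul_assoc, ← mul_assoc, ← F.h1 e5, mul_assoc _ t, h.tt]
    group

theorem sComp (F : Hold Y ψ t w f) (G : Hold Y ψ t w g) (e : rComp Y r f g = true) : Hold Y ψ t w r := by
  simp only [rComp, Bool.and_eq_true, beq_iff] at e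
  obtain ⟨⟨⟨⟨⟨⟨⟨e1, e2⟩, e3⟩, e4⟩, e5⟩, e6⟩, e7⟩, e8⟩ := e
  have a := h.m2 F.om G.om om e7
  have b := h.m2 F.oa G.oa oa e8
  refine ⟨om, oa, ob, fun x => ?_, fun x => ?_⟩
  · rw [← a, ← b, e3, e5, ← mul_assoc, F.h0 e1, e4, mul_assoc, G.h0 (e2 ▸ x), mul_assoc]
  · rw [← a, ← b, e3, e5, e6, ← mul_assoc, F.h0 e1, e4, mul_assoc (ψ (ea f)), mul_assoc (ψ (ea f)), G.h1 (e2 ▸ x)]; group

theorem sShift (F : Hold Y ψ t w f) (e : rShift Y r f = true) : Hold Y ψ t w r := by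
  simp only [rShift, Bool.and_eq_true, beq_iff, force_eq] at e
  obtain ⟨⟨⟨⟨⟨e1, e2⟩, e3⟩, e4⟩, e5⟩, ⟨⟨op, ip⟩, e6⟩, e7⟩ := e
  refine ⟨om, oa, ob, fun x => by omega, fun _ => ?_⟩
  rw [← h.m2 F.om op om e6, ← h.m2 F.ob (h.tau_ok _ op ip) ob e7, e3, e4, e5, ← mul_assoc, mul_assoc _ _ t, h.tau _ op ip,
    ← mul_assoc, F.h1 e2, mul_assoc]

theorem sCoin (F : Hold Y ψ t w f) (G : Hold Y ψ t w g) (e : rCoin Y r f g = true) : Hold Y ψ t w r := by
  simp only [rCoin, Bool.and_eq_true, beq_iff, force_eq] at e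
  obtain ⟨⟨⟨⟨⟨⟨e1, e2⟩, e3⟩, e4⟩, e5⟩, e6⟩, ⟨⟨⟨op, ip⟩, e7⟩, e8⟩, e9⟩ := e
  refine ⟨om, oa, ob, fun _ => ?_, fun x => by omega⟩
  have a := G.h1 e3
  rw [← h.m2 F.om op G.om e7, ← e4, ← mul_assoc, mul_assoc _ _ t, h.tau _ op ip, ← mul_assoc, F.h1 e2,
    ← h.m2 G.oa oa F.oa e8, ← h.m3 om F.ob (h.tau_ok _ op ip) G.ob e9, ← mul_assoc, ← mul_assoc, mul_left_inj, mul_left_inj,
    mul_assoc, mul_assoc, mul_right_inj] at a
  rw [e5, e6, a]

theorem sTri (F : Hold Y ψ t w f) (G : Hold Y ψ t w g) (S : Hold Y ψ t w s) (e : rTri Y r f g s = true) :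
    Hold Y ψ t w r := by
  simp only [rTri, Bool.and_eq_true, beq_iff, force_eq] at e
  obtain ⟨⟨⟨⟨⟨⟨⟨⟨⟨e1, e2⟩, e3⟩, e4⟩, e5⟩, e6⟩, e7⟩, e8⟩, e9⟩, ⟨⟨⟨⟨op, ip⟩, a1⟩, a2⟩, a3⟩, a4⟩ := e
  refine ⟨om, oa, ob, fun x => by omega, fun _ => ?_⟩
  have b := S.h1 e4
  rw [e5, e6, hC.w1] at b
  have c := G.h1 e3
  have a1 := h.m4 G.om op F.om S.oa a1
  rw [← h.m2 F.oa oa G.oa a3, ← e7] at c
  rw [← h.m2 F.ob S.om om a2, ← h.m3 G.ob (h.tau_ok _ op ip) S.ob ob a4, e8, e9, ← mul_left_cancel_iff (a := ψ (ea f))]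
  calc _ = ψ (ea f) * w (fj f) * ψ (eb f) * ψ (em s) * t := by group
    _ = w (fi f) * ψ (em f) * (t * ψ (em s) * t) := by rw [← F.h1 e2]; group
    _ = w (fi f) * (ψ (em f) * ψ (ea s)) * t * ψ (eb s) := by rw [b]; group
    _ = w (fi f) * ψ (em g) * (ψ (ex r) * t) * ψ (eb s) := by rw [← a1]; group
    _ = w (fi f) * ψ (em g) * t * ψ (Y.tau (ex r)) * ψ (eb s) := by rw [h.tau _ op ip]; group
    _ = _ := by rw [c]; group

theorem sQuad (F : Hold Y ψ t w f) (G : Hold Y ψ t w g) (S : Hold Y ψ t w s) (e : rQuad Y C r f g s = true) :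
    Hold Y ψ t w r := by
  simp only [rQuad, Bool.and_eq_true, beq_iff, force_eq] at e
  obtain ⟨⟨⟨⟨⟨⟨⟨⟨e1, e2⟩, e3⟩, e4⟩, e5⟩, e6⟩, e7⟩, e8⟩, ⟨⟨⟨⟨⟨⟨⟨op, ip⟩, oq⟩, iq⟩, a1⟩, a2⟩, a3⟩, a4⟩, a5⟩ := e
  refine ⟨om, oa, ob, fun x => by omega, fun _ => ?_⟩
  have a1 := h.m4 G.om op F.ob (hC.qok _ _) a1
  have a2 := h.m4 S.om oq F.om (hC.qok _ _) a2
  have c := S.h1 e4
  rw [← h.m3 F.oa G.oa oa S.oa a3, ← e6] at c
  have d := G.h1 e3
  rw [← e5] at d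
  rw [← h.m3 G.ob (h.tau_ok _ op ip) (hC.qok _ _) om a4, ← h.m3 S.ob (h.tau_ok _ oq iq) (hC.qok _ _) ob a5, e7, e8,
    ← mul_left_cancel_iff (a := ψ (ea f) * ψ (ea g))]
  set z := hd r 60 15
  calc _ = ψ (ea f) * (ψ (ea g) * w (fj g) * ψ (eb g)) * ψ (Y.tau (ex r)) * ψ (C.q z 1) * t := by group
    _ = ψ (ea f) * w (fj f) * ψ (em g) * (t * ψ (Y.tau (ex r))) * ψ (C.q z 1) * t := by rw [← d]; group
    _ = ψ (ea f) * w (fj f) * (ψ (em g) * ψ (ex r)) * t * ψ (C.q z 1) * t := by rw [← h.tau _ op ip]; group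
    _ = ψ (ea f) * w (fj f) * ψ (eb f) * ψ (C.q z 0) * t * ψ (C.q z 1) * t := by rw [a1]; group
    _ = w (fi f) * ψ (em f) * (t * ψ (C.q z 0) * t * ψ (C.q z 1) * t) := by rw [← F.h1 e2]; group
    _ = w (fi f) * (ψ (em f) * ψ (C.q z 2)) * t * ψ (C.q z 3) := by rw [hC.quad]; group
    _ = w (fi f) * ψ (em s) * (ψ (ey r) * t) * ψ (C.q z 3) := by rw [← a2]; group
    _ = w (fi f) * ψ (em s) * t * ψ (Y.tau (ey r)) * ψ (C.q z 3) := by rw [h.tau _ oq iq]; group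
    _ = _ := by rw [c]; group
end

theorem sound {Y : Sys} {C : Cst} {ψ : ℕ → Γ} {t : Γ} {w : ℕ → Γ} (h : Snd Y ψ t) (hC : CSnd Y C ψ t w) {T n : ℕ}
    (H : ∀ k < n, chkR Y C T k = true) : ∀ k < n, Hold Y ψ t w (rc T k) := by
  intro k
  induction k using Nat.strong_induction_on with
  | _ k ih =>
  intro hk
  have e := H k hk
  simp only [chkR, okR, force_eq, Bool.and_eq_true, Bool.or_eq_true, blt_iff] at e
  obtain ⟨⟨⟨om, oa⟩, ob⟩, e⟩ := e
  rcases e with (((e | e) | e) | e) | ⟨l1, e⟩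
  · exact sDef h hC om oa ob e.2
  · exact sBase h hC om oa ob e.2
  · exact sTau h hC om oa ob e.2
  · exact sAx h hC om oa ob e.2
  have F := ih _ l1 (l1.trans hk)
  rcases e with (e | e) | ⟨l2, e⟩
  · exact sInv h hC om oa ob F e.2
  · exact sShift h hC om oa ob F e.2
  have G := ih _ l2 (l2.trans hk)
  rcases e with (e | e) | ⟨l3, e⟩
  · exact sComp h hC om oa ob F G e.2
  · exact sCoin h hC om oa ob F G e.2
  have S := ih _ l3 (l3.trans hk)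
  rcases e with e | e
  · exact sTri h hC om oa ob F G S e.2
  · exact sQuad h hC om oa ob F G S e.2

/-- the words of the states -/
noncomputable def wd (par dm : ℕ → ℕ) (ψ : ℕ → Γ) (t : Γ) (j : ℕ) : Γ :=
  if h : par j < j then wd par dm ψ t (par j) * ψ (dm j) * t else 1
termination_by j

theorem wd_eq (par dm : ℕ → ℕ) (ψ : ℕ → Γ) (t : Γ) {j : ℕ} (h : par j < j) :
    wd par dm ψ t j = wd par dm ψ t (par j) * ψ (dm j) * t := by rw [wd, dif_pos h]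

theorem wd_zero (par dm : ℕ → ℕ) (ψ : ℕ → Γ) (t : Γ) : wd par dm ψ t 0 = 1 := by rw [wd, dif_neg (Nat.not_lt_zero _)]

theorem wd_mem {par dm : ℕ → ℕ} {ψ : ℕ → Γ} {t : Γ} {H : Subgroup Γ} (h1 : ∀ j, par j < j → ψ (dm j) ∈ H) (h2 : t ∈ H) (j : ℕ) :
    wd par dm ψ t j ∈ H := by
  induction j using Nat.strong_induction_on with
  | _ j ih =>
  rw [wd]; split_ifs with h
  · exact H.mul_mem (H.mul_mem (ih _ h) (h1 j h)) h2
  · exact H.one_mem

/-! ### Schreier forests -/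

/-- an entry: parent (or fact) `14` bits, generator `4` bits, depth `6` bits -/
def chkF (root : ℕ → ℕ → Bool) (stp : ℕ → ℕ → ℕ → Bool) (T l : ℕ) : Bool :=
  force (fld 24 T l) fun e => force (Nat.land e 16383) fun p => force (Nat.shiftRight e 18) fun d =>
    Bool.rec (Nat.blt (Nat.shiftRight (fld 24 T p) 18) d && stp (Nat.land (Nat.shiftRight e 14) 15) p l) (root p l)
      (Nat.beq d 0)

theorem forest {Good : ℕ → Prop} {root : ℕ → ℕ → Bool} {stp : ℕ → ℕ → ℕ → Bool} {T N : ℕ}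
    (hr : ∀ p l, root p l = true → Good l) (hs : ∀ g p l, stp g p l = true → p < N ∧ (Good p → Good l))
    (H : ∀ l < N, chkF root stp T l = true) : ∀ l < N, Good l := by
  suffices ∀ d l, l < N → Nat.shiftRight (fld 24 T l) 18 = d → Good l from fun l hl => this _ l hl rfl
  intro d
  induction d using Nat.strong_induction_on with
  | _ d ih =>
  intro l hl e
  have a := H l hl
  simp only [chkF, force_eq] at a
  rw [e] at a
  cases hd : Nat.beq d 0 <;> rw [hd] at a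
  · rw [Bool.and_eq_true, blt_iff] at a
    obtain ⟨b, c⟩ := hs _ _ _ a.2
    exact c (ih _ a.1 _ b rfl)
  · exact hr _ _ a

theorem allLt_split {f : ℕ → Bool} {a b : ℕ} (h1 : ∀ i < a, f i = true) (h2 : allLt (fun i => f (Nat.add a i)) b = true) :
    ∀ i < a + b, f i = true := fun i hi => by
  by_cases h : i < a
  · exact h1 i h
  · have := allLt_iff.1 h2 (i - a) (by omega)
    rwa [show Nat.add a (i - a) = i by show a + (i - a) = i; omega] at this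

/-- induction over the subgroup generated by elements of finite order -/
theorem closure_ind_fin {s : Set Γ} (hs : ∀ g ∈ s, IsOfFinOrder g) {P : Γ → Prop} (h1 : P 1)
    (hm : ∀ g ∈ s, ∀ x, P x → P (g * x)) {x : Γ} (hx : x ∈ Subgroup.closure s) : P x := by
  have hp : ∀ g ∈ s, ∀ n : ℕ, ∀ x, P x → P (g ^ n * x) := fun g hg n => by
    induction n with
    | zero => intro x hx; rwa [pow_zero, one_mul]
    | succ n ih => intro x hx; rw [pow_succ', mul_assoc]; exact hm g hg _ (ih x hx)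
  induction hx using Subgroup.closure_induction_left with
  | one => exact h1
  | mul_left g hg y _ ih => exact hm g hg y ih
  | inv_mul_cancel g hg y _ ih =>
    have := hp g hg (orderOf g - 1) y ih
    rwa [show g ^ (orderOf g - 1) = g⁻¹ from eq_inv_of_mul_eq_one_left (by
      rw [← pow_succ, Nat.sub_add_cancel (hs g hg).orderOf_pos, pow_orderOf_eq_one])] at this

end CA.J4.Dce
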