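import Cfsg.Agent.Lib.J4.TrioH

/-!
The trio `c0|c1, c2|c3, c4|c5`: data in `M24` and general tools.
-/

set_option autoImplicit false
set_option linter.unusedSectionVars false
set_option linter.unusedVariables false

namespace CA.J4
open Cfsg CA.Gol CA.Ex2 CA.XS Subgroup
open scoped Pointwise

/-! ### general tools -/

theorem apM_xor24 (g : Pm) {a b : ℕ} (ha : a < 2 ^ 24) (hb : b < 2 ^ 24) :
    apM (code g) (Nat.xor a b) = Nat.xor (apM (code g) a) (apM (code g) b) :=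
  fs_inj (apM_lt g (xor_lt ha hb)) (xor_lt (apM_lt g ha) (apM_lt g hb)) (by
    rw [← smul_fs g (xor_lt ha hb), fs_xor, fs_xor, smul_symmDiff, smul_fs g ha, smul_fs g hb])

theorem apM_mul (g k : Pm) {a : ℕ} (ha : a < 2 ^ 24) : apM (code (g * k)) a = apM (code g) (apM (code k) a) :=
  fs_inj (apM_lt _ ha) (apM_lt g (apM_lt k ha)) (by
    rw [← smul_fs _ ha, mul_smul, smul_fs k ha, smul_fs g (apM_lt k ha)])

/-- the stabilizer of a vector of the Todd module -/
def Sxm (m : ℕ) : Subgroup Pm where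
  carrier := {g | g ∈ M24 ∧ symmDiff (g • fs m) (fs m) ∈ CW}
  mul_mem' := fun {a b} ha hb => ⟨mul_mem ha.1 hb.1, by
    have := symmDiff_mem_CW (smul_mem_CW ha.1 hb.2) ha.2
    rwa [smul_symmDiff, symmDiff_assoc, symmDiff_symmDiff_cancel_left, ← mul_smul] at this⟩
  one_mem' := ⟨one_mem _, by rw [one_smul, symmDiff_self]; exact empty_mem_CW⟩
  inv_mem' := fun {a} ha => ⟨inv_mem ha.1, by
    have := smul_mem_CW (inv_mem ha.1) ha.2
    rwa [smul_symmDiff, inv_smul_smul, symmDiff_comm] at this⟩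

theorem mem_Sxm {g : Pm} {m : ℕ} (hm : m < 2 ^ 24) : g ∈ Sxm m ↔ g ∈ M24 ∧ fx (code g) m = true := by
  rw [fx, eqv, ← fs_mem_CW_iff (xor_lt (apM_lt g hm) hm), fs_xor, ← smul_fs g hm]; rfl

/-- `L` lists the tetrads of the sextet of `m`, with block function `t` -/
def sxOK (m : ℕ) (L : List ℕ) (t : ℕ) : Bool :=
  Nat.blt m 16777216 && allLt (fun i => !(Nat.beq (popc (Nat.xor (enc i) m)) 4) || memL (Nat.xor (enc i) m) L) 4096 &&
  allL L (fun u => Nat.blt u 16777216 && Nat.beq (popc u) 4 && eqv u m) &&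
  allLt (fun i => allLt (fun j => beqB (Nat.beq (ap t i) (ap t j)) (anyL L fun u => tb u i && tb u j)) 24) 24

theorem Sxm_blk {m t : ℕ} {L : List ℕ} (h : sxOK m L t = true) {g : Pm} (hg : g ∈ Sxm m) {u : ℕ} (hu : u ∈ L) :
    apM (code g) u ∈ L := by
  simp only [sxOK, Bool.and_eq_true, blt_iff, allL_iff, beq_iff] at h
  obtain ⟨⟨⟨hm, h1⟩, h2⟩, -⟩ := h
  obtain ⟨⟨a1, a2⟩, a3⟩ := h2 u hu
  have b1 := apM_lt g a1
  have b2 : symmDiff (fs (apM (code g) u)) (fs m) ∈ CW := by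
    rw [eqv, ← fs_mem_CW_iff (xor_lt a1 hm), fs_xor] at a3
    have := symmDiff_mem_CW (smul_mem_CW hg.1 a3) hg.2
    rwa [smul_symmDiff, symmDiff_assoc, symmDiff_symmDiff_cancel_left, smul_fs g a1] at this
  obtain ⟨i, hi, e⟩ := exists_enc b2
  rw [← fs_xor] at e
  have e1 := fs_inj (xor_lt b1 hm) (enc_lt hi) e
  have e2 : apM (code g) u = Nat.xor (enc i) m := by
    rw [← e1]; show _ = (_ ^^^ m) ^^^ m; rw [Nat.xor_assoc, Nat.xor_self, Nat.xor_zero]
  have := allLt_iff.1 h1 i hi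
  rw [← e2, ← card_fs, ← smul_fs g a1, card_smul, card_fs, a2] at this
  exact memL_iff.1 (by simpa using this)

theorem tb_apM (g : Pm) {u i : ℕ} (hu : u < 2 ^ 24) (hi : i < 24) :
    tb (apM (code g) u) (ap (code g) i) = true ↔ tb u i = true := by
  rw [← pt_mem_fs hi, ← pt_mem_fs (ap_code_lt g hi), ← apply_pt g hi, ← smul_fs g hu, apply_mem_smul]

theorem sat_blocks {t : ℕ} {L : List ℕ} (h0 : ∀ u ∈ L, u < 2 ^ 24)
    (h : allLt (fun i => allLt (fun j => beqB (Nat.beq (ap t i) (ap t j)) (anyL L fun u => tb u i && tb u j)) 24) 24 = true)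
    {g : Pm} (h1 : ∀ u ∈ L, apM (code g) u ∈ L) (h2 : ∀ u ∈ L, apM (code g⁻¹) u ∈ L) : Sat (pPart t t) (code g) := by
  have key : ∀ i < 24, ∀ j < 24, (Nat.beq (ap t i) (ap t j) = true ↔ ∃ u ∈ L, tb u i = true ∧ tb u j = true) := by
    intro i hi j hj
    rw [beqB_iff.1 (allLt_iff.1 (allLt_iff.1 h i hi) j hj), anyL_iff]; simp
  intro i hi j hj
  rw [pPart, beqB_iff, Bool.eq_iff_iff, key i hi j hj, key _ (ap_code_lt g hi) _ (ap_code_lt g hj)]
  refine ⟨fun ⟨u, hu, a, b⟩ => ⟨_, h1 u hu, (tb_apM g (h0 u hu) hi).2 a, (tb_apM g (h0 u hu) hj).2 b⟩,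
    fun ⟨u, hu, a, b⟩ => ⟨_, h2 u hu, ?_, ?_⟩⟩
  · rwa [← tb_apM g (apM_lt _ (h0 u hu)) hi, ← apM_mul _ _ (h0 u hu), mul_inv_cancel,
      (smul_fs_eq_iff 1 (h0 u hu) (h0 u hu)).1 (one_smul _ _)]
  · rwa [← tb_apM g (apM_lt _ (h0 u hu)) hj, ← apM_mul _ _ (h0 u hu), mul_inv_cancel,
      (smul_fs_eq_iff 1 (h0 u hu) (h0 u hu)).1 (one_smul _ _)]

theorem sat_Sxm {m t : ℕ} {L : List ℕ} (h : sxOK m L t = true) {g : Pm} (hg : g ∈ Sxm m) :
    Sat (pPart t t) (code g) := by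
  have h' := h
  simp only [sxOK, Bool.and_eq_true, blt_iff, allL_iff] at h'
  exact sat_blocks (fun u hu => (h'.1.2 u hu).1.1) h'.2 (fun u hu => Sxm_blk h hg hu) fun u hu =>
    Sxm_blk h (inv_mem hg) hu

/-- reduction with respect to an echelon basis -/
def spanRed (L : List ℕ) : ℕ → ℕ :=
  List.rec (fun m => m) (fun w _ ih m => force (Nat.xor m w) fun x => ih (Bool.rec m x (Nat.blt x m))) L

theorem span_ind {P : ℕ → Prop} (hx : ∀ a b, P a → P b → P (Nat.xor a b)) (h0 : P 0) {L : List ℕ} (hL : ∀ w ∈ L, P w)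
    {m : ℕ} (h : spanRed L m = 0) : P m := by
  induction L generalizing m with
  | nil => exact (show m = 0 from h) ▸ h0
  | cons w L ih =>
    have := ih (fun w hw => hL w (List.mem_cons_of_mem _ hw)) (m := Bool.rec m (Nat.xor m w) (Nat.blt (Nat.xor m w) m))
      (by rw [← h]; simp only [spanRed, force_eq])
    cases e : Nat.blt (Nat.xor m w) m <;> rw [e] at this
    · exact this
    · have := hx _ _ this (hL w List.mem_cons_self)
      rwa [show Nat.xor (Nat.xor m w) w = m by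
        show (m ^^^ w) ^^^ w = m; rw [Nat.xor_assoc, Nat.xor_self, Nat.xor_zero]] at this

theorem memL_xor {L : List ℕ} (h : allL L (fun a => allL L fun b => memL (Nat.xor a b) L) = true) (a b : ℕ)
    (ha : memL a L = true) (hb : memL b L = true) : memL (Nat.xor a b) L = true :=
  allL_iff.1 (allL_iff.1 h a (memL_iff.1 ha)) b (memL_iff.1 hb)

/-! ### the trio -/

def O1 : ℕ := 0x82402f
def O2 : ℕ := 0x149f00
def z2 : ℕ := 0x2b
def z3 : ℕ := 0x400e
def sxb1 : ℕ := 0x2906218404100810884118c04014a5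
def sxb2 : ℕ := 0x29062204a3094820844220c0301400
def sxb3 : ℕ := 0x29083208a11802318842084a400005
/-- the sextets refining the trio -/
def ZL : List ℕ := [0, 0xda1000, 0x56f000, 0x8ce000, 0xf33000, 0x292000, 0xa5c000, 0x7fd000]
/-- echelon basis of the vectors even on each octad -/
def WL : List ℕ := [0x804000, 0x402000, 0x202000, 0x101000, 0x82000, 0x41000, 0x24000, 0x12000, 0x9000]
/-- the group `O_2` of the trio group -/
def RL : List ℕ := [
  0x1274ac8ad78e0c5a92831e3670457, 0x19a883cb390ea952d9425a2770457, 0x1e126d0b540e6a4b16fb122670457,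
  0x34ca3b0a448ed2451eb9d63070457, 0x40e932cb650c8893e8cace2d70457, 0x4c8bb24a660cefa224a6c23570457,
  0x56cc228a758cd47c9098363370457, 0x5aaf9a0b0a0dab6255239a2470457, 0x9269aac6d5160893e8c31dd6882e2,
  0x99ac82873596b47c909259c7882e2, 0x9e0b6a4756166fa224ab11c6882e2, 0xb4cf3a064a16cb625529d5d0882e2,
  0xc0f4348767948c5a928acdcd882e2, 0xcc92b5066414ea4b16f6c1d5882e2, 0xd6c823c67914c952d94835d3882e2,
  0xdaaa9b070495b2451eb399c4882e2, 0x1126aab1cd4c612451eb31c762dc01, 0x119ab825d3646afa224a258672dc01,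
  0x11e0c6a9d55c6747c909b10662dc01, 0x134d43c9c47c6cc5a9289d4702dc01, 0x140ef321d6a448b62552acc6d2dc01,
  0x14c88b3dc6944e952d946c0752dc01, 0x156d2251c7444ca4b16f834732dc01, 0x15aa99add0545a893e8c398642dc01,
  0x19268abc2d9020952d9431c56b962e, 0x199b484833782ac5a92825847b962e, 0x19e0f6a035a026b62552b1046b962e,
  0x1b4cb3a424602cfa224a9d450b962e, 0x1c0ec32836580947c909acc4db962e, 0x1cc8ab3026480f2451eb6c055b962e,
  0x1d6c922c27500c893e8c83453b962e, 0x1dab29d030401aa4b16f39844b962e, 0x2926caa80d586147c90931ef610dd1,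
  0x299a982c13506a893e8c25ae710dd1, 0x29e0a6b01548672451ebb12e610dd1, 0x2b4d23d004406ca4b16f9d6f010dd1,
  0x2c0e833c169048952d94aceed10dd1, 0x2cc8fb2006a04eb625526c2f510dd1, 0x2d6d424807784cc5a928836f310dd1,
  0x2daab9a410605afa224a39ae410dd1, 0x71272ad04d45e0a4b16f31c36044a3, 0x719af82053a5eab6255225827044a3,
  0x71e146c8557de6c5a928b1026044a3, 0x734cc3a8445ded47c9099d430044a3, 0x740eb3245665c8fa224aacc2d044a3,
  0x74c89b2c4655ce893e8c6c035044a3, 0x756ca230474dcd2451eb83433044a3, 0x75aa89bc5095da952d9439824044a3,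
  0x8926baa6ed60a0fa224a31c160b865, 0x899aa832f348ab2451eb258070b865, 0x89e096aef550a6893e8cb10060b865,
  0x8b4c83bee490ac952d949d4100b865, 0x8c0f2352f64088a4b16facc0d0b865, 0x8cc94b4ae6788ec5a9286c0150b865,
  0x8d6cf222e7a08cb62552834130b865, 0x8daac9aaf0589b47c909398040b865, 0xb926faa22da3a0b6255231cb618820,
  0xb99b28523343aaa4b16f258a718820, 0xb9e086be3593a6952d94b10a618820, 0xbb4c93ae2453ac893e8c9d4b018820,
  0xbc0ea332364b892451ebaccad18820, 0xbcc8cb2a265b8f47c9096c0b518820, 0xbd6cb22627638cfa224a834b318820,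
  0xbdab49ca307b9ac5a928398a418820]
/-- an element of order seven -/
def sgC : ℕ := 0x15889348ad6026b5510f854271baf1
/-- an element of order three permuting the octads -/
def tauC : ℕ := 0xa0c460d9913a0b06cea405d6e9254f
/-- an involution -/
def bC : ℕ := 0x2cc8bb2807608cfa4909836f50b871
def d1 : ℕ := 0x40008
def d2 : ℕ := 0x440000
def d3 : ℕ := 0x400008

theorem sx1 : sxOK T0 [0x24028, 0x41900, 0x108600, 0x2800c0, 0x412010, 0x800007] sxb1 = true := by decide +kernel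
theorem sx2 : sxOK z2 [0x2b, 0x48c00, 0x101300, 0x210050, 0x482080, 0x824004] sxb2 = true := by decide +kernel
theorem sx3 : sxOK z3 [0x400e, 0x120c0, 0x40700, 0x109800, 0x680010, 0x820021] sxb3 = true := by decide +kernel

theorem z2_lt : z2 < 2 ^ 24 := by decide
theorem z3_lt : z3 < 2 ^ 24 := by decide
theorem O1_lt : O1 < 2 ^ 24 := by decide
theorem O2_lt : O2 < 2 ^ 24 := by decide
theorem z2_ev : ev z2 = true := by decide +kernel
theorem z3_ev : ev z3 = true := by decide +kernel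
theorem d1_ev : ev d1 = true := by decide +kernel
theorem d2_ev : ev d2 = true := by decide +kernel
theorem d3_ev : ev d3 = true := by decide +kernel
theorem sgC_in : inM24 sgC = true := by decide +kernel
theorem tauC_in : inM24 tauC = true := by decide +kernel
theorem bC_in : inM24 bC = true := by decide +kernel

/-- membership in `Z` (for reduced vectors) -/
def pZ (r : ℕ) : Bool := memL r ZL
/-- parity on an octad (for reduced vectors) -/
def pw (A r : ℕ) : ℕ := par (Nat.land (Nat.shiftRight r 12) A)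
/-- membership in `W` (for reduced vectors) -/
def pW (r : ℕ) : Bool := Nat.beq (pw 0x824 r) 0 && Nat.beq (pw 0x149 r) 0
/-- the commutator `[c, m]` -/
def cmv (c m : ℕ) : ℕ := red (Nat.xor (apM c m) m)

theorem pZ_xor : ∀ a b, pZ a = true → pZ b = true → pZ (Nat.xor a b) = true := memL_xor (by decide +kernel)
theorem pw_xor {A : ℕ} (hA : A < 4096) (a b : ℕ) : pw A (Nat.xor a b) = pw A a ^^^ pw A b := by
  have l : ∀ x, Nat.land x A < 4096 := fun x => lt_of_le_of_lt Nat.and_le_right hA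
  rw [pw, pw, pw, ← par_xor (l _) (l _)]
  show par (((a ^^^ b) >>> 12) &&& A) = par (((a >>> 12) &&& A) ^^^ ((b >>> 12) &&& A))
  rw [Nat.shiftRight_xor_distrib, Nat.and_xor_distrib_right]
theorem pW_xor : ∀ a b, pW a = true → pW b = true → pW (Nat.xor a b) = true := fun a b ha hb => by
  simp only [pW, Bool.and_eq_true, beq_iff] at *
  rw [pw_xor (by norm_num), pw_xor (by norm_num), ha.1, ha.2, hb.1, hb.2]; simp

/-- the centralizer of two sextets -/
def S12 : Subgroup Pm := Sxm T0 ⊓ Sxm z2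
/-- the centralizer of `Z` -/
def C3 : Subgroup Pm := S12 ⊓ Sxm z3
/-- the group `2^6` -/
def R6 : Subgroup Pm := C3 ⊓ (MulAction.stabilizer Pm (fs O1) ⊓ MulAction.stabilizer Pm (fs O2))
def fx3 (c : ℕ) : Bool := fx c T0 && fx c z2 && fx c z3

theorem memS12 {g : Pm} : g ∈ S12 ↔ g ∈ M24 ∧ (fx (code g) T0 && fx (code g) z2) = true := by
  rw [S12, mem_inf, mem_Sxm T0_lt, mem_Sxm z2_lt, Bool.and_eq_true]; tauto
theorem memC3 {g : Pm} : g ∈ C3 ↔ g ∈ M24 ∧ fx3 (code g) = true := by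
  rw [C3, mem_inf, memS12, mem_Sxm z3_lt, fx3]; simp only [Bool.and_eq_true]; tauto
theorem memR6' {g : Pm} : g ∈ R6 ↔ g ∈ M24 ∧ (fx3 (code g) && (st (code g) O1 && st (code g) O2)) = true := by
  rw [R6, mem_inf, memC3, Bool.and_eq_true, Bool.and_eq_true, st_iff O1_lt, st_iff O2_lt, and_assoc]; rfl

theorem satC3 {g : Pm} (hg : g ∈ C3) : Sat (pAnd (pAnd (pPart sxb1 sxb1) (pPart sxb2 sxb2)) (pPart sxb3 sxb3)) (code g) :=
  ((sat_Sxm sx1 hg.1.1).and (sat_Sxm sx2 hg.1.2)).and (sat_Sxm sx3 hg.2)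

theorem card_S12 : Nat.card S12 = 1536 :=
  card_of_count (P := pAnd (pPart sxb1 sxb1) (pPart sxb2 sxb2)) (leaf := fun c => fx c T0 && fx c z2)
    (k := 0x4d6243054881df71580da2e4e2cc6c) (ki := 0x62ac7116af69100346f074c740ae49) (by decide +kernel)
    (fun g hg => ⟨hg.1.1, (sat_Sxm sx1 hg.1).and (sat_Sxm sx2 hg.2), (memS12.1 hg).2⟩) fun g hg h => memS12.2 ⟨hg, h⟩

theorem card_C3 : Nat.card C3 = 384 :=
  card_of_count (leaf := fx3) (k := 0x400552c88e31c29a59abb8e119bd4c) (ki := 0x3aa8b1c885141204059773e71355b6)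
    (by decide +kernel) (fun g hg => ⟨hg.1.1.1, satC3 hg, (memC3.1 hg).2⟩) fun g hg h => memC3.2 ⟨hg, h⟩

theorem card_R6 : Nat.card R6 = 64 :=
  card_of_count (leaf := fun c => fx3 c && (st c O1 && st c O2)) (k := 0x400552c88e31c29a59abb8e119bd4c)
    (ki := 0x3aa8b1c885141204059773e71355b6) (by decide +kernel)
    (fun g hg => ⟨hg.1.1.1.1, satC3 hg.1, (memR6'.1 hg).2⟩) fun g hg h => memR6'.2 ⟨hg, h⟩

theorem C3_key {g : Pm} (hg : g ∈ C3) (h : (st (code g) O1 && st (code g) O2) = true ∨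
    (pW (cmv (code g) d1) && pW (cmv (code g) d2)) = true) : code g ∈ RL := by
  have := all24_sound (leaf := fun c => memL c RL || !(fx3 c) || (!(st c O1 && st c O2) && !(pW (cmv c d1) && pW (cmv c d2))))
    (k := 0x400552c88e31c29a59abb8e119bd4c) (ki := 0x3aa8b1c885141204059773e71355b6) (by decide +kernel) hg.1.1.1
    (satC3 hg)
  rw [(memC3.1 hg).2] at this
  rw [← memL_iff]
  rcases h with h | h <;> rw [h] at this <;> simpa using this

theorem RL_chk : allL RL (fun r => inM24 r && (fx3 r && (st r O1 && st r O2)) && Nat.beq (mul r r) oneC &&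
    (Nat.beq r oneC || (!(cmC r sgC) && anyL WL fun w => !(fx r w))) && allL WL (fun w => pZ (cmv r w)) &&
    memL (mul sgC (mul r (powC sgC 6))) RL &&
    force (mul r bC) fun y => pW (cmv y d1) && pW (cmv y d2) && !(fx y d1 && fx y d2)) = true := by decide +kernel

theorem memR6 {g : Pm} : g ∈ R6 ↔ code g ∈ RL := by
  refine ⟨fun h => C3_key h.1 (Or.inl (Bool.and_eq_true _ _ ▸ (memR6'.1 h).2).2), fun h => ?_⟩
  have := allL_iff.1 RL_chk _ h
  simp only [Bool.and_eq_true] at this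
  exact memR6'.2 ⟨mem_M24_iff_code.2 this.1.1.1.1.1.1, by simp only [Bool.and_eq_true]; exact this.1.1.1.1.1.2⟩

theorem R6_24 : R6 ≤ M24 := fun _ h => h.1.1.1.1
theorem R6_mem {c : ℕ} (h : memL c RL = true) : inM24 c = true ∧ perm c ∈ R6 := by
  have := allL_iff.1 RL_chk _ (memL_iff.1 h)
  simp only [Bool.and_eq_true] at this
  have h1 := this.1.1.1.1.1.1
  exact ⟨h1, memR6.2 (by rw [code_perm' h1]; exact memL_iff.1 h)⟩

theorem R6_spec {g : Pm} (hg : g ∈ R6) : g * g = 1 ∧ (g = 1 ∨ (g * perm sgC ≠ perm sgC * g ∧ ∃ w ∈ WL, fx (code g) w = false)) ∧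
    (∀ w ∈ WL, pZ (cmv (code g) w) = true) ∧ perm sgC * g * (perm sgC)⁻¹ ∈ R6 ∧
    pW (cmv (code (g * perm bC)) d1) = true ∧ pW (cmv (code (g * perm bC)) d2) = true ∧
    ¬ (fx (code (g * perm bC)) d1 = true ∧ fx (code (g * perm bC)) d2 = true) := by
  have := allL_iff.1 RL_chk _ (memR6.1 hg)
  simp only [Bool.and_eq_true, force_eq, beq_iff, Bool.or_eq_true, Bool.not_eq_true', anyL_iff, allL_iff, memL_iff,
    Bool.and_eq_false_iff] at this
  obtain ⟨⟨⟨⟨⟨-, h1⟩, h2⟩, h3⟩, h4⟩, ⟨h5, h6⟩, h7⟩ := this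
  have e : code (g * perm bC) = mul (code g) bC := by rw [code_mul, code_perm' bC_in]
  have i6 : (perm sgC)⁻¹ = perm (powC sgC 6) := by
    rw [← perm_pow' sgC_in, inv_eq_iff_mul_eq_one, ← pow_succ', perm_pow' sgC_in,
      show powC sgC (6 + 1) = oneC by decide +kernel, perm_oneC]
  refine ⟨code_injective (by rw [code_mul, h1, code_one]), h2.imp (fun a => code_injective (a.trans code_one.symm))
    fun a => ⟨fun b => ?_, a.2⟩, h3, memR6.2 ?_, e ▸ h5, e ▸ h6, fun a => ?_⟩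
  · rw [(cmC_iff' sgC_in).2 b] at a; exact absurd a.1 (by simp)
  · rwa [mul_assoc, code_mul, code_mul, i6, code_perm' sgC_in, code_perm' (inM24_pow sgC_in 6)]
  · rw [e] at a; rw [a.1, a.2] at h7; simp at h7

/-- normalizes `Z` -/
def nZ (c : ℕ) : Bool := allL ZL fun m => pZ (red (apM c m))
/-- normalizes `W` -/
def nW (c : ℕ) : Bool := allL WL fun m => pW (red (apM c m))

/-- the complement `L3(2)` -/
noncomputable def Y2 : Subgroup Pm :=
  M24 ⊓ 𝐂[perm tauC] ⊓ (MulAction.stabilizer Pm (fs O1) ⊓ MulAction.stabilizer Pm (fs O2))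

theorem memY2 {g : Pm} : g ∈ Y2 ↔ g ∈ M24 ∧ (cmC (code g) tauC && (st (code g) O1 && st (code g) O2)) = true := by
  rw [Y2, mem_inf, mem_inf, mem_cent1_iff, Bool.and_eq_true, Bool.and_eq_true, st_iff O1_lt, st_iff O2_lt,
    cmC_iff' tauC_in, and_assoc]; rfl

theorem satY2 {g : Pm} (hg : g ∈ Y2) : Sat (pAnd (pAnd (pCj tauC tauC) (pSet O1 O1)) (pSet O2 O2)) (code g) :=
  ((sat_cj' tauC_in tauC_in (mem_cent1_iff.1 hg.1.2)).and (sat_set hg.2.1)).and (sat_set hg.2.2)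

theorem card_Y2 : Nat.card Y2 = 168 :=
  card_of_count (leaf := fun c => cmC c tauC && (st c O1 && st c O2)) (k := 0x505068022d592b494de2b24e3bb1c5)
    (ki := 0x19dac52e33486027dcd52d00e222d2) (by decide +kernel)
    (fun g hg => ⟨hg.1.1, satY2 hg, (memY2.1 hg).2⟩) fun g hg h => memY2.2 ⟨hg, h⟩

theorem Y2_spec {g : Pm} (hg : g ∈ Y2) : nZ (code g) = true ∧ (fx3 (code g) = true → g = 1) := by
  have := all24_sound (leaf := fun c => nZ c && (!(fx3 c) || Nat.beq c oneC)) (k := 0x505068022d592b494de2b24e3bb1c5)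
    (ki := 0x19dac52e33486027dcd52d00e222d2) (by decide +kernel) hg.1.1 (satY2 hg)
  rw [Bool.and_eq_true] at this
  refine ⟨this.1, fun h => code_injective ?_⟩
  rw [h] at this
  rw [code_one, ← beq_iff]; simpa using this.2

end CA.J4
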