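import Cfsg.Agent.Lib.J4.PM24
import Cfsg.Agent.Lib.J4.Trio1

/-!
Generators of the trio group and of the sextet group.
-/

set_option autoImplicit false

namespace CA.J4
open Cfsg CA.Gol Subgroup
open scoped Pointwise

/-- words in `a, b` fixing `bs` and moving the points of `ok` to `p` -/
def stepOK (memb : ℕ → Bool) (a b : ℕ) (bs : List ℕ) (p : ℕ) (ok : ℕ → Bool) (ws : List ℕ) : Bool :=
  Nat.blt p 24 && !(memL p bs) && allL bs (fun q => Nat.blt q 24) &&
  allLt (fun x => !(ok x) || memL x bs || force (word2 a b 64 (ws.getD x 1) oneC) fun c =>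
    memb c && Nat.beq (ap c x) p && allL bs fun q => Nat.beq (ap c q) q) 24

theorem sift_step {Q : Pm → Prop} {a b : Pm} {memb : ℕ → Bool}
    (hQ : ∀ k g, memb (code k) = true → Q g → Q (k * g)) {bs ws : List ℕ} {p : ℕ} (ok : ℕ → Bool)
    (h : stepOK memb (code a) (code b) bs p ok ws = true)
    (hinv : ∀ g, Q g → Fixes g bs → ok (ap (code g) p) = true)
    (ih : ∀ g, Q g → Fixes g (p :: bs) → g ∈ closure {a, b}) :
    ∀ g, Q g → Fixes g bs → g ∈ closure {a, b} := by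
  intro g hg hf
  simp only [stepOK, Bool.and_eq_true, blt_iff, allL_iff, allLt_iff, Bool.or_eq_true, memL_iff,
    Bool.not_eq_true', force_eq, beq_iff] at h
  obtain ⟨⟨⟨h1, h2⟩, h3⟩, h4⟩ := h
  have hx := ap_code_lt g h1
  rcases h4 _ hx with (h | h) | h
  · rw [hinv g hg hf] at h; cases h
  · have h8 := hf _ h
    rw [← apply_pt g h1] at h8
    have h9 := g.injective h8
    rw [apply_pt g h1, ← eq_comm] at h9
    rw [← pt_inj h1 hx h9, ← memL_iff, h2] at h
    cases h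
  · obtain ⟨k, hk, e⟩ := word2_mem (K := closure {a, b}) (a := a) (b := b)
      (subset_closure (by simp)) (subset_closure (by simp)) 64 (ws.getD (ap (code g) p) 1) (one_mem _)
    rw [code_one] at e
    rw [← e] at h
    have : k * g ∈ closure {a, b} := ih _ (hQ k g h.1.1 hg) (fixes_cons.2
      ⟨by rw [apply_pt_eq_iff h1 h1, ap_mul_code _ _ h1, h.1.2],
        Fixes.mul (fun q hq => (apply_pt_eq_iff (h3 q hq) (h3 q hq)).2 (h.2 q hq)) hf⟩)
    exact (mul_mem_cancel_left hk).1 this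

theorem blk_fix {g : Pm} {L : List ℕ} {u p : ℕ} (h : apM (code g) u ∈ L) (hf : g (pt p) = pt p)
    (c : (Nat.blt u 16777216 && Nat.blt p 24 && tb u p && allL L fun v => !(tb v p) || Nat.beq v u) = true) :
    apM (code g) u = u := by
  simp only [Bool.and_eq_true, blt_iff, allL_iff, Bool.or_eq_true, Bool.not_eq_true', beq_iff] at c
  obtain ⟨⟨⟨c1, c2⟩, c3⟩, c4⟩ := c
  have := (tb_apM g c1 c2).2 c3
  rw [(apply_pt_eq_iff c2 c2).1 hf] at this
  exact (c4 _ h).resolve_left (by simp [this])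

/-- the third octad of the trio -/
def O3 : ℕ := 0x6920d0
/-- the element `y x y x y⁻¹ x y⁻¹ x y x y x y` -/
def H1C : ℕ := 0x12907618ab98244859b5a246f0ba37

theorem H1C_in : inM24 H1C = true := by decide +kernel

theorem H1C_eq : perm H1C = perm YC * perm XC * perm YC * perm XC * (perm YC)⁻¹ * perm XC * (perm YC)⁻¹ *
    perm XC * perm YC * perm XC * perm YC * perm XC * perm YC := by
  have iY : (perm YC)⁻¹ = perm YC * perm YC := inv_eq_of_mul_eq_one_right (code_inj (by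
    simp only [code_mul, code_perm' YC_in, code_one]; decide +kernel))
  refine code_inj ?_
  simp only [iY, code_mul, code_perm' YC_in, code_perm' XC_in, code_perm' H1C_in]
  decide +kernel

theorem trio_gen {g : Pm} (hg : g ∈ M24)
    (h : apM (code g) O1 ∈ [O1, O2, O3] ∧ apM (code g) O2 ∈ [O1, O2, O3]) :
    g ∈ closure {perm XC, perm H1C} := by
  let Q : Pm → Prop := fun g => g ∈ M24 ∧ apM (code g) O1 ∈ [O1, O2, O3] ∧ apM (code g) O2 ∈ [O1, O2, O3]
  have hQ : ∀ k g, (inM24 (code k) && allL [O1, O2, O3] fun u => memL (apM (code k) u) [O1, O2, O3]) = true →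
      Q g → Q (k * g) := fun k g h hg => by
    rw [Bool.and_eq_true, allL_iff] at h
    exact ⟨mul_mem (mem_M24_iff_code.2 h.1) hg.1, by rw [apM_mul _ _ O1_lt]; exact memL_iff.1 (h.2 _ hg.2.1),
      by rw [apM_mul _ _ O2_lt]; exact memL_iff.1 (h.2 _ hg.2.2)⟩
  have f1 : ∀ {g bs}, Q g → Fixes g bs → 23 ∈ bs → apM (code g) O1 = O1 := fun hg hf h =>
    blk_fix hg.2.1 (hf _ h) (by decide +kernel)
  have f2 : ∀ {g bs p}, Q g → Fixes g bs → 23 ∈ bs → p < 24 → tb O1 (ap (code g) p) = tb O1 p :=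
    fun {g _ p} hg hf h hp => by
      have := tb_apM g O1_lt hp
      rwa [f1 hg hf h, ← Bool.eq_iff_iff] at this
  have st := fun bs ws p ok => sift_step (a := perm XC) (b := perm H1C)
    (memb := fun c => inM24 c && allL [O1, O2, O3] fun u => memL (apM c u) [O1, O2, O3]) hQ
    (bs := bs) (ws := ws) (p := p) ok
  simp only [code_perm' XC_in, code_perm' H1C_in] at st
  refine st [] [0x3, 0xf6, 0xf, 0x16, 0x1e, 0x36, 0x2b, 0x1b, 0x1a, 0x6e, 0x35, 0x5, 0x2, 0x2e, 0x7, 0xe, 0xd,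
    0x76, 0x6b, 0x6, 0xb, 0xa, 0x15, 0x1] 23 (fun _ => true) (by decide +kernel) (fun _ _ _ => rfl) ?_ g ⟨hg, h⟩
    (fixes_nil _)
  refine st _ [0x1, 0x1777, 0x5d7, 0x2bb6, 1, 0x1b7, 1, 1, 1, 1, 1, 1, 1, 1, 0x2aae, 1, 1, 0x6a] 0 (tb O1)
    (by decide +kernel) (fun g hg hf => (f2 hg hf (by decide) (by decide)).trans (by decide +kernel)) ?_
  refine st _ [1, 0x1, 0x1ed, 0x55d77, 1, 0xab5d, 1, 1, 1, 1, 1, 1, 1, 1, 0x2ab76, 1, 1, 0x2ad5] 1 (tb O1)
    (by decide +kernel) (fun g hg hf => (f2 hg hf (by decide) (by decide)).trans (by decide +kernel)) ?_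
  refine st _ [1, 1, 1, 1, 0x1, 1, 0x6eaaba, 0x1d6aaea, 0x2dd76a, 0x35db75a, 0xf75aad, 0x3d5ab, 0x3aeddd,
    0x1eddad, 1, 0x2eb5d5a, 0x7b5da, 1, 0xeeeddd, 0x776aaea, 0x36dbab6, 0x15b6da, 0x5dadad] 4
    (fun x => !(tb O1 x)) (by decide +kernel)
    (fun g hg hf => (congrArg (!·) (f2 hg hf (by decide) (by decide))).trans (by decide +kernel)) ?_
  intro g hg hf
  have := all24_sound (P := pAnd (pSet O1 O1) (pFix 0x800013)) (k := oneC) (ki := oneC)
    (leaf := fun c => !(memL (apM c O2) [O1, O2, O3]) ||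
      anyL [0x1, 0x1db, 0x1d6eba, 0x175d6b] fun w => Nat.beq (word2 XC H1C 64 w oneC) c) (by decide +kernel) hg.1
    ((sat_set ((smul_fs_eq_iff g O1_lt O1_lt).2 (f1 hg hf (by decide)))).and
      (sat_fix (fix_fs_of_fixes hf (by decide +kernel))))
  rw [memL_iff.2 hg.2.2, Bool.not_true, Bool.false_or, anyL_iff] at this
  obtain ⟨w, -, e⟩ := this
  obtain ⟨k, hk, e'⟩ := word2_mem (K := closure {perm XC, perm H1C}) (a := perm XC) (b := perm H1C)
    (subset_closure (by simp)) (subset_closure (by simp)) 64 w (one_mem _)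
  rw [code_one, code_perm' XC_in, code_perm' H1C_in, beq_iff.1 e] at e'
  exact code_inj e' ▸ hk

theorem sextet_gen :
    Sxm T0 ≤ closure {perm 0x5d833024ad30e0f554f4b89c48a24c, perm 0x3aa44646e9b0a83736055a00f0cea6} := by
  have T0_lt : T0 < 2 ^ 24 := by decide
  have ha : inM24 0x5d833024ad30e0f554f4b89c48a24c = true := by decide +kernel
  have hb : inM24 0x3aa44646e9b0a83736055a00f0cea6 = true := by decide +kernel
  have hQ : ∀ k g : Pm, (inM24 (code k) && fx (code k) T0) = true → g ∈ Sxm T0 → k * g ∈ Sxm T0 :=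
    fun k g h hg => by
      rw [Bool.and_eq_true] at h
      exact mul_mem ((mem_Sxm T0_lt).2 ⟨mem_M24_iff_code.2 h.1, h.2⟩) hg
  have f2 : ∀ {g bs p}, g ∈ Sxm T0 → Fixes g bs → 23 ∈ bs → p < 24 → tb T0 (ap (code g) p) = tb T0 p :=
    fun {g _ p} hg hf h hp => by
      have := tb_apM g T0_lt hp
      rwa [blk_fix (Sxm_blk sx1 hg (by decide)) (hf _ h) (by decide +kernel), ← Bool.eq_iff_iff] at this
  have st := fun bs ws p ok => sift_step (a := perm 0x5d833024ad30e0f554f4b89c48a24c)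
    (b := perm 0x3aa44646e9b0a83736055a00f0cea6) (memb := fun c => inM24 c && fx c T0) hQ
    (bs := bs) (ws := ws) (p := p) ok
  simp only [code_perm' ha, code_perm' hb] at st
  refine fun g hg => st [] [0x15, 0xb, 0x3d, 0x5, 0xf7, 0x11, 0x71, 0x2, 0x31, 0x4, 0x17, 0x19, 0xd, 0x14, 0x9,
    0x77, 0xc, 0x3, 0x7, 0x1d, 0x2d, 0xf, 0x37, 0x1] 23 (fun _ => true) (by decide +kernel) (fun _ _ _ => rfl) ?_
    g hg (fixes_nil _)
  refine st _ [0x1, 0x94, 0x6] 0 (tb T0)
    (by decide +kernel) (fun g hg hf => (f2 hg hf (by decide) (by decide)).trans (by decide +kernel)) ?_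
  refine st _ [1, 0x1, 0x29] 1 (tb T0)
    (by decide +kernel) (fun g hg hf => (f2 hg hf (by decide) (by decide)).trans (by decide +kernel)) ?_
  refine st _ [] 2 (tb T0)
    (by decide +kernel) (fun g hg hf => (f2 hg hf (by decide) (by decide)).trans (by decide +kernel)) ?_
  refine fun g hg hf => le_closure_of_words chain4 (ws :=
    [[0x1, 0x22c50, 0x27693, 0xd76f, 0x59f4a, 0x5c6a4, 0x5ab41, 0xfea8, 0x22d52, 0x36408, 0x1ae0b, 0xe417c,
      0x72bd7, 0xead0, 0xf7d60, 0x31450, 0x8e388, 0xe2a0, 0xb811, 0xddbe],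
    [0x1, 0x28ae7, 0x6572b, 0x17c1, 0x1b7e8, 0x1bae, 0x15780, 0x32b, 0xc8b0, 0x761dc, 0x1da97, 0xc59c, 0x16fbd,
      0x1820, 0x18282, 0x4bf45], [0x1, 0x15a55, 0x18f25]]) ?_ ⟨hg.1, hf⟩
  rw [code_perm' ha, code_perm' hb]
  decide +kernel

end CA.J4
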