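import Cfsg.Agent.Lib.J4.DceD1
import Cfsg.Agent.Lib.J4.DceD2
import Cfsg.Agent.Lib.J4.DceFa
import Cfsg.Agent.Lib.J4.DceFb
import Cfsg.Agent.Lib.J4.DceFc
import Cfsg.Agent.Lib.J4.PM24b

/-!
The conclusions of the three double coset enumerations.
-/

set_option autoImplicit false
set_option linter.unusedSectionVars false
set_option linter.unusedVariables false

namespace CA.J4.Dce
open Cfsg CA.Gol CA.Ex2 CA.XS CA.J4 Subgroup

variable {Γ : Type*} [Group Γ]

/-- image of a coded permutation -/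
noncomputable abbrev kp (κ : M24 →* Γ) (c : ℕ) : Γ := pel κ (perm c)

theorem km (κ : M24 →* Γ) (a b c : ℕ) (H : (inM24 a && inM24 b && Nat.beq (mul a b) c) = true) :
    kp κ a * kp κ b = kp κ c := by
  simp only [Bool.and_eq_true, beq_iff] at H
  rw [← k_mul κ H.1.1 H.1.2, H.2]

theorem km4 (κ : M24 →* Γ) (a b c d : ℕ)
    (H : (inM24 a && inM24 b && inM24 c && inM24 d && Nat.beq (mul a b) (mul c d)) = true) :
    kp κ a * kp κ b = kp κ c * kp κ d := by
  simp only [Bool.and_eq_true, beq_iff] at H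
  rw [← k_mul κ H.1.1.1.1 H.1.1.1.2, ← k_mul κ H.1.1.2 H.1.2, H.2]

theorem ki (κ : M24 →* Γ) (a b : ℕ) (H : (inM24 a && inM24 b && Nat.beq (mul a b) oneC) = true) :
    kp κ a = (kp κ b)⁻¹ := eq_inv_of_mul_eq_one_left (by rw [km κ a b oneC H, kp, perm_oneC, pel_one])

theorem comm_closure (κ : M24 →* Γ) {t : Γ} {a b : ℕ} (ha : inM24 a = true) (hb : inM24 b = true)
    (h1 : kp κ a * t = t * kp κ a) (h2 : kp κ b * t = t * kp κ b) {g : Pm} (hg : g ∈ closure {perm a, perm b}) :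
    pel κ g * t = t * pel κ g := by
  suffices g ∈ M24 ∧ Commute (pel κ g) t from this.2
  induction hg using closure_induction with
  | mem x hx => rcases hx with rfl | rfl; exacts [⟨perm_mem_M24 ha, h1⟩, ⟨perm_mem_M24 hb, h2⟩]
  | one => exact ⟨one_mem _, by rw [pel_one]; exact Commute.one_left t⟩
  | mul x y _ _ p q => exact ⟨mul_mem p.1 q.1, by rw [pel_mul κ p.1 q.1]; exact p.2.mul_left q.2⟩
  | inv x _ p => exact ⟨inv_mem p.1, by rw [pel_inv κ p.1]; exact p.2.inv_left⟩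

theorem comm_trio (κ : M24 →* Γ) {t : Γ} (h1 : kp κ XC * t = t * kp κ XC) (h2 : kp κ H1C * t = t * kp κ H1C) (c : ℕ)
    (hc : inM24 c = true) (hT : inT c = true) : kp κ c * t = t * kp κ c :=
  comm_closure κ XC_in H1C_in h1 h2 (trio_gen (perm_mem_M24 hc) (by rw [code_perm' hc]; exact inT_iff.1 hT))

theorem tri_of {c d t : Γ} (tt : t * t = 1) (h : (c * t) ^ 3 = 1) (e : d = c⁻¹) : t * d * t = c * t * c := by
  have ti := eq_inv_of_mul_eq_one_left tt
  rw [e, eq_comm, ← mul_inv_eq_one, mul_inv_rev, mul_inv_rev, ← ti, inv_inv, ← h]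
  simp only [pow_succ, pow_zero, one_mul, mul_assoc]

def cC : ℕ := 0x4d813131d0395a85d4d20de241d1ea
def sA : ℕ := 0x5d833024ad30e0f554f4b89c48a24c
def sB : ℕ := 0x3aa44646e9b0a83736055a00f0cea6
def g3C : ℕ := 0x1a92c9d8346b8f05c88879a3515ca0
def e3C : ℕ := 0x759920992dbaab32201058a272be83
def f3C : ℕ := 0x7356814d36028e684ae4606352be83

theorem sel4_ind {P : ℕ → Prop} {a b c d : ℕ} (ha : P a) (hb : P b) (hc : P c) (hd : P d) (i : ℕ) : P (sel4 a b c d i) := by
  unfold sel4; cases Nat.beq i 0 <;> cases Nat.beq i 1 <;> cases Nat.beq i 2 <;> assumption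

theorem level1 (κ : M24 →* Γ) {t z : Γ} (tt : t * t = 1) (h1 : kp κ XC * t = t * kp κ XC) (h2 : kp κ H1C * t = t * kp κ H1C)
    (r1 : (kp κ c1C * t) ^ 3 = 1) (r2 : (t * kp κ QA * t * kp κ QB) ^ 2 = 1) (hz : z = (t * kp κ cC) ^ 3) :
    z * z = 1 ∧ kp κ sA * z = z * kp κ sA ∧ kp κ sB * z = z * kp κ sB ∧ z * kp κ H1C * z = kp κ e2C * z * kp κ f2C ∧
      kp κ e3C * (t * (kp κ g3C * z * (kp κ g3C)⁻¹) * t) = z * kp κ f3C := by
  have h : Snd Y1 (kp κ) t := sndS κ tt (comm_trio κ h1 h2)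
  have ti := eq_inv_of_mul_eq_one_left tt
  have ia := ki κ QAi QA (by decide +kernel)
  have ib := ki κ QBi QB (by decide +kernel)
  have hC : CSnd Y1 C1 (kp κ) t (wd (fld 8 P1) (fld 144 D1) (kp κ) t) := by
    refine ⟨wd_zero _ _ _ _, ?_, fun j hj => wd_eq _ _ _ _ hj, tri_of tt r1 (ki κ c1i c1C (by decide +kernel)),
      fun u i => ?_, fun u => ?_⟩
    · rw [wdE _ t 1 0 oneC (by decide +kernel), wd_zero, kp, perm_oneC, pel_one, one_mul, one_mul]
    · have a : inM24 QA = true := by decide +kernel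
      have b : inM24 QB = true := by decide +kernel
      have c : inM24 QAi = true := by decide +kernel
      have d : inM24 QBi = true := by decide +kernel
      show inM24 (Bool.rec (sel4 QAi QBi QB QA i) (sel4 QA QB QBi QAi i) (Nat.beq u 0)) = true
      cases Nat.beq u 0
      · exact sel4_ind (P := fun x => inM24 x = true) c d b a i
      · exact sel4_ind (P := fun x => inM24 x = true) a b d c i
    · have q : ∀ i, C1.q u i = Bool.rec (sel4 QAi QBi QB QA i) (sel4 QA QB QBi QAi i) (Nat.beq u 0) := fun _ => rfl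
      rw [q, q, q, q]
      have r : t * kp κ QA * t * kp κ QB * t = (kp κ QB)⁻¹ * t * (kp κ QA)⁻¹ := by
        rw [← mul_inv_eq_one, mul_inv_rev, mul_inv_rev, inv_inv, inv_inv, ← ti, ← r2]
        simp only [pow_succ, pow_zero, one_mul, mul_assoc]
      cases Nat.beq u 0
      · show t * kp κ QAi * t * kp κ QBi * t = kp κ QB * t * kp κ QA
        have : kp κ QB * t * kp κ QA * (t * kp κ QB * t * kp κ QA * t) =
            kp κ QB * (t * kp κ QA * t * kp κ QB * t) * kp κ QA * t := by group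
        rw [r, show kp κ QB * ((kp κ QB)⁻¹ * t * (kp κ QA)⁻¹) * kp κ QA * t = t * t by group, tt] at this
        rw [ia, ib, eq_inv_of_mul_eq_one_left this, mul_inv_rev, mul_inv_rev, mul_inv_rev, mul_inv_rev, ← ti]; group
      · show t * kp κ QA * t * kp κ QB * t = kp κ QBi * t * kp κ QAi
        rw [ia, ib, r]
  have H := sound h hC (allLt_iff.1 chk1)
  have W := wdE (P := P1) (D := D1) (kp κ) t
  set w := wd (fld 8 P1) (fld 144 D1) (kp κ) t
  have w3 : w 3 * kp κ cC = z := by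
    rw [hz, W 3 2 cC (by decide +kernel), W 2 1 cC (by decide +kernel), hC.w1]
    simp only [pow_succ, pow_zero, one_mul, mul_assoc]
  have w3' : w 3 = t * kp κ cC * t * kp κ cC * t := by
    rw [W 3 2 cC (by decide +kernel), W 2 1 cC (by decide +kernel), hC.w1]
  refine ⟨?_, ?_, ?_, ?_, ?_⟩
  · have a := out0 H 233 0 15 0xabe40538cc29e811c6e24a20b6cec4 0xbbc8a984ec4c2821c90eb54cb680b1 (by decide +kernel)
    rw [hC.w0, one_mul, W 15 14 cC (by decide +kernel), W 14 13 cC (by decide +kernel),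
      W 13 3 cC (by decide +kernel)] at a
    have b := km κ 0xabe40538cc29e811c6e24a20b6cec4 cC 0xbbc8a984ec4c2821c90eb54cb680b1 (by decide +kernel)
    rw [a, mul_assoc, mul_eq_left] at b
    rw [← b, ← w3, w3']; simp only [mul_assoc]
  · rw [← w3, ← mul_assoc, ← out0 H 99 3 3 0xa581214cad64606aa167b84647292f sA (by decide +kernel), mul_assoc, mul_assoc,
      km4 κ 0xa581214cad64606aa167b84647292f cC cC sA (by decide +kernel)]
  · rw [← w3, ← mul_assoc, ← out0 H 100 3 3 0x955a2245460266e2dc23b42877a16c sB (by decide +kernel), mul_assoc, mul_assoc,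
      km4 κ 0x955a2245460266e2dc23b42877a16c cC cC sB (by decide +kernel)]
  · have a := out0 H 207 3 8 0x9c502a49b5bd8cc4c08a7ac2e014e3 0x8310f0a4d78cd6e5168314ac0692a7 (by decide +kernel)
    rw [W 8 7 cC (by decide +kernel), W 7 6 cC (by decide +kernel),
      W 6 3 0xa564145e2b12984859a099867795c9 (by decide +kernel),
      ← km κ cC H1C 0xa564145e2b12984859a099867795c9 (by decide +kernel)] at a
    rw [ki κ e2C 0x8310f0a4d78cd6e5168314ac0692a7 (by decide +kernel), mul_assoc _ z, eq_inv_mul_iff_mul_eq, ← w3, mul_assoc _ (kp κ cC),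
      mul_assoc _ (kp κ cC) (kp κ f2C), km4 κ cC f2C 0x9c502a49b5bd8cc4c08a7ac2e014e3 cC (by decide +kernel), ← mul_assoc (w 3) _ (kp κ cC), a,
      w3']
    simp only [mul_assoc]
  · have a := out0 H 222 3 12 0x2b572a08d6554378312443dc089e63 e3C (by decide +kernel)
    rw [W 12 11 0xa309015628094f35d8126dde648dca (by decide +kernel), W 11 10 cC (by decide +kernel),
      W 10 9 cC (by decide +kernel), W 9 1 g3C (by decide +kernel), hC.w1,
      eq_mul_inv_of_mul_eq (km κ 0xa309015628094f35d8126dde648dca g3C cC (by decide +kernel))] at a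
    rw [← w3, mul_assoc _ (kp κ cC) (kp κ f3C), km κ cC f3C 0x2b572a08d6554378312443dc089e63 (by decide +kernel), a, w3']
    simp only [mul_assoc]

def d2C : ℕ := 0x6d50b8ddf499a44829d63a4a360820

theorem level2 (κ : M24 →* Γ) {z : Γ} (zz : z * z = 1) (h1 : kp κ sA * z = z * kp κ sA) (h2 : kp κ sB * z = z * kp κ sB)
    (tri : z * kp κ H1C * z = kp κ e2C * z * kp κ f2C) {γ : Γ} (hγ : γ ∈ closure {kp κ XC, kp κ YC, z}) :
    ∃ a b, inM24 a = true ∧ inM24 b = true ∧ ∃ w, (w = 1 ∨ w = z ∨ w = z * kp κ d2C * z) ∧ γ = kp κ a * w * kp κ b := by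
  have h : Snd Y2 (kp κ) z := sndS κ zz fun c hc hP => comm_closure κ (by decide +kernel) (by decide +kernel) h1 h2
    (sextet_gen ((mem_Sxm T0_lt).2 ⟨perm_mem_M24 hc, by rwa [code_perm' hc]⟩))
  have hC : CSnd Y2 C2 (kp κ) z _ := csnd h (by decide +kernel) tri
  have H := sound h hC (allLt_iff.1 chk2)
  have r0 : R2 SX oneC 0 := show eqv _ _ = true by decide +kernel
  have ht := total XC_in YC_in M24_eq_closure.le r0 (by norm_num) R2_step tot2
  obtain ⟨i, hi, a, b, ha, hb, e⟩ := closed h hC.w0 hC.w1 (n := 3) (by norm_num) (invS κ) (fun i h0 hi => by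
    interval_cases i
    · exact cover h H r0 R2_step (R2_K κ) ht (allLt_iff.1 cov2_1)
    · exact cover h H r0 R2_step (R2_K κ) ht (allLt_iff.1 cov2_2)) (by
      rintro x (rfl | rfl | rfl)
      exacts [Or.inr ⟨_, XC_in, rfl⟩, Or.inr ⟨_, YC_in, rfl⟩, Or.inl rfl]) hγ
  refine ⟨a, b, ha, hb, _, ?_, e⟩
  interval_cases i
  · exact Or.inl hC.w0
  · exact Or.inr (Or.inl hC.w1)
  · exact Or.inr (Or.inr (by rw [wdE _ z 2 1 d2C (by decide +kernel), hC.w1]))

theorem level3 {G : Type*} [Group G] {V : Subgroup G} {ν : Finset GolayPt → G} {κ : M24 →* G} (h : MM V ν κ)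
    {θ : ↥𝐍(V) →* Γ} {t : Γ} (tt : t * t = 1)
    (hc : ∀ c, inM24 c = true → inT c = true → pel θ (kp κ c) * t = t * pel θ (kp κ c))
    (hu : t * pel θ (ν (fs uC)) * t = pel θ (ν (fs uC) * kp κ q0C)) (r1 : (pel θ (kp κ c1C) * t) ^ 3 = 1) :
    (t * pel θ (kp κ QA) * t * pel θ (kp κ QB)) ^ 2 = 1 ∧ (t * pel θ (kp κ cC)) ^ 3 = pel θ (ν (fs T0)) ∧
      ∃ w : ℕ → Γ, w 0 = 1 ∧ ∀ γ ∈ closure (insert t θ.range), ∃ i < 7, ∃ a b : ↥𝐍(V), γ = θ a * w i * θ b := by
  have hs := snd3 h tt hc hu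
  have k3 : ∀ (n c : ℕ), n = un 0 c → ps ν κ θ n = pel θ (kp κ c) := fun n c e => by rw [e, ps_k h]
  have hC : CSnd Y3 C3 (ps ν κ θ) t _ := csnd hs (by decide +kernel) (by
    rw [k3 _ c1i (by decide +kernel), k3 _ c1C (by decide +kernel)]
    exact tri_of tt r1 (by rw [ki κ c1i c1C (by decide +kernel), pel_inv θ (h.k_mem (perm_mem_M24 (by decide +kernel)))]))
  have H := sound hs hC (allLt_iff.1 chk3)
  refine ⟨?_, ?_, _, hC.w0, fun γ hγ => ?_⟩
  · have a := out0 H 814 0 9 0x79ab120253bd2c270c253b5506212bd70000 0xbbd698358eb44e64148015653a0543d70000 (by decide +kernel)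
    rw [hC.w0, one_mul, wdE _ t 9 8 (un 0 QA) (by decide +kernel), wdE _ t 8 7 (un 0 QB) (by decide +kernel),
      wdE _ t 7 1 (un 0 QA) (by decide +kernel), hC.w1] at a
    have b := hs.m2 (a := 0x79ab120253bd2c270c253b5506212bd70000) (b := un 0 QB) (c := 0xbbd698358eb44e64148015653a0543d70000)
      (by decide +kernel) (by decide +kernel) (by decide +kernel) (by decide +kernel)
    rw [a, mul_assoc, mul_eq_left, ps_k h, ps_k h] at b
    rw [← b]; simp only [pow_succ, pow_zero, one_mul, mul_assoc]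
  · have a := out0 H 821 0 11 0x1c96461e2ab012d856667d0a8b882e053000 0x9c9cc1340a7952682e8708e28b92d5f60000 (by decide +kernel)
    rw [hC.w0, one_mul, wdE _ t 11 10 (un 0 cC) (by decide +kernel), wdE _ t 10 1 (un 0 cC) (by decide +kernel), hC.w1] at a
    have b := hs.m4 (a := 0x1c96461e2ab012d856667d0a8b882e053000) (b := un 0 cC) (c := 0x9c9cc1340a7952682e8708e28b92d5f60000)
      (d := un T0 oneC) (by decide +kernel) (by decide +kernel) (by decide +kernel) (by decide +kernel) (by decide +kernel)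
    rw [a, mul_assoc, mul_right_inj, ps_k h, ps, pr_un _ T0_lt, h.el_v] at b
    rw [← b]; simp only [pow_succ, pow_zero, one_mul, mul_assoc]
  · have r0 : R3 TT one3 1016 := ⟨by decide +kernel, ⟨⟨O1, by decide, by decide +kernel⟩, by decide +kernel⟩,
      ⟨O2, by decide, by decide +kernel⟩, by decide +kernel⟩
    have ht := total3 (l0 := 254) XC_in YC_in M24_eq_closure.le (by
      rw [show un 0 oneC = one3 by decide +kernel]; exact r0) (by norm_num) tot3
    obtain ⟨i, hi, a, b, ha, hb, e⟩ := closed hs hC.w0 hC.w1 (n := 7) (by norm_num) (inv3 h θ) (fun i h0 hi => by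
      interval_cases i
      · exact cover hs H r0 R3_step (R3_K h θ) ht (allLt_iff.1 cov3_1)
      · exact cover hs H r0 R3_step (R3_K h θ) ht (allLt_iff.1 cov3_2)
      · exact cover hs H r0 R3_step (R3_K h θ) ht (allLt_iff.1 cov3_3)
      · exact cover hs H r0 R3_step (R3_K h θ) ht (allLt_iff.1 cov3_4)
      · exact cover hs H r0 R3_step (R3_K h θ) ht (allLt_iff.1 cov3_5)
      · exact cover hs H r0 R3_step (R3_K h θ) ht (allLt_iff.1 cov3_6)) (by
        rintro x (rfl | ⟨n, rfl⟩)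
        · exact Or.inl rfl
        · obtain ⟨j, -, c, e1, e2, e3⟩ := exists_code h n.2
          exact Or.inr ⟨_, ok3_un e1 e2, by rw [ps, ← e3, pel_coe]⟩) hγ
    exact ⟨i, hi, ⟨_, ps_mem h ha⟩, ⟨_, ps_mem h hb⟩, by rw [e, ps, ps, pel_of_mem θ (ps_mem h ha), pel_of_mem θ (ps_mem h hb)]⟩

end CA.J4.Dce
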