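import Cfsg.Agent.Lib.J4.Dce
import Cfsg.Agent.Lib.J4.Trio1

/-!
Double coset enumeration: covering argument and the arithmetic of `M24` and `2^11 : M24`.
-/

set_option autoImplicit false
set_option linter.unusedSectionVars false
set_option linter.unusedVariables false

namespace CA.J4.Dce
open Cfsg CA.Gol CA.Ex2 CA.XS CA.J4 Subgroup
open scoped Pointwise

variable {Γ : Type*} [Group Γ]

/-! ### covering -/

def DC (Y : Sys) (ψ w : ℕ → Γ) (n : ℕ) : Set Γ :=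
  {γ | ∃ i < n, ∃ a b, Y.ok a = true ∧ Y.ok b = true ∧ γ = ψ a * w i * ψ b}

def root (T nF n i l0 : ℕ) (step : ℕ → ℕ → ℕ → Bool) (k l : ℕ) : Bool :=
  Nat.blt k nF && force (rc T k) fun r => Nat.beq (ep r) 1 && Nat.beq (fi r) i && Nat.blt (fj r) n &&
    force (em r) fun m => step m l0 l

def gen (T nF GK i g : ℕ) : ℕ :=
  force (fld 12 GK g) fun k => force (rc T k) fun r =>
    Bool.rec 0 (Nat.succ (em r)) (Nat.blt k nF && Nat.beq (ep r) 0 && Nat.beq (fi r) i && Nat.beq (fj r) i)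

def stp (T nF GK N i : ℕ) (step : ℕ → ℕ → ℕ → Bool) (g p l : ℕ) : Bool :=
  Nat.blt p N && force g fun g => Nat.rec false (fun m _ => step m p l) (gen T nF GK i g)

section
variable {Y : Sys} {ψ w : ℕ → Γ} {t : Γ} (h : Snd Y ψ t) {n : ℕ}
include h

theorem DC_l {γ : Γ} (hγ : γ ∈ DC Y ψ w n) {a : ℕ} (ha : Y.ok a = true) : ψ a * γ ∈ DC Y ψ w n := by
  obtain ⟨i, hi, b, c, hb, hc, rfl⟩ := hγ
  exact ⟨i, hi, Y.mul a b, c, h.mul_ok _ _ ha hb, hc, by rw [h.mul _ _ ha hb]; group⟩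

theorem DC_r {γ : Γ} (hγ : γ ∈ DC Y ψ w n) {a : ℕ} (ha : Y.ok a = true) : γ * ψ a ∈ DC Y ψ w n := by
  obtain ⟨i, hi, b, c, hb, hc, rfl⟩ := hγ
  exact ⟨i, hi, b, Y.mul c a, hb, h.mul_ok _ _ hc ha, by rw [h.mul _ _ hc ha]; group⟩

theorem cover {T nF GK N i l0 F : ℕ} {step : ℕ → ℕ → ℕ → Bool} (HF : ∀ k < nF, Hold Y ψ t w (rc T k)) {R : ℕ → ℕ → Prop}
    (h0 : R Y.one l0)
    (hs : ∀ g m p l, Y.ok g = true → Y.ok m = true → step g p l = true → R m p → R (Y.mul g m) l)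
    (hK : ∀ m m' l, Y.ok m = true → Y.ok m' = true → R m l → R m' l →
      ∃ p, Y.ok p = true ∧ Y.inP p = true ∧ ψ m' = ψ m * ψ p)
    (ht : ∀ m, Y.ok m = true → ∃ l < N, R m l)
    (H : ∀ l < N, chkF (root T nF n i l0 step) (stp T nF GK N i step) F l = true) (m : ℕ) (hm : Y.ok m = true) :
    w i * ψ m * t ∈ DC Y ψ w n := by
  have key := forest (Good := fun l => ∃ m, Y.ok m = true ∧ R m l ∧ w i * ψ m * t ∈ DC Y ψ w n) (fun k l e => by
    simp only [root, force_eq, Bool.and_eq_true, blt_iff, beq_iff] at e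
    obtain ⟨e1, ⟨⟨e2, e3⟩, e4⟩, e5⟩ := e
    have f := HF k e1
    refine ⟨_, h.mul_ok _ _ f.om h.one_ok, hs _ _ _ _ f.om h.one_ok e5 h0, _, e4, _, _, f.oa, f.ob, ?_⟩
    rw [h.mul _ _ f.om h.one_ok, h.one, mul_one, ← f.h1 e2, e3]) (fun g p l e => by
    simp only [stp, gen, force_eq, Bool.and_eq_true, blt_iff] at e
    refine ⟨e.1, fun ⟨m, hm, r, d⟩ => ?_⟩
    have e := e.2
    cases hb : (Nat.blt (fld 12 GK g) nF && Nat.beq (ep (rc T (fld 12 GK g))) 0 && Nat.beq (fi (rc T (fld 12 GK g))) i &&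
      Nat.beq (fj (rc T (fld 12 GK g))) i) <;> rw [hb] at e
    · exact absurd e Bool.false_ne_true
    simp only [Bool.and_eq_true, blt_iff, beq_iff] at hb
    obtain ⟨⟨⟨e1, e2⟩, e3⟩, e4⟩ := hb
    have f := HF _ e1
    refine ⟨_, h.mul_ok _ _ f.om hm, hs _ _ _ _ f.om hm e r, ?_⟩
    have a := f.h0 e2
    rw [e3, e4] at a
    rw [h.mul _ _ f.om hm, ← mul_assoc, a, mul_assoc (ψ _), mul_assoc (ψ _)]
    exact DC_l h d f.oa) H
  obtain ⟨l, hl, r⟩ := ht m hm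
  obtain ⟨m', hm', r', d⟩ := key l hl
  obtain ⟨p, op, ip, e⟩ := hK _ _ _ hm' hm r' r
  rw [e, ← mul_assoc, mul_assoc _ _ t, h.tau p op ip, ← mul_assoc]
  exact DC_r h d (h.tau_ok p op ip)

theorem closed (w0 : w 0 = 1) (w1 : w 1 = t) (hn : 1 < n) (hi : ∀ a, Y.ok a = true → ∃ b, Y.ok b = true ∧ ψ b = (ψ a)⁻¹)
    (H : ∀ i, 0 < i → i < n → ∀ m, Y.ok m = true → w i * ψ m * t ∈ DC Y ψ w n) {s : Set Γ}
    (hs : ∀ x ∈ s, x = t ∨ ∃ a, Y.ok a = true ∧ x = ψ a) {γ : Γ} (hγ : γ ∈ closure s) : γ ∈ DC Y ψ w n := by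
  have ht : ∀ γ ∈ DC Y ψ w n, γ * t ∈ DC Y ψ w n := by
    rintro _ ⟨i, hi, a, b, ha, hb, rfl⟩
    rcases Nat.eq_zero_or_pos i with rfl | h0
    · exact ⟨1, hn, Y.mul a b, Y.one, h.mul_ok _ _ ha hb, h.one_ok, by rw [h.mul _ _ ha hb, w0, w1, h.one]; group⟩
    · rw [mul_assoc (ψ a), mul_assoc (ψ a)]; exact DC_l h (H i h0 hi b hb) ha
  induction hγ using closure_induction_right with
  | one => exact ⟨0, by omega, Y.one, Y.one, h.one_ok, h.one_ok, by rw [w0, h.one]; group⟩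
  | mul_right x _ y hy ih =>
    rcases hs y hy with rfl | ⟨a, ha, rfl⟩
    · exact ht _ ih
    · exact DC_r h ih ha
  | mul_inv_cancel x _ y hy ih =>
    rcases hs y hy with rfl | ⟨a, ha, rfl⟩
    · rw [← eq_inv_of_mul_eq_one_left h.tt]; exact ht _ ih
    · obtain ⟨b, hb, e⟩ := hi a ha
      rw [← e]; exact DC_r h ih hb
end

theorem out0 {Y : Sys} {ψ w : ℕ → Γ} {t : Γ} {T n : ℕ} (H : ∀ k < n, Hold Y ψ t w (rc T k)) (k i j m a : ℕ)
    (e : (Nat.blt k n && force (rc T k) fun r => Nat.beq (ep r) 0 && Nat.beq (fi r) i && Nat.beq (fj r) j &&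
      Nat.beq (em r) m && Nat.beq (ea r) a) = true) : w i * ψ m = ψ a * w j := by
  simp only [force_eq, Bool.and_eq_true, blt_iff, beq_iff] at e
  obtain ⟨e0, ⟨⟨⟨e1, e2⟩, e3⟩, e4⟩, e5⟩ := e
  rw [← e2, ← e3, ← e4, ← e5]; exact (H k e0).h0 e1

theorem wdE {P D : ℕ} (ψ : ℕ → Γ) (t : Γ) (j i m : ℕ)
    (e : (Nat.blt i j && Nat.beq (fld 8 P j) i && Nat.beq (fld 144 D j) m) = true) :
    wd (fld 8 P) (fld 144 D) ψ t j = wd (fld 8 P) (fld 144 D) ψ t i * ψ m * t := by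
  simp only [Bool.and_eq_true, blt_iff, beq_iff] at e
  rw [wd_eq _ _ _ _ (e.1.2 ▸ e.1.1), e.1.2, e.2]

/-- constants without quadrangles -/
def cst (P D c e f o : ℕ) : Cst := ⟨fld 8 P, fld 144 D, c, e, f, fun _ _ => o⟩

theorem csnd {Y : Sys} {ψ : ℕ → Γ} {t : Γ} (h : Snd Y ψ t) {P D c e f : ℕ}
    (h1 : (Nat.blt 0 1 && Nat.beq (fld 8 P 1) 0 && Nat.beq (fld 144 D 1) Y.one) = true)
    (tri : t * ψ c * t = ψ e * t * ψ f) : CSnd Y (cst P D c e f Y.one) ψ t (wd (fld 8 P) (fld 144 D) ψ t) :=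
  ⟨wd_zero _ _ _ _, by rw [wdE ψ t 1 0 _ h1, wd_zero, h.one]; group, fun j hj => wd_eq _ _ _ _ hj, tri, fun _ _ => h.one_ok,
    fun _ => by show t * ψ Y.one * t * ψ Y.one * t = ψ Y.one * t * ψ Y.one; rw [h.one, mul_one, mul_one, h.tt, mul_one]⟩

/-! ### `M24` -/

def LO : List ℕ := [O1, O2, 0x6920d0]
def inT (c : ℕ) : Bool := force (apM c O1) (memL · LO) && force (apM c O2) (memL · LO)
def Ys (inP : ℕ → Bool) : Sys := ⟨mul, Nat.beq, inM24, inP, fun p => p, oneC⟩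
def Y1 : Sys := Ys inT
def Y2 : Sys := Ys fun c => fx c T0

theorem inT_iff {c : ℕ} : inT c = true ↔ apM c O1 ∈ LO ∧ apM c O2 ∈ LO := by
  rw [inT, force_eq, force_eq, Bool.and_eq_true, memL_iff, memL_iff]

theorem k_mul (κ : M24 →* Γ) {a b : ℕ} (ha : inM24 a = true) (hb : inM24 b = true) :
    pel κ (perm (mul a b)) = pel κ (perm a) * pel κ (perm b) := by
  rw [← perm_mul' ha hb, pel_mul κ (perm_mem_M24 ha) (perm_mem_M24 hb)]

theorem sndS (κ : M24 →* Γ) {inP : ℕ → Bool} {t : Γ} (tt : t * t = 1)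
    (hc : ∀ c, inM24 c = true → inP c = true → pel κ (perm c) * t = t * pel κ (perm c)) :
    Snd (Ys inP) (fun c => pel κ (perm c)) t :=
  ⟨fun _ _ => inM24_mul, fun _ _ => k_mul κ, fun a b _ _ e => by rw [beq_iff.1 e], oneC_in,
    by show pel κ (perm oneC) = 1; rw [perm_oneC, pel_one], fun _ h _ => h, hc, tt⟩

theorem invS (κ : M24 →* Γ) (a : ℕ) (ha : inM24 a = true) :
    ∃ b, inM24 b = true ∧ pel κ (perm b) = (pel κ (perm a))⁻¹ := by
  have := M24.inv_mem (perm_mem_M24 ha)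
  exact ⟨code (perm a)⁻¹, mem_M24_iff_code.1 this, by rw [← eq_perm_of_code rfl, pel_inv κ (perm_mem_M24 ha)]⟩

theorem apC_lt {c : ℕ} (hc : inM24 c = true) {a : ℕ} (ha : a < 2 ^ 24) : apM c a < 2 ^ 24 := by
  rw [← code_perm' hc]; exact apM_lt _ ha

theorem apC_xor {c : ℕ} (hc : inM24 c = true) {a b : ℕ} (ha : a < 2 ^ 24) (hb : b < 2 ^ 24) :
    apM c (Nat.xor a b) = Nat.xor (apM c a) (apM c b) := by
  rw [← code_perm' hc]; exact apM_xor24 _ ha hb

theorem apC_mul {c d : ℕ} (hc : inM24 c = true) (hd : inM24 d = true) {a : ℕ} (ha : a < 2 ^ 24) :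
    apM (mul c d) a = apM c (apM d a) := by
  rw [← code_perm' hc, ← code_perm' hd, ← code_mul]; exact apM_mul _ _ ha

theorem fs_apC {c : ℕ} (hc : inM24 c = true) {a : ℕ} (ha : a < 2 ^ 24) : fs (apM c a) = perm c • fs a := by
  rw [smul_fs _ ha, code_perm' hc]

theorem apC_inj {c : ℕ} (hc : inM24 c = true) {a b : ℕ} (ha : a < 2 ^ 24) (hb : b < 2 ^ 24) (e : apM c a = apM c b) :
    a = b := by
  have := congrArg fs e
  rw [fs_apC hc ha, fs_apC hc hb] at this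
  exact fs_inj ha hb (smul_left_cancel _ this)

theorem apC_full {c : ℕ} (hc : inM24 c = true) : apM c 16777215 = 16777215 :=
  fs_inj (apC_lt hc (by norm_num)) (by norm_num) (by rw [fs_apC hc (by norm_num), smul_fs_full])

theorem apC_code {c : ℕ} (hc : inM24 c = true) {a : ℕ} (ha : a < 2 ^ 24) : isCode (apM c a) = true ↔ isCode a = true := by
  rw [← fs_mem_CW_iff (apC_lt hc ha), ← fs_mem_CW_iff ha, fs_apC hc ha, smul_mem_CW_iff (perm_mem_M24 hc)]

theorem apC_eqv {c : ℕ} (hc : inM24 c = true) {a b : ℕ} (ha : a < 2 ^ 24) (hb : b < 2 ^ 24) :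
    eqv (apM c a) (apM c b) = true ↔ eqv a b = true := by
  rw [eqv, eqv, ← apC_xor hc ha hb, apC_code hc (xor_lt ha hb)]

theorem exists_quot {a b : ℕ} (ha : inM24 a = true) (hb : inM24 b = true) : ∃ p, inM24 p = true ∧ mul a p = b := by
  have := M24.mul_mem (M24.inv_mem (perm_mem_M24 ha)) (perm_mem_M24 hb)
  refine ⟨_, mem_M24_iff_code.1 this, ?_⟩
  rw [← code_perm' ha, ← code_mul, ← eq_perm_of_code rfl, mul_inv_cancel_left, code_perm' hb]

/-! sextets as labels -/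

def sv (X l : ℕ) : ℕ := hi (fld 12 X l)
def step2 (X g p l : ℕ) : Bool := force (sv X p) fun a => eqv (apM g a) (sv X l)
def R2 (X m l : ℕ) : Prop := eqv (apM m T0) (sv X l) = true

theorem sv_lt (X l : ℕ) : sv X l < 2 ^ 24 := by
  have := fld_lt 12 X l
  show fld 12 X l * 4096 < _; omega

theorem T0_lt : T0 < 2 ^ 24 := by decide

theorem R2_step {X : ℕ} (g m p l : ℕ) (hg : inM24 g = true) (hm : inM24 m = true) (e : step2 X g p l = true)
    (r : R2 X m p) : R2 X (mul g m) l := by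
  rw [step2, force_eq] at e
  rw [R2, apC_mul hg hm T0_lt, eqv_iff_red, ← eqv_iff_red.1 e, ← eqv_iff_red, apC_eqv hg (apC_lt hm T0_lt) (sv_lt _ _)]
  exact r

theorem R2_K (κ : M24 →* Γ) {X : ℕ} (m m' l : ℕ) (hm : inM24 m = true) (hm' : inM24 m' = true) (r : R2 X m l)
    (r' : R2 X m' l) : ∃ p, inM24 p = true ∧ fx p T0 = true ∧ pel κ (perm m') = pel κ (perm m) * pel κ (perm p) := by
  obtain ⟨p, hp, rfl⟩ := exists_quot hm hm'
  refine ⟨p, hp, ?_, k_mul κ hm hp⟩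
  rw [fx, ← apC_eqv hm (apC_lt hp T0_lt) T0_lt, ← apC_mul hm hp T0_lt, eqv_iff_red, eqv_iff_red.1 r, eqv_iff_red.1 r']

/-- totality of labels from closure under two generators -/
theorem total {R : ℕ → ℕ → Prop} {step : ℕ → ℕ → ℕ → Bool} {N l0 x y A B : ℕ} (hx : inM24 x = true) (hy : inM24 y = true)
    (hg : M24 ≤ closure {perm x, perm y}) (h0 : R oneC l0) (hl : l0 < N)
    (hs : ∀ g m p l, inM24 g = true → inM24 m = true → step g p l = true → R m p → R (mul g m) l)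
    (H : allLt (fun l => force (fld 12 A l) fun a => force (fld 12 B l) fun b =>
      Nat.blt a N && Nat.blt b N && step x l a && step y l b) N = true) (m : ℕ) (hm : inM24 m = true) : ∃ l < N, R m l := by
  have := closure_ind_fin (P := fun g => g ∈ M24 ∧ ∃ l < N, R (code g) l) (fun g _ => isOfFinOrder_of_finite g)
    ⟨one_mem _, l0, hl, by rwa [code_one]⟩ (fun g hg k ⟨hk, l, hl, r⟩ => by
      have e := allLt_iff.1 H l hl
      simp only [force_eq, Bool.and_eq_true, blt_iff] at e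
      have ik := mem_M24_iff_code.1 hk
      rcases hg with rfl | rfl
      · exact ⟨mul_mem (perm_mem_M24 hx) hk, _, e.1.1.1, by rw [code_mul, code_perm' hx]; exact hs _ _ _ _ hx ik e.1.2 r⟩
      · exact ⟨mul_mem (perm_mem_M24 hy) hk, _, e.1.1.2, by rw [code_mul, code_perm' hy]; exact hs _ _ _ _ hy ik e.2 r⟩)
    (hg (perm_mem_M24 hm))
  rw [code_perm' hm] at this
  exact this.2

/-! ### `2^11 : M24` -/

def lo (n : ℕ) : ℕ := Nat.land n 16777215
def up (n : ℕ) : ℕ := Nat.shiftRight n 24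
def pr (n : ℕ) : ℕ × ℕ := (lo n, up n)
def un (v c : ℕ) : ℕ := Nat.add v (Nat.shiftLeft c 24)

theorem lo_un {v : ℕ} (c : ℕ) (h : v < 2 ^ 24) : lo (un v c) = v := by
  show (v + c <<< 24) &&& (2 ^ 24 - 1) = v
  rw [Nat.and_two_pow_sub_one_eq_mod, Nat.shiftLeft_eq]; omega

theorem up_un {v : ℕ} (c : ℕ) (h : v < 2 ^ 24) : up (un v c) = c := by
  show (v + c <<< 24) >>> 24 = c
  rw [Nat.shiftRight_eq_div_pow, Nat.shiftLeft_eq]; omega

theorem pr_un {v : ℕ} (c : ℕ) (h : v < 2 ^ 24) : pr (un v c) = (v, c) := by rw [pr, lo_un c h, up_un c h]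

theorem lo_lt (n : ℕ) : lo n < 2 ^ 24 := by
  show n &&& (2 ^ 24 - 1) < _
  rw [Nat.and_two_pow_sub_one_eq_mod]; omega

def mul3 (a b : ℕ) : ℕ :=
  force (up a) fun c => force (up b) fun d => force (lo b) fun v => un (Nat.xor (lo a) (apM c v)) (mul c d)
def eq3 (a b : ℕ) : Bool := eqv (lo a) (lo b) && Nat.beq (up a) (up b)
def ok3 (n : ℕ) : Bool := ev (lo n) && force (up n) inM24
def one3 : ℕ := 0xbdab49ca307b9ac5a928398a418820000000

theorem ok3_eq (n : ℕ) : ok3 n = okE (pr n) := by rw [ok3, force_eq]; rfl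
theorem ok3_ok {n : ℕ} (h : ok3 n = true) : okE (pr n) = true := by rw [← ok3_eq]; exact h
theorem ok3_ev {n : ℕ} (h : ok3 n = true) : ev (lo n) = true := okE_ev (ok3_ok h)
theorem ok3_in {n : ℕ} (h : ok3 n = true) : inM24 (up n) = true := okE_in (ok3_ok h)
theorem ok3_un {v c : ℕ} (hv : ev v = true) (hc : inM24 c = true) : ok3 (un v c) = true := by
  rw [ok3_eq, pr_un c (ev_lt hv)]; exact okE_mk hv hc

theorem pr_mul3 {a b : ℕ} (ha : ok3 a = true) : pr (mul3 a b) = mulE (pr a) (pr b) := by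
  rw [mul3, force_eq, force_eq, force_eq, pr_un _ (xor_lt (lo_lt a) (apC_lt (ok3_in ha) (lo_lt b)))]; rfl

theorem ok3_mul {a b : ℕ} (ha : ok3 a = true) (hb : ok3 b = true) : ok3 (mul3 a b) = true := by
  rw [ok3_eq, pr_mul3 ha]; exact okE_mul (ok3_ok ha) (ok3_ok hb)

theorem pr_one3 : pr one3 = (0, oneC) := by decide +kernel
theorem ok3_one : ok3 one3 = true := by decide +kernel

theorem xcl (a b : ℕ) : a ^^^ (a ^^^ b) = b := by rw [← Nat.xor_assoc, Nat.xor_self, Nat.zero_xor]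

/-- parity of the intersection -/
def par (v o : ℕ) : ℕ := Nat.land (popc (Nat.land v o)) 1

theorem par_eq (v o : ℕ) : par v o = (fs v ∩ fs o).card % 2 := by
  rw [← fs_land, card_fs]; exact Nat.and_one_is_mod _

theorem par_comm (v o : ℕ) : par v o = par o v := by rw [par_eq, par_eq, Finset.inter_comm]

theorem par_lt (v o : ℕ) : par v o < 2 := by rw [par_eq]; omega

theorem par_xor (a b o : ℕ) : par (Nat.xor a b) o = Nat.xor (par a o) (par b o) := by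
  have := card_symmDiff_inter (fs a) (fs b) (fs o)
  rw [par_eq, par_eq, par_eq, fs_xor]
  rcases Nat.mod_two_eq_zero_or_one (fs a ∩ fs o).card with h1 | h1 <;>
    rcases Nat.mod_two_eq_zero_or_one (fs b ∩ fs o).card with h2 | h2 <;> rw [h1, h2] <;>
    first | (show _ = 0; omega) | (show _ = 1; omega)

theorem par_xor' (v a b : ℕ) : par v (Nat.xor a b) = Nat.xor (par v a) (par v b) := by
  rw [par_comm, par_xor, par_comm a, par_comm b]

theorem par_apC {c : ℕ} (hc : inM24 c = true) {a b : ℕ} (ha : a < 2 ^ 24) (hb : b < 2 ^ 24) :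
    par (apM c a) (apM c b) = par a b := by
  rw [par_eq, par_eq, fs_apC hc ha, fs_apC hc hb, ← smul_inter, card_smul]

theorem par_full {v : ℕ} (h : ev v = true) : par v 16777215 = 0 := by
  rw [par_eq, fs_full, Finset.inter_univ]; exact Nat.even_iff.1 (ev_even h)

theorem par_code {a b : ℕ} (ha : isCode a = true) (hb : isCode b = true) : par a b = 0 := by
  rw [par_eq]; exact Nat.even_iff.1 (even_card_inter (fs_mem_CW ha) (fs_mem_CW hb))

theorem par_eqv {a b o : ℕ} (e : eqv a b = true) (ho : isCode o = true) : par a o = par b o := by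
  have := par_code e ho
  rw [par_xor] at this
  exact Nat.eq_of_xor_eq_zero this

/-- the third octad -/
def t3 (a b : ℕ) : ℕ := Nat.xor (Nat.xor a b) 16777215

theorem LO_spec : ∀ u ∈ LO, isCode u = true ∧ ∀ v ∈ LO, u ≠ v → t3 u v ∈ LO ∧ ∀ y ∈ LO, y = u ∨ y = v ∨ y = t3 u v := by
  decide +kernel

theorem LO_lt {u : ℕ} (h : u ∈ LO) : u < 2 ^ 24 := isCode_lt (LO_spec u h).1

theorem apC_t3 {c : ℕ} (hc : inM24 c = true) {a b : ℕ} (ha : a < 2 ^ 24) (hb : b < 2 ^ 24) :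
    apM c (t3 a b) = t3 (apM c a) (apM c b) := by
  rw [t3, apC_xor hc (xor_lt ha hb) (by norm_num), apC_xor hc ha hb, apC_full hc, t3]

theorem par_t3 {v : ℕ} (h : ev v = true) (a b : ℕ) : par v (t3 a b) = Nat.xor (par v a) (par v b) := by
  rw [t3, par_xor', par_xor', par_full h]; exact Nat.xor_zero _

/-- the marked octad `(a, e)` belongs to the image of the basic trio -/
def In (m a e : ℕ) : Prop := (∃ o ∈ LO, apM (up m) o = a) ∧ par (lo m) a = e

theorem In_mul {g m a e : ℕ} (hg : ok3 g = true) (hm : ok3 m = true) (h : In m a e) :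
    In (mul3 g m) (apM (up g) a) (Nat.xor e (par (lo g) (apM (up g) a))) := by
  obtain ⟨⟨o, ho, rfl⟩, rfl⟩ := h
  have e := pr_mul3 (b := m) hg
  have e1 : lo (mul3 g m) = Nat.xor (lo g) (apM (up g) (lo m)) := congrArg Prod.fst e
  have e2 : up (mul3 g m) = mul (up g) (up m) := congrArg Prod.snd e
  refine ⟨⟨o, ho, by rw [e2, apC_mul (ok3_in hg) (ok3_in hm) (LO_lt ho)]⟩, ?_⟩
  rw [e1, par_xor, par_apC (ok3_in hg) (lo_lt m) (apC_lt (ok3_in hm) (LO_lt ho))]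
  exact Nat.xor_comm _ _

theorem In_t3 {m a e b f : ℕ} (hm : ok3 m = true) (h1 : In m a e) (h2 : In m b f) (h : a ≠ b) :
    In m (t3 a b) (Nat.xor e f) := by
  obtain ⟨⟨o, ho, rfl⟩, rfl⟩ := h1
  obtain ⟨⟨o', ho', rfl⟩, rfl⟩ := h2
  exact ⟨⟨_, ((LO_spec o ho).2 o' ho' fun e => h (by rw [e])).1, apC_t3 (ok3_in hm) (LO_lt ho) (LO_lt ho')⟩,
    par_t3 (ok3_ev hm) _ _⟩

def b0 (l : ℕ) : ℕ := Nat.land l 1
def b1 (l : ℕ) : ℕ := Nat.land (Nat.shiftRight l 1) 1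
def tr (X l : ℕ) : ℕ := fld 48 X (Nat.shiftRight l 2)
def mem3 (a e b f c g : ℕ) : Bool :=
  (Nat.beq c a && Nat.beq g e) || (Nat.beq c b && Nat.beq g f) || (Nat.beq c (t3 a b) && Nat.beq g (Nat.xor e f))
def step3 (X g p l : ℕ) : Bool :=
  force (up g) fun c => force (lo g) fun v => force (tr X p) fun A => force (tr X l) fun B =>
    force (apM c (lo A)) fun a => force (apM c (up A)) fun b => force (Nat.xor (b0 p) (par v a)) fun e =>
      force (Nat.xor (b1 p) (par v b)) fun f => force (lo B) fun a' => force (up B) fun b' =>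
        !(Nat.beq a b) && !(Nat.beq a' b') && mem3 a e b f a' (b0 l) && mem3 a e b f b' (b1 l)
def R3 (X m l : ℕ) : Prop := lo (tr X l) ≠ up (tr X l) ∧ In m (lo (tr X l)) (b0 l) ∧ In m (up (tr X l)) (b1 l)

theorem mem3_spec {n a e b f x y : ℕ} (h1 : In n a e) (h2 : In n b f) (h3 : In n (t3 a b) (Nat.xor e f))
    (h : mem3 a e b f x y = true) : In n x y := by
  simp only [mem3, Bool.and_eq_true, Bool.or_eq_true, beq_iff] at h
  rcases h with (⟨rfl, rfl⟩ | ⟨rfl, rfl⟩) | ⟨rfl, rfl⟩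
  exacts [h1, h2, h3]

theorem R3_step {X : ℕ} (g m p l : ℕ) (hg : ok3 g = true) (hm : ok3 m = true) (e : step3 X g p l = true)
    (r : R3 X m p) : R3 X (mul3 g m) l := by
  simp only [step3, force_eq, Bool.and_eq_true, Bool.not_eq_true', beq_false_iff] at e
  obtain ⟨⟨⟨e1, e2⟩, e3⟩, e4⟩ := e
  have a := In_mul hg hm r.2.1
  have b := In_mul hg hm r.2.2
  have c := In_t3 (ok3_mul hg hm) a b e1
  exact ⟨e2, mem3_spec a b c e3, mem3_spec a b c e4⟩

/-! the automorphism induced by `t` -/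

def uC : ℕ := 0x024006
def q0C : ℕ := 0xbc0ea332364b892451ebaccad18820
def c1C : ℕ := 0x3dab49a5a15dc4f6494870e04044a6
def TL : List (ℕ × ℕ × ℕ × ℕ) := [
  (0x8f3649, 0x24006, 0xbc0ea332364b892451ebaccad18820024006, 0xbdab49ca307b9ac5a928398a418820),
  (0x51440b, 0x140300, 0xc0f4348767948c5a928acdcd882e2140300, 0x6426ea85361d0970162231d4d7a24b),
  (0xda354c, 0x24021, 0xb9e086be3593a6952d94b10a618820024021, 0x12907618ab98244859b5a246f0ba37),
  (0x99e513, 0x2020c0, 0x75aa89bc5095da952d9439824044a32020c0, 0x22d80445aa09de2b8cae4d2d29d4d0),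
  (0x4ab34b, 0x100e00, 0x8cc94b4ae6788ec5a9286c0150b865100e00, 0x41446b9d40aac2db4093745e39512c),
  (0xae8655, 0x800d0, 0x8daac9aaf0589b47c909398040b8650800d0, 0x682eb124859186863d548ba01accf6),
  (0xa4a608, 0x412080, 0x1dab29d030401aa4b16f39844b962e412080, 0xa8dc9152d74423252dec0166131da4),
  (0x88d015, 0x410050, 0x2daab9a410605afa224a39ae410dd1410050, 0x9be9143a0c15921280775aab23988d),
  (0x4c2146, 0x140c00, 0x1274ac8ad78e0c5a92831e3670457140c00, 0x4040d71d42aaca6b4264b8d914d24f)]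

def res (bit : ℕ → ℕ → Bool) (L : List (ℕ × ℕ × ℕ × ℕ)) : ℕ → ℕ :=
  List.rec (fun r => r) (fun e _ ih r => Bool.rec (ih r) (force (Nat.xor r e.2.1) ih) (bit r e.1)) L
def tv (bit : ℕ → ℕ → Bool) (mu : ℕ → ℕ → ℕ) (L : List (ℕ × ℕ × ℕ × ℕ)) : ℕ → ℕ → ℕ :=
  List.rec (fun _ a => a) (fun e _ ih r a => Bool.rec (ih r a)
    (force (Nat.xor r e.2.1) fun r' => force (mu a e.2.2.1) (ih r')) (bit r e.1)) L
def bitP (r c : ℕ) : Bool := Nat.beq (par r c) 1
def inP3 (n : ℕ) : Bool := force (up n) inT && force (lo n) fun v => force (res bitP TL v) isCode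
def tau3 (n : ℕ) : ℕ := force (lo n) fun v => force (tv bitP mul3 TL v one3) fun a => force (un 0 (up n)) (mul3 a)

theorem res_cons (bit : ℕ → ℕ → Bool) (x : ℕ × ℕ × ℕ × ℕ) (L : List (ℕ × ℕ × ℕ × ℕ)) (r : ℕ) :
    res bit (x :: L) r = if bit r x.1 = true then res bit L (Nat.xor r x.2.1) else res bit L r := by
  have : res bit (x :: L) r = Bool.rec (res bit L r) (force (Nat.xor r x.2.1) (res bit L)) (bit r x.1) := rfl
  rw [this, force_eq]; cases bit r x.1 <;> rfl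

theorem tv_cons (bit : ℕ → ℕ → Bool) (mu : ℕ → ℕ → ℕ) (x : ℕ × ℕ × ℕ × ℕ) (L : List (ℕ × ℕ × ℕ × ℕ)) (r a : ℕ) :
    tv bit mu (x :: L) r a =
      if bit r x.1 = true then tv bit mu L (Nat.xor r x.2.1) (mu a x.2.2.1) else tv bit mu L r a := by
  have : tv bit mu (x :: L) r a = Bool.rec (tv bit mu L r a)
    (force (Nat.xor r x.2.1) fun r' => force (mu a x.2.2.1) (tv bit mu L r')) (bit r x.1) := rfl
  rw [this, force_eq, force_eq]; cases bit r x.1 <;> rfl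

def Y3 : Sys := ⟨mul3, eq3, ok3, inP3, tau3, one3⟩

theorem TL_chk : allL TL (fun e => inM24 e.2.2.2 && inT e.2.2.2 && Nat.beq (apM e.2.2.2 uC) e.2.1 && ok3 e.2.2.1 &&
    eqE (mulE (0, e.2.2.2) (uC, q0C)) (mulE (pr e.2.2.1) (0, e.2.2.2))) = true := by decide +kernel

theorem V9_chk : allLt (fun j => force (hi j) fun v => !(ev v && Nat.beq (par v O1) 0 && Nat.beq (par v O2) 0) ||
    force (res bitP TL v) isCode) 4096 = true := by decide +kernel

section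
variable {G : Type*} [Group G] {V : Subgroup G} {ν : Finset GolayPt → G} {κ : M24 →* G} (h : MM V ν κ)
  (θ : ↥𝐍(V) →* Γ)

/-- the image of a coded element -/
noncomputable def ps (ν : Finset GolayPt → G) (κ : M24 →* G) (θ : ↥𝐍(V) →* Γ) (n : ℕ) : Γ := pel θ (el ν κ (pr n))

include h

theorem ps_mem {n : ℕ} (hn : ok3 n = true) : el ν κ (pr n) ∈ 𝐍(V) := h.el_mem (ok3_ok hn)

theorem ps_mul {a b : ℕ} (ha : ok3 a = true) (hb : ok3 b = true) : ps ν κ θ (mul3 a b) = ps ν κ θ a * ps ν κ θ b := by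
  rw [ps, pr_mul3 ha, ← h.el_mul (ok3_ok ha) (ok3_ok hb), pel_mul θ (ps_mem h ha) (ps_mem h hb)]; rfl

theorem ps_one : ps ν κ θ one3 = 1 := by rw [ps, pr_one3, h.el_one, pel_one]

theorem ps_k (c : ℕ) : ps ν κ θ (un 0 c) = pel θ (pel κ (perm c)) := by rw [ps, pr_un c (by norm_num), h.el_k]

theorem ps_vk {n : ℕ} (hn : ok3 n = true) : ps ν κ θ n = pel θ (ν (fs (lo n))) * pel θ (pel κ (perm (up n))) :=
  pel_mul θ (h.V_le (h.v_mem (ok3_ev hn))) (h.k_mem (perm_mem_M24 (ok3_in hn)))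

theorem exists_code {x : G} (hx : x ∈ 𝐍(V)) : ∃ j < 4096, ∃ c, ev (hi j) = true ∧ inM24 c = true ∧
    x = el ν κ (pr (un (hi j) c)) := by
  obtain ⟨m, hm, g, hg, rfl⟩ := h.dec hx
  obtain ⟨j, hj, e1, e2⟩ := h.exists_hi (h.v_mem hm)
  exact ⟨j, hj, code g, e1, mem_M24_iff_code.1 hg, by rw [pr_un _ (ev_lt e1), MM.el_code, e2]⟩

theorem inv3 (a : ℕ) (ha : ok3 a = true) : ∃ b, ok3 b = true ∧ ps ν κ θ b = (ps ν κ θ a)⁻¹ := by
  obtain ⟨j, -, c, e1, e2, e3⟩ := exists_code h (inv_mem (ps_mem h ha))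
  exact ⟨_, ok3_un e1 e2, by rw [ps, ← e3, pel_inv θ (ps_mem h ha)]; rfl⟩

theorem R3_K {X : ℕ} (m m' l : ℕ) (hm : ok3 m = true) (hm' : ok3 m' = true) (r : R3 X m l) (r' : R3 X m' l) :
    ∃ p, ok3 p = true ∧ inP3 p = true ∧ ps ν κ θ m' = ps ν κ θ m * ps ν κ θ p := by
  obtain ⟨j, hj, c, e1, hc, e3⟩ := exists_code h (mul_mem (inv_mem (ps_mem h hm)) (ps_mem h hm'))
  have hp := ok3_un e1 hc
  have e4 : el ν κ (pr m') = el ν κ (pr (mul3 m (un (hi j) c))) := by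
    rw [pr_mul3 hm, ← h.el_mul (ok3_ok hm) (ok3_ok hp), ← e3, mul_inv_cancel_left]
  refine ⟨_, hp, ?_, by rw [← ps_mul h θ hm hp, ps, e4]; rfl⟩
  rw [h.el_eq_iff (ok3_eq _ ▸ hm') (ok3_ok (ok3_mul hm hp)), pr_mul3 hm, pr_un _ (ev_lt e1), eqE, Bool.and_eq_true,
    beq_iff] at e4
  have e5 : eqv (lo m') (Nat.xor (lo m) (apM (up m) (hi j))) = true := e4.1
  have e6 : up m' = mul (up m) c := e4.2
  have im := ok3_in hm
  have key : ∀ {a e}, In m a e → In m' a e → ∃ o ∈ LO, ∃ o' ∈ LO, apM (up m) o = a ∧ apM c o' = o ∧ par (hi j) o = 0 := by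
    rintro a e ⟨⟨o, ho, rfl⟩, rfl⟩ ⟨⟨o', ho', a1⟩, a2⟩
    rw [e6, apC_mul im hc (LO_lt ho')] at a1
    refine ⟨o, ho, o', ho', rfl, apC_inj im (apC_lt hc (LO_lt ho')) (LO_lt ho) a1, ?_⟩
    rw [par_eqv e5 ((apC_code im (LO_lt ho)).2 (LO_spec o ho).1), par_xor, par_apC im (ev_lt e1) (LO_lt ho)] at a2
    have := congrArg (Nat.xor (par (lo m) (apM (up m) o))) a2
    exact (xcl _ _).symm.trans (this.trans (Nat.xor_self _))
  obtain ⟨u, hu, u', hu', a1, a2, a3⟩ := key r.2.1 r'.2.1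
  obtain ⟨v, hv, v', hv', b1, b2, b3⟩ := key r.2.2 r'.2.2
  have n1 : u ≠ v := fun e => r.1 (by rw [← a1, ← b1, e])
  have n2 : u' ≠ v' := fun e => n1 (by rw [← a2, ← b2, e])
  have k1 : ∀ y ∈ LO, apM c y ∈ LO := fun y hy => by
    rcases ((LO_spec u' hu').2 v' hv' n2).2 y hy with rfl | rfl | rfl
    · rwa [a2]
    · rwa [b2]
    · rw [apC_t3 hc (LO_lt hu') (LO_lt hv'), a2, b2]; exact ((LO_spec u hu).2 v hv n1).1
  have k2 : ∀ y ∈ LO, par (hi j) y = 0 := fun y hy => by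
    rcases ((LO_spec u hu).2 v hv n1).2 y hy with rfl | rfl | rfl
    · exact a3
    · exact b3
    · rw [par_t3 e1, a3, b3]; rfl
  have := allLt_iff.1 V9_chk j hj
  rw [force_eq, e1, k2 O1 (by decide), k2 O2 (by decide), show (!(true && Nat.beq 0 0 && Nat.beq 0 0)) = false from rfl,
    Bool.false_or] at this
  rw [inP3, force_eq, force_eq, lo_un _ (ev_lt e1), up_un _ (ev_lt e1), Bool.and_eq_true, inT_iff]
  exact ⟨⟨k1 _ (by decide), k1 _ (by decide)⟩, this⟩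

variable {θ} {t : Γ}

theorem tv_spec {bit : ℕ → ℕ → Bool} {L : List (ℕ × ℕ × ℕ × ℕ)}
    (hL : ∀ e ∈ L, ev e.2.1 = true ∧ ok3 e.2.2.1 = true ∧ pel θ (ν (fs e.2.1)) * t = t * ps ν κ θ e.2.2.1) :
    ∀ r a u, ev r = true → ev u = true → ok3 a = true → pel θ (ν (fs u)) * t = t * ps ν κ θ a → isCode (res bit L r) = true →
      ok3 (tv bit mul3 L r a) = true ∧ pel θ (ν (fs (Nat.xor u r))) * t = t * ps ν κ θ (tv bit mul3 L r a) := by
  induction L with
  | nil =>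
    intro r a u hr hu ha e hc
    exact ⟨ha, by rw [h.v_xor hu hr, (h.v_eq_one hr).2 hc, mul_one]; exact e⟩
  | cons x L ih =>
    intro r a u hr hu ha e hc
    have ih := ih fun e he => hL e (List.mem_cons_of_mem _ he)
    obtain ⟨x1, x2, x3⟩ := hL x List.mem_cons_self
    rw [res_cons] at hc
    rw [tv_cons]
    split_ifs at hc ⊢ with hb
    swap
    · exact ih r a u hr hu ha e hc
    · have := ih _ (mul3 a x.2.2.1) (Nat.xor u x.2.1) (ev_xor hr x1) (ev_xor hu x1) (ok3_mul ha x2) (by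
        rw [h.v_xor hu x1, pel_mul θ (h.V_le (h.v_mem hu)) (h.V_le (h.v_mem x1)), mul_assoc, x3, ← mul_assoc, e,
          ps_mul h θ ha x2, mul_assoc]) hc
      rwa [show Nat.xor (Nat.xor u x.2.1) (Nat.xor r x.2.1) = Nat.xor u r by
        show (u ^^^ x.2.1) ^^^ (r ^^^ x.2.1) = u ^^^ r
        rw [Nat.xor_comm r, Nat.xor_assoc, xcl]] at this

theorem snd3 (tt : t * t = 1)
    (hc : ∀ c, inM24 c = true → inT c = true → pel θ (pel κ (perm c)) * t = t * pel θ (pel κ (perm c)))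
    (hu : t * pel θ (ν (fs uC)) * t = pel θ (ν (fs uC) * pel κ (perm q0C))) : Snd Y3 (ps ν κ θ) t := by
  have hL : ∀ e ∈ TL, ev e.2.1 = true ∧ ok3 e.2.2.1 = true ∧ pel θ (ν (fs e.2.1)) * t = t * ps ν κ θ e.2.2.1 := fun e he => by
    have := allL_iff.1 TL_chk e he
    simp only [Bool.and_eq_true, beq_iff] at this
    obtain ⟨⟨⟨⟨a1, a2⟩, a3⟩, a4⟩, a5⟩ := this
    have eu : ev uC = true := by decide +kernel
    have ou : okE (uC, q0C) = true := by decide +kernel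
    have og := okE_mk ev_zero a1
    have g24 := perm_mem_M24 a1
    have b1 := h.conj_v g24 eu
    rw [code_perm' a1, a3] at b1
    have b2 := (h.el_eq_iff (okE_mul og ou) (okE_mul (ok3_ok a4) og)).2 a5
    rw [← h.el_mul og ou, ← h.el_mul (ok3_ok a4) og, h.el_k, ← mul_inv_eq_iff_eq_mul] at b2
    refine ⟨by rw [← a3, ← code_perm' a1]; exact ev_apM _ eu, a4, ?_⟩
    rw [ps, ← b1, ← b2, pel_conj θ (h.k_mem g24) (h.V_le (h.v_mem eu)), pel_conj θ (h.k_mem g24) (h.el_mem ou), el, ← hu]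
    have c := hc _ a1 a2
    have c' : (pel θ (pel κ (perm e.2.2.2)))⁻¹ * t = t * (pel θ (pel κ (perm e.2.2.2)))⁻¹ := by
      rw [inv_mul_eq_iff_eq_mul, ← mul_assoc, c, mul_inv_cancel_right]
    rw [mul_assoc _ _ t, c', ← mul_assoc, ← mul_assoc, ← mul_assoc, ← mul_assoc, ← mul_assoc, ← c, mul_assoc _ t t, tt, mul_one]
  have key : ∀ p, ok3 p = true → inP3 p = true → ok3 (tau3 p) = true ∧ ps ν κ θ p * t = t * ps ν κ θ (tau3 p) := fun p hp ip => by
    simp only [inP3, force_eq, Bool.and_eq_true] at ip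
    obtain ⟨a, b⟩ := tv_spec h hL (lo p) one3 0 (ok3_ev hp) ev_zero ok3_one
      (by rw [h.v_zero, ps_one h, pel_one, one_mul, mul_one]) ip.2
    have ok := ok3_un ev_zero (ok3_in hp)
    simp only [tau3, force_eq]
    refine ⟨ok3_mul a ok, ?_⟩
    rw [show Nat.xor 0 (lo p) = lo p from Nat.zero_xor _] at b
    rw [ps_mul h θ a ok, ps_k h, ps_vk h θ hp, mul_assoc, hc _ (ok3_in hp) ip.1, ← mul_assoc, b, mul_assoc]
  exact ⟨fun _ _ => ok3_mul, fun _ _ => ps_mul h θ, fun a b ha hb e => by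
    rw [ps, ps, (h.el_eq_iff (ok3_ok ha) (ok3_ok hb)).2 e], ok3_one, ps_one h θ, fun p a b => (key p a b).1,
    fun p a b => (key p a b).2, tt⟩
end

theorem mul3_un0 {g m : ℕ} (hg : inM24 g = true) : mul3 (un 0 g) (un 0 m) = un 0 (mul g m) := by
  rw [mul3, force_eq, force_eq, force_eq, up_un _ (by norm_num), up_un _ (by norm_num), lo_un _ (by norm_num),
    lo_un _ (by norm_num), show apM g 0 = 0 from Nat.eq_of_xor_eq_zero (by
      have := apC_xor hg (a := 0) (b := 0) (by norm_num) (by norm_num)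
      rw [Nat.xor_zero]; exact this.trans (Nat.xor_self _))]
  rfl

theorem total3 {X N l0 x y A B : ℕ} (hx : inM24 x = true) (hy : inM24 y = true) (hg : M24 ≤ closure {perm x, perm y})
    (h0 : R3 X (un 0 oneC) (Nat.mul 4 l0)) (hl : l0 < N)
    (H : allLt (fun l => force (fld 12 A l) fun a => force (fld 12 B l) fun b => Nat.blt a N && Nat.blt b N &&
      step3 X (un 0 x) (Nat.mul 4 l) (Nat.mul 4 a) && step3 X (un 0 y) (Nat.mul 4 l) (Nat.mul 4 b)) N = true)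
    (m : ℕ) (hm : ok3 m = true) : ∃ l < 4 * N, R3 X m l := by
  obtain ⟨l, hl, r⟩ := total (R := fun c l => R3 X (un 0 c) (Nat.mul 4 l))
    (step := fun g p l => step3 X (un 0 g) (Nat.mul 4 p) (Nat.mul 4 l)) hx hy hg h0 hl (fun g m p l hg hm e r => by
      have := R3_step _ _ _ _ (ok3_un ev_zero hg) (ok3_un ev_zero hm) e r
      rwa [mul3_un0 hg] at this) H (up m) (ok3_in hm)
  obtain ⟨r1, ⟨r2, -⟩, r3, -⟩ := r
  rw [up_un _ (by norm_num)] at r2 r3
  set e := par (lo m) (lo (tr X (Nat.mul 4 l))) with he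
  set f := par (lo m) (up (tr X (Nat.mul 4 l))) with hf
  have le : e < 2 := par_lt _ _
  have lf : f < 2 := par_lt _ _
  have a1 : tr X (4 * l + e + 2 * f) = tr X (Nat.mul 4 l) := by
    show fld 48 X ((4 * l + e + 2 * f) >>> 2) = fld 48 X ((4 * l) >>> 2)
    rw [Nat.shiftRight_eq_div_pow, Nat.shiftRight_eq_div_pow]; congr 1; omega
  have a2 : b0 (4 * l + e + 2 * f) = e := by
    show (4 * l + e + 2 * f) &&& 1 = e
    rw [Nat.and_one_is_mod]; omega
  have a3 : b1 (4 * l + e + 2 * f) = f := by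
    show ((4 * l + e + 2 * f) >>> 1) &&& 1 = f
    rw [Nat.and_one_is_mod, Nat.shiftRight_eq_div_pow]; omega
  exact ⟨4 * l + e + 2 * f, by omega, by rw [R3, a1, a2, a3]; exact ⟨r1, ⟨r2, rfl⟩, r3, rfl⟩⟩

end CA.J4.Dce
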