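import Cfsg.Agent.Lib.ThreeT.Sym

/-!
A presentation of `GL(2,3)` by three involutions.
-/

set_option autoImplicit false

namespace CA.Rw
open scoped commutatorElement

variable {G : Type*} [Group G]

def glBase : List Rule := [([0, 0], []), ([1, 1], []), ([2, 2], []), ([1, 0, 1], [0, 1, 0]), ([0, 2, 0, 1, 0, 2, 1, 0], [1, 0, 0, 2, 0, 1])]

def glItems : List Item := [⟨[0, 2, 0, 1, 0, 2, 1, 0, 0], 0, 7, 4, 0⟩, ⟨[0, 2, 0, 1, 0, 2, 1, 1], 2, 6, 0, 0⟩, ⟨[0, 2, 0, 1, 0, 2, 2], 0, 0, 4, 5⟩, ⟨[0, 0, 2, 0, 1, 0, 2], 3, 0, 1, 1⟩, ⟨[2, 0, 1, 0, 2, 0, 1, 0, 2], 0, 4, 0, 0⟩, ⟨[2, 0, 1, 0, 2, 0, 1, 0, 2, 1, 0], 9, 3, 1, 0⟩, ⟨[2, 0, 2, 1, 0, 0], 1, 0, 6, 4⟩, ⟨[0, 0, 1, 2, 0, 2, 0], 7, 0, 0, 1⟩, ⟨[1, 1, 2, 1, 0, 2], 5, 1, 9, 0⟩, ⟨[1, 0, 2, 0, 1, 0, 0], 0, 0, 9, 5⟩, ⟨[1, 0, 2, 0, 1, 0, 1], 1, 0, 13, 4⟩, ⟨[2, 2, 0, 2, 0, 1], 5, 1,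 13, 0⟩, ⟨[1, 0, 2, 0, 1, 2, 0, 1, 0, 2], 0, 0, 8, 5⟩, ⟨[0, 0, 2, 1, 2], 13, 0, 0, 1⟩, ⟨[1, 0, 2, 0, 1, 2, 2], 16, 5, 2, 0⟩, ⟨[1, 0, 2, 0, 1, 0, 2, 0, 1, 0, 2], 13, 5, 6, 0⟩, ⟨[0, 0, 2, 0, 2, 0], 16, 0, 0, 1⟩, ⟨[1, 2, 0, 2, 0], 0, 1, 9, 0⟩, ⟨[1, 0, 1, 0, 2, 0, 1], 3, 2, 21, 0⟩, ⟨[0, 2, 0, 1, 0, 2, 0, 1, 0, 2, 1], 17, 0, 18, 4⟩, ⟨[0, 1, 2, 0, 2, 0, 2, 1, 0], 13, 0, 15, 4⟩, ⟨[1, 0, 2, 0, 2, 0, 1, 0, 2], 3, 0, 17, 4⟩, ⟨[1, 0, 1, 0, 2, 0, 1, 0], 13, 2, 25, 0⟩]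

def glR : List Rule := [([1, 0, 2, 1, 0, 2], [0, 1, 2, 0, 1, 0]), ([2, 0, 1, 2, 1], [0, 1, 0, 2, 0]), ([2, 0, 1, 2, 0], [0, 2, 1, 0, 2]), ([1, 2, 0, 2, 1], [0, 1, 2, 0, 2]), ([1, 2, 0, 1, 2], [0, 1, 2, 0, 1]), ([1, 0, 2, 0, 2], [0, 2, 0, 2, 1]), ([2, 0, 2, 0], [0, 2, 0, 2]), ([1, 0, 2, 0, 1], [0, 2, 0, 1, 2]), ([2, 1, 2], [1, 2, 1]), ([2, 1, 0, 2, 1], [1, 0, 2, 1, 0]), ([2, 1, 0, 2, 0], [1, 0, 2, 0, 1]), ([2, 0, 2, 1, 0], [0, 1, 2, 0, 2]), ([2, 0, 1, 0, 2], [0, 1, 2, 1, 0]), ([1, 2, 1, 0, 2], [0, 2, 0, 1, 0]), ([0, 0], []), ([1, 1], []), ([2, 2], []), ([1, 0, 1], [0, 1, 0])]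

def glN : List (List ℕ) := [[], [0], [1], [2], [1, 0], [2, 0], [0, 1], [2, 1], [0, 2], [1, 2], [0, 1, 0], [2, 1, 0], [0, 2, 0], [1, 2, 0], [2, 0, 1], [0, 2, 1], [1, 2, 1], [1, 0, 2], [2, 0, 2], [0, 1, 2], [2, 0, 1, 0], [0, 2, 1, 0], [1, 2, 1, 0], [1, 0, 2, 0], [0, 2, 0, 2], [0, 1, 2, 0], [0, 2, 0, 1], [1, 2, 0, 1], [1, 0, 2, 1], [2, 0, 2, 1], [0, 1, 2, 1], [0, 1, 0, 2], [2, 1, 0, 2], [1, 2, 0, 2], [2, 0, 1, 2], [0, 2, 0, 1, 0], [1, 2, 0, 1, 0], [1, 0, 2, 1, 0], [0, 1, 2, 0, 2], [0, 1, 2, 1, 0], [0, 1, 0, 2, 0], [0, 2, 0, 1, 2], [0, 2, 0, 2, 1], [0, 2, 1, 0, 2], [0, 1, 2, 0, 1], [0, 1, 0, 2, 1], [0, 1, 2, 0, 1, 0], [0, 1, 0, 2, 1, 0]]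

theorem gl_valid {g : ℕ → G} (h : Valid g glBase) : Valid g glR :=
  valid_of_subset (complete_valid 30 h glItems) (by decide +kernel)

theorem gl_closed : closed glR 30 3 glN = true := by decide +kernel

/-- the three reflections -/
def glS : ℕ → GL (Fin 2) (ZMod 3) := gen4 ⟨!![0, 1; 1, 0], !![0, 1; 1, 0], by decide, by decide⟩
  ⟨!![1, 0; 2, 2], !![1, 0; 2, 2], by decide, by decide⟩ ⟨!![1, 0; 0, 2], !![1, 0; 0, 2], by decide, by decide⟩ 1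

theorem gl_words (x : GL (Fin 2) (ZMod 3)) : ∃ w ∈ glN, ev glS w = x := by
  have h1 : (glN.map (ev glS)).Nodup := by decide +kernel
  have h0 : Nat.card (GL (Fin 2) (ZMod 3)) = 48 := by rw [Matrix.card_GL_field]; simp [Fin.prod_univ_succ]
  have h3 : (glN.map (ev glS)).length = 48 := by rw [List.length_map]; decide
  rw [← List.mem_map]
  generalize glN.map (ev glS) = L at h1 h3
  have h2 := Set.eq_of_subset_of_ncard_le (Set.subset_univ ((L.toFinset : Finset _) : Set (GL (Fin 2) (ZMod 3)))) (by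
    rw [Set.ncard_univ, h0, Set.ncard_coe_finset, List.toFinset_card_of_nodup h1, h3])
  exact List.mem_toFinset.1 (h2.ge (Set.mem_univ x))

theorem exists_gl23 {s p f : G} (hs : s * s = 1) (hp : p ^ 3 = 1) (h1 : s * p * s⁻¹ = p⁻¹) (h2 : s * f * s⁻¹ = f⁻¹)
    (h3 : f * (p * f * p⁻¹) = p⁻¹ * f * p) (h4 : f * f ≠ 1) {X : Subgroup G} (xs : s ∈ X) (xp : p ∈ X) (xf : f ∈ X) :
    ∃ K ≤ X, Nonempty (K ≃* GL (Fin 2) (ZMod 3)) := by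
  have e : s⁻¹ = s := inv_eq_of_mul_eq_one_right hs
  have c : ∀ x, s * (s * x) = x := fun x => by rw [← mul_assoc, hs, one_mul]
  have q : s * p * s = p⁻¹ := by rw [← h1, e]
  have sq := gen4_sq hs (b := s * p) (c := s * f) (by rw [← mul_assoc, q, inv_mul_cancel])
    (by rw [← mul_assoc, ← e, e, show s * f * s = f⁻¹ by rw [← h2, e], inv_mul_cancel]) (one_mul 1)
  obtain ⟨φ, h⟩ := exists_hom_of_closed (s := glS) (g := gen4 s (s * p) (s * f) 1)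
    (gen4_sq (by decide) (by decide) (by decide) (one_mul 1)) sq
    (closure_eq_top_of_words (N := glN) (by decide) gl_words) (gl_valid (by decide +kernel))
    (gl_valid (by
      simp only [Valid, glBase, List.mem_cons, List.not_mem_nil, or_false, forall_eq_or_imp, forall_eq, ev_cons, ev_nil]
      simp only [mul_one]
      refine ⟨sq 0, sq 1, sq 2, ?_, ?_⟩ <;> simp only [gen4, ← mul_assoc, q, hs, one_mul]
      · rw [mul_assoc, eq_inv_of_mul_eq_one_left (show p * p * p = 1 by rw [← hp, pow_three'])]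
      · rw [← h3]; simp only [mul_assoc])) gl_closed (by decide +kernel)
  have inj : Function.Injective φ := by
    rw [injective_iff_map_eq_one]
    intro x hx
    by_contra hn
    obtain ⟨w, hw, rfl⟩ := gl_words x
    have key : ∀ w ∈ glN, ev glS w = 1 ∨ ev glS w = ev glS [0, 2, 0, 2] ∨ ∃ u ∈ glN,
        ⁅ev glS w, ev glS u⁆ = ev glS [0, 2, 0, 2] ∨ ⁅ev glS w, ev glS u⁆ * ⁅ev glS w, ev glS u⁆ = ev glS [0, 2, 0, 2] := by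
      decide +kernel
    have z : φ (ev glS [0, 2, 0, 2]) = f * f := by
      simp only [ev_cons, ev_nil, map_mul, mul_one, h 0 (by norm_num), h 2 (by norm_num), gen4, mul_assoc, c]
    rcases key w hw with a | a | ⟨u, -, a⟩
    · exact hn a
    · exact h4 (by rw [← z, ← a, hx])
    · rcases a with a | a <;> exact h4 (by rw [← z, ← a]; simp [map_commutatorElement, hx])
  refine ⟨φ.range, ?_, ⟨(MonoidHom.ofInjective inj).symm⟩⟩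
  rintro _ ⟨x, rfl⟩
  obtain ⟨w, hw, rfl⟩ := gl_words x
  have h1 : ∀ i ∈ w, i < 3 := by revert w; decide
  clear hw
  induction w with
  | nil => simp
  | cons a w ih =>
    rw [ev_cons, map_mul, h a (h1 a (by simp))]
    refine X.mul_mem ?_ (ih fun i hi => h1 i (by simp [hi]))
    have := h1 a (by simp)
    interval_cases a
    exacts [xs, X.mul_mem xs xp, X.mul_mem xs xf]

end CA.Rw
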