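import Cfsg.Agent.Lib.J4.Order

/-!
Interface for the odd local analysis of a group of type `J4`: the facts that are proved in `Five.lean`
and `Elev.lean`, as propositions, so that later files can be written against them.
-/

set_option autoImplicit false
set_option linter.unusedVariables false

namespace CA.J4
open Cfsg CA.Gol CA.Ex2 CA.XS Subgroup

variable {G : Type*} [Group G] [Finite G]

namespace St

/-- centralizers of elements of order 5 -/
def C5 (S : St G) : Prop := ∀ u : G, orderOf u = 5 → Nat.card 𝐂[u] = 6720

/-- centralizers of elements of order 11 -/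
def C11 (S : St G) : Prop := ∀ u : G, orderOf u = 11 → Nat.card 𝐂[u] = 31944 ∨ Nat.card 𝐂[u] = 242

/-- a `z`-type involution inverting an element `b` of class `11B` centralizes the involutions of `C(b)` -/
def ElevComm (S : St G) : Prop := ∀ b i w j : G, orderOf b = 11 → i ∈ 𝐂[b] → IsConj S.t i → IsConj S.z w →
  w * b * w⁻¹ = b⁻¹ → j ∈ 𝐂[b] → j * j = 1 → w * j = j * w

/-- the local structure at a large prime -/
def Big (S : St G) (q k : ℕ) : Prop := ∀ u : G, orderOf u = q → 𝐂[u] = zpowers u ∧ Nat.card 𝐍(zpowers u) = q * k

end St
end CA.J4
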