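import Cfsg.Agent.Lib.J4.Rk3
import Cfsg.Agent.Lib.J4.Ifc2
import Cfsg.Agent.Lib.J4.GL23
import Cfsg.Agent.Lib.Blk.ZStar

/-!
The centralizer of an element of class `11A` in a group of type `J4`.
-/

set_option autoImplicit false
set_option linter.unusedSectionVars false
set_option linter.unusedVariables false

namespace CA.J4
open Cfsg CA.Gol CA.Ex2 CA.XS Subgroup MulAction
open scoped Pointwise commutatorElement

theorem prime_dvd_J4 {r : ℕ} (hr : r.Prime) (h : r ∣ 86775571046077562880) : r ∈ [2, 3, 5, 7, 11, 23, 29, 31, 37, 43] := by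
  obtain ⟨a, ha, e⟩ := (Prime.dvd_prod_iff hr.prime).1 (hr.dvd_of_dvd_pow
    (h.trans (by norm_num) : r ∣ [2, 3, 5, 7, 11, 23, 29, 31, 37, 43].prod ^ 21))
  rwa [(Nat.prime_dvd_prime_iff_eq hr (by clear e; revert a; decide)).1 e]

variable {G : Type*} [Group G] [Finite G]

theorem inv_twice {a s l : G} (h1 : l ∈ 𝐂[a]) (h2 : s * a * s⁻¹ = a⁻¹) : s * l * s * l⁻¹ ∈ 𝐂[a] := by
  have h3 : s * a⁻¹ * s⁻¹ = a := by rw [← conj_inv, h2, inv_inv]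
  have h4 := mul_inv_eq_iff_eq_mul.2 (mem_cent1_iff.1 h1)
  have h5 := mul_inv_eq_iff_eq_mul.2 (mem_cent1_iff.1 (inv_mem h1))
  rw [mem_cent1_iff, ← mul_inv_eq_iff_eq_mul, show s * l * s * l⁻¹ * a * (s * l * s * l⁻¹)⁻¹ =
    s * (l * (s * (l⁻¹ * a * l⁻¹⁻¹) * s⁻¹) * l⁻¹) * s⁻¹ by group, h5, h2, ← conj_inv, h4, h3]

namespace St
variable (S : St G)

theorem s_sq : S.s * S.s = 1 :=
  (S.jh.ez.mem_zp.1 S.jh.s_sq_mem).resolve_right (S.sq_NP _ (mem_norm_zpowers (S.jh.s_p ▸ inv_mem (mem_zpowers _))))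

/-- an element of order 4 in `E` -/
abbrev fq : G := S.c 6506

theorem cm {a b d : ℕ} (H : (Nat.blt a 8192 && Nat.blt b 8192 && Nat.beq (hmul a b) d) = true) : S.c a * S.c b = S.c d := by
  simp only [Bool.and_eq_true, blt_iff, beq_iff] at H
  rw [← S.jh.c_mul a H.1.1 b H.1.2, H.2]

theorem fq_s : S.s * S.fq * S.s⁻¹ = S.fq⁻¹ := by
  rw [(S.jh.s_act 6506 (by norm_num)).2, eq_inv_iff_mul_eq_one, S.cm (d := 0) (by decide +kernel), S.jh.c_zero]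
theorem fq_p : S.p * S.fq * S.p⁻¹ = S.c 7871 := by rw [(S.jh.p_act 6506 (by norm_num)).2]; congr 1; decide +kernel
theorem fq_p2 : S.p⁻¹ * S.fq * S.p = S.c 6101 := by
  have h1 : S.p * S.c 6101 * S.p⁻¹ = S.fq := by rw [(S.jh.p_act 6101 (by norm_num)).2]; congr 1; decide +kernel
  rw [← h1]; group
theorem fq_sq : S.fq * S.fq = S.z := by rw [S.cm (d := 4096) (by decide +kernel), S.jh.c_z]
theorem fq_comm : ⁅S.fq, S.c 7871⁆ = S.z := by
  rw [commutatorElement_def, mul_inv_eq_iff_eq_mul, mul_inv_eq_iff_eq_mul, ← S.jh.c_z, S.cm (d := 6101) (by decide +kernel),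
    S.cm (d := 3775) (by decide +kernel), S.cm (d := 6101) (by decide +kernel)]

theorem exists_xa : ∃ x ∈ 𝐂[S.z] ⊓ 𝐂[S.p], orderOf x = 11 ∧ S.s * x * S.s⁻¹ = x⁻¹ ∧ x ∈ 𝐂[S.fq] := by
  obtain ⟨l, hl, e1, a⟩ := S.jh.lift _ x0_mem
  have lf : l ∈ 𝐂[S.fq] := mem_cent1_iff.2 (mul_inv_eq_iff_eq_mul.1 (by
    rw [(a 6506 (by norm_num)).2, cx]; congr 1; decide +kernel))
  have sH := S.jh.s_mem
  have yL : S.s * l * S.s * l⁻¹ ∈ 𝐂[S.z] ⊓ 𝐂[S.p] :=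
    mem_inf.2 ⟨mul_mem (mul_mem (mul_mem sH hl.1) sH) (inv_mem hl.1), inv_twice hl.2 S.jh.s_p⟩
  have py : pel S.π (S.s * l * S.s * l⁻¹) = x0 ^ 9 := by
    rw [pel_mul _ (mul_mem (mul_mem sH hl.1) sH) (inv_mem hl.1), pel_mul _ (mul_mem sH hl.1) sH, pel_mul _ sH hl.1,
      pel_inv _ hl.1, e1, S.jh.s_pi, sx, mul_assoc (x0 ^ 10) s0, s0_sq]; group
  have si : S.s⁻¹ = S.s := inv_eq_of_mul_eq_one_right S.s_sq
  have sy : S.s * (S.s * l * S.s * l⁻¹) * S.s⁻¹ = (S.s * l * S.s * l⁻¹)⁻¹ := by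
    rw [← mul_assoc, ← mul_assoc, ← mul_assoc, S.s_sq, mul_inv_rev, mul_inv_rev, mul_inv_rev, si]; group
  have yf := inv_twice lf S.fq_s
  generalize S.s * l * S.s * l⁻¹ = y at *
  have h11 : y ^ 11 ∈ zpowers S.z ⊔ zpowers S.p := S.jh.ker_inf_L ▸ ⟨mem_pker.2 ⟨pow_mem yL.1 _, by
    rw [pel_pow _ yL.1, py, ← pow_mul, mul_comm, pow_mul, x0_pow, one_pow]⟩, pow_mem yL _⟩
  refine ⟨y ^ 6, pow_mem yL _, orderOf_eq_prime (by
    rw [← pow_mul, mul_comm, pow_mul, ← S.jh.card_Z]; exact orderOf_dvd_iff_pow_eq_one.1 (orderOf_dvd_card_of_mem h11))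
    (fun e => ?_) (hp := ⟨by norm_num⟩), by rw [← conj_pow, sy, inv_pow], pow_mem yf _⟩
  have := congrArg (pel S.π) e
  rw [pel_pow _ yL.1, py, pel_one, ← pow_mul, ← orderOf_dvd_iff_pow_eq_one, x0_ord] at this
  norm_num at this

/-- an element of class `11A` -/
noncomputable def xa : G := S.exists_xa.choose
theorem xa_L : S.xa ∈ 𝐂[S.z] ⊓ 𝐂[S.p] := S.exists_xa.choose_spec.1
theorem xa_ord : orderOf S.xa = 11 := S.exists_xa.choose_spec.2.1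
theorem xa_s : S.s * S.xa * S.s⁻¹ = S.xa⁻¹ := S.exists_xa.choose_spec.2.2.1
theorem fq_xa : S.fq ∈ 𝐂[S.xa] := mem_cent1_comm.1 S.exists_xa.choose_spec.2.2.2
theorem p_xa : S.p ∈ 𝐂[S.xa] := mem_cent1_comm.1 S.xa_L.2
theorem z_xa : S.z ∈ 𝐂[S.xa] := mem_cent1_comm.1 S.xa_L.1

theorem c66 (S : St G) {r y : G} (hr : orderOf r = 3) (hy : orderOf y = 11) (h : y ∈ 𝐂[r]) :
    Nat.card ↥(𝐂[r] ⊓ 𝐂[y]) ∣ 66 := by
  obtain ⟨g, rfl⟩ := isConj_iff.1 (S.conj3 hr)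
  obtain ⟨y, rfl⟩ : ∃ x, y = g * x * g⁻¹ := ⟨g⁻¹ * y * g, by group⟩
  rw [← cj_centralizer_singleton, conj_mem_cj] at h
  rw [CA.orderOf_conj'] at hy
  have hz := S.cent_p h
  rw [← cj_centralizer_singleton, ← cj_centralizer_singleton, ← cj_inf, card_cj,
    ← card_pmap_mul S.π (inf_le_left.trans S.cent_p), show 66 = 6 * 11 from rfl, ← S.jh.card_Z, ← S.jh.ker_inf_cent,
    ← card_CD11 (S.jh.pi_mem hz) (S.jh.orderOf_pi hz (by norm_num) hy (S.jh.pi_ne_one hz (by norm_num) hy (by norm_num)))]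
  exact Nat.mul_dvd_mul (card_dvd_of_le (inf_le_inf_left _ inf_le_left))
    (card_dvd_of_le ((pmap_mono _ (inf_le_inf_right _ S.cent_p)).trans (S.jh.pmap_CH_le hz)))

theorem isol11 {x y : G} (hx : x ∈ 𝐂[S.z]) (ox : orderOf x = 11) (h1 : y ∈ 𝐂[S.z]) (h2 : y ∈ 𝐂[x])
    (hz : IsConj S.z y) : y = S.z := by
  by_contra hn
  have y2 := sq_of_conj S.z_ord hz
  have a := orderOf_dvd_card_of_mem (S.jh.pmap_CH_le hx ((mem_pmap_of_le inf_le_left).2 ⟨y, ⟨h1, h2⟩, rfl⟩))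
  rw [card_CD11 (S.jh.pi_mem hx) (S.jh.orderOf_pi hx (by norm_num) ox (S.jh.pi_ne_one hx (by norm_num) ox (by norm_num)))]
    at a
  have b : orderOf (pel S.π y) ∣ 2 := orderOf_dvd_of_pow_eq_one (by rw [pow_two, ← pel_mul _ h1 h1, y2, pel_one])
  have := orderOf_dvd_card_of_mem (show x ∈ 𝐂[S.z] ⊓ 𝐂[y] from ⟨hx, mem_cent1_comm.1 h2⟩)
  rw [S.card_cent_zE (JH.mem_E_of_sq S.jh h1 (orderOf_eq_one_iff.1 (Nat.eq_one_of_dvd_coprimes (by norm_num) a b))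
    (y2 ▸ one_mem _)) hn hz, ox] at this
  norm_num at this

/-- the Sylow 11-subgroup -/
noncomputable def Ua : Subgroup G := piCoreOf {2}ᶜ 𝐂[S.xa]

theorem Ua_normal : S.Ua ⊴ 𝐂[S.xa] := piCoreOf_normalIn _ _

theorem isol_xa : ∀ g ∈ 𝐂[S.xa], Commute S.z (g * S.z * g⁻¹) → g * S.z * g⁻¹ = S.z := fun g hg c =>
  S.isol11 S.xa_L.1 S.xa_ord (mem_cent1_iff.2 c.symm) (conj_H hg S.z_xa) (isConj_iff.2 ⟨g, rfl⟩)

theorem Ua_pi : PiGrp {11} S.Ua := by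
  refine piGrp_of_forall_prime_order fun w hw hr => by_contra fun r11 => ?_
  have hd := orderOf_dvd_card_of_mem hw
  generalize orderOf w = r at *
  have : Fact r.Prime := ⟨hr⟩
  have odd := piCoreOf_piGrp {2}ᶜ 𝐂[S.xa]
  have r2 : r ≠ 2 := odd.mem hr hd
  have pF : PiGrp {2} (S.E ⊓ 𝐂[S.xa]) := piGrp_of_card_pow (k := 3) Nat.prime_two (S.jh.card_E_cent11 S.xa_L.1 S.xa_ord)
  obtain ⟨R, hR, nR⟩ := (copAct_p_right (inf_le_right.trans S.Ua_normal.norm) odd pF).exists_sylowIn r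
  have RC := hR.le.trans S.Ua_normal.le
  have pR := hR.isPGroup hr
  obtain ⟨c, c1, c2, c3, c4⟩ := exists_order_p_fixed pR le_normalizer ((hR.dvd_card_iff hr).2 hd)
  have oc := orderOf_eq_prime c4 c3
  have c6 : r = 3 → Nat.card ↥(𝐂[c] ⊓ 𝐂[S.xa]) ∣ 66 := fun e => S.c66 (e ▸ oc) S.xa_ord (mem_cent1_comm.1 (RC c1))
  have cR : Nat.card R = r := by
    obtain ⟨k, hk⟩ := (piGrp_singleton_iff_card hr).1 hR.piGrp
    have : ¬ r ^ 2 ∣ Nat.card R := fun a => by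
      have b := a.trans (card_subgroup_dvd_card R)
      rw [S.card_G] at b
      have m := prime_dvd_J4 hr ((dvd_pow_self r two_ne_zero).trans b)
      by_cases r3 : r = 3
      · exact absurd ((a.trans (card_dvd_of_le (le_inf (cents_symm (zpowers_le.2 c2) |>.trans (cent_zpowers c).le) RC))).trans
          (c6 r3)) (by rw [r3]; norm_num)
      · exact (by decide : ∀ r ∈ [2, 3, 5, 7, 11, 23, 29, 31, 37, 43], r ≠ 11 → r ≠ 2 → r ≠ 3 →
          ¬ r ^ 2 ∣ 86775571046077562880) r m r11 r2 r3 b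
    have k1 : k < 2 := by
      by_contra a
      exact this (hk ▸ pow_dvd_pow r (not_lt.1 a))
    have := card_le_of_le (zpowers_le.2 c1)
    have := hr.one_lt
    rw [Nat.card_zpowers, oc] at *
    interval_cases k <;> simp_all
  have eR : R = zpowers c := eq_zpowers_of_prime_card (cR ▸ hr) c1 c3
  have fF : S.fq ∈ S.E ⊓ 𝐂[S.xa] := ⟨S.jh.c_mem (by norm_num), S.fq_xa⟩
  have zc : c ∈ 𝐂[S.z] := mem_cent1_comm.1 (cent_le_cent1 c1 (der_cents_of_norms_cyclic (eR ▸ inferInstance) nR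
    (S.fq_comm ▸ commutator_mem_commutator fF ⟨S.jh.c_mem (by norm_num), S.fq_p ▸ conj_H S.p_xa S.fq_xa⟩)))
  have d := orderOf_dvd_card_of_mem (show c ∈ 𝐂[S.z] ⊓ 𝐂[S.xa] from ⟨zc, RC c1⟩)
  rw [S.jh.card_CH11 S.xa_L.1 S.xa_ord, oc] at d
  have r3 : r = 3 := (by decide : ∀ r ∈ [2, 3, 5, 7, 11, 23, 29, 31, 37, 43], r ≠ 11 → r ≠ 2 → r ∣ 264 → r = 3) r
    (prime_dvd_J4 hr (d.trans (by norm_num))) r11 r2 d
  have := cents_of_norms_of_coprime (A := S.E ⊓ 𝐂[S.xa]) (B := R) (by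
    rw [eR]; exact norms_inf (zpowers_le.2 (S.jh.E_norm zc)) ((zpowers_le.2 (RC c1)).trans le_normalizer)) nR
    (pF.coprime_of_ne hR.piGrp r2.symm)
  have := (card_dvd_of_le (le_inf (this.trans (cent_le_cent1 c1)) inf_le_right)).trans (c6 r3)
  rw [S.jh.card_E_cent11 S.xa_L.1 S.xa_ord] at this
  norm_num at this

theorem xa_Ua : S.xa ∈ S.Ua := zpowers_le.1 (le_piCoreOf ⟨zpowers_le.2 (self_mem_cent1 _), cent1_le_norm _⟩
  (piGrp_zpowers.2 ((piElt_of_orderOf_prime (by norm_num) S.xa_ord).2 (by simp))))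

theorem card_Ua_inf {X : Subgroup G} (hx : S.xa ∈ X) (h : ¬ 121 ∣ Nat.card X) : Nat.card ↥(S.Ua ⊓ X) = 11 := by
  obtain ⟨k, hk⟩ := (piGrp_singleton_iff_card (by norm_num)).1 (S.Ua_pi.inf_left X)
  have a := orderOf_dvd_card_of_mem (show S.xa ∈ S.Ua ⊓ X from ⟨S.xa_Ua, hx⟩)
  have b := card_dvd_of_le (inf_le_right (a := S.Ua) (b := X))
  rw [hk, S.xa_ord] at *
  have k1 : k < 2 := by
    by_contra a
    exact h ((pow_dvd_pow 11 (not_lt.1 a)).trans b)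
  interval_cases k <;> simp_all

theorem norm_cyc11 {x : G} (hx : orderOf x = 11) : ∃ e, e ∣ 10 ∧ Nat.card 𝐍(zpowers x) = Nat.card 𝐂[x] * e := by
  have h2 := card_quo_cent_dvd_card_aut (K := zpowers x) le_rfl
  rw [IsCyclic.card_mulAut, Nat.card_zpowers, hx, Nat.totient_prime (by norm_num), cent_zpowers] at h2
  exact ⟨_, h2, (card_mul_relIndex (cent1_le_norm x)).symm⟩

theorem dvd121 (S : St G) {x : G} (hx : orderOf x = 11) : 121 ∣ Nat.card 𝐂[x] := by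
  obtain ⟨e, e1, e2⟩ := norm_cyc11 hx
  by_contra h
  refine not_sq_dvd (by norm_num) hx (fun a => h ?_) (by rw [S.card_G]; norm_num)
  exact (Nat.Coprime.coprime_dvd_right e1 (by norm_num)).dvd_of_dvd_mul_right (e2 ▸ a)

theorem card_Ua : Nat.card S.Ua = 1331 ∧ Nat.card 𝐂[S.xa] = 31944 := by
  have cY := S.jh.card_CH11 S.xa_L.1 S.xa_ord
  have h1 := card_mul_card_inf_of_exists_mul S.Ua_normal.le (B := 𝐂[S.z] ⊓ 𝐂[S.xa]) inf_le_right fun g hg => by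
    obtain ⟨o, ho, c, hc, e1, e2⟩ := Blk.zstar_factor S.z_xa S.jh.z_sq S.isol_xa hg
    exact ⟨o, ho, c, ⟨mem_cent1_iff.2 e1, hc⟩, e2⟩
  rw [S.card_Ua_inf (mem_inf.2 ⟨S.xa_L.1, self_mem_cent1 _⟩) (by rw [cY]; norm_num), cY] at h1
  have : Fact (Nat.Prime 3) := ⟨by norm_num⟩
  have h2 := card_modEq_card_inf_cent (isPGroup_zpowers S.jh.p_ord) (zpowers_le.2 (S.Ua_normal.norm S.p_xa))
  rw [cent_zpowers, ← inf_eq_left.2 S.Ua_normal.le, inf_assoc, inf_comm 𝐂[S.xa], S.card_Ua_inf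
    (mem_inf.2 ⟨S.xa_L.2, self_mem_cent1 _⟩)
    fun a => absurd (a.trans (S.c66 S.jh.p_ord S.xa_ord S.xa_L.2)) (by norm_num), inf_eq_left.2 S.Ua_normal.le] at h2
  have h3 := S.dvd121 S.xa_ord
  have h4 := card_subgroup_dvd_card S.Ua
  obtain ⟨k, hk⟩ := (piGrp_singleton_iff_card (by norm_num)).1 S.Ua_pi
  rw [S.card_G, hk] at h4
  rw [hk] at h1 h2 ⊢
  have k1 : k < 4 := by
    by_contra a
    exact absurd ((pow_dvd_pow 11 (not_lt.1 a)).trans h4) (by norm_num)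
  rw [Nat.ModEq] at h2
  interval_cases k <;> omega

end St

end CA.J4
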