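import Cfsg.Agent.Lib.J4.Elev1
import Cfsg.Agent.Lib.J4.Five

/-!
The 11-local structure of a group of type `J4`.
-/

set_option autoImplicit false
set_option linter.unusedSectionVars false
set_option linter.unusedVariables false

namespace CA.J4
open Cfsg CA.Gol CA.Ex2 CA.XS Subgroup MulAction
open scoped Pointwise commutatorElement

theorem smq_le {α : Type*} [Finite α] {Q : Set α} {f : α → ℕ} {k : ℕ} (h : ∀ q ∈ Q, f q ≤ k) : smq Q f ≤ Q.ncard * k := by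
  rw [← smq_const (f := fun _ => k) fun _ _ => rfl]
  exact Finset.sum_le_sum fun q hq => h q (by simpa using hq)

theorem arith242 {a n c r : ℕ} (l : 22790799360 * a ≤ 82575360 * 6072) (l2 : n ≤ a + 1) (o : n * 22 = c) (d : 121 ∣ c)
    (h : 0 < c) (e : 2 * r = c) (h2 : ¬ 2 ∣ r) : c = 242 := by
  replace l := Nat.le_of_mul_le_mul_left (c := 22790799360) (b := 22) (l.trans (by norm_num)) (by norm_num)
  obtain ⟨k, hk⟩ := d
  have : k ≤ 4 := by omega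
  interval_cases k <;> omega

variable {G : Type*} [Group G] [Finite G]

theorem ne_one11 {a : G} (h : orderOf a = 11) : a ≠ 1 := fun e => by rw [e, orderOf_one] at h; omega

namespace St
variable (S : St G)

theorem index_M : 𝐍(S.V).index = 173067389 := by
  have := 𝐍(S.V).card_mul_index
  rw [S.mm.card_M, S.card_G] at this; omega

theorem exists_O6 : ∃ O : Set (G ⧸ 𝐍(S.V)), O.ncard = 82575360 ∧ (∀ m ∈ 𝐍(S.V), ∀ q ∈ O, m • q ∈ O) ∧
    (∀ g : G, (g : G ⧸ 𝐍(S.V)) ∈ O → Nat.card (S.Dg g) = 6072) ∧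
    (∀ g : G, Nat.card (S.Dg g) = 6072 → (g : G ⧸ 𝐍(S.V)) ∈ O) ∧
    (∀ p ∈ O, ∀ q ∈ O, p ∈ orbit 𝐍(S.V) q) ∧
    ∀ g : G, 11 ∣ Nat.card (S.Dg g) → (g : G ⧸ 𝐍(S.V)) = (1 : G) ∨ (g : G ⧸ 𝐍(S.V)) ∈ O := by
  obtain ⟨c, -, h2, h3⟩ := rank7 S.index_M (S.orbits S.five S.index_M)
  have h4 : ∀ i, (orbit 𝐍(S.V) (c i)).ncard = ![1, 15180, 28336, 3400320, 32643072, 54405120, 82575360] i :=
    congrFun (List.ofFn_injective (h3.trans (by rfl)))
  have h : ∀ {g : G} {i}, (g : G ⧸ 𝐍(S.V)) ∈ orbit 𝐍(S.V) (c i) →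
      ![1, 15180, 28336, 3400320, 32643072, 54405120, 82575360] i * Nat.card (S.Dg g) = 501397585920 := fun {g i} a => by
    rw [← h4, ← orbit_eq_iff.2 a, ← S.mm.card_M]; exact orb_card _ _
  refine ⟨orbit 𝐍(S.V) (c 6), h4 6, fun m hm q hq => mem_orbit_of_mem_orbit (⟨m, hm⟩ : 𝐍(S.V)) hq,
    fun g hg => by have := h hg; simp at this; omega, fun g hg => ?_,
    fun p hp q hq => (orbit_eq_iff.2 hq).symm ▸ hp, fun g hg => ?_⟩
  · obtain ⟨i, hi⟩ := h2 g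
    have := h hi
    rw [hg] at this
    rwa [(by decide : ∀ i : Fin 7, ![1, 15180, 28336, 3400320, 32643072, 54405120, 82575360] i * 6072 = 501397585920 →
      i = 6) i this] at hi
  obtain ⟨i, hi⟩ := h2 g
  obtain ⟨j, hj⟩ := h2 (1 : G)
  have a := h hj
  rw [Dg, cj_one, inf_idem, S.mm.card_M] at a
  rw [(by decide : ∀ i : Fin 7, ![1, 15180, 28336, 3400320, 32643072, 54405120, 82575360] i * 501397585920 = 501397585920 →
    i = 0) j a] at hj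
  rcases (by decide : ∀ i : Fin 7, ![1, 15180, 28336, 3400320, 32643072, 54405120, 82575360] i * 11 ∣ 501397585920 →
    i = 0 ∨ i = 6) i (h hi ▸ Nat.mul_dvd_mul_left _ hg) with rfl | rfl
  · exact Or.inl ((Set.ncard_le_one (Set.toFinite _)).1 (h4 0).le _ hi _ hj)
  · exact Or.inr hi

/-- an element of class `11B` -/
noncomputable abbrev xb : G := S.k xC

theorem xb_M : S.xb ∈ 𝐍(S.V) := S.k_mem (in22_24 xC_in)
theorem xb_ord : orderOf S.xb = 11 := S.k_ord (by norm_num) (by decide +kernel)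
theorem card_CM11 : Nat.card ↥(𝐍(S.V) ⊓ 𝐂[S.xb]) = 22 := by
  rw [S.mm.card_cent_k (in22_24 xC_in), card_C11]; decide +kernel
theorem t_xb : S.t ∈ 𝐂[S.xb] := by
  rw [S.mm.v_comm_k DD_ev (perm_mem_M24 (in22_24 xC_in)), code_perm22 xC_in]; decide +kernel

theorem syl_xb : SylowIn 2 (zpowers S.t) 𝐂[S.xb] :=
  (sylow_zpowers Nat.prime_two (M := 𝐍(S.V) ⊓ 𝐂[S.xb]) ⟨S.mm.V_le (S.mm.v_mem DD_ev), S.t_xb⟩ S.t_ord
    (by rw [S.card_CM11]; norm_num)).of_norm_le inf_le_right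
    (le_inf (inf_le_right.trans ((norm_zp2_le S.t_ord).trans S.cent_t)) inf_le_left)

theorem t_of_xb {w : G} (hw : w ∈ 𝐂[S.xb]) (ow : orderOf w = 2) : IsConj S.t w := by
  obtain ⟨g, -, e⟩ := S.syl_xb.exists_conj_mem hw ((piElt_of_orderOf_prime Nat.prime_two ow).2 rfl)
  rw [((mem_zp2 (sq_of_conj S.t_ord (IsConj.refl _))).1 e).resolve_left (fun a => by
    rw [conj_eq_one_iff.1 a, orderOf_one] at ow; omega) |>.symm]
  exact (isConj_iff.2 ⟨g, rfl⟩).symm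

theorem fix_xb_le : ∃ O : Set (G ⧸ 𝐍(S.V)), 22790799360 * {q | q ∈ O ∧ S.xb • q = q}.ncard ≤ 82575360 * 6072 ∧
    ∀ g : G, 11 ∣ Nat.card (S.Dg g) → (g : G ⧸ 𝐍(S.V)) = (1 : G) ∨ (g : G ⧸ 𝐍(S.V)) ∈ O := by
  obtain ⟨O, o1, o2, o3, -, -, o4⟩ := S.exists_O6
  refine ⟨O, ?_, o4⟩
  have c := card_class_mul 𝐍(S.V) S.xb
  have s := smq_comm {y | ∃ h ∈ 𝐍(S.V), h * S.xb * h⁻¹ = y} O fun y q => y • q = q
  have bM := S.xb_M
  rw [S.card_CM11, S.mm.card_M] at c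
  generalize S.xb = b at *
  rw [smq_const (k := {q | q ∈ O ∧ b • q = q}.ncard) fun y hy => by
    obtain ⟨m, hm, rfl⟩ := hy
    rw [← ncard_smul m]
    exact congrArg Set.ncard (Set.ext fun q => and_congr ⟨fun a => by simpa using o2 _ (inv_mem hm) _ a, o2 m hm q⟩
      (by rw [mul_smul, mul_smul, inv_smul_smul, smul_left_cancel_iff]))] at s
  have l := s.le.trans (smq_le (k := 6072) fun q hq => by
    induction q using QuotientGroup.induction_on with | H g =>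
    rw [← o3 g hq]
    exact Set.ncard_le_ncard (t := (S.Dg g : Set G)) fun y ⟨⟨m, hm, e⟩, b⟩ => S.Dg_mk.2 ⟨e ▸ conj_H hm bM, b⟩)
  rwa [o1, show {y | ∃ h ∈ 𝐍(S.V), h * b * h⁻¹ = y}.ncard = 22790799360 by omega] at l

theorem c242 : Nat.card 𝐂[S.xb] = 242 := by
  obtain ⟨O, l, o4⟩ := S.fix_xb_le
  have o := orb_card (M := 𝐍(S.V)) 𝐂[S.xb] 1
  rw [cj_one, inf_comm, S.card_CM11] at o
  have e := card_mul_relIndex S.syl_xb.le
  rw [Nat.card_zpowers, S.t_ord] at e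
  refine arith242 l ?_ o (S.dvd121 S.xb_ord) Nat.card_pos e (S.syl_xb.not_dvd Nat.prime_two)
  have bM := S.xb_M
  have ob := S.xb_ord
  generalize S.xb = b at *
  refine (Set.ncard_le_ncard (t := insert ((1 : G) : G ⧸ 𝐍(S.V)) {q | q ∈ O ∧ b • q = q}) fun q hq => ?_).trans
    (Set.ncard_insert_le _ _)
  obtain ⟨x, hx, rfl⟩ := mem_orb.1 hq
  have e : b • x • ((1 : G) : G ⧸ 𝐍(S.V)) = x • ((1 : G) : G ⧸ 𝐍(S.V)) := by
    rw [← mul_smul, ← mem_cent1_iff.1 hx, mul_smul, smul_mk_eq.2 (by rw [cj_one]; exact bM)]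
  rw [Quotient.smul_coe] at e ⊢
  exact (o4 _ (ob ▸ orderOf_dvd_card_of_mem (S.Dg_mk.2 ⟨bM, e⟩))).imp_right fun a => ⟨a, e⟩

theorem cent_xb {y : G} (hy : y ∈ 𝐍(S.V)) (oy : orderOf y = 11) : ∃ d, cj d 𝐂[y] = 𝐂[S.xb] := by
  obtain ⟨d, hd, i, h0, hi, e⟩ := conj_pow_of_sylow (by norm_num) S.xb_M S.xb_ord (by rw [S.mm.card_M]; norm_num) hy oy
  exact ⟨d, by rw [cj_centralizer_singleton, e, ← cent_zpowers, cent_pow_eq (by norm_num) S.xb_ord h0 hi, cent_zpowers]⟩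

theorem Ua_syl : SylowIn 11 S.Ua ⊤ :=
  sylowIn_of_card (k := 3) (by norm_num) le_top S.card_Ua.1 (by rw [card_top, S.card_G]; norm_num)

theorem exists_Ua {w : G} (hw : orderOf w = 11) : ∃ g, g * w * g⁻¹ ∈ S.Ua :=
  (S.Ua_syl.exists_conj_mem (mem_top w) ((piElt_of_orderOf_prime (by norm_num) hw).2 rfl)).imp fun _ h => h.2

theorem Ua_extra : Extraspecial 11 S.Ua := by
  have : Fact (Nat.Prime 11) := ⟨by norm_num⟩
  refine extraspecial_of_card_cube (fun h => ?_) S.card_Ua.1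
  obtain ⟨g, hg⟩ := S.exists_Ua S.xb_ord
  have := card_dvd_of_le ((abelian_iff.1 h).trans (cent_le_cent1 hg))
  rw [S.card_Ua.1, ← cj_centralizer_singleton, card_cj, S.c242] at this
  norm_num at this

theorem center_Ua : 𝐙(S.Ua) = zpowers S.xa :=
  eq_zpowers_of_prime_card (by rw [S.Ua_extra.card_center]; norm_num)
    ⟨S.xa_Ua, zpowers_le.1 (cents_symm (cent_zpowers S.xa ▸ S.Ua_normal.le))⟩ (ne_one11 S.xa_ord)

theorem norm_Ua : 𝐍(S.Ua) = 𝐍(zpowers S.xa) := le_antisymm (S.center_Ua ▸ norms_center le_rfl)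
  (norms_piCoreOf _ (cent_zpowers S.xa ▸ norms_cent le_rfl))

theorem card_NU : Nat.card 𝐍(S.Ua) = 319440 := by
  obtain ⟨e, e1, e2⟩ := norm_cyc11 S.xa_ord
  have a := relIndex_norm_mod (by norm_num) S.Ua_syl
  have b := card_mul_relIndex (le_top (a := 𝐍(S.Ua)))
  rw [← S.norm_Ua, S.card_Ua.2] at e2
  rw [card_top, S.card_G, e2] at b
  have := Nat.le_of_dvd (by norm_num) e1
  interval_cases e <;> omega

theorem conj_xa {y : G} (hy : y ∈ zpowers S.xa) (h1 : y ≠ 1) : IsConj S.xa y := by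
  have a := card_norm_zpowers S.xa
  rw [← S.norm_Ua, S.card_NU, S.card_Ua.2] at a
  have b := Set.ncard_sdiff_singleton_add_one (s := (zpowers S.xa : Set G)) (one_mem _)
  rw [show (zpowers S.xa : Set G).ncard = 11 from (Nat.card_zpowers _).trans S.xa_ord] at b
  exact ((Set.eq_of_subset_of_ncard_le (s := {y | y ∈ zpowers S.xa ∧ IsConj S.xa y}) (t := (zpowers S.xa : Set G) \ {1})
    (fun y hy => ⟨hy.1, fun e => ne_one11 S.xa_ord (isConj_one_left.1 (e ▸ hy.2))⟩) (by omega)).ge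
    ⟨hy, h1⟩).2

theorem not_conj_ab : ¬ IsConj S.xa S.xb := fun h => by
  have := card_cent_conj h
  rw [S.c242, S.card_Ua.2] at this; omega

theorem conj_xb {y : G} (hy : y ∈ S.Ua) (h1 : y ∉ zpowers S.xa) : IsConj S.xb y ∧ 𝐂[y] ≤ 𝐍(S.Ua) := by
  obtain ⟨g, hg⟩ := S.exists_Ua S.xb_ord
  have cb : IsConj S.xb (g * S.xb * g⁻¹) := isConj_iff.2 ⟨g, rfl⟩
  generalize g * S.xb * g⁻¹ = b at *
  have a := card_class_mul 𝐍(S.Ua) b
  have c := card_cent_conj cb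
  have d := card_le_of_le (inf_le_right (a := 𝐍(S.Ua)) (b := 𝐂[b]))
  have e := Set.ncard_sdiff_add_ncard_of_subset (s := (zpowers S.xa : Set G)) (zpowers_le.2 S.xa_Ua)
  have sub : {y | ∃ h ∈ 𝐍(S.Ua), h * b * h⁻¹ = y} ⊆ (S.Ua : Set G) \ zpowers S.xa := by
    rintro _ ⟨n, hn, rfl⟩
    have cn := isConj_conj_iff (g := n).2 cb
    exact ⟨conj_mem_of_mem_normalizer hn hg, fun k => S.not_conj_ab ((S.conj_xa k
      (ne_one11 ((orderOf_eq_of_isConj cn).symm.trans S.xb_ord))).trans cn.symm)⟩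
  have f := Set.ncard_le_ncard sub
  rw [show (zpowers S.xa : Set G).ncard = 11 from (Nat.card_zpowers _).trans S.xa_ord,
    show (S.Ua : Set G).ncard = 1331 from S.card_Ua.1] at e
  rw [S.card_NU] at a
  rw [S.c242] at c
  have l1 := Nat.mul_le_mul_right {y | ∃ h ∈ 𝐍(S.Ua), h * b * h⁻¹ = y}.ncard d
  have l2 := Nat.mul_le_mul_left (Nat.card ↥(𝐍(S.Ua) ⊓ 𝐂[b])) f
  rw [a, c] at l1
  rw [a, show ((S.Ua : Set G) \ zpowers S.xa).ncard = 1320 by omega] at l2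
  obtain ⟨n, hn, rfl⟩ := (Set.eq_of_subset_of_ncard_le sub (by omega)).ge ⟨hy, h1⟩
  refine ⟨isConj_conj_iff.2 cb, ?_⟩
  rw [← cj_centralizer_singleton]
  exact cj_le_of_le ((eq_of_le_of_card_le inf_le_right (by omega)).ge.trans inf_le_left) hn

theorem cls11 {w : G} (hw : orderOf w = 11) : IsConj S.xa w ∨ IsConj S.xb w := by
  obtain ⟨g, hg⟩ := S.exists_Ua hw
  by_cases h : g * w * g⁻¹ ∈ zpowers S.xa
  · exact Or.inl (isConj_conj_iff.1 (S.conj_xa h fun e => ne_one11 hw (conj_eq_one_iff.1 e)))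
  · exact Or.inr (isConj_conj_iff.1 (S.conj_xb hg h).1)

theorem c11 : S.C11 := fun u hu => (S.cls11 hu).imp (fun a => (card_cent_conj a).trans S.card_Ua.2)
  fun a => (card_cent_conj a).trans S.c242

theorem res5576 (S : St G) : ∃ x y : G, orderOf x = 11 ∧ orderOf y = 11 ∧ ¬ IsConj x y ∧
    ∀ w : G, orderOf w = 11 → IsConj w x ∨ IsConj w y :=
  ⟨_, _, S.xa_ord, S.xb_ord, S.not_conj_ab, fun w hw => (S.cls11 hw).imp IsConj.symm IsConj.symm⟩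

theorem Ua_exp {y : G} (hy : y ∈ S.Ua) : y ^ 11 = 1 := by
  by_cases h : y ∈ zpowers S.xa
  · obtain ⟨k, rfl⟩ := h
    rw [← S.xa_ord, ← zpow_natCast, ← zpow_mul, mul_comm, zpow_mul, zpow_natCast, pow_orderOf_eq_one, one_zpow]
  · rw [← S.xb_ord, orderOf_eq_of_isConj (S.conj_xb hy h).1, pow_orderOf_eq_one]

theorem res5575 (S : St G) (U : Sylow 11 G) : IsExtraspecial 11 ↥(U : Subgroup G) ∧ Nat.card ↥(U : Subgroup G) = 11 ^ 3 ∧
    Monoid.exponent ↥(U : Subgroup G) = 11 ∧ Nat.card ↥𝐍((U : Subgroup G)) = 2 ^ 4 * 3 * 5 * 11 ^ 3 ∧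
    ∃ K : Subgroup G, K ≤ 𝐍((U : Subgroup G)) ∧ Nonempty (↥K ≃* GL (Fin 2) (ZMod 3)) := by
  have : Fact (Nat.Prime 11) := ⟨by norm_num⟩
  obtain ⟨g, -, e⟩ := S.Ua_syl.exists_cj (sylowIn_top U)
  obtain ⟨K, hK, ⟨φ⟩⟩ := Rw.exists_gl23 S.s_sq S.jh.p3 S.jh.s_p S.fq_s (by
    rw [S.fq_p, S.fq_p2]; exact S.cm (by decide +kernel)) (S.fq_sq ▸ S.jh.ez.ne_one) (X := 𝐍(S.Ua))
    (S.norm_Ua ▸ mem_norm_zpowers (S.xa_s ▸ inv_mem (mem_zpowers _))) (S.Ua_normal.norm S.p_xa)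
    (S.Ua_normal.norm S.fq_xa)
  rw [e, ← cj_normalizer, card_cj, card_cj, S.card_NU, S.card_Ua.1]
  refine ⟨isExtraspecial_iff.2 (S.Ua_extra.cj g), rfl, ?_, rfl, cj g K, cj_mono g hK, ⟨(cjEquiv g K).symm.trans φ⟩⟩
  have := (nontrivial_iff_ne_bot _).2 (S.Ua_extra.cj g).ne_bot
  rw [Monoid.exponent_eq_prime_iff (by norm_num)]
  intro x hx
  obtain ⟨y, hy, e⟩ := mem_cj'.1 x.2
  refine orderOf_eq_prime (Subtype.ext ?_) hx
  rw [Subgroup.coe_pow, e, conj_pow, S.Ua_exp hy]; simp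

end St

end CA.J4
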