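import Cfsg.Agent.Lib.J4.Elev2

/-!
A `z`-type involution inverting an element of class `11B` centralizes the involutions of its centralizer.
-/

set_option autoImplicit false
set_option linter.unusedSectionVars false
set_option linter.unusedVariables false

namespace CA.J4
open Cfsg CA.Gol CA.Ex2 CA.XS Subgroup MulAction

variable {G : Type*} [Group G] [Finite G]

theorem eq_one_of_inv11 {a x : G} (ha : orderOf a = 11) (hx : x ∈ zpowers a) (h : x = x⁻¹) : x = 1 :=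
  orderOf_eq_one_iff.1 (Nat.eq_one_of_dvd_coprimes (by norm_num : Nat.Coprime 11 2)
    (by rw [← ha, ← Nat.card_zpowers a]; exact orderOf_dvd_card_of_mem hx)
    (orderOf_dvd_of_pow_eq_one (by rw [pow_two, ← eq_inv_iff_mul_eq_one]; exact h)))

namespace St
variable (S : St G)

theorem c242_of_t {y i : G} (oy : orderOf y = 11) (hi : i ∈ 𝐂[y]) (ht : IsConj S.t i) : Nat.card 𝐂[y] = 242 := by
  obtain ⟨g, rfl⟩ := isConj_iff.1 ht
  obtain ⟨y, rfl⟩ : ∃ x, y = g * x * g⁻¹ := ⟨g⁻¹ * y * g, by group⟩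
  rw [← cj_centralizer_singleton, conj_mem_cj] at hi
  rw [CA.orderOf_conj'] at oy
  obtain ⟨d, e⟩ := S.cent_xb (S.cent_t (mem_cent1_comm.1 hi)) oy
  rw [← cj_centralizer_singleton, card_cj, ← card_cj d, e, S.c242]

theorem t_of_b {b w : G} (hb : IsConj S.xb b) (hw : w ∈ 𝐂[b]) (ow : orderOf w = 2) : IsConj S.t w := by
  obtain ⟨g, rfl⟩ := isConj_iff.1 hb
  obtain ⟨y, rfl⟩ : ∃ x, w = g * x * g⁻¹ := ⟨g⁻¹ * w * g, by group⟩
  rw [← cj_centralizer_singleton, conj_mem_cj] at hw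
  exact isConj_conj_iff.2 (S.t_of_xb hw ((CA.orderOf_conj' _ _).symm.trans ow))

/-- a `z`-type involution normalizing `Ua` centralizes its centre -/
theorem z_cent_xa {w : G} (hw : IsConj S.z w) (hn : w ∈ 𝐍(S.Ua)) : w ∈ 𝐂[S.xa] := by
  have : Fact (Nat.Prime 11) := ⟨by norm_num⟩
  obtain ⟨y, ⟨hy, yw⟩, y1⟩ := exists_ne_one_mem' (A := S.Ua ⊓ 𝐂[w]) fun h => S.Ua_extra.not_abelian (by
    have i := inverts_of_fpf (sq_of_conj S.z_ord hw) hn h
    refine abelian_iff.2 fun a ha => mem_cent_iff.2 fun b hb => inv_injective ?_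
    rw [← i _ (mul_mem hb ha), mul_inv_rev, ← i a ha, ← i b hb]; group)
  by_cases h : y ∈ zpowers S.xa
  · rw [← cent_zpowers, eq_zpowers_of_prime_card (by rw [Nat.card_zpowers, S.xa_ord]; norm_num) h y1, cent_zpowers]
    exact mem_cent1_comm.1 yw
  · exact absurd (hw.trans (S.t_of_b (S.conj_xb hy h).1 (mem_cent1_comm.1 yw)
      ((orderOf_eq_of_isConj hw).symm.trans S.z_ord)).symm) S.not_conj

theorem elev_core {b i w j : G} (hb : b ∈ S.Ua) (ob : orderOf b = 11) (hi : i ∈ 𝐂[b]) (ht : IsConj S.t i)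
    (hw : IsConj S.z w) (e : w * b * w⁻¹ = b⁻¹) (hj : j ∈ 𝐂[b]) (j2 : j * j = 1) : w * j = j * w := by
  have cb := S.c242_of_t ob hi ht
  have nb : b ∉ zpowers S.xa := fun h => by
    have := card_cent_conj (S.conj_xa h (ne_one11 ob))
    rw [cb, S.card_Ua.2] at this; omega
  have CN := (S.conj_xb hb nb).2
  have w2 := sq_of_conj S.z_ord hw
  have ab : S.xa ∈ 𝐂[b] := mem_cent1_comm.1 (S.Ua_normal.le hb)
  have h2 : w * S.xa * w⁻¹ ∈ S.Ua := zpowers_le.1 (S.Ua_syl.le_of_norm' (piGrp_zpowers.2 ((piElt_of_orderOf_prime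
    (by norm_num) ((CA.orderOf_conj' _ _).trans S.xa_ord)).2 rfl)) le_top (zpowers_le.2 (CN (conj_mem_of_mem_normalizer
      ((cent_zpowers b ▸ norms_cent le_rfl) (mem_norm_zpowers (e ▸ inv_mem (mem_zpowers b)))) ab))))
  have wN : w ∈ 𝐍(S.Ua) := S.norm_Ua ▸ mem_norm_zpowers (by_contra fun h =>
    S.not_conj_ab ((isConj_iff.2 ⟨w, rfl⟩).trans (S.conj_xb h2 h).1.symm))
  have wa := S.z_cent_xa hw wN
  have nb' : zpowers b ≤ 𝐍(zpowers S.xa) := (zpowers_le.2 (S.Ua_normal.le hb)).trans (cent1_le_norm _)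
  have cK := card_sup_of_disjoint (Or.inr nb') (inf_eq_bot_of_prime_card
    (by rw [Nat.card_zpowers, ob]; norm_num) fun h => nb (zpowers_le.1 h))
  rw [Nat.card_zpowers, Nat.card_zpowers, ob, S.xa_ord] at cK
  have le : zpowers b ⊔ zpowers S.xa ≤ 𝐂[b] ⊓ 𝐂[S.xa] := sup_le (zpowers_le.2 ⟨self_mem_cent1 _, S.Ua_normal.le hb⟩)
    (zpowers_le.2 ⟨ab, self_mem_cent1 _⟩)
  have K := eq_of_le_of_card_le le (by
    have a := card_dvd_of_le (inf_le_left (a := 𝐂[b]) (b := 𝐂[S.xa]))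
    have c : Nat.card ↥(𝐂[b] ⊓ 𝐂[S.xa]) ≠ 242 := fun h => by
      have := S.c242_of_t S.xa_ord ((eq_of_le_of_card_le inf_le_left (cb.trans h.symm).le).ge hi).2 ht
      rw [S.card_Ua.2] at this; omega
    rw [cb] at a
    have := Nat.le_of_dvd (by norm_num) a
    obtain ⟨k, hk⟩ := card_dvd_of_le le
    rw [cK] at hk ⊢
    omega)
  have jb := mem_cent1_iff.1 hj
  have ji := inv_eq_of_mul_eq_one_right j2
  have wi := inv_eq_of_mul_eq_one_right w2
  obtain ⟨y, hy, x, hx, h⟩ := (mem_sup_of_norm_left nb').1 (K.ge (show j * w * j⁻¹ * w ∈ _ from ⟨mem_cent1_iff.2 (by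
    have e' : w * b⁻¹ * w⁻¹ = b := by rw [← conj_inv, e, inv_inv]
    calc j * w * j⁻¹ * w * b = j * w * (j⁻¹ * (w * b * w⁻¹) * j⁻¹⁻¹) * w⁻¹ * j⁻¹ * (j * w * j⁻¹ * w) := by group
      _ = b * (j * w * j⁻¹ * w) := by
        rw [e, ← conj_inv, mul_inv_eq_iff_eq_mul.2 (mem_cent1_iff.1 (inv_mem hj)), mul_assoc j w, mul_assoc j, e', jb]
        group),
    mul_mem (S.z_cent_xa (isConj_conj_iff.2 hw) (conj_H (CN hj) wN)) wa⟩))
  have y1 : w * y * w⁻¹ = y⁻¹ := by obtain ⟨k, rfl⟩ := hy; simp only [← conj_zpow, e, inv_zpow]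
  have x1 : w * x * w⁻¹ = x := mul_inv_eq_iff_eq_mul.2 (mem_cent_iff.1 (cent_zpowers S.xa ▸ wa) x hx).symm
  have x2 : x * y = y * x := mem_cent_iff.1 (cent_zpowers S.xa ▸ (zpowers_le.2 (S.Ua_normal.le hb)) hy) x hx
  have u1 : w * (y * x) * w⁻¹ = (y * x)⁻¹ := by
    rw [h, mul_inv_rev, mul_inv_rev, mul_inv_rev, inv_inv, ji, wi]; simp only [mul_assoc, w2, mul_one]
  have x0 : x = 1 := eq_one_of_inv11 S.xa_ord hx (mul_left_cancel (a := y⁻¹) (by
    rw [← mul_inv_rev, x2, ← u1, ← y1]; nth_rewrite 1 [← x1]; group))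
  rw [x0, mul_one] at h
  have y0 : y = 1 := eq_one_of_inv11 ob hy (by
    have a : j * y * j⁻¹ = y := mul_inv_eq_iff_eq_mul.2 (mem_cent_iff.1 (cent_zpowers b ▸ hj) y hy).symm
    nth_rewrite 1 [← a]
    rw [h, mul_inv_rev, mul_inv_rev, mul_inv_rev, inv_inv, ji, wi]; simp only [← mul_assoc, j2, one_mul])
  rw [y0, eq_comm, mul_eq_one_iff_eq_inv, wi, mul_inv_eq_iff_eq_mul] at h
  exact h.symm

theorem elevComm : S.ElevComm := fun b i w j ob hi ht hw e hj j2 => by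
  obtain ⟨g, hg⟩ := S.exists_Ua ob
  have := S.elev_core (i := g * i * g⁻¹) (w := g * w * g⁻¹) (j := g * j * g⁻¹) hg ((CA.orderOf_conj' _ _).trans ob)
    (by rwa [← cj_centralizer_singleton, conj_mem_cj]) (isConj_conj_iff.2 ht) (isConj_conj_iff.2 hw)
    (by rw [conj_inv (a := b), ← e]; group) (by rwa [← cj_centralizer_singleton, conj_mem_cj])
    (by rw [conj_mul, j2]; group)
  rwa [conj_mul, conj_mul, mul_left_inj, mul_right_inj] at this

end St

end CA.J4
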