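import Cfsg.Agent.Lib.J4.FusT
import Cfsg.Agent.Lib.Blk.ZStar

/-!
Fusion of the central involution `z` into `E`.
-/

set_option autoImplicit false
set_option linter.unusedSectionVars false

namespace CA.J4
open Cfsg CA.Gol CA.Ex2 CA.Core Subgroup
open scoped Pointwise

variable {G : Type*} [Group G] {E : Subgroup G} {z p s : G} {c : ℕ → G}

/-- a simple group has no isolated involution -/
theorem exists_comm_conj [Finite G] [IsSimpleGroup G] (hc : ¬ IsMulCommutative G) (hz : orderOf z = 2) :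
    ∃ g, g * z * g⁻¹ ∈ 𝐂[z] ∧ g * z * g⁻¹ ≠ z := by
  by_contra H
  push Not at H
  have z2 : z * z = 1 := by rw [← pow_two, ← hz, pow_orderOf_eq_one]
  have h : Blk.Isol z := ⟨z2, fun g e => H g (mem_cent1_iff.2 e.symm)⟩
  have := h.mem_center ((piCoreOf_compl_singleton_top Nat.prime_two).symm.trans
    ((Blk.normal_piCoreOf_top _).eq_bot_or_eq_top.resolve_right fun e => by
      have := Blk.piElt_two_compl.1 ((piCoreOf_piGrp {2}ᶜ (⊤ : Subgroup G)).piElt (x := z) (by rw [e]; exact mem_top z))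
      rw [hz] at this
      exact absurd this (by decide)))
  rw [(inferInstance : (center G).Normal).eq_bot_or_eq_top.resolve_right fun e =>
    hc ⟨⟨fun a b => (mem_center_iff.1 (e ▸ mem_top b) a)⟩⟩, mem_bot] at this
  rw [this, orderOf_one] at hz
  exact absurd hz (by decide)

theorem exists_third' [Finite G] {D : Subgroup G} (h : 2 < Nat.card D) : ∃ a ∈ D, ∃ b ∈ D, a ≠ 1 ∧ b ≠ 1 ∧ a ≠ b := by
  obtain ⟨a, ha, a1⟩ := exists_ne_one_mem' (A := D) fun e => by rw [e, card_bot] at h; omega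
  by_contra H
  push Not at H
  have : (D : Set G) ⊆ {1, a} := fun b hb => by
    by_cases b1 : b = 1
    exacts [Or.inl b1, Or.inr (H a ha b hb a1 b1).symm]
  have c5 : ({1, a} : Set G).ncard ≤ 2 := (Set.ncard_insert_le _ _).trans (by simp)
  have := (Set.ncard_le_ncard this (Set.toFinite _)).trans c5
  change Nat.card D ≤ _ at this
  omega

theorem isConj_cj {a b : G} (k : G) (h : IsConj a b) : IsConj a (k * b * k⁻¹) := h.trans (isConj_iff.2 ⟨k, rfl⟩)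
theorem isConj_of_cj {a b : G} (k : G) (h : IsConj a (k * b * k⁻¹)) : IsConj a b :=
  h.trans (isConj_iff.2 ⟨k, rfl⟩).symm

namespace JH
variable [Finite G] {π : ↥𝐂[z] →* Pm} (h : JH z p s E π c)
include h

/-- involutions of `E` are conjugate into `Û` -/
theorem exists_U {x : G} (hx : x ∈ E) (h2 : x * x = 1) : ∃ k ∈ 𝐂[z], k * x * k⁻¹ ∈ h.UH := by
  have := allLt_iff.1 sing_chk _ (wv_lt (c := c) x)
  rw [(h.sq_iff hx).1 h2, Bool.or_eq_true, anyLt_iff] at this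
  obtain ⟨i, hi, e⟩ := this.resolve_left (by decide)
  obtain ⟨k, hk, -, a⟩ := h.lift _ (hr_mem hi)
  refine ⟨k, hk.1, h.cjE hk.1 hx, ?_⟩
  rw [h.wm_act hk.1 a (fun _ => matOf_lt _) x hx, code_hr hi, eq12_lin (allLt_iff.1 HM_chk i hi) (wv_lt x)]
  exact blt_iff.1 e

theorem card_cj_le {g : G} {X : Subgroup G} (hX : X ≤ 𝐂[g * z * g⁻¹]) (h2 : ∀ x ∈ X, x * x = 1) :
    Nat.card X ≤ Nat.card ↥(cj g E ⊓ X) * 32 := by
  have := h.card_elem_le (X := cj g⁻¹ X) (by rw [cj_le_iff, inv_inv, cj_centralizer_singleton]; exact hX) (sq_cj h2 _)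
  rwa [card_cj, ← card_cj g (E ⊓ _), cj_inf, cj_cj_inv] at this

theorem exists_inner_conj (hO : ∃ g, g * z * g⁻¹ ∈ 𝐂[z] ∧ g * z * g⁻¹ ≠ z) :
    ∃ g, g * z * g⁻¹ ∈ 𝐂[z] ∧ g * z * g⁻¹ ≠ z ∧ pel π (g * z * g⁻¹) ∈ Spor.M22 := by
  by_contra H
  push Not at H
  have key : ∀ {g : G}, g * z * g⁻¹ ∈ 𝐂[z] → pel π (g * z * g⁻¹) ∉ Spor.M22 →
      okO (code (s0 * pel π (g * z * g⁻¹))) = true → False := by
    intro g hr ho ok
    set r := g * z * g⁻¹ with hrd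
    have r2 : r * r = 1 := by rw [hrd, conj_mul, h.zz]; simp
    have ri : r⁻¹ = r := inv_eq_of_mul_eq_one_right r2
    obtain ⟨j, hj, W⟩ := h.wm_outer hr ho
    have mE : ∀ e ∈ E, e * (r * e⁻¹ * r⁻¹) ∈ E := fun e he => mul_mem he (h.cjE hr (inv_mem he))
    have wE : ∀ e ∈ E, wv c (e * (r * e⁻¹ * r⁻¹)) = wv c e ^^^ oF (code (s0 * pel π r)) j (wv c e) := fun e he => by
      rw [h.wv_mul he (h.cjE hr (inv_mem he)), W _ (inv_mem he), h.wv_inv he]; rfl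
    have out : ∀ e ∈ E, wv c (e * (r * e⁻¹ * r⁻¹)) ≠ 0 → qf (wv c (e * (r * e⁻¹ * r⁻¹))) = 0 →
        g⁻¹ * (e * (r * e⁻¹ * r⁻¹)) * g ∈ 𝐂[z] ∧ pel π (g⁻¹ * (e * (r * e⁻¹ * r⁻¹)) * g) ∉ Spor.M22 := by
      intro e he h0 q
      have g2 := (h.sq_iff (mE e he)).2 q
      have e1 : e * (r * e⁻¹ * r⁻¹) * r = e * r * e⁻¹ := by group
      set γ := e * (r * e⁻¹ * r⁻¹)
      have cm : γ * r = r * γ := by
        have : γ * r * (γ * r) = 1 := by rw [e1, conj_mul, r2]; simp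
        rw [← inv_eq_of_mul_eq_one_right this, mul_inv_rev, ri, inv_eq_of_mul_eq_one_right g2]
      have m : g⁻¹ * γ * g ∈ 𝐂[z] := by rw [← mem_cj, cj_centralizer_singleton]; exact mem_cent1_iff.2 cm
      refine ⟨m, fun hi => ?_⟩
      have e2 : g⁻¹ * e * g * z * (g⁻¹ * e * g)⁻¹ = g⁻¹ * γ * g * z := by
        rw [show g⁻¹ * γ * g * z = g⁻¹ * (γ * r) * g by rw [hrd]; group, e1, hrd]; group
      refine H (g⁻¹ * e * g) (e2 ▸ mul_mem m (self_mem_cent1 z)) (fun e3 => h0 ?_) (by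
        rw [e2, pel_mul _ m (self_mem_cent1 z), h.pi_z, mul_one]; exact hi)
      rw [e2, mul_eq_right, mul_assoc, inv_mul_eq_one, eq_comm, mul_eq_right] at e3
      rw [e3, h.wv_one]
    have m1 := h.c_mem (a := 1) (by norm_num)
    have m2 := h.c_mem (a := 2) (by norm_num)
    have w1 := wE _ m1
    have w2 := wE _ m2
    rw [h.wv_c' (a := 1) (by norm_num)] at w1
    rw [h.wv_c' (a := 2) (by norm_num)] at w2
    have := allLt_iff.1 ok j hj
    simp only [force_eq, Bool.and_eq_true, Bool.not_eq_true', ← Bool.not_eq_true, beq_iff] at this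
    obtain ⟨⟨⟨⟨⟨⟨a1, a2⟩, a3⟩, a4⟩, a5⟩, a6⟩, a7⟩ := this
    have e3 : c 2 * c 1 * (r * (c 2 * c 1)⁻¹ * r⁻¹) = c 1 * (r * (c 1)⁻¹ * r⁻¹) * (c 2 * (r * (c 2)⁻¹ * r⁻¹)) := by
      have : c 2 * (c 1 * (r * (c 1)⁻¹ * r⁻¹)) = c 1 * (r * (c 1)⁻¹ * r⁻¹) * c 2 :=
        (h.comm_iff m2 (mE _ m1)).2 (by rw [h.wv_c' (a := 2) (by norm_num), w1]; exact a7)
      rw [← mul_assoc (c 1 * _), ← this]; group
    have w3 := h.wv_mul (mE _ m1) (mE _ m2)
    rw [w1, w2, ← e3] at w3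
    obtain ⟨b1, c1⟩ := out _ m1 (by rw [w1]; exact a1) (by rw [w1]; exact a4)
    obtain ⟨b2, c2⟩ := out _ m2 (by rw [w2]; exact a2) (by rw [w2]; exact a5)
    obtain ⟨-, c3⟩ := out _ (mul_mem m2 m1) (by rw [w3]; exact a3) (by rw [w3]; exact a6)
    apply c3
    have := mul_mem22 (h.pi_mem b1) (h.pi_mem b2) c1 c2
    rw [← pel_mul _ b1 b2] at this
    convert this using 2
    rw [e3]; group
  obtain ⟨g, hr, hne⟩ := hO
  have r2 : g * z * g⁻¹ * (g * z * g⁻¹) = 1 := by rw [conj_mul, h.zz]; simp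
  obtain ⟨d, hd, e⟩ := inv_outer (h.pi_mem hr) (H g hr hne) (by rw [← pel_mul _ hr hr, r2, pel_one])
  obtain ⟨k, hk, rfl, -⟩ := h.lift d hd
  have e1 : k * g * z * (k * g)⁻¹ = k * (g * z * g⁻¹) * k⁻¹ := by group
  have hr' : k * g * z * (k * g)⁻¹ ∈ 𝐂[z] := e1 ▸ mul_mem (mul_mem hk.1 hr) (inv_mem hk.1)
  refine key hr' (H _ hr' fun e2 => hne ?_) ?_
  · rw [e1, ← h.conj_z hk.1, mul_left_inj, mul_right_inj, h.conj_z hk.1] at e2; exact e2
  · rw [e1, pel_conj _ hk.1 hr, code_mul, cs]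
    rcases e with e | e <;> rw [e]
    · rw [code_rA]; decide +kernel
    · rw [cs]; decide +kernel

variable {y m : G} {τ : ℕ → G} (d : TD p s π c y m τ)
include d

theorem cj_t {x n : ℕ} (hx : x < 8192) (hn : n < 8192) :
    cjT x n < 8192 ∧ c x * (c n * τ 1) * (c x)⁻¹ = c (cjT x n) * τ 1 := by
  obtain ⟨i1, i2⟩ := h.c_inv hx
  obtain ⟨a1, a2⟩ := d.act 1 (by norm_num) _ i1
  rw [hact_zero] at a1 a2
  refine ⟨hmul_lt (hmul_lt hx hn) a1, ?_⟩
  rw [cjT, h.c_mul _ (hmul_lt hx hn) _ a1, h.c_mul _ hx _ hn, ← a2, i2]; group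

theorem cj_p (j : ℕ) {n : ℕ} (hn : n < 8192) :
    om13 j n < 8192 ∧ p ^ j * (c n * τ 1) * (p ^ j)⁻¹ = c (om13 j n) * τ 1 := by
  induction j with
  | zero => exact ⟨hn, by simp [om13]⟩
  | succ j ih =>
    obtain ⟨a1, a2⟩ := h.p_act _ ih.1
    rw [hact_zero] at a1 a2
    refine ⟨a1, ?_⟩
    show _ = c (lin OM (om13 j n)) * τ 1
    rw [← a2, pow_succ', mul_inv_rev, show p * p ^ j * (c n * τ 1) * ((p ^ j)⁻¹ * p⁻¹) =
      p * (p ^ j * (c n * τ 1) * (p ^ j)⁻¹) * p⁻¹ by group, ih.2, ← conj_mul,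
      conj_eq_iff_mem_cent1.2 (mem_cent1_comm.1 (d.mem 1).2)]

theorem card_inf_E {X : Subgroup G} (hX : X ≤ 𝐂[z]) (h2 : ∀ x ∈ X, x * x = 1) (hc : 2048 ≤ Nat.card X) :
    128 ≤ Nat.card ↥(E ⊓ X) := by
  obtain ⟨k, hk, e⟩ := h.exists_cj d hX h2 hc
  rw [← card_cj k, cj_inf, e, cj_eq_of_mem_normalizer (h.nE hk), ← h.card_UH]
  exact card_le_of_le (le_inf h.UH_leE (h.UH_le d))

theorem exists_E_conj (hO : ∃ g, g * z * g⁻¹ ∈ 𝐂[z] ∧ g * z * g⁻¹ ≠ z) :
    ∃ g, g * z * g⁻¹ ∈ E ∧ g * z * g⁻¹ ≠ z := by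
  by_contra H
  push Not at H
  have H' : ∀ b ∈ E, IsConj z b → b = z := fun b hb e => by
    obtain ⟨k, rfl⟩ := isConj_iff.1 e
    exact H k hb
  have t1 : ∀ n < 8192, c n * τ 1 ∉ E := fun n hn e => ta_ne (a := 1) (by norm_num) (by norm_num) (by
    rw [← d.pi 1 (by norm_num)]; exact h.pi_E ((Subgroup.mul_mem_cancel_left _ (h.c_mem hn)).1 e))
  have nz : ∀ {g : G}, g * z * g⁻¹ ∉ E → z ∉ cj g E := fun {g} hr e => hr (by
    have := H g⁻¹ (by rw [inv_inv]; exact mem_cj.1 e)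
    rw [inv_inv] at this
    rw [show g * z * g⁻¹ = g * (g⁻¹ * z * g) * g⁻¹ by rw [this], show g * (g⁻¹ * z * g) * g⁻¹ = z by group]
    exact h.ez.mem)
  have key : ∀ {g b : G}, g * z * g⁻¹ ∉ E → b ∈ E → b ∈ cj g E → b ≠ 1 → ¬ IsConj z (b * (g * z * g⁻¹)) := by
    intro g b hr hb hb' b1 e
    obtain ⟨q, -, e1⟩ := (h.ez.cj g).exists_conj hb' fun m => by
      rcases (h.ez.cj g).mem_zp.1 m with rfl | rfl
      exacts [b1 rfl, hr hb]
    rw [← e1] at e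
    exact nz hr (H' b hb (isConj_of_cj q e) ▸ hb')
  obtain ⟨g, hr, hne, hi⟩ := h.exists_inner_conj hO
  have r2 : ∀ g : G, g * z * g⁻¹ * (g * z * g⁻¹) = 1 := fun g => by rw [conj_mul, h.zz]; simp
  have pne : pel π (g * z * g⁻¹) ≠ 1 := fun e => hne (H g (h.mem_E_of_sq hr e (by rw [r2]; exact one_mem _)))
  obtain ⟨k, hk, e⟩ := inv_inner hi (orderOf_eq_prime (by rw [pow_two, ← pel_mul _ hr hr, r2, pel_one]) pne)
  obtain ⟨k, hk', rfl, -⟩ := h.lift k hk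
  rw [← pel_conj _ hk'.1 hr] at e
  obtain ⟨x, hx, e1⟩ := h.dec_A d (mul_mem (mul_mem hk'.1 hr) (inv_mem hk'.1)) (by norm_num) e (by
    rw [conj_mul, r2]; simpa using one_mem E)
  obtain ⟨n, hn, rfl⟩ := (h.mem_E x).1 hx
  replace e1 : k * g * z * (k * g)⁻¹ = c n * τ 1 := by rw [← e1]; group
  generalize k * g = g at e1
  clear hk hk' e hr hne hi pne hx
  have chk := allLt_iff.1 inv_chk n hn
  have e2 : hmul n (lin (nth TM 1) n) = 0 := by
    obtain ⟨a1, a2⟩ := d.act 1 (by norm_num) _ hn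
    rw [hact_zero] at a1 a2
    refine h.c_inj _ (hmul_lt hn a1) _ (by norm_num) ?_
    rw [h.c_mul _ hn _ a1, ← a2, h.c_zero, ← r2 g, e1, inv_eq_of_mul_eq_one_right (h.t_sq d 1)]; group
  rw [beq_iff.2 e2, Bool.not_true, Bool.false_or, force_eq, Bool.or_eq_true, Bool.and_eq_true, Bool.and_eq_true, anyLt_iff,
    anyLt_iff, Bool.not_eq_true', ← Bool.not_eq_true, beq_iff] at chk
  rcases chk with ⟨-, i, hi, e3⟩ | ⟨e3, t, ht, e4⟩
  · obtain ⟨b1, b2⟩ := h.cj_t d (XE_lt i (by omega)) hn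
    have b3 : c (cjT (lin XE i) n) ∈ zpowers z := (h.wv_eq_zero (h.c_mem b1)).1 (by rw [h.wv_c b1]; exact beq_iff.1 e3)
    generalize cjT (lin XE i) n = n' at b1 b2 b3
    replace b2 : c (lin XE i) * g * z * (c (lin XE i) * g)⁻¹ = c n' * τ 1 := by rw [← b2, ← e1]; group
    generalize c (lin XE i) * g = g at b2
    have hr : g * z * g⁻¹ ∉ E := b2 ▸ t1 _ b1
    have cz : ∀ x ∈ 𝐂[z], x * τ 1 = τ 1 * x → x ∈ 𝐍(cj g E) := fun x hx e => by
      rw [(h.lq.cj g).norm_eq, b2, mem_cent1_iff, ← mul_assoc, mul_assoc (c n'), ← e, ← mul_assoc, mul_left_inj]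
      rcases h.ez.mem_zp.1 b3 with e | e <;> rw [e]
      · simp
      · exact mem_cent1_iff.1 hx
    have rV : g * z * g⁻¹ ∈ h.VV d := b2 ▸ h.mul_memV d (zpowers_le.2 h.z_UH b3) (by norm_num)
    have c1 := h.card_inf_E d (X := cj g⁻¹ (h.VV d)) (by
      rw [cj_le_iff, inv_inv, cj_centralizer_singleton]; exact mem_cent_iff_le_cent1.1 (h.V_ab d rV))
      (sq_cj (h.V_sq d) _) (by rw [card_cj, h.card_V d])
    rw [← card_cj g, cj_inf, cj_cj_inv] at c1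
    have c2 := card_mul_card_le (h.UH_le d) (inf_le_right : cj g E ⊓ h.VV d ≤ _)
    have c3 := (h.card_le_count (S := h.UH ⊓ (cj g E ⊓ h.VV d)) (inf_le_left.trans h.UH_leE) fun b hb => ?_).trans
      D0_chk.le
    · rw [h.card_UH, h.card_V d] at c2
      have := (Nat.mul_le_mul_left 128 c1).trans (c2.trans (Nat.mul_le_mul_right _ c3))
      omega
    have bE := hb.1.1
    have cb := h.c_cd bE
    have hl := cd_lt (c := c) b
    simp only [Bool.and_eq_true, Bool.or_eq_true, blt_iff, allLt_iff, beq_iff, Bool.not_eq_true', ← Bool.not_eq_true]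
    refine ⟨⟨⟨hb.1.2, fun i hi => ?_⟩, fun e => ?_⟩, or_iff_not_imp_left.2 fun b0 i hi e => ?_⟩
    · have := allLt_iff.1 CB_chk i hi
      rw [force_eq, Bool.and_eq_true, blt_iff, beq_iff] at this
      have xE := h.c_mem (a := col CB i) (by omega)
      have a2 := (d.act 1 (by norm_num) (col CB i) (by omega)).2
      rw [hact_zero, this.2] at a2
      have m := conj_mem_of_mem_normalizer (cz _ (h.E_le xE) (mul_inv_eq_iff_eq_mul.1 a2).symm) hb.2.1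
      rw [← h.wv_c' this.1]
      refine (h.comm_iff xE bE).1 ((h.ez.comm_or xE bE).resolve_right fun e => nz hr ?_)
      rwa [e, Subgroup.mul_mem_cancel_left _ hb.2.1] at m
    · obtain ⟨a1, a2⟩ := h.p_act _ hl
      rw [hact_zero] at a1 a2
      obtain ⟨a3, a4⟩ := h.p_act _ a1
      rw [hact_zero] at a3 a4
      have np := cz _ h.p_mem (mem_cent1_iff.1 (d.mem 1).2).symm
      apply nz hr
      rw [← h.c_z, ← e, h.c_mul _ hl _ (hmul_lt a1 a3), h.c_mul _ a1 _ a3, ← a4, ← a2, cb]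
      exact mul_mem hb.2.1 (mul_mem (conj_mem_of_mem_normalizer np hb.2.1)
        (conj_mem_of_mem_normalizer np (conj_mem_of_mem_normalizer np hb.2.1)))
    · have x1 := XE_lt i (by omega)
      obtain ⟨-, a2⟩ := h.cj_t d x1 (n := 0) (by norm_num)
      rw [e, cb, h.c_zero, one_mul] at a2
      refine key hr bE hb.2.1 (fun e => b0 (by rw [e, ← h.c_zero, h.cd_c (by norm_num)])) ?_
      have : b * (g * z * g⁻¹) = c (lin XE i) * (g * z * g⁻¹) * (c (lin XE i))⁻¹ := by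
        have cm : ∀ x ∈ E, x * c n' * x⁻¹ = c n' := fun x hx => by
          rcases h.ez.mem_zp.1 b3 with e | e <;> rw [e]
          exacts [by simp, h.ez.conj_z hx]
        rw [b2, ← conj_mul, cm _ (h.c_mem x1), a2, ← mul_assoc, ← mul_assoc, ← mul_inv_eq_iff_eq_mul.1 (cm _ bE)]
      rw [this]
      exact isConj_cj _ (isConj_cj _ (IsConj.refl z))
  · have chk := allLt_iff.1 KU_chk t ht
    rw [force_eq, Bool.and_eq_true, beq_iff] at chk
    rw [beq_iff] at e4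
    generalize nth KU t = K at chk e4
    let B := Pre h (fun w => w < 4096 ∧ lin K w = 0) ⟨by norm_num, lin_zero _⟩ fun a b ha hb =>
      ⟨xor_lt' (n := 12) ha.1 hb.1, by rw [lin_xor _ (by omega) (by omega), ha.2, hb.2]; rfl⟩
    have cB : Nat.card B = 128 := (h.card_eq_count (S := B) (fun _ hx => hx.1)
      (P := fun a => Nat.beq (lin K (Nat.mod a 4096)) 0) fun a ha => by
        rw [beq_iff]
        exact ⟨fun e => by have := e.2.2; rwa [h.wv_c ha] at this, fun e => ⟨h.c_mem ha, wv_lt _, by rw [h.wv_c ha]; exact e⟩⟩).trans chk.1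
    have pB : ∀ x ∈ B, x * x = 1 ∧ τ 1 * x * (τ 1)⁻¹ = x ∧ (lin KI (wv c x) ≠ 0 →
        IsConj (c (nth WU t) * τ 1) (x * τ 1)) := fun x hx => by
      have hl := cd_lt (c := c) x
      have := allLt_iff.1 chk.2 _ hl
      rw [force_eq, (beq_iff (a := lin K (Nat.mod (cd c x) 4096))).2 hx.2.2, Bool.not_true, Bool.false_or,
        Bool.and_eq_true, Bool.and_eq_true, beq_iff, beq_iff, Bool.or_eq_true, beq_iff, anyLt_iff] at this
      have a2 := (d.act 1 (by norm_num) _ hl).2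
      rw [hact_zero, this.1.2, h.c_cd hx.1] at a2
      refine ⟨(h.sq_iff hx.1).2 this.1.1, a2, fun e => ?_⟩
      obtain ⟨i, hi, e⟩ := this.2.resolve_left e
      rw [force_eq, anyLt_iff] at e
      obtain ⟨j, -, e⟩ := e
      obtain ⟨b1, b2⟩ := h.cj_t d (XE_lt i hi) (n := nth WU t) (by interval_cases t <;> decide)
      have b3 := (h.cj_p d j b1).2
      rw [beq_iff.1 e, h.c_cd hx.1, ← b2] at b3
      exact b3 ▸ isConj_cj _ (isConj_cj _ (IsConj.refl _))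
    have nB : c n ∈ B := ⟨h.c_mem hn, wv_lt _, by rw [h.wv_c hn]; exact e4⟩
    have hr : g * z * g⁻¹ ∉ E := e1 ▸ t1 _ hn
    have c1 := h.card_cj_le (g := g) (X := B) (fun x hx => by
      rw [e1, mem_cent1_iff, ← mul_assoc, mul_assoc (c n), mul_inv_eq_iff_eq_mul.1 (pB x hx).2.1, ← mul_assoc,
        mul_left_inj]
      exact congrArg Subtype.val ((abelian_of_sq fun x hx => (pB x hx).1).is_comm.comm ⟨x, hx⟩ ⟨_, nB⟩))
      fun x hx => (pB x hx).1
    have zr : IsConj z (c (nth WU t) * τ 1) := (e1 ▸ isConj_cj g (IsConj.refl z)).trans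
      ((pB _ nB).2.2 (by rw [h.wv_c hn]; exact e3)).symm
    have k2 : ∀ b ∈ cj g E ⊓ B, b ≠ 1 → lin KI (wv c b) = lin KI (n % 4096) := fun b hb b1 => by
      by_contra e
      refine key hr hb.2.1 hb.1 b1 ?_
      rw [e1, ← mul_assoc]
      refine zr.trans ((pB _ (mul_mem hb.2 nB)).2.2 fun e' => e ?_)
      rw [h.wv_mul hb.2.1 nB.1, h.wv_c hn, lin_xor _ (lt_trans (wv_lt _) (by norm_num)) (by omega)] at e'
      exact Nat.eq_of_xor_eq_zero e'
    obtain ⟨a, ha, b, hb, a1, b1, ab⟩ := exists_third' (D := cj g E ⊓ B) (by omega)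
    have := k2 _ (mul_mem ha hb) fun e => ab (by
      rw [← inv_eq_of_mul_eq_one_right e, inv_eq_of_mul_eq_one_right (pB a ha.2).1])
    rw [h.wv_mul ha.2.1 hb.2.1, lin_xor _ (lt_trans (wv_lt _) (by norm_num)) (lt_trans (wv_lt _) (by norm_num)),
      k2 a ha a1, k2 b hb b1, Nat.xor_self] at this
    exact e3 this.symm

theorem not21 : ¬ IsConj z (c 21) := by
  intro e
  obtain ⟨g, e⟩ := isConj_iff.1 e
  have xE := h.c_mem (a := 21) (by norm_num)
  have T := h.lq.tri (g := g) (e ▸ xE) (by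
    rw [e, ← h.c_z]; exact fun e => absurd (h.c_inj _ (by norm_num) _ (by norm_num) e) (by decide))
  have cP : Nat.card (cj g E) = 8192 := by rw [card_cj, h.card_E]
  generalize cj g E = P at T cP
  rw [e] at T
  have c1 := T.r.ez.card_cent1 T.mem' T.symm.not_mem
  rw [cP, ← card_pmap_mul π inf_le_right] at c1
  have sq : ∀ x ∈ P, x * x ∈ E := fun x hx => zpowers_le.2 xE (T.r.ez.sq_mem hx)
  have c2 : Nat.card ↥(pker π ⊓ (P ⊓ 𝐂[z])) ≤ 128 := (card_le_of_le (H := pker π ⊓ (P ⊓ 𝐂[z])) (K := E ⊓ P) fun x hx =>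
    ⟨h.mem_E_of_sq hx.2.2 (mem_pker.1 hx.1).2 (sq x hx.2.1), hx.2.1⟩).trans
    (h.card_le128 inf_le_left ⟨h.ez.mem, T.mem'⟩ fun x hx => by rw [← pow_two]; exact T.elemAb_E.2 x hx)
  have Y2 : ∀ g ∈ pmap π (P ⊓ 𝐂[z]), g * g = 1 := fun g hg => by
    obtain ⟨x, hx, rfl⟩ := (mem_pmap_of_le inf_le_right).1 hg
    rw [← pel_mul _ hx.2 hx.2, h.pi_E (sq x hx.1)]
  have c3 := card_le32 (h.pmap_le (P ⊓ 𝐂[z])) Y2
  have c4 : Nat.card (pmap π (P ⊓ 𝐂[z])) = 32 := by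
    have := Nat.mul_le_mul_right (Nat.card (pmap π (P ⊓ 𝐂[z]))) c2
    omega
  have yx : y ∈ 𝐂[c 21] := by
    have := (d.y_act 21 (by norm_num)).2
    rw [show hact YN 0 21 = 21 by decide +kernel] at this
    exact conj_eq_iff_mem_cent1.1 this
  have ny : ∀ g ∈ pmap π (P ⊓ 𝐂[z]), y0 * g * y0⁻¹ ∈ pmap π (P ⊓ 𝐂[z]) := fun g hg => by
    obtain ⟨x, hx, rfl⟩ := (mem_pmap_of_le inf_le_right).1 hg
    rw [← d.y_pi, ← pel_conj _ d.y_mem.1 hx.2]
    exact pel_mem_pmap π (conj_mem_of_mem_normalizer (T.cent_norm_r ⟨d.y_mem.1, yx⟩) hx)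
  obtain ⟨⟨a, ha⟩, a1, e1⟩ := exists_fixed_ne (α := pmap π (P ⊓ 𝐂[z])) (fun g => ⟨_, ny g g.2⟩) (p := 5) (by norm_num)
    (fun g => Subtype.ext (by
      show y0 * (y0 * (y0 * (y0 * (y0 * g * y0⁻¹) * y0⁻¹) * y0⁻¹) * y0⁻¹) * y0⁻¹ = g
      rw [show y0 * (y0 * (y0 * (y0 * (y0 * g * y0⁻¹) * y0⁻¹) * y0⁻¹) * y0⁻¹) * y0⁻¹ = y0 ^ 5 * g * (y0 ^ 5)⁻¹ by
        simp only [pow_succ, pow_zero, one_mul, mul_inv_rev, mul_assoc], y0_pow]; simp)) 1 (by rw [c4]; norm_num) (Subtype.ext (by simp))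
  replace e1 : a * y0 = y0 * a := (mul_inv_eq_iff_eq_mul.1 (congrArg Subtype.val e1)).symm
  have pw : ∀ b ∈ Spor.M22, b * y0 = y0 * b → b * b = 1 → b = 1 := fun b hb e e2 => by
    obtain ⟨i, hi, rfl⟩ := cent_y hb e
    rw [← pow_add, ← orderOf_dvd_iff_pow_eq_one, y0_ord] at e2
    obtain rfl : i = 0 := by omega
    simp
  have a2 := Y2 a ha
  have aD := h.pmap_le _ ha
  have ao : a ∉ Spor.M22 := fun e => a1 (Subtype.ext (pw a e e1 a2))
  obtain rfl : a = s0 := by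
    have m := mul_mem22 s0_mem aD s0_not_mem ao
    have e2 : s0 * a * y0 = y0 * (s0 * a) := by rw [mul_assoc, e1, ← mul_assoc, sy, mul_assoc]
    obtain ⟨i, -, e3⟩ := cent_y m e2
    have e4 : s0 * a * s0 = a := by
      rw [e3, ← ((show Commute s0 y0 from sy).pow_right i).eq, ← e3, ← mul_assoc, s0_sq, one_mul]
    have := pw _ m e2 (by rw [← mul_assoc, e4, a2])
    rw [← s0_inv]; exact (inv_eq_of_mul_eq_one_right this).symm
  obtain ⟨x, hx, e5⟩ := (mem_pmap_of_le inf_le_right).1 ha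
  obtain ⟨j, hj, W⟩ := h.wm_of hx.2 h.s_mem (e5.trans h.s_pi.symm) (h.wm_act h.s_mem h.s_act
    fun _ => lin_lt_of_cols (n := 12) (m := 12) (by norm_num) (by decide +kernel))
  have := W _ xE
  rw [conj_eq_iff_mem_cent1.2 (T.r.ez.le_cent1 hx.1), h.wv_c' (by norm_num)] at this
  interval_cases j <;> exact absurd this (by decide +kernel)

end JH

end CA.J4
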