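import Cfsg.Agent.Lib.J4.VV

/-!
Finite checks for the fusion of `z`.
-/

set_option autoImplicit false

namespace CA.J4
open Cfsg CA.Gol

theorem sing_chk : allLt (fun w => Nat.beq (qf w) 1 || anyLt (fun i => Nat.blt (lin (nth HM i) w) 64) 77) 4096 = true := by
  decide +kernel

/-- action of an outer element -/
def oF (g j w : ℕ) : ℕ := omp j (lin SN (lin (matOf g) w))
def okO (g : ℕ) : Bool := allLt (fun j => force (Nat.xor 1 (oF g j 1)) fun a => force (Nat.xor 2 (oF g j 2)) fun b =>
  !(Nat.beq a 0) && !(Nat.beq b 0) && !(Nat.beq (Nat.xor a b) 0) && Nat.beq (qf a) 0 && Nat.beq (qf b) 0 &&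
  Nat.beq (qf (Nat.xor a b)) 0 && Nat.beq (bf 2 a) 0) 3

/-- tests for the three maximal singular subspaces and their intersection -/
def KU : List ℕ := [0x2000100008000400020001000000000000000000000000, 0x2000100008000400300020000200010000000000030002,
  0x2000100008000400020001003200210000000000130032]
def KI : ℕ := 0x8000400020001000080004000200010000000000030002
def WU : List ℕ := [1, 1216, 1218]
def XE : ℕ := 0x4010280014001000300
/-- conjugation of `c n * τ 1` by `c x` -/
def cjT (x n : ℕ) : ℕ := hmul (hmul x n) (lin (nth TM 1) (hinv x))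
def om13 (j n : ℕ) : ℕ := Nat.rec n (fun _ ih => lin OM ih) j

theorem XE_lt (i : ℕ) (hi : i < 32) : lin XE i < 8192 :=
  lt_trans (lin_lt_of_cols (n := 5) (m := 12) (by norm_num) (by decide +kernel) hi) (by norm_num)

theorem inv_chk : allLt (fun n => !(Nat.beq (hmul n (lin (nth TM 1) n)) 0) || force (Nat.mod n 4096) fun w =>
    (Nat.beq (lin KI w) 0 && anyLt (fun i => Nat.beq (Nat.mod (cjT (lin XE i) n) 4096) 0) 16) ||
    (!(Nat.beq (lin KI w) 0) && anyLt (fun t => Nat.beq (lin (nth KU t) w) 0) 3)) 8192 = true := by decide +kernel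

theorem KU_chk : allLt (fun t => force (nth KU t) fun K => Nat.beq (countLt (fun a => true && Nat.beq (lin K (Nat.mod a 4096)) 0) 8192) 128 &&
    allLt (fun n => force (Nat.mod n 4096) fun w => !(Nat.beq (lin K w) 0) || Nat.beq (qf w) 0 &&
      Nat.beq (lin (nth TM 1) n) n && (Nat.beq (lin KI w) 0 ||
      anyLt (fun i => force (cjT (lin XE i) (nth WU t)) fun v => anyLt (fun j => Nat.beq (om13 j v) n) 3) 32)) 8192) 3
      = true := by decide +kernel

theorem D0_chk : countLt (fun a => true && (Nat.blt (Nat.mod a 4096) 64 &&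
    allLt (fun i => Nat.beq (bf (col CB i) (Nat.mod a 4096)) 0) 8 &&
    !(Nat.beq (hmul a (hmul (lin OM a) (lin OM (lin OM a)))) 4096) &&
    (Nat.beq a 0 || allLt (fun i => !(Nat.beq (cjT (lin XE i) 0) a)) 16))) 8192 = 7 := by decide +kernel

theorem CB_chk : allLt (fun i => force (col CB i) fun x => Nat.blt x 4096 && Nat.beq (lin (nth TM 1) x) x) 8 = true := by
  decide +kernel

end CA.J4
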