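import Cfsg.Agent.Lib.J4.Iface

/-!
General lemmas for the odd local analysis.
-/

set_option autoImplicit false
set_option linter.unusedSectionVars false
set_option linter.unusedVariables false

namespace CA.J4
open Cfsg CA.Ex2 Subgroup

variable {G : Type*} [Group G] [Finite G]

theorem sylowIn_of_card {q k : ℕ} (hq : q.Prime) {P M : Subgroup G} (h : P ≤ M) (hc : Nat.card P = q ^ k)
    (hn : ¬ q ^ (k + 1) ∣ Nat.card M) : SylowIn q P M :=
  sylowIn_mk hq h (IsPGroup.of_card hc) fun hd => hn (by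
    rw [← card_mul_relIndex h, hc, pow_succ]; exact Nat.mul_dvd_mul_left _ hd)

theorem exists_sylow_card {q k : ℕ} (hq : q.Prime) {M Q : Subgroup G} (hQ : IsPGroup q Q) (hQM : Q ≤ M)
    (h1 : q ^ k ∣ Nat.card M) (hn : ¬ q ^ (k + 1) ∣ Nat.card M) : ∃ P, Q ≤ P ∧ P ≤ M ∧ Nat.card P = q ^ k := by
  obtain ⟨P, hP, hQP⟩ := exists_sylowIn_ge' hq hQ hQM
  refine ⟨P, hQP, hP.le, ?_⟩
  rw [hP.card_eq_pow hq]
  congr 1
  exact le_antisymm (Nat.lt_succ_iff.1 (Nat.lt_of_not_le fun h => hn ((hq.pow_dvd_iff_le_factorization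
    (card_ne_zero' M)).2 h))) ((hq.pow_dvd_iff_le_factorization (card_ne_zero' M)).1 h1)

theorem isPGroup_zpowers {q : ℕ} {x : G} (h : orderOf x = q) : IsPGroup q (zpowers x) :=
  IsPGroup.of_card (n := 1) (by rw [Nat.card_zpowers, h, pow_one])

theorem zpowers_inf_eq_bot {q : ℕ} (hq : q.Prime) {x : G} (h : orderOf x = q) {A : Subgroup G} (hx : x ∉ A) :
    A ⊓ zpowers x = ⊥ := by
  rw [inf_comm]
  exact inf_eq_bot_of_prime_card (by rwa [Nat.card_zpowers, h]) fun a => hx (a (mem_zpowers x))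

theorem card_sup_zpowers {q : ℕ} (hq : q.Prime) {x : G} (h : orderOf x = q) {A : Subgroup G} (hx : x ∉ A)
    (hn : x ∈ 𝐍(A)) : Nat.card ↥(A ⊔ zpowers x) = Nat.card A * q := by
  rw [card_sup_of_disjoint (Or.inl (zpowers_le.2 hn)) (zpowers_inf_eq_bot hq h hx), Nat.card_zpowers, h]

theorem mem_norm_of_gens {x : G} {A B : Subgroup G} (hA : ∀ a ∈ A, x * a * x⁻¹ ∈ A ⊔ B)
    (hB : ∀ a ∈ B, x * a * x⁻¹ ∈ A ⊔ B) : x ∈ 𝐍(A ⊔ B) :=
  mem_normalizer_of_cj_le (by rw [cj_sup]; exact sup_le (cj_le_iff'.2 hA) (cj_le_iff'.2 hB))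

omit [Finite G] in
theorem conj_zpowers_mem {x a : G} {A : Subgroup G} (h : x * a * x⁻¹ ∈ A) : ∀ y ∈ zpowers a, x * y * x⁻¹ ∈ A :=
  cj_le_iff'.1 (by rw [cj_zpowers]; exact zpowers_le.2 h)

theorem mem_norm_zpowers {x a : G} (h : x * a * x⁻¹ ∈ zpowers a) : x ∈ 𝐍(zpowers a) :=
  mem_normalizer_of_cj_le (cj_le_iff'.2 (conj_zpowers_mem h))

omit [Finite G] in
theorem cent1_le_norm (a : G) : 𝐂[a] ≤ 𝐍(zpowers a) := norms_zpowers_of_cent1 le_rfl

/-- the Heisenberg group generated by `a`, `b` with commutator `c` -/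
theorem heis {q : ℕ} (hq : q.Prime) (h2 : q ≠ 2) {a b c : G} (ha : orderOf a = q) (hb : orderOf b = q)
    (hc : orderOf c = q) (hac : a ∈ 𝐂[c]) (hbc : b ∈ 𝐂[c]) (hab : b * a * b⁻¹ = a * c) {R : Subgroup G}
    (hR : R = zpowers c ⊔ zpowers a ⊔ zpowers b) :
    Nat.card R = q ^ 3 ∧ Extraspecial q R ∧ 𝐙(R) = zpowers c ∧ ∀ x ∈ R, x ^ q = 1 := by
  have : Fact q.Prime := ⟨hq⟩
  have c1 : c ≠ 1 := fun e => by rw [e, orderOf_one] at hc; exact hq.one_lt.ne hc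
  have nab : b ∉ 𝐂[a] := fun e => by
    rw [mem_cent1_iff.1 e, mul_inv_cancel_right, left_eq_mul] at hab; exact c1 hab
  have h1 : a ∉ zpowers c := fun e => nab (mem_cent1_comm.1 (zpowers_le.2 (mem_cent1_comm.1 hbc) e))
  have hA : zpowers c ⊔ zpowers a ≤ 𝐂[a] := sup_le (zpowers_le.2 (mem_cent1_comm.1 hac)) (zpowers_le.2 (self_mem_cent1 a))
  have k1 := card_sup_zpowers hq ha h1 (cent1_le_norm c hac)
  have k2 := card_sup_zpowers hq hb (fun e => nab (hA e)) (mem_norm_of_gens (conj_zpowers_mem (by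
    rw [mem_cent1_iff.1 hbc, mul_inv_cancel_right]; exact mem_sup_left (mem_zpowers c))) (conj_zpowers_mem (by
    rw [hab]; exact mul_mem (mem_sup_right (mem_zpowers a)) (mem_sup_left (mem_zpowers c)))))
  have mc : c ∈ R := hR ▸ mem_sup_left (mem_sup_left (mem_zpowers c))
  have ma : a ∈ R := hR ▸ mem_sup_left (mem_sup_right (mem_zpowers a))
  have mb : b ∈ R := hR ▸ mem_sup_right (mem_zpowers b)
  have cR : Nat.card R = q ^ 3 := by rw [hR, k2, k1, Nat.card_zpowers, hc]; ring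
  have ex : Extraspecial q R :=
    extraspecial_of_card_cube (fun e => nab (mem_cent1_iff.2 (abelian_iff'.1 e b mb a ma))) cR
  refine ⟨cR, ex, ?_, ?_⟩
  · refine eq_zpowers_of_prime_card (by rwa [ex.card_center]) ⟨mc, mem_cent_iff_le_cent1.2 ?_⟩ c1
    rw [hR]; exact sup_le (sup_le (zpowers_le.2 (self_mem_cent1 c)) (zpowers_le.2 hac)) (zpowers_le.2 hbc)
  · have key := mul_pow_of_phi_le_center h2 ex.isPGroup (ex.phi_eq.le.trans inf_le_right)
    let K : Subgroup G :=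
      { carrier := {x | x ∈ R ∧ x ^ q = 1}
        mul_mem' := fun {x y} hx hy => ⟨mul_mem hx.1 hy.1, by rw [key x hx.1 y hy.1, hx.2, hy.2, mul_one]⟩
        one_mem' := ⟨one_mem _, one_pow _⟩
        inv_mem' := fun {x} hx => ⟨inv_mem hx.1, by rw [inv_pow, hx.2, inv_one]⟩ }
    have : R ≤ K := by
      conv_lhs => rw [hR]
      exact sup_le (sup_le (zpowers_le.2 ⟨mc, hc ▸ pow_orderOf_eq_one c⟩) (zpowers_le.2 ⟨ma, ha ▸ pow_orderOf_eq_one a⟩))
        (zpowers_le.2 ⟨mb, hb ▸ pow_orderOf_eq_one b⟩)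
    exact fun x hx => (this hx).2

theorem extra_conj {q : ℕ} (hq : q.Prime) {R : Subgroup G} (h : Extraspecial q R) {x y : G} (hx : x ∈ R)
    (h1 : x ∉ 𝐙(R)) (hy : y ∈ 𝐙(R)) : ∃ r ∈ R, r * x * r⁻¹ = x * y := by
  have : Fact q.Prime := ⟨hq⟩
  have e1 := h.relIndex_cent1 hx h1
  rw [relIndex_cent1_eq_ncard] at e1
  have e2 : ((fun y => x * y) '' (𝐙(R) : Subgroup G)).ncard = q := by
    rw [Set.ncard_image_of_injective _ (mul_right_injective x), ← h.card_center]; rfl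
  have := Set.eq_of_subset_of_ncard_le (s := {y | ∃ h ∈ R, h * x * h⁻¹ = y}) (t := (fun y => x * y) '' (𝐙(R) : Subgroup G))
    (fun w ⟨r, hr, e⟩ => ⟨_, h.special.commutator_mem (inv_mem hx) hr, by
      rw [← e, commutatorElement_def]; group⟩) (by rw [e1, e2])
  exact this.ge ⟨y, hy, rfl⟩

/-- Frattini argument for a homomorphic image -/
theorem pmap_norm_sylow {G' : Type*} [Group G'] {D R : Subgroup G} {f : D →* G'} {q : ℕ} (hR : R ≤ D)
    (hS : SylowIn q R (pker f ⊔ R)) : pmap f (D ⊓ 𝐍(R)) = f.range ⊓ 𝐍(pmap f R) := by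
  apply le_antisymm ((pmap_inf_norm_le f D R).trans (by rw [pmap_dom]))
  intro g ⟨hg, hn⟩
  rw [← pmap_dom] at hg
  obtain ⟨x, hx, rfl⟩ := (mem_pmap_of_le le_rfl).1 hg
  have h1 : x ∈ 𝐍(pker f ⊔ R) := zpowers_le.1 ((pmap_norms_iff (zpowers_le.2 hx) hR).1 (by
    rw [pmap_zpowers _ hx]; exact zpowers_le.2 hn))
  have hle : pker f ⊔ R ≤ D := sup_le (pker_le_dom f) hR
  obtain ⟨n, hn, y, hy, e⟩ := frattini_exists_mul (M := D ⊓ 𝐍(pker f ⊔ R)) ⟨le_inf hle le_normalizer, inf_le_right⟩ hS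
    x ⟨hx, h1⟩
  obtain ⟨k, hk, r, hr, rfl⟩ := (mem_sup_of_norm_right (hR.trans (pker_normalIn f).norm)).1 hn
  refine (mem_pmap_of_le inf_le_left).2 ⟨r * y, ⟨D.mul_mem (hR hr) hy.1.1, mul_mem (le_normalizer hr) hy.2⟩, ?_⟩
  rw [e, mul_assoc, pel_mul _ (pker_le_dom f hk) (D.mul_mem (hR hr) hy.1.1), (mem_pker.1 hk).2, one_mul]

theorem card_cent_conj {x y : G} (h : IsConj x y) : Nat.card 𝐂[y] = Nat.card 𝐂[x] := by
  obtain ⟨g, rfl⟩ := isConj_iff.1 h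
  rw [← cj_centralizer_singleton, card_cj]

/-- `|N(⟨x⟩) : C(x)|` is the number of powers of `x` conjugate to `x` -/
theorem card_norm_zpowers (x : G) :
    Nat.card 𝐍(zpowers x) = Nat.card 𝐂[x] * {y | y ∈ zpowers x ∧ IsConj x y}.ncard := by
  rw [← card_mul_relIndex (cent1_le_norm x), relIndex_cent1_eq_ncard]
  congr 2; ext y
  refine ⟨fun ⟨g, hg, e⟩ => ⟨e ▸ conj_mem_of_mem_normalizer hg (mem_zpowers x), isConj_iff.2 ⟨g, e⟩⟩, fun ⟨h1, h2⟩ => ?_⟩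
  obtain ⟨g, e⟩ := isConj_iff.1 h2
  exact ⟨g, mem_norm_zpowers (e ▸ h1), e⟩

end CA.J4
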