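import Cfsg.Agent.Lib.J4.St
import Cfsg.Agent.Lib.J4.D2Cls

/-!
The action of `H` on `E/⟨z⟩`; centralizers in `E` and `H` of elements of odd prime order.
-/

set_option autoImplicit false
set_option linter.unusedSectionVars false
set_option linter.unusedVariables false

namespace CA.J4
open Cfsg CA.Gol CA.Ex2 CA.XS Subgroup
open scoped Pointwise

variable {G : Type*} [Group G]

theorem conj_H {A : Subgroup G} {l x : G} (hl : l ∈ A) (hx : x ∈ A) : l * x * l⁻¹ ∈ A :=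
  A.mul_mem (A.mul_mem hl hx) (A.inv_mem hl)

/-- `h` acts on `E/⟨z⟩` by the matrix `A` -/
def AQ (c : ℕ → G) (z h : G) (A : ℕ) : Prop :=
  ∀ n < 8192, lin A n < 8192 ∧ ∃ a ∈ zpowers z, h * c n * h⁻¹ = c (lin A n) * a

/-- powers of `ω` -/
def omP (i : ℕ) : ℕ := Nat.rec I13 (fun _ ih => mm OM ih) i
/-- the matrix of an element over `g ∈ M22` -/
def mI (g i : ℕ) : ℕ := mm (omP i) (matOf g)
/-- the matrix of an element over `g ∈ D2 \ M22` -/
def mO (g i : ℕ) : ℕ := mm SN (mI (mul sC g) i)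

theorem hmul_z7 {n : ℕ} (hn : n < 8192) : hmul n 4096 = n ^^^ 4096 := by
  have : allLt (fun n => Nat.beq (hmul n 4096) (Nat.xor n 4096)) 8192 = true := by decide +kernel
  exact beq_iff.1 (allLt_iff.1 this n hn)

namespace JX
variable {z p s : G} {E : Subgroup G} {π : ↥𝐂[z] →* Pm} {c : ℕ → G} (h : JX z p s E π c)
include h

theorem c_xor_z {n : ℕ} (hn : n < 8192) : c (n ^^^ 4096) = c n * z := by
  rw [← hmul_z7 hn, h.c_mul n hn 4096 (by norm_num), h.c_z]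

theorem c_xor_mul {n t : ℕ} (hn : n < 8192) (ht : t < 2) : c (n ^^^ 4096 * t) = c n * z ^ t := by
  interval_cases t
  · simp
  · simpa using h.c_xor_z hn

theorem c_split {n : ℕ} (hn : n < 8192) : c n = c (n % 4096) * z ^ (n / 4096) := by
  rw [← h.c_xor_mul (by omega) (by omega), ← split13 hn]

theorem c_xor {a b : ℕ} (ha : a < 8192) (hb : b < 8192) : c a * c b = c (a ^^^ b) * z ^ bil BB a b := by
  rw [← h.c_mul a ha b hb, hmul_eq, h.c_xor_mul (xor13 ha hb) (bil_lt _ _ _)]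

theorem c_sq {a : ℕ} (ha : a < 8192) : c a * c a = z ^ qf a := by
  rw [h.c_xor ha ha, Nat.xor_self, h.c_zero, one_mul, qf_eq ha]

theorem exists_c {e : G} (he : e ∈ E) : ∃ n < 4096, ∃ a ∈ zpowers z, e = c n * a := by
  obtain ⟨n, hn, rfl⟩ := (h.mem_E e).1 he
  exact ⟨n % 4096, by omega, _, pow_mem (mem_zpowers z) _, h.c_split hn⟩

theorem c_inj0 {a b : ℕ} (ha : a < 4096) (hb : b < 4096) {x : G} (hx : x ∈ zpowers z) (e : c a = c b * x) : a = b := by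
  rcases h.ez.mem_zp.1 hx with rfl | rfl
  · exact h.c_inj a (by omega) b (by omega) (by simpa using e)
  · rw [← h.c_xor_z (by omega)] at e
    have := h.c_inj a (by omega) _ (xor13 (by omega) (by norm_num)) e
    have h1 := xor_mul_div b 1
    rw [mul_one, ← this, Nat.div_eq_of_lt ha, Nat.div_eq_of_lt hb] at h1
    simp at h1

theorem c_inj' {a b : ℕ} (ha : a < 8192) (hb : b < 8192) {x : G} (hx : x ∈ zpowers z) (e : c a = c b * x) :
    a % 4096 = b % 4096 := by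
  rw [h.c_split ha, h.c_split hb, ← eq_mul_inv_iff_mul_eq, mul_assoc, mul_assoc] at e
  exact h.c_inj0 (by omega) (by omega) (mul_mem (pow_mem (mem_zpowers z) _)
    (mul_mem hx (inv_mem (pow_mem (mem_zpowers z) _)))) e

theorem c_eq_of_mod {a b : ℕ} (ha : a < 8192) (hb : b < 8192) (e : a % 4096 = b % 4096) :
    ∃ x ∈ zpowers z, c a = c b * x :=
  ⟨(z ^ (b / 4096))⁻¹ * z ^ (a / 4096), mul_mem (inv_mem (pow_mem (mem_zpowers z) _)) (pow_mem (mem_zpowers z) _), by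
    rw [h.c_split ha, h.c_split hb, e]; group⟩

theorem z_conj {x a : G} (hx : x ∈ 𝐂[z]) (ha : a ∈ zpowers z) : x * a * x⁻¹ = a :=
  conj_eq_of_mem_cent (by rwa [cent_zpowers]) ha

theorem z_comm {x a : G} (hx : x ∈ 𝐂[z]) (ha : a ∈ zpowers z) : a * x = x * a :=
  (mul_inv_eq_iff_eq_mul.1 (h.z_conj hx ha)).symm

theorem aq_of_act {x : G} {M d : ℕ} (a : Act c x M d) : AQ c z x M := fun n hn => by
  have l := (a n hn).1
  have t : d &&& qf n < 2 := lt_of_le_of_lt Nat.and_le_right (qf_lt n)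
  have l2 : lin M n < 8192 := by
    have := xor13 l (show 4096 * (d &&& qf n) < 8192 by omega)
    rwa [hact_eq, Nat.xor_assoc, Nat.xor_self, Nat.xor_zero] at this
  exact ⟨l2, z ^ (d &&& qf n), pow_mem (mem_zpowers z) _, by rw [(a n hn).2, hact_eq, h.c_xor_mul l2 t]⟩

theorem aq_E {e : G} (he : e ∈ E) : AQ c z e I13 := fun n hn => by
  rw [lin_I13 hn]
  refine ⟨hn, ?_⟩
  rcases h.ez.conj_or he (h.c_mem hn) with e1 | e1
  · exact ⟨1, one_mem _, by rw [e1, mul_one]⟩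
  · exact ⟨z, mem_zpowers z, e1⟩

theorem aq_mul' {x y : G} {A B C : ℕ} (hx : x ∈ 𝐂[z]) (a : AQ c z x A) (b : AQ c z y B)
    (e : ∀ n < 8192, lin C n = lin A (lin B n)) : AQ c z (x * y) C := fun n hn => by
  obtain ⟨l1, u, hu, e1⟩ := b n hn
  obtain ⟨l2, w, hw, e2⟩ := a _ l1
  rw [e n hn]
  refine ⟨l2, w * u, mul_mem hw hu, ?_⟩
  rw [show x * y * c n * (x * y)⁻¹ = x * (y * c n * y⁻¹) * x⁻¹ by group, e1, ← conj_mul, e2, h.z_conj hx hu, mul_assoc]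

omit h in
theorem _root_.CA.J4.AQ.lin_mm {y : G} {B : ℕ} (b : AQ c z y B) (A : ℕ) {n : ℕ} (hn : n < 8192) :
    lin (mm A B) n = lin A (lin B n) :=
  J4.lin_mm A (fun j hj => by
    have := (b (2 ^ j) (Nat.pow_lt_pow_right (by norm_num) hj : 2 ^ j < 2 ^ 13)).1
    rw [lin_pow _ (by omega)] at this; omega) hn

theorem aq_mul {x y : G} {A B : ℕ} (hx : x ∈ 𝐂[z]) (a : AQ c z x A) (b : AQ c z y B) : AQ c z (x * y) (mm A B) :=
  h.aq_mul' hx a b fun n hn => b.lin_mm A hn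

theorem aq_E_mul {e y : G} {B : ℕ} (he : e ∈ E) (b : AQ c z y B) : AQ c z (e * y) B :=
  h.aq_mul' (h.E_le he) (h.aq_E he) b fun n hn => (lin_I13 (b n hn).1).symm

theorem aq_p_pow (i : ℕ) : AQ c z (p ^ i) (omP i) := by
  induction i with
  | zero => rw [pow_zero]; exact h.aq_E (one_mem _)
  | succ i ih => rw [pow_succ']; exact h.aq_mul h.p_mem (h.aq_of_act h.p_act) ih

theorem aq_s : AQ c z s SN := h.aq_of_act h.s_act

theorem aq_unique {x : G} {A B : ℕ} (a : AQ c z x A) (b : AQ c z x B) {n : ℕ} (hn : n < 8192) :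
    lin A n % 4096 = lin B n % 4096 := by
  obtain ⟨l1, u, hu, e1⟩ := a n hn
  obtain ⟨l2, w, hw, e2⟩ := b n hn
  exact h.c_inj' l1 l2 (mul_mem hw (inv_mem hu)) (by rw [← mul_assoc, ← e2, e1, mul_inv_cancel_right])

variable [Finite G]

theorem exists_aq {x : G} (hx : x ∈ 𝐂[z]) (hg : pel π x ∈ Spor.M22) : ∃ i < 3, AQ c z x (mI (code (pel π x)) i) := by
  obtain ⟨k, hk, e1, a⟩ := h.lift _ hg
  have : x * k⁻¹ ∈ pker π := mem_pker.2 ⟨mul_mem hx (inv_mem hk.1), by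
    rw [pel_mul _ hx (inv_mem hk.1), pel_inv _ hk.1, e1, mul_inv_cancel]⟩
  obtain ⟨e, he, y, hy, e2⟩ := h.mem_ker.1 this
  obtain ⟨i, hi, rfl⟩ := exists_pow_lt hy
  refine ⟨i, h.p_ord ▸ hi, ?_⟩
  have := h.aq_E_mul he (h.aq_mul (pow_mem h.p_mem i) (h.aq_p_pow i) (h.aq_of_act a))
  rwa [← mul_assoc, e2, inv_mul_cancel_right] at this

theorem s_sq_mem : s * s ∈ zpowers z := by
  have h1 : s * s ∈ pker π := mem_pker.2 ⟨mul_mem h.s_mem h.s_mem, by rw [pel_mul _ h.s_mem h.s_mem, h.s_pi, s0_sq]⟩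
  have h2 : s * s ∈ 𝐂[p] := by
    rw [mem_cent1_iff, ← mul_inv_eq_iff_eq_mul, show s * s * p * (s * s)⁻¹ = s * (s * p * s⁻¹) * s⁻¹ by group, h.s_p,
      ← conj_inv, h.s_p, inv_inv]
  have h3 : s * s ∈ zpowers z ⊔ zpowers p := h.ker_inf_cent ▸ ⟨h1, h2⟩
  obtain ⟨a, ha, y, hy, e⟩ := (mem_sup_of_norm_right (norms_zpowers_of_cent1 h.P_le)).1 h3
  have e1 : y = a⁻¹ * (s * s) := by rw [← e]; group
  have c1 : s * y * s⁻¹ = y := by
    rw [e1, ← conj_mul, h.z_conj h.s_mem (inv_mem ha)]; group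
  have c2 : s * y * s⁻¹ = y⁻¹ := by
    obtain ⟨i, rfl⟩ := mem_zpowers_iff.1 hy
    rw [← conj_zpow, h.s_p, inv_zpow]
  have y1 : y = 1 := by
    have o2 : orderOf y ∣ 2 := orderOf_dvd_of_pow_eq_one (by rw [pow_two]; nth_rewrite 1 [← c1, c2]; simp)
    have o3 : orderOf y ∣ 3 := h.card_P ▸ orderOf_dvd_card_of_mem hy
    exact orderOf_eq_one_iff.1 (Nat.eq_one_of_dvd_coprimes (by norm_num) o2 o3)
  rw [← e, y1, mul_one]; exact ha

theorem exists_aq_out {x : G} (hx : x ∈ 𝐂[z]) (hg : pel π x ∉ Spor.M22) :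
    ∃ i < 3, AQ c z x (mO (code (pel π x)) i) := by
  obtain ⟨i, hi, a⟩ := h.exists_aq (mul_mem h.s_mem hx) (h.s_mul22 hx hg)
  rw [pel_mul _ h.s_mem hx, h.s_pi, code_mul, cs] at a
  refine ⟨i, hi, ?_⟩
  have := h.aq_E_mul (inv_mem (h.ez.zp_le h.s_sq_mem)) (h.aq_mul h.s_mem h.aq_s a)
  rwa [show (s * s)⁻¹ * (s * (s * x)) = x by group] at this

theorem comm_of_odd {x e a : G} (hx : x ∈ 𝐂[z]) (ho : Odd (orderOf x)) (ha : a ∈ zpowers z)
    (e1 : x * e * x⁻¹ = e * a) : e ∈ 𝐂[x] := by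
  have key : ∀ k : ℕ, x ^ k * e * (x ^ k)⁻¹ = e * a ^ k := fun k => by
    induction k with
    | zero => simp
    | succ k ih =>
      rw [pow_succ', show x * x ^ k * e * (x * x ^ k)⁻¹ = x * (x ^ k * e * (x ^ k)⁻¹) * x⁻¹ by group, ih, ← conj_mul,
        e1, h.z_conj hx (pow_mem ha k), pow_succ', mul_assoc]
  have h1 := key (orderOf x)
  rw [pow_orderOf_eq_one, one_mul, inv_one, mul_one, left_eq_mul] at h1
  have o2 : orderOf a ∣ 2 := h.ez.card_zp ▸ orderOf_dvd_card_of_mem ha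
  have a1 : a = 1 := orderOf_eq_one_iff.1 (Nat.eq_one_of_dvd_coprimes (Nat.coprime_two_left.2 ho) o2
    (orderOf_dvd_of_pow_eq_one h1))
  rw [a1, mul_one] at e1
  exact mem_cent1_comm.1 (mem_cent1_iff.2 (mul_inv_eq_iff_eq_mul.1 e1))

theorem c_comm_iff {x : G} {A : ℕ} (hx : x ∈ 𝐂[z]) (ho : Odd (orderOf x)) (a : AQ c z x A) {n : ℕ} (hn : n < 8192) :
    c n ∈ 𝐂[x] ↔ lin A n % 4096 = n % 4096 := by
  obtain ⟨l, u, hu, e⟩ := a n hn
  refine ⟨fun hc => ?_, fun e1 => ?_⟩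
  · rw [mem_cent1_comm, mem_cent1_iff] at hc
    rw [hc, mul_inv_cancel_right] at e
    exact (h.c_inj' hn l hu e).symm
  · obtain ⟨w, hw, e2⟩ := h.c_eq_of_mod l hn e1
    exact h.comm_of_odd hx ho (mul_mem hw hu) (by rw [e, e2, mul_assoc])

/-- number of fixed codes -/
def _root_.CA.J4.fixN (A : ℕ) : ℕ := force A fun A => countLt (fun n => Nat.beq (lin A n % 4096) (n % 4096)) 8192

theorem card_E_cent {x : G} {A : ℕ} (hx : x ∈ 𝐂[z]) (ho : Odd (orderOf x)) (a : AQ c z x A) :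
    Nat.card ↥(E ⊓ 𝐂[x]) = fixN A := by
  rw [fixN, force_eq]
  exact h.card_E_inf fun n hn => by rw [h.c_comm_iff hx ho a hn, beq_iff]

theorem exists_conj_pi {x : G} (hx : x ∈ 𝐂[z]) {d g : Pm} (hd : d ∈ Spor.M22) (e : d * pel π x * d⁻¹ = g) :
    ∃ l ∈ 𝐂[z] ⊓ 𝐂[p], pel π (l * x * l⁻¹) = g := by
  obtain ⟨l, hl, e1, -⟩ := h.lift d hd
  exact ⟨l, hl, by rw [pel_conj _ hl.1 hx, e1, e]⟩

theorem card_E_conj {x l : G} (hl : l ∈ 𝐂[z]) : Nat.card ↥(E ⊓ 𝐂[l * x * l⁻¹]) = Nat.card ↥(E ⊓ 𝐂[x]) := by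
  rw [← card_cj l (E ⊓ 𝐂[x]), cj_inf, cj_eq_of_mem_normalizer (h.E_norm hl), cj_centralizer_singleton]

theorem orderOf_pi {x : G} (hx : x ∈ 𝐂[z]) {q : ℕ} (hq : q.Prime) (ho : orderOf x = q) (h1 : pel π x ≠ 1) :
    orderOf (pel π x) = q := by
  have : Fact q.Prime := ⟨hq⟩
  exact orderOf_eq_prime (by rw [← pel_pow _ hx, ← ho, pow_orderOf_eq_one, pel_one]) h1

theorem pi_ne_one {x : G} (hx : x ∈ 𝐂[z]) {q : ℕ} (hq : q.Prime) (ho : orderOf x = q) (h5 : 5 ≤ q) : pel π x ≠ 1 := by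
  intro e
  have := orderOf_dvd_card_of_mem (mem_pker.2 ⟨hx, e⟩)
  rw [h.card_ker, ho, show 24576 = 2 ^ 13 * 3 by norm_num] at this
  rcases (Nat.Prime.dvd_mul hq).1 this with a | a
  · have := Nat.le_of_dvd (by norm_num) (hq.dvd_of_dvd_pow a); omega
  · have := Nat.le_of_dvd (by norm_num) a; omega

theorem card_E_cent3 {x : G} (hx : x ∈ 𝐂[z]) (ho : orderOf x = 3) (h1 : pel π x ≠ 1) :
    Nat.card ↥(E ⊓ 𝐂[x]) = 32 := by
  obtain ⟨d, hd, e⟩ := cls_u3 (h.pi_mem hx) (h.orderOf_pi hx (by norm_num) ho h1)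
  obtain ⟨l, hl, e1⟩ := h.exists_conj_pi hx hd e
  have hx' := conj_H hl.1 hx
  obtain ⟨i, hi, a⟩ := h.exists_aq hx' (e1 ▸ perm_mem22 u3C_in)
  rw [← h.card_E_conj hl.1, h.card_E_cent hx' (by rw [CA.orderOf_conj', ho]; decide) a, e1, code_perm22 u3C_in]
  have : allLt (fun i => Nat.beq (fixN (mI u3C i)) 32) 3 = true := by decide +kernel
  exact beq_iff.1 (allLt_iff.1 this i hi)

theorem aq_pow {x : G} {A : ℕ} (hx : x ∈ 𝐂[z]) (a : AQ c z x A) (k : ℕ) {n : ℕ} (hn : n < 8192) :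
    itr A k n < 8192 ∧ ∃ u ∈ zpowers z, x ^ k * c n * (x ^ k)⁻¹ = c (itr A k n) * u := by
  induction k with
  | zero => exact ⟨hn, 1, one_mem _, by simp [itr_zero]⟩
  | succ k ih =>
    obtain ⟨l, u, hu, e⟩ := ih
    obtain ⟨l2, w, hw, e2⟩ := a _ l
    rw [itr_succ]
    refine ⟨l2, w * u, mul_mem hw hu, ?_⟩
    rw [pow_succ', show x * x ^ k * c n * (x * x ^ k)⁻¹ = x * (x ^ k * c n * (x ^ k)⁻¹) * x⁻¹ by group, e, ← conj_mul,
      e2, h.z_conj hx hu, mul_assoc]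

theorem itr_eq {x : G} {A : ℕ} (hx : x ∈ 𝐂[z]) (a : AQ c z x A) {k : ℕ} (hk : x ^ k ∈ E) {n : ℕ} (hn : n < 8192) :
    itr A k n % 4096 = n % 4096 := by
  obtain ⟨l, u, hu, e⟩ := h.aq_pow hx a k hn
  obtain ⟨l2, w, hw, e2⟩ := h.aq_E hk n hn
  rw [lin_I13 hn] at e2
  exact h.c_inj' l hn (mul_mem hw (inv_mem hu)) (by rw [← mul_assoc, ← e2, e, mul_inv_cancel_right])

theorem card_E_cent_prime {q n r : ℕ} (hq : q.Prime) (h5 : 5 ≤ q) (hr : in22 r = true) (hro : orderOf (perm r) = q)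
    (hM : ¬ q * q ∣ 443520) (H : allLt (fun j => Nat.beq j 0 || force (powC r j) fun g => allLt (fun i =>
      force (mI g i) fun A => !(Nat.beq (itr A q 1 % 4096) 1) || Nat.beq (fixN A) n) 3) q = true)
    {x : G} (hx : x ∈ 𝐂[z]) (ho : orderOf x = q) : Nat.card ↥(E ⊓ 𝐂[x]) = n := by
  have odd : Odd q := hq.odd_of_ne_two (by omega)
  have o := h.orderOf_pi hx hq ho (h.pi_ne_one hx hq ho h5)
  obtain ⟨d, hd, j, j0, hj, e⟩ := conj_pow_of_sylow hq (perm_mem22 hr) hro (by rwa [card_M22])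
    (mem22_of_odd (h.pi_mem hx) (o ▸ odd)) o
  obtain ⟨l, hl, e1⟩ := h.exists_conj_pi hx hd e
  have hx' := conj_H hl.1 hx
  obtain ⟨i, hi, a⟩ := h.exists_aq hx' (e1 ▸ pow_mem (perm_mem22 hr) j)
  have ho' : orderOf (l * x * l⁻¹) = q := by rw [CA.orderOf_conj', ho]
  rw [← h.card_E_conj hl.1, h.card_E_cent hx' (ho' ▸ odd) a]
  have h1 := h.itr_eq hx' a (k := q) (by rw [← ho', pow_orderOf_eq_one]; exact one_mem _) (n := 1) (by norm_num)
  have := allLt_iff.1 H j hj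
  rw [beq_false_iff.2 j0.ne', Bool.false_or, force_eq] at this
  have := allLt_iff.1 this i hi
  rw [e1, code_pow, code_perm22 hr] at h1 ⊢
  rw [force_eq, h1] at this
  simpa [beq_iff] using this

theorem card_E_cent5 {x : G} (hx : x ∈ 𝐂[z]) (ho : orderOf x = 5) : Nat.card ↥(E ⊓ 𝐂[x]) = 32 :=
  h.card_E_cent_prime (by norm_num) (by norm_num) yC_in y0_ord (by norm_num) (by decide +kernel) hx ho
theorem card_E_cent7 {x : G} (hx : x ∈ 𝐂[z]) (ho : orderOf x = 7) : Nat.card ↥(E ⊓ 𝐂[x]) = 2 :=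
  h.card_E_cent_prime (by norm_num) (by norm_num) w7C_in w7_ord (by norm_num) (by decide +kernel) hx ho
theorem card_E_cent11 {x : G} (hx : x ∈ 𝐂[z]) (ho : orderOf x = 11) : Nat.card ↥(E ⊓ 𝐂[x]) = 8 :=
  h.card_E_cent_prime (by norm_num) (by norm_num) xC_in x0_ord (by norm_num) (by decide +kernel) hx ho

end JX

end CA.J4
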