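import Cfsg.Agent.Lib.J4.Iface

/-!
Basic facts on the involution centralizer `H` of a group of type `J4`.
-/

set_option autoImplicit false
set_option linter.unusedSectionVars false
set_option linter.unusedVariables false

namespace CA.J4
open Cfsg CA.Gol CA.Ex2 CA.XS Subgroup
open scoped Pointwise

variable {G : Type*} [Group G]

theorem mem_zp3 {p x : G} (hp : orderOf p = 3) : x ∈ zpowers p ↔ x = 1 ∨ x = p ∨ x = p * p := by
  have h3 : p ^ 3 = 1 := by rw [← hp]; exact pow_orderOf_eq_one p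
  refine ⟨fun h => ?_, ?_⟩
  · obtain ⟨k, rfl⟩ := mem_zpowers_iff.1 h
    rw [← zpow_mod_orderOf, hp]
    have : k % ((3 : ℕ) : ℤ) = 0 ∨ k % ((3 : ℕ) : ℤ) = 1 ∨ k % ((3 : ℕ) : ℤ) = 2 := by omega
    rcases this with e | e | e <;> rw [e] <;> simp [zpow_ofNat, pow_two]
  · rintro (rfl | rfl | rfl)
    · exact one_mem _
    · exact mem_zpowers _
    · exact mul_mem (mem_zpowers _) (mem_zpowers _)

/-- a normal subgroup of order prime to the index of `A` lies in `A` -/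
theorem le_of_coprime_relIndex [Finite G] {A N H : Subgroup G} (hA : A ≤ H) (hN : N ⊴ H)
    (hc : (Nat.card N).Coprime (A.relIndex H)) : N ≤ A := by
  have h1 : A.relIndex N ∣ Nat.card N := Dvd.intro_left _ (card_inf_mul_relIndex A N)
  have h2 : A.relIndex N ∣ A.relIndex H := by
    rw [← relIndex_sup_of_norm' (hA.trans hN.norm)]
    exact Dvd.intro _ (relIndex_mul_relIndex A (A ⊔ N) H le_sup_left (sup_le hA hN.le))
  exact relIndex_eq_one.1 (Nat.eq_one_of_dvd_coprimes hc h1 h2)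

/-- a synonym of the model of the involution centralizer (a separate namespace for lemmas) -/
def JX (z p s : G) (E : Subgroup G) (π : ↥𝐂[z] →* Pm) (c : ℕ → G) : Prop := JH z p s E π c

namespace JX
variable {z p s : G} {E : Subgroup G} {π : ↥𝐂[z] →* Pm} {c : ℕ → G} (h : JX z p s E π c)
include h

theorem ez : EZ E z := h.lq.ez
theorem z_ord : orderOf z = 2 := h.ez.ord
theorem z_sq : z * z = 1 := h.ez.sq
theorem z_mem : z ∈ E := h.ez.mem
theorem E_le : E ≤ 𝐂[z] := h.ez.le_cent1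
theorem E_norm : 𝐂[z] ≤ 𝐍(E) := h.lq.norm_eq.ge
theorem c_mem {a : ℕ} (ha : a < 8192) : c a ∈ E := (h.mem_E _).2 ⟨a, ha, rfl⟩
theorem c_zero : c 0 = 1 := by
  have := h.c_mul 0 (by norm_num) 0 (by norm_num)
  rw [show hmul 0 0 = 0 by decide +kernel] at this
  exact left_eq_mul.1 this
theorem fam : Fam (E : Set G) c (fun _ => true) 8192 :=
  ⟨fun i hi _ => h.c_mem hi, fun x hx => by
    obtain ⟨a, ha, rfl⟩ := (h.mem_E x).1 hx
    exact ⟨a, ha, rfl, rfl⟩, fun i hi j hj _ _ e => h.c_inj i hi j hj e⟩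
theorem card_E_inf {A : Subgroup G} {P : ℕ → Bool} (H : ∀ a < 8192, c a ∈ A ↔ P a = true) :
    Nat.card ↥(E ⊓ A) = countLt P 8192 := by
  have := h.fam.ncard (P := (· ∈ A)) (p := P) fun i hi _ => H i hi
  simp only [Bool.true_and] at this
  rw [← this]; rfl
theorem card_E : Nat.card E = 8192 := by
  have := h.card_E_inf (A := ⊤) (P := fun _ => true) fun a _ => by simp
  rw [inf_top_eq] at this; rw [this]; decide +kernel
theorem p3 : p ^ 3 = 1 := by rw [← h.p_ord]; exact pow_orderOf_eq_one p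
theorem p_inv : p⁻¹ = p * p := inv_eq_of_mul_eq_one_right (by rw [← h.p3, pow_succ', pow_two])
theorem card_P : Nat.card (zpowers p) = 3 := by rw [Nat.card_zpowers, h.p_ord]
theorem P_le : zpowers p ≤ 𝐂[z] := zpowers_le.2 h.p_mem
theorem zp : z * p = p * z := (mem_cent1_iff.1 h.p_mem).symm

variable [Finite G]

theorem E_inf_P : E ⊓ zpowers p = ⊥ :=
  inf_eq_bot_of_coprime (by rw [h.card_E, h.card_P]; norm_num)
theorem card_ker : Nat.card (pker π) = 24576 := by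
  rw [h.ker, card_sup_of_disjoint (Or.inl (h.P_le.trans h.E_norm)) h.E_inf_P, h.card_E, h.card_P]
theorem E_le_ker : E ≤ pker π := by rw [h.ker]; exact le_sup_left
theorem p_ker : p ∈ pker π := by rw [h.ker]; exact mem_sup_right (mem_zpowers p)
theorem pi_E {e : G} (he : e ∈ E) : pel π e = 1 := (mem_pker.1 (h.E_le_ker he)).2
theorem pi_p : pel π p = 1 := (mem_pker.1 h.p_ker).2
theorem pi_mem {x : G} (hx : x ∈ 𝐂[z]) : pel π x ∈ D2 := by
  rw [← h.range, ← pmap_dom]; exact pel_mem_pmap π hx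
theorem exists_pi {g : Pm} (hg : g ∈ D2) : ∃ x ∈ 𝐂[z], pel π x = g := by
  rw [← h.range, ← pmap_dom, mem_pmap_of_le le_rfl] at hg; exact hg
theorem card_H : Nat.card 𝐂[z] = 21799895040 := by
  rw [← card_pmap_mul π le_rfl, inf_eq_left.2 (pker_le_dom π), pmap_dom, h.range, card_D2, h.card_ker]
theorem mem_ker {x : G} : x ∈ pker π ↔ ∃ e ∈ E, ∃ y ∈ zpowers p, e * y = x := by
  rw [h.ker, mem_sup_of_norm_right (h.P_le.trans h.E_norm)]
theorem E_cent_p {e : G} (he : e ∈ E) (hp : e ∈ 𝐂[p]) : e = 1 ∨ e = z := by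
  obtain ⟨a, ha, rfl⟩ := (h.mem_E e).1 he
  obtain ⟨l, e1⟩ := h.p_act a ha
  rw [mem_cent1_comm, mem_cent1_iff] at hp
  rw [hp, mul_inv_cancel_right] at e1
  have key : allLt (fun a => !(Nat.beq (hact OM 0 a) a) || Nat.beq a 0 || Nat.beq a 4096) 8192 = true := by
    decide +kernel
  have := allLt_iff.1 key a ha
  rw [← h.c_inj _ ha _ l e1, beq_iff.2 rfl] at this
  simp only [Bool.not_true, Bool.false_or, Bool.or_eq_true, beq_iff] at this
  rcases this with rfl | rfl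
  · exact Or.inl h.c_zero
  · exact Or.inr h.c_z
theorem p_not_mem_E : p ∉ E := fun hp => by
  have : p ∈ E ⊓ zpowers p := ⟨hp, mem_zpowers p⟩
  rw [h.E_inf_P, mem_bot] at this
  have h3 := h.p_ord; rw [this, orderOf_one] at h3; omega
theorem ker_inf_cent : pker π ⊓ 𝐂[p] = zpowers z ⊔ zpowers p := by
  apply le_antisymm
  · intro x ⟨hx, hc⟩
    obtain ⟨e, he, y, hy, rfl⟩ := h.mem_ker.1 hx
    have hy' : y ∈ 𝐂[p] := (zpowers_le.2 (self_mem_cent1 p)) hy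
    have := (Subgroup.mul_mem_cancel_right _ hy').1 hc
    exact mul_mem (mem_sup_left (h.ez.mem_zp.2 (h.E_cent_p he this))) (mem_sup_right hy)
  · exact sup_le (zpowers_le.2 ⟨h.E_le_ker h.z_mem, mem_cent1_iff.2 h.zp⟩) (zpowers_le.2 ⟨h.p_ker, self_mem_cent1 p⟩)
theorem zp_ord : orderOf (z * p) = 6 := by
  rw [(show Commute z p from h.zp).orderOf_mul_eq_mul_orderOf_of_coprime (by rw [h.z_ord, h.p_ord]; norm_num),
    h.z_ord, h.p_ord]
theorem Z_eq : zpowers z ⊔ zpowers p = zpowers (z * p) := by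
  have c : Commute z p := h.zp
  apply le_antisymm
  · refine sup_le (zpowers_le.2 ⟨3, ?_⟩) (zpowers_le.2 ⟨4, ?_⟩)
    · show (z * p) ^ (3 : ℤ) = z
      rw [zpow_ofNat, c.mul_pow, h.p3, pow_succ, pow_two, h.z_sq]; simp
    · show (z * p) ^ (4 : ℤ) = p
      rw [zpow_ofNat, c.mul_pow, pow_succ p, h.p3, show z ^ 4 = (z * z) * (z * z) by simp [pow_succ, mul_assoc], h.z_sq]; simp
  · exact zpowers_le.2 (mul_mem (mem_sup_left (mem_zpowers z)) (mem_sup_right (mem_zpowers p)))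
theorem card_Z : Nat.card ↥(zpowers z ⊔ zpowers p) = 6 := by rw [h.Z_eq, Nat.card_zpowers, h.zp_ord]

/-- decomposition of an element over `M22` -/
theorem dec22 {x : G} (hx : x ∈ 𝐂[z]) (hg : pel π x ∈ Spor.M22) : ∃ e ∈ E, ∃ l ∈ 𝐂[z] ⊓ 𝐂[p], x = e * l := by
  obtain ⟨k, hk, e1, -⟩ := h.lift _ hg
  have : x * k⁻¹ ∈ pker π := mem_pker.2 ⟨mul_mem hx (inv_mem hk.1), by
    rw [pel_mul _ hx (inv_mem hk.1), pel_inv _ hk.1, e1, mul_inv_cancel]⟩
  obtain ⟨e, he, y, hy, e2⟩ := h.mem_ker.1 this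
  exact ⟨e, he, y * k, mul_mem ⟨h.P_le hy, (zpowers_le.2 (self_mem_cent1 p)) hy⟩ hk, by
    rw [← mul_assoc, e2, inv_mul_cancel_right]⟩
theorem s_mul22 {x : G} (hx : x ∈ 𝐂[z]) (hg : pel π x ∉ Spor.M22) : pel π (s * x) ∈ Spor.M22 := by
  rw [pel_mul _ h.s_mem hx, h.s_pi]; exact (mem_or_D2 (h.pi_mem hx)).resolve_left hg
/-- elements over `M22` fix the coset `pE` -/
theorem conj_p22 {x : G} (hx : x ∈ 𝐂[z]) (hg : pel π x ∈ Spor.M22) : x * p * x⁻¹ * p⁻¹ ∈ E := by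
  obtain ⟨e, he, l, hl, rfl⟩ := h.dec22 hx hg
  have : e * l * p * (e * l)⁻¹ * p⁻¹ = e * (p * e⁻¹ * p⁻¹) := by
    rw [mul_assoc e l, mem_cent1_iff.1 hl.2]; group
  rw [this]; exact mul_mem he (conj_mem_of_mem_normalizer (h.E_norm h.p_mem) (inv_mem he))
theorem conj_p_out {x : G} (hx : x ∈ 𝐂[z]) (hg : pel π x ∉ Spor.M22) : x * p * x⁻¹ * p ∈ E := by
  have h1 := h.conj_p22 (mul_mem h.s_mem hx) (h.s_mul22 hx hg)
  have h2 := conj_inv_mem_of_mem_normalizer (h.E_norm h.s_mem) h1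
  have h3 : s⁻¹ * p⁻¹ * s = p := by rw [← h.s_p]; group
  have : s⁻¹ * (s * x * p * (s * x)⁻¹ * p⁻¹) * s = x * p * x⁻¹ * (s⁻¹ * p⁻¹ * s) := by group
  rwa [this, h3] at h2
theorem pi_L {x : G} (hx : x ∈ 𝐂[z] ⊓ 𝐂[p]) : pel π x ∈ Spor.M22 := by
  by_contra hg
  have := h.conj_p_out hx.1 hg
  rw [mem_cent1_iff.1 hx.2, mul_inv_cancel_right, ← h.p_inv, inv_mem_iff] at this
  exact h.p_not_mem_E this
theorem pi_inv {x : G} (hx : x ∈ 𝐂[z]) (hp : x * p * x⁻¹ = p⁻¹) : pel π x ∉ Spor.M22 := fun hg => by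
  have := h.conj_p22 hx hg
  rw [hp, ← mul_inv_rev, ← h.p_inv, inv_inv] at this
  exact h.p_not_mem_E this
theorem pmap_L : pmap π (𝐂[z] ⊓ 𝐂[p]) = Spor.M22 := by
  ext g; rw [mem_pmap_of_le inf_le_left]
  exact ⟨fun ⟨x, a, b⟩ => b ▸ h.pi_L a, fun hg => (h.lift g hg).imp fun k a => ⟨a.1, a.2.1⟩⟩
theorem ker_inf_L : pker π ⊓ (𝐂[z] ⊓ 𝐂[p]) = zpowers z ⊔ zpowers p := by
  rw [← inf_assoc, inf_eq_left.2 (pker_le_dom π), h.ker_inf_cent]
theorem card_L : Nat.card ↥(𝐂[z] ⊓ 𝐂[p]) = 2661120 := by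
  rw [← card_pmap_mul π inf_le_left, h.ker_inf_L, h.card_Z, h.pmap_L, card_M22]

end JX

end CA.J4
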