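import Cfsg.Agent.Lib.J4.Sm
import Cfsg.Agent.Lib.J4.Cal
import Cfsg.Agent.Lib.J4.Seven

/-!
Elements of `H = C(z)` modulo `z` as pairs (vector, matrix).
-/

set_option autoImplicit false
set_option linter.unusedSectionVars false
set_option linter.unusedVariables false

namespace CA.J4
open Cfsg CA.Gol CA.Ex2 CA.XS Subgroup

variable {G : Type*} [Group G]

/-- `k ∈ N(p)` acts on `E` by the matrix `A` -/
structure NA (c : ℕ → G) (z p k : G) (A d : ℕ) : Prop where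
  mem : k ∈ 𝐂[z]
  np : k ∈ 𝐍(zpowers p)
  act : Act c k A d
  lt : ∀ n < 4096, lin A n < 4096
  dl : d < 2

/-- `x` has vector `v` and matrix `A` -/
def Rp (E : Subgroup G) (c : ℕ → G) (z p x : G) (v A d : ℕ) : Prop :=
  ∃ e ∈ E, ∃ k, NA c z p k A d ∧ wv c e = v ∧ x = e * k

theorem Rp.lt {E : Subgroup G} {c : ℕ → G} {z p x : G} {v A d : ℕ} (r : Rp E c z p x v A d) : v < 4096 := by
  obtain ⟨e, -, k, -, rfl, -⟩ := r; exact wv_lt _
theorem Rp.lin_lt {E : Subgroup G} {c : ℕ → G} {z p x : G} {v A d : ℕ} (r : Rp E c z p x v A d) {n : ℕ} (hn : n < 4096) :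
    lin A n < 4096 := by
  obtain ⟨e, -, k, a, -⟩ := r; exact a.lt n hn
theorem Rp.dl {E : Subgroup G} {c : ℕ → G} {z p x : G} {v A d : ℕ} (r : Rp E c z p x v A d) : d < 2 := by
  obtain ⟨e, -, k, a, -⟩ := r; exact a.dl

/-- powers of a matrix -/
def pw1 (W : ℕ) : ℕ → ℕ | 0 => W | j + 1 => mm W (pw1 W j)
/-- partial sums of the powers -/
def sn (W : ℕ) : ℕ → ℕ | 0 => 0 | 1 => I13 | j + 2 => sn W (j + 1) ^^^ pw1 W j
def snL (W : ℕ) : ℕ → List ℕ | 0 => [] | j + 1 => sn W j :: snL W j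

theorem nth_snL (W : ℕ) {k m : ℕ} (h : m < k) : nth (snL W k) (k - 1 - m) = sn W m := by
  induction k with
  | zero => omega
  | succ k ih =>
    rcases Nat.lt_succ_iff_lt_or_eq.1 h with h | rfl
    · rw [← ih h, show k + 1 - 1 - m = (k - 1 - m) + 1 by omega]; rfl
    · rw [show m + 1 - 1 - m = 0 by omega]; rfl

theorem olp_spec (W : ℕ) (K : ℕ → ℕ → List ℕ → ℕ) (fuel j : ℕ) {v : ℕ} (h0 : ∀ i < j, pw1 W i ≠ I13)
    (h : ∀ k, pw1 W k = I13 → (∀ i < k, pw1 W i ≠ I13) → Ok (K (k + 1) (sn W (k + 1)) (snL W (k + 1))) v) :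
    Ok (olp W K fuel (pw1 W j) (sn W (j + 1)) (snL W (j + 1)) (j + 1)) v := by
  induction fuel generalizing j with
  | zero => exact ok_big v
  | succ f ih =>
    have e : ∀ P N L j, olp W K (f + 1) P N L j = cnd (Nat.beq P I13) (K j N L)
      (force (mm W P) fun P' => force (Nat.xor N P) fun N' => force (Nat.succ j) fun j' =>
        olp W K f P' N' (N :: L) j') := fun _ _ _ _ => rfl
    rw [e, force_eq, force_eq, force_eq]
    cases hb : Nat.beq (pw1 W j) I13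
    · exact ih (j + 1) fun i hi => (Nat.lt_succ_iff_lt_or_eq.1 hi).elim (h0 i) fun a => a ▸ beq_false_iff.1 hb
    · exact h j (beq_iff.1 hb) h0

theorem mm_eq_I13 {A B : ℕ} (h : ∀ j < 13, col (mm A B) j = 2 ^ j) : mm A B = I13 := by
  have h' : ∀ j < 13, lin A (col B j) = 2 ^ j := fun j hj => by rw [← col_mm _ _ hj, h j hj]
  rw [mm, h' 0 (by omega), h' 1 (by omega), h' 2 (by omega), h' 3 (by omega), h' 4 (by omega), h' 5 (by omega),
    h' 6 (by omega), h' 7 (by omega), h' 8 (by omega), h' 9 (by omega), h' 10 (by omega), h' 11 (by omega),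
    h' 12 (by omega)]
  decide +kernel

theorem ph_xor (N N' : ℕ) {a b : ℕ} (ha : a < 4096) (hb : b < 4096) : ph N N' (a ^^^ b) = ph N N' a ^^^ ph N N' b := by
  show lin N (a ^^^ b) ^^^ (lin N' (a ^^^ b) <<< 16) = (lin N a ^^^ lin N' a <<< 16) ^^^ (lin N b ^^^ lin N' b <<< 16)
  rw [lin_xor N (by omega) (by omega), lin_xor N' (by omega) (by omega), Nat.shiftLeft_xor_distrib]
  ac_rfl

theorem pk_land {a : ℕ} (b : ℕ) (l : a < 65536) : Nat.land (Nat.xor a (Nat.shiftLeft b 16)) 65535 = a := by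
  show (a ^^^ b <<< 16) &&& (2 ^ 16 - 1) = _
  rw [Nat.and_two_pow_sub_one_eq_mod, Nat.xor_mod_two_pow, Nat.shiftLeft_eq, Nat.mul_mod_left, Nat.xor_zero,
    Nat.mod_eq_of_lt l]

theorem pk_shr {a : ℕ} (b : ℕ) (l : a < 65536) : Nat.shiftRight (Nat.xor a (Nat.shiftLeft b 16)) 16 = b := by
  show (a ^^^ b <<< 16) >>> 16 = _
  rw [Nat.shiftRight_xor_distrib, Nat.shiftLeft_shiftRight, Nat.shiftRight_eq_div_pow, Nat.div_eq_of_lt l, Nat.zero_xor]

theorem cnd_beq (a b x y : ℕ) : cnd (Nat.beq a b) x y = if a = b then x else y := by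
  split_ifs with h
  · rw [beq_iff.2 h, cnd_true]
  · rw [beq_false_iff.2 h, cnd_false]

theorem zl_ph (od dm N N' u : ℕ) : zl od dm (ph N N' u) =
    if lin N u = 0 then if od = 1 then 1 else dm &&& qf (lin N' u) else qf (lin N u) := by
  rw [zl, force_eq, ph, pk_land _ (lin_lt N u), pk_shr _ (lin_lt N u), cnd_beq, cnd_beq, Nat.land_eq]

namespace JX
variable [Finite G] {z p s : G} {E : Subgroup G} {π : ↥𝐂[z] →* Pm} {c : ℕ → G} (h : JX z p s E π c)
include h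

theorem zp_np {a : G} (ha : a ∈ zpowers z) : a ∈ 𝐍(zpowers p) :=
  cent1_le_norm p (zpowers_le.2 (mem_cent1_iff.2 h.zp) ha)
theorem zp_H {a : G} (ha : a ∈ zpowers z) : a ∈ 𝐂[z] := zpowers_le.2 (self_mem_cent1 z) ha

theorem na_one : NA c z p 1 I13 0 := ⟨one_mem _, one_mem _, act_one, fun n hn => by rwa [lin_I13 (by omega)], by norm_num⟩
theorem na_p : NA c z p p OM 0 :=
  ⟨h.p_mem, cent1_le_norm p (self_mem_cent1 p), h.p_act, fun n hn => om_eq hn ▸ om_lt n, by norm_num⟩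
theorem na_s : NA c z p s SN 1 :=
  ⟨h.s_mem, mem_norm_zpowers (h.s_p ▸ inv_mem (mem_zpowers p)), h.s_act,
    fun n hn => lin_lt_of_cols (n := 12) (m := 12) (by norm_num) (by decide +kernel) hn, by norm_num⟩
theorem na_lift {g : Pm} (hg : g ∈ Spor.M22) : ∃ k, NA c z p k (matOf (code g)) 0 ∧ pel π k = g := by
  obtain ⟨k, hk, e, a⟩ := h.lift g hg
  exact ⟨k, ⟨hk.1, cent1_le_norm p hk.2, a, fun n hn => matOf_lt _ hn, by norm_num⟩, e⟩
theorem na_lin {k : G} {B d : ℕ} (b : NA c z p k B d) (A : ℕ) {n : ℕ} (hn : n < 8192) : lin (mm A B) n = lin A (lin B n) :=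
  (h.aq_of_act b.act).lin_mm A hn
theorem na_mul {k k' : G} {A B d e : ℕ} (a : NA c z p k A d) (b : NA c z p k' B e) :
    NA c z p (k * k') (mm A B) (d ^^^ e) :=
  ⟨mul_mem a.mem b.mem, mul_mem a.np b.np, JH.act_mul h a.mem a.act b.act,
    fun n hn => by rw [h.na_lin b A (by omega)]; exact a.lt _ (b.lt n hn), xor_lt' (n := 1) a.dl b.dl⟩
theorem na_zp {k a : G} {A d : ℕ} (b : NA c z p k A d) (ha : a ∈ zpowers z) : NA c z p (k * a) A d := by
  rcases h.ez.mem_zp.1 ha with rfl | rfl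
  · rwa [mul_one]
  · exact ⟨mul_mem b.mem (self_mem_cent1 _), mul_mem b.np (h.zp_np ha), JH.act_mul_z h b.act, b.lt, b.dl⟩
theorem na_eq {k k' : G} {A d : ℕ} (a : NA c z p k A d) (b : NA c z p k' A d) : ∃ u ∈ zpowers z, k' = k * u := by
  rcases JH.act_eq h a.act b.act with e | e
  · exact ⟨1, one_mem _, by rw [e, mul_one]⟩
  · exact ⟨z, mem_zpowers z, e⟩
theorem na_wv {k e : G} {A d : ℕ} (a : NA c z p k A d) (he : e ∈ E) : wv c (k * e * k⁻¹) = lin A (wv c e) :=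
  JH.wm_act h a.mem a.act a.lt e he
theorem na_conj {k : G} {A d : ℕ} (a : NA c z p k A d) {n : ℕ} (hn : n < 4096) :
    k * c n * k⁻¹ = c (lin A n) * z ^ (d &&& qf n) := by
  rw [(a.act n (by omega)).2, hact_eq, h.c_xor_mul ((a.lt n hn).trans (by norm_num))
    (lt_of_le_of_lt Nat.and_le_right (qf_lt n))]
theorem np_E {k : G} (hk : k ∈ 𝐍(zpowers p)) (he : k ∈ E) : k ∈ zpowers z := by
  have : k * p * k⁻¹ * p⁻¹ ∈ E ⊓ zpowers p := ⟨by
    rw [mul_assoc, mul_assoc, ← mul_assoc p]; exact mul_mem he (JH.cjE h h.p_mem (inv_mem he)),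
    (zpowers p).mul_mem (conj_mem_of_mem_normalizer hk (mem_zpowers p)) ((zpowers p).inv_mem (mem_zpowers p))⟩
  rw [h.E_inf_P, mem_bot, mul_inv_eq_one, mul_inv_eq_iff_eq_mul] at this
  exact h.ez.mem_zp.2 (h.E_cent_p he (mem_cent1_iff.2 this))
theorem na_same {k : G} {A B d e : ℕ} (a : NA c z p k A d) (b : NA c z p k B e) {n : ℕ} (hn : n < 4096) :
    lin A n = lin B n := by
  rw [← JH.wv_c' h hn, ← h.na_wv a (h.c_mem (by omega)), h.na_wv b (h.c_mem (by omega))]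
theorem na_E {k : G} {A B d : ℕ} (a : NA c z p k (mm A B) d) (he : k ∈ E) : mm A B = I13 := by
  refine mm_eq_I13 fun j hj => ?_
  rw [← lin_pow _ (by omega)]
  rcases Nat.lt_succ_iff_lt_or_eq.1 hj with hj | rfl
  · have l : 2 ^ j < 4096 := Nat.pow_lt_pow_right (by norm_num) hj
    rw [h.na_same a (by simpa using h.na_zp h.na_one (h.np_E a.np he)) l, lin_I13 (by omega)]
  · exact JH.act_z h a.mem a.act
theorem na_I13 {k : G} {d : ℕ} (a : NA c z p k I13 d) : d = 0 := by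
  have := a.dl
  interval_cases d
  · rfl
  have e := congrArg (fun x => k * x * k⁻¹) (h.c_mul 1 (by norm_num) 128 (by norm_num))
  simp only [← conj_mul] at e
  rw [(a.act _ (by decide +kernel)).2, (a.act _ (by norm_num)).2, (a.act _ (by norm_num)).2,
    ← h.c_mul _ (by decide +kernel) _ (by decide +kernel)] at e
  exact absurd (h.c_inj _ (by decide +kernel) _ (by decide +kernel) e) (by decide +kernel)
theorem na_triv {k : G} {d : ℕ} (a : NA c z p k I13 d) : k ∈ zpowers z := JH.act_triv h (h.na_I13 a ▸ a.act)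

theorem wv_zp {e a : G} (he : e ∈ E) (ha : a ∈ zpowers z) : wv c (e * a) = wv c e := by
  rw [JH.wv_mul h he (h.ez.zp_le ha), (JH.wv_eq_zero h (h.ez.zp_le ha)).2 ha, Nat.xor_zero]

theorem rp_mem {x : G} {u A d : ℕ} (r : Rp E c z p x u A d) : x ∈ 𝐂[z] := by
  obtain ⟨e, he, k, a, -, rfl⟩ := r; exact mul_mem (h.E_le he) a.mem
theorem rp_pi {x k : G} {u A d : ℕ} (a : NA c z p k A d) (r : Rp E c z p x u A d) : pel π x = pel π k := by
  obtain ⟨e, he, k', b, -, rfl⟩ := r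
  obtain ⟨w, hw, rfl⟩ := h.na_eq a b
  rw [pel_mul _ (h.E_le he) b.mem, pel_mul _ a.mem (h.zp_H hw), h.pi_E he, h.pi_E (h.ez.zp_le hw), one_mul, mul_one]
theorem rp_c {k : G} {u A d : ℕ} (a : NA c z p k A d) (hu : u < 4096) : Rp E c z p (c u * k) u A d :=
  ⟨_, h.c_mem (by omega), k, a, JH.wv_c' h hu, rfl⟩
theorem rp_E {e : G} (he : e ∈ E) : Rp E c z p e (wv c e) I13 0 := ⟨e, he, 1, h.na_one, rfl, (mul_one e).symm⟩
theorem rp_mul {x y : G} {u w A B d e : ℕ} (r : Rp E c z p x u A d) (r' : Rp E c z p y w B e) :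
    Rp E c z p (x * y) (u ^^^ lin A w) (mm A B) (d ^^^ e) := by
  obtain ⟨f, hf, k, a, rfl, rfl⟩ := r
  obtain ⟨g, hg, l, b, rfl, rfl⟩ := r'
  exact ⟨f * (k * g * k⁻¹), mul_mem hf (JH.cjE h a.mem hg), _, h.na_mul a b,
    by rw [JH.wv_mul h hf (JH.cjE h a.mem hg), h.na_wv a hg], by group⟩
theorem rp_z {x : G} {u A d : ℕ} (r : Rp E c z p x u A d) : Rp E c z p (x * z) u A d := by
  obtain ⟨e, he, k, a, e1, rfl⟩ := r
  exact ⟨e, he, _, h.na_zp a (mem_zpowers z), e1, mul_assoc _ _ _⟩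
theorem rp_pair {x y : G} {u A d : ℕ} (r : Rp E c z p x u A d) : Rp E c z p y u A d ↔ y = x ∨ y = x * z := by
  refine ⟨fun r' => ?_, ?_⟩
  · obtain ⟨e, he, k, a, rfl, rfl⟩ := r
    obtain ⟨f, hf, l, b, e1, rfl⟩ := r'
    obtain ⟨w, hw, rfl⟩ := h.na_eq a b
    have : ∃ v ∈ zpowers z, f = e * v := by
      rcases JH.eq_or h he hf e1.symm with e2 | e2
      exacts [⟨1, one_mem _, by rw [e2, mul_one]⟩, ⟨z, mem_zpowers z, e2⟩]
    obtain ⟨v, hv, rfl⟩ := this
    rw [show e * v * (k * w) = e * k * (v * w) by rw [mul_assoc, ← mul_assoc v, h.z_comm a.mem hv]; group]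
    rcases h.ez.mem_zp.1 (mul_mem hv hw) with e2 | e2 <;> simp [e2]
  · rintro (rfl | rfl)
    exacts [r, h.rp_z r]
theorem rp_unique {x : G} {u u' A A' d d' : ℕ} (r : Rp E c z p x u A d) (r' : Rp E c z p x u' A' d') :
    u = u' ∧ ∀ n < 4096, lin A n = lin A' n := by
  obtain ⟨e, he, k, a, rfl, rfl⟩ := r
  obtain ⟨f, hf, l, b, rfl, e1⟩ := r'
  have e2 : l = (f⁻¹ * e) * k := by rw [mul_assoc, e1]; group
  have h1 : f⁻¹ * e ∈ zpowers z := h.np_E (by
    rw [show f⁻¹ * e = l * k⁻¹ by rw [e2]; group]; exact mul_mem b.np (inv_mem a.np)) (mul_mem (inv_mem hf) he)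
  refine ⟨by rw [← h.wv_zp hf h1, mul_inv_cancel_left], fun n hn => ?_⟩
  rw [h.z_comm a.mem h1] at e2
  exact h.na_same (h.na_zp a h1) (e2 ▸ b) hn
theorem rp_congr {x : G} {u u' A A' d d' : ℕ} (r : Rp E c z p x u A d) (r' : Rp E c z p x u' A' d') :
    Rp E c z p x u A' d' := (h.rp_unique r r').1 ▸ r'
theorem rp_in_E {x : G} {u d : ℕ} (r : Rp E c z p x u I13 d) : x ∈ E ∧ wv c x = u := by
  obtain ⟨e, he, k, a, rfl, rfl⟩ := r
  exact ⟨mul_mem he (h.ez.zp_le (h.na_triv a)), h.wv_zp he (h.na_triv a)⟩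
theorem rp_of_E {x : G} {u A B d : ℕ} (r : Rp E c z p x u (mm A B) d) (hx : x ∈ E) : mm A B = I13 := by
  obtain ⟨e, he, k, a, rfl, rfl⟩ := r
  exact h.na_E a ((Subgroup.mul_mem_cancel_left _ he).1 hx)
theorem exists_rp {x k : G} {B d : ℕ} (hx : x ∈ 𝐂[z]) (a : NA c z p k B d) (e : pel π x = pel π k) :
    ∃ u, Rp E c z p x u B d ∨ Rp E c z p x u (mm OM B) d ∨ Rp E c z p x u (mm OM (mm OM B)) d := by
  obtain ⟨f, hf, j, hj, rfl⟩ := JH.dec h hx a.mem e
  have a1 := h.na_mul h.na_p a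
  rw [Nat.zero_xor] at a1
  have a2 := h.na_mul h.na_p a1
  rw [Nat.zero_xor] at a2
  refine ⟨wv c f, ?_⟩
  interval_cases j
  · exact Or.inl ⟨f, hf, k, a, rfl, by simp⟩
  · exact Or.inr (Or.inl ⟨f, hf, _, a1, rfl, by simp [mul_assoc]⟩)
  · exact Or.inr (Or.inr ⟨f, hf, _, a2, rfl, by simp [mul_assoc, pow_two]⟩)
theorem rp_conj {l k x : G} {M A B u d : ℕ} (m : NA c z p l M 0) (b : NA c z p k B d) (e : mm B M = mm M A)
    (r : Rp E c z p x u A d) : Rp E c z p (l * x * l⁻¹) (lin M u) B d := by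
  obtain ⟨f, hf, k', a, rfl, rfl⟩ := r
  have a1 := h.na_mul b m
  have a2 := h.na_mul m a
  rw [Nat.xor_zero, e] at a1
  rw [Nat.zero_xor] at a2
  obtain ⟨w, hw, e1⟩ := h.na_eq a1 a2
  refine ⟨l * f * l⁻¹, JH.cjE h m.mem hf, k * w, h.na_zp b hw, h.na_wv m hf, ?_⟩
  rw [← conj_mul, e1, mul_assoc k, ← h.z_comm m.mem hw]; group
theorem rp_conj_E {x e : G} {A u d : ℕ} (he : e ∈ E) (r : Rp E c z p x u A d) :
    Rp E c z p (e * x * e⁻¹) (u ^^^ (wv c e ^^^ lin A (wv c e))) A d := by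
  obtain ⟨f, hf, k, a, rfl, rfl⟩ := r
  have h1 := JH.cjE h a.mem (inv_mem he)
  exact ⟨e * f * (k * e⁻¹ * k⁻¹), mul_mem (mul_mem he hf) h1, k, a, by
    rw [JH.wv_mul h (mul_mem he hf) h1, JH.wv_mul h he hf, h.na_wv a (inv_mem he), JH.wv_inv h he]; ac_rfl, by group⟩
theorem rp_pow {g : G} {w W d : ℕ} (r : Rp E c z p g w W d) (j : ℕ) :
    Rp E c z p (g ^ (j + 1)) (lin (sn W (j + 1)) w) (pw1 W j) (d &&& ((j + 1) % 2)) := by
  have l := r.lt
  have dl := r.dl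
  induction j with
  | zero => rwa [zero_add, pow_one, sn, lin_I13 (by omega), pw1, show d &&& 1 % 2 = d by interval_cases d <;> rfl]
  | succ j ih =>
    have r1 := h.rp_mul ih r
    have r2 := h.rp_mul r ih
    rw [← pow_succ] at r1
    rw [← pow_succ', show d ^^^ d &&& (j + 1) % 2 = d &&& (j + 1 + 1) % 2 by
      rcases Nat.mod_two_eq_zero_or_one j with e | e <;> interval_cases d <;> simp [Nat.add_mod, e]] at r2
    rw [sn, xor_lin]; exact h.rp_congr r1 r2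

theorem z_mem_zp {e : G} (he : e ∈ E) (h0 : wv c e ≠ 0) : ind (z ∈ zpowers e) = qf (wv c e) := by
  have q := qf_lt (wv c e)
  by_cases h2 : e * e = 1
  · rw [(JH.sq_iff h he).1 h2, ind_neg fun a => ?_]
    rcases (mem_zp2 h2).1 a with b | b
    · exact h.ez.ne_one b
    · exact h0 (b ▸ JH.wv_z h)
  · have := mt (JH.sq_iff h he).2 h2
    rw [show qf (wv c e) = 1 by omega, ind_pos]
    rw [← (h.ez.sq_or he).resolve_left h2]; exact mul_mem (mem_zpowers e) (mem_zpowers e)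

variable (hq : ∀ k ∈ 𝐍(zpowers p), k * k ≠ z)
include hq

theorem rp_sq {x : G} {u A d : ℕ} (r : Rp E c z p x u A d) (hx : x * x ∈ E) (e : lin A u = u) :
    x * x = z ^ (qf u + (d &&& qf u)) := by
  have l := r.lt
  obtain ⟨f, hf, k, a, rfl, rfl⟩ := r
  have e1 : f * k * (f * k) = f * (k * f * k⁻¹) * (k * k) := by group
  have k2 : k * k = 1 := by
    rw [e1, Subgroup.mul_mem_cancel_left _ (mul_mem hf (JH.cjE h a.mem hf))] at hx
    exact (h.ez.mem_zp.1 (h.np_E (mul_mem a.np a.np) hx)).resolve_right (hq k a.np)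
  have e2 : c (wv c f) * (k * c (wv c f) * k⁻¹) = z ^ (qf (wv c f) + (d &&& qf (wv c f))) := by
    rw [h.na_conj a l, e, ← mul_assoc, h.c_sq (by omega), pow_add]
  rw [e1, k2, mul_one, ← e2]
  rcases JH.eq_c_or h hf with e3 | e3
  · rw [← e3]
  · conv_lhs => rw [e3, ← conj_mul, h.z_conj a.mem (mem_zpowers z), mul_assoc, ← mul_assoc z,
      h.z_comm (conj_H a.mem (h.E_le (h.c_mem (by omega)))) (mem_zpowers z), mul_assoc _ z, h.z_sq, mul_one]

theorem rp_inv {x : G} {u A d : ℕ} (r : Rp E c z p x u A d) (hA : mm A A = I13) :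
    x * x = 1 ↔ lin A u = u ∧ (d = 0 → qf u = 0) := by
  have r2 := h.rp_in_E (hA ▸ h.rp_mul r r)
  have q := qf_lt u
  have dl := r.dl
  refine ⟨fun e => ?_, fun ⟨e, e'⟩ => ?_⟩
  · have e1 : lin A u = u := by rw [e, JH.wv_one h] at r2; exact (xor_eq_zero'.1 r2.2.symm).symm
    refine ⟨e1, fun e2 => by_contra fun e3 => h.ez.ne_one ?_⟩
    rw [← e, h.rp_sq hq r r2.1 e1, e2, show qf u = 1 by omega]; simp
  · rw [h.rp_sq hq r r2.1 e]
    interval_cases d
    · rw [e' rfl]; simp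
    · interval_cases qf u
      · simp
      · exact (pow_two z).trans h.z_sq

omit hq in
theorem rp_inv' {x : G} {u A d : ℕ} (r : Rp E c z p x u A d) (e : x * x = 1) : mm A A = I13 :=
  h.rp_of_E (h.rp_mul r r) (e ▸ one_mem _)

/-- the test for `z ∈ ⟨g⟩` for an element of even order -/
theorem z_test {g : G} {w A B d k : ℕ} (r : Rp E c z p g w (mm A B) d) (ho : ∀ n, Odd n → g ^ n ≠ 1)
    (hk : pw1 (mm A B) k = I13) (hj : ∀ i < k, pw1 (mm A B) i ≠ I13) : ind (z ∈ zpowers g) =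
      zl ((k + 1) % 2) (1 ^^^ (d &&& ((k + 1) / 2 % 2))) (ph (sn (mm A B) (k + 1)) (sn (mm A B) ((k + 1) / 2)) w) := by
  have r1 := h.rp_in_E (hk ▸ h.rp_pow r k)
  rw [zl_ph, ind_congr (mem_zp_iff_pow (k := k + 1) (Nat.succ_pos k) r1.1 (fun j a b e => by
    obtain ⟨j, rfl⟩ := Nat.exists_eq_succ_of_ne_zero a.ne'
    refine hj j (by omega) ?_
    have := h.rp_pow r j
    cases j <;> exact h.rp_of_E this e) h.z_mem), ← r1.2]
  split_ifs with a b
  · rw [((h.ez.mem_zp.1 ((JH.wv_eq_zero h r1.1).1 a)).resolve_left (ho _ (Nat.odd_iff.2 b))), ind_pos (mem_zpowers z)]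
  · obtain ⟨m, e⟩ : ∃ m, k + 1 = (m + 1) + (m + 1) := ⟨k / 2, by omega⟩
    have r2 := h.rp_pow r m
    rw [show (k + 1) / 2 = m + 1 by omega]
    rw [e, pow_add] at a r1 ⊢
    have e1 := (h.rp_unique (h.rp_mul r2 r2) (h.rp_E r1.1)).1
    rw [a, xor_eq_zero'] at e1
    rw [h.rp_sq hq r2 r1.1 e1.symm]
    have q := qf_lt (lin (sn (mm A B) (m + 1)) w)
    have dl := r2.dl
    generalize d &&& (m + 1) % 2 = t at *
    generalize qf (lin (sn (mm A B) (m + 1)) w) = y at *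
    have n1 : ind (z ∈ zpowers (1 : G)) = 0 := ind_neg (by simpa using h.ez.ne_one)
    interval_cases t <;> interval_cases y
    · simpa using n1
    · simpa using ind_pos (mem_zpowers z)
    · simpa using n1
    · rw [show 1 + (1 &&& 1) = 2 by rfl, pow_two, h.z_sq, n1]; rfl
  · exact h.z_mem_zp r1.1 a

end JX

def U32 : List ℕ := spanL [0x18, 0x88, 0x408, 0x1008, 0x800008] 0
def p1C : ℕ := 0xbc0c9aadcda16cc429f23ce2418402

namespace St
variable [Finite G] (S : St G)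

theorem p_inv : S.p⁻¹ = S.k p1C := by
  rw [S.jh.p_inv, S.p_eq']; exact S.k_mul (by decide +kernel)

theorem sq_NPM {k : G} (hk : k ∈ 𝐍(zpowers S.p)) (hM : k ∈ 𝐍(S.V)) : k * k ≠ S.z := fun e => by
  have key : ∀ a, inM24 a = true → k * S.p * k⁻¹ = S.k a → allLt (fun j => !(ev (hi j)) || (!(fx a (hi j)) ||
      anyL U32 fun u => ev u && eqv (hi j) u)) 4096 = true → all24 (pCj p0C a) 0xab2f300d667d92e149a5884e452290
      0xabae1a28e07b13688da22c10492cd3 (fun c => !(Nat.beq (Gol.mul c c) oneC) ||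
        allL U32 fun u => !(eqv (Nat.xor u (apM c u)) T0)) = true → False := fun a ha e1 H1 H2 => by
    obtain ⟨m, hm, g, hg, rfl⟩ := S.mm.dec hM
    have e2 := congrArg (pel S.μ) e1
    rw [pel_conj _ hM (S.p_eq' ▸ S.k_mem p0C_in), S.mm.mu_vk (S.mm.v_mem hm) hg, S.p_eq', S.mm.mu_k (perm_mem_M24 p0C_in),
      S.mm.mu_k (perm_mem_M24 ha)] at e2
    have e3 : S.v m ∈ 𝐂[S.k a] := by
      rw [mem_cent1_iff, ← mul_inv_eq_iff_eq_mul]
      conv_lhs => rw [k, ← e2, pel_conj _ hg (perm_mem_M24 p0C_in)]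
      rw [← e1, S.p_eq']; group
    rw [S.mm.v_comm_k hm (perm_mem_M24 ha), code_perm' ha] at e3
    obtain ⟨u, hu, eu, e4⟩ := S.mm.v_cases ha hm e3 H1
    rw [e4, ← MM.el_code, S.z_eq, ← S.mm.el_v T0, S.mm.el_mul (okE_code eu hg) (okE_code eu hg),
      S.mm.el_eq_iff (okE_mul (okE_code eu hg) (okE_code eu hg)) (by decide +kernel), eqE, Bool.and_eq_true] at e
    have := all24_sound H2 hg (sat_cj' p0C_in ha (mul_inv_eq_iff_eq_mul.1 e2))
    rw [show Nat.beq (Gol.mul (code g) (code g)) oneC = true from e.2, Bool.not_true, Bool.false_or] at this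
    have := allL_iff.1 this u hu
    rw [show eqv (Nat.xor u (apM (code g) u)) T0 = true from e.1] at this
    simp at this
  rcases (mem_zp3 S.jh.p_ord).1 (conj_mem_of_mem_normalizer hk (mem_zpowers _)) with a | a | a
  · have := CA.orderOf_conj' k S.p
    rw [a, orderOf_one, S.jh.p_ord] at this; omega
  · exact key _ p0C_in (a.trans S.p_eq') (by decide +kernel) (by decide +kernel)
  · exact key p1C (by decide +kernel) (by rw [a, ← S.jh.p_inv, S.p_inv]) (by decide +kernel) (by decide +kernel)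

theorem sq_NP : ∀ k ∈ 𝐍(zpowers S.p), k * k ≠ S.z := fun k hk e => by
  have c1 : ¬ 2 ^ (9 + 1) ∣ Nat.card 𝐍(zpowers S.p) := by
    rw [card_norm_zpowers, S.card_Cp]
    have : {y | y ∈ zpowers S.p ∧ IsConj S.p y}.ncard ≤ 2 := by
      refine (Set.ncard_le_ncard (t := {S.p, S.p * S.p}) fun y hy => ?_).trans (Set.ncard_insert_le _ _ |>.trans (by simp))
      rcases (mem_zp3 S.jh.p_ord).1 hy.1 with a | a
      · have := orderOf_eq_of_isConj hy.2
        rw [a, orderOf_one, S.jh.p_ord] at this; omega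
      · exact a
    have h0 : 0 < {y | y ∈ zpowers S.p ∧ IsConj S.p y}.ncard :=
      (Set.ncard_pos (Set.toFinite _)).2 ⟨_, mem_zpowers _, IsConj.refl _⟩
    interval_cases {y | y ∈ zpowers S.p ∧ IsConj S.p y}.ncard <;> norm_num
  have i1 : S.k 0x20274aaca14b84c929e839a371b616 * S.p * (S.k 0x20274aaca14b84c929e839a371b616)⁻¹ = S.p⁻¹ := by
    rw [S.p_inv, S.p_eq']; exact S.k_conj (by decide +kernel)
  have i2 := mem_norm_zpowers (i1 ▸ inv_mem (mem_zpowers S.p))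
  have i3 : S.k 0x20274aaca14b84c929e839a371b616 ∈ 𝐍(S.V) := S.k_mem (by decide +kernel)
  have c2 := card_sup_zpowers (A := 𝐍(S.V) ⊓ 𝐂[S.p]) (by norm_num)
    (S.k_ord (a := 0x20274aaca14b84c929e839a371b616) (by norm_num) (q := 2) (by decide +kernel))
    (fun a => by
      rw [mem_cent1_iff.1 a.2, mul_inv_cancel_right, eq_inv_iff_mul_eq_one, ← pow_two] at i1
      have := orderOf_dvd_of_pow_eq_one i1
      rw [S.jh.p_ord] at this; omega)
    (zpowers_le.1 (norms_inf (zpowers_le.2 (le_normalizer i3)) (zpowers_le.2 (by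
      rw [← cent_zpowers]; exact normalizer_le_normalizer_centralizer _ i2))))
  rw [S.card_CMp] at c2
  obtain ⟨T, -, h1, h2⟩ := exists_sylow_card (q := 2) (k := 9) (by norm_num) IsPGroup.of_bot bot_le
    (by rw [c2]; norm_num) (by rw [c2]; norm_num)
  have l1 := h1.trans (sup_le (inf_le_right.trans (cent1_le_norm _)) (zpowers_le.2 i2))
  have l2 := h1.trans (sup_le inf_le_left (zpowers_le.2 i3))
  obtain ⟨d, hd, e1⟩ := (sylowIn_of_card (by norm_num) l1 h2 c1).exists_conj_mem hk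
    ((piElt_singleton_iff' (by norm_num)).2 ⟨2, by rw [show 2 ^ 2 = 2 * 2 by rfl, pow_mul, pow_two k, e, pow_two, S.jh.z_sq]⟩)
  exact S.sq_NPM (l1 e1) (l2 e1) (by rw [conj_mul, e, S.jh.z_conj (S.norm_P hd) (mem_zpowers _)])

end St

end CA.J4
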