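import Cfsg.Agent.Lib.J4.Defs
import Cfsg.Agent.Lib.Classical.ExtraOut

/-!
Arithmetic of the codes; the canonical section of an extraspecial group with a fixed point free
automorphism of order three.
-/

set_option autoImplicit false

namespace CA.J4
open Cfsg CA.Gol CA.Ex2 Subgroup

theorem om_eq {w : ℕ} (hw : w < 4096) : om w = lin OM w := by
  have : allLt (fun w => Nat.beq (om w) (lin OM w)) 4096 = true := by decide +kernel
  exact beq_iff.1 (allLt_iff.1 this w hw)

theorem om_lt (w : ℕ) : om w < 4096 := t12_lt _ _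
theorem lv_lt (a b : ℕ) : lv a b < 4096 := t12_lt _ _

theorem qf_eq {w : ℕ} (hw : w < 8192) : qf w = bil BB w w := by
  have : allLt (fun w => Nat.beq (qf w) (bil BB w w)) 8192 = true := by decide +kernel
  exact beq_iff.1 (allLt_iff.1 this w hw)

theorem qf_lt (w : ℕ) : qf w < 2 := lt_of_le_of_lt Nat.and_le_right (by norm_num)

theorem lin_lt13 {M m : ℕ} (h : colsLt M 13 (2 ^ m) = true) {w : ℕ} (hw : w < 8192) : lin M w < 2 ^ m :=
  lin_lt_of_cols (n := 13) (by norm_num) h hw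
theorem BB_lt {w : ℕ} (hw : w < 8192) : lin BB w < 4096 := lin_lt13 (m := 12) (by decide +kernel) hw
theorem BN_lt' {w : ℕ} (hw : w < 8192) : lin BN w < 4096 := lin_lt13 (m := 12) (by decide +kernel) hw
theorem xor13 {a b : ℕ} (ha : a < 8192) (hb : b < 8192) : a ^^^ b < 8192 := xor_lt' (n := 13) ha hb
theorem lin_xor13 (M : ℕ) {a b : ℕ} (ha : a < 8192) (hb : b < 8192) : lin M (a ^^^ b) = lin M a ^^^ lin M b :=
  lin_xor M (by omega) (by omega)

theorem bf_lt (a b : ℕ) : bf a b < 2 := bil_lt _ _ _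
theorem bf_left (a a' : ℕ) {b : ℕ} (hb : b < 8192) : bf (a ^^^ a') b = bf a b ^^^ bf a' b :=
  bil_xor_left (BN_lt' hb) _ _
theorem bf_right (a : ℕ) {b b' : ℕ} (hb : b < 8192) (hb' : b' < 8192) : bf a (b ^^^ b') = bf a b ^^^ bf a b' :=
  bil_xor_right (by omega) (by omega) (BN_lt' hb) (BN_lt' hb') _
theorem bb_left (a a' : ℕ) {b : ℕ} (hb : b < 8192) : bil BB (a ^^^ a') b = bil BB a b ^^^ bil BB a' b :=
  bil_xor_left (BB_lt hb) _ _
theorem bb_right (a : ℕ) {b b' : ℕ} (hb : b < 8192) (hb' : b' < 8192) :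
    bil BB a (b ^^^ b') = bil BB a b ^^^ bil BB a b' :=
  bil_xor_right (by omega) (by omega) (BB_lt hb) (BB_lt hb') _

/-- biadditive maps are determined on the basis -/
theorem bi_ext {n : ℕ} {f g : ℕ → ℕ → ℕ}
    (f1 : ∀ a < 2 ^ n, ∀ a' < 2 ^ n, ∀ b < 2 ^ n, f (a ^^^ a') b = f a b ^^^ f a' b)
    (f2 : ∀ a < 2 ^ n, ∀ b < 2 ^ n, ∀ b' < 2 ^ n, f a (b ^^^ b') = f a b ^^^ f a b')
    (g1 : ∀ a < 2 ^ n, ∀ a' < 2 ^ n, ∀ b < 2 ^ n, g (a ^^^ a') b = g a b ^^^ g a' b)
    (g2 : ∀ a < 2 ^ n, ∀ b < 2 ^ n, ∀ b' < 2 ^ n, g a (b ^^^ b') = g a b ^^^ g a b')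
    (h : allLt (fun i => allLt (fun j => Nat.beq (f (Nat.pow 2 i) (Nat.pow 2 j)) (g (Nat.pow 2 i) (Nat.pow 2 j))) n) n
      = true) : ∀ a < 2 ^ n, ∀ b < 2 ^ n, f a b = g a b := by
  intro a ha b hb
  refine ext_xor (f := fun a => f a b) (g := fun a => g a b) (fun a ha a' ha' => f1 a ha a' ha' b hb)
    (fun a ha a' ha' => g1 a ha a' ha' b hb) (fun i hi => ?_) a ha
  have hi' : 2 ^ i < 2 ^ n := Nat.pow_lt_pow_right (by norm_num) hi
  exact ext_xor (f2 _ hi') (g2 _ hi') (fun j hj => beq_iff.1 (allLt_iff.1 (allLt_iff.1 h i hi) j hj)) b hb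

theorem om_xor {a b : ℕ} (ha : a < 4096) (hb : b < 4096) : om (a ^^^ b) = om a ^^^ om b := by
  rw [om_eq ha, om_eq hb, om_eq (xor12 ha hb), lin_xor12 _ ha hb]

theorem om_om {a : ℕ} (ha : a < 4096) : om (om a) = om a ^^^ a := by
  have : allLt (fun w => Nat.beq (om (om w)) (Nat.xor (om w) w)) 4096 = true := by decide +kernel
  exact beq_iff.1 (allLt_iff.1 this a ha)

theorem om3 {a : ℕ} (ha : a < 4096) : om (om (om a)) = a := by
  have : allLt (fun w => Nat.beq (om (om (om w))) w) 4096 = true := by decide +kernel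
  exact beq_iff.1 (allLt_iff.1 this a ha)

theorem bf_symm {a b : ℕ} (ha : a < 8192) (hb : b < 8192) : bf a b = bf b a :=
  bi_ext (n := 13) (f := bf) (g := fun a b => bf b a) (fun a _ a' _ b hb => bf_left a a' hb)
    (fun a _ b hb b' hb' => bf_right a hb hb') (fun a ha a' ha' b _ => bf_right b ha ha')
    (fun a ha b _ b' _ => bf_left b b' ha) (by decide +kernel) a ha b hb

theorem bf_om {a b : ℕ} (ha : a < 4096) (hb : b < 4096) : bf (om a) (om b) = bf a b := by
  have l : ∀ a, om a < 8192 := fun a => lt_trans (om_lt a) (by norm_num)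
  exact bi_ext (n := 12) (f := fun a b => bf (om a) (om b)) (g := bf)
    (fun a ha a' ha' b hb => by rw [om_xor ha ha', bf_left _ _ (l _)])
    (fun a _ b hb b' hb' => by rw [om_xor hb hb', bf_right _ (l _) (l _)])
    (fun a ha a' ha' b hb => bf_left _ _ (by omega))
    (fun a ha b hb b' hb' => bf_right _ (by omega) (by omega)) (by decide +kernel) a ha b hb

theorem bb_eq {a b : ℕ} (ha : a < 4096) (hb : b < 4096) : bil BB a b = bf (om (om a)) b :=
  bi_ext (n := 12) (f := bil BB) (g := fun a b => bf (om (om a)) b)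
    (fun a ha a' ha' b hb => bb_left _ _ (by omega))
    (fun a ha b hb b' hb' => bb_right _ (by omega) (by omega))
    (fun a ha a' ha' b hb => by rw [om_xor ha ha', om_xor (om_lt _) (om_lt _), bf_left _ _ (by omega)])
    (fun a _ b hb b' hb' => bf_right _ (by omega) (by omega)) (by decide +kernel) a ha b hb

theorem bb_bf {a b : ℕ} (ha : a < 8192) (hb : b < 8192) : bil BB a b ^^^ bil BB b a = bf a b :=
  bi_ext (n := 13) (f := fun a b => bil BB a b ^^^ bil BB b a) (g := bf)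
    (fun a ha a' ha' b hb => by rw [bb_left _ _ hb, bb_right _ ha ha']; ac_rfl)
    (fun a ha b hb b' hb' => by rw [bb_left _ _ ha, bb_right _ hb hb']; ac_rfl)
    (fun a _ a' _ b hb => bf_left a a' hb) (fun a _ b hb b' hb' => bf_right a hb hb') (by decide +kernel) a ha b hb

theorem bb_mod {a b : ℕ} (ha : a < 8192) (hb : b < 8192) : bil BB a b = bil BB (a % 4096) (b % 4096) := by
  have e : ∀ a a' : ℕ, (a ^^^ a') % 4096 = a % 4096 ^^^ a' % 4096 := fun a a' => Nat.xor_mod_two_pow (n := 12)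
  have l : ∀ a : ℕ, a % 4096 < 8192 := fun a => by omega
  exact bi_ext (n := 13) (f := bil BB) (g := fun a b => bil BB (a % 4096) (b % 4096))
    (fun a _ a' _ b hb => bb_left a a' hb) (fun a _ b hb b' hb' => bb_right a hb hb')
    (fun a _ a' _ b _ => by rw [e, bb_left _ _ (l _)]) (fun a _ b _ b' _ => by rw [e, bb_right _ (l _) (l _)])
    (by decide +kernel) a ha b hb

theorem shl12 (a : ℕ) : Nat.shiftLeft a 12 = 4096 * a := by
  show a <<< 12 = _
  rw [Nat.shiftLeft_eq]; ring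

theorem hmul_eq (a b : ℕ) : hmul a b = a ^^^ b ^^^ 4096 * bil BB a b := by rw [hmul, shl12]; rfl
theorem hact_eq (M d n : ℕ) : hact M d n = lin M n ^^^ 4096 * (d &&& qf n) := by rw [hact, shl12]; rfl
theorem hact_zero (M n : ℕ) : hact M 0 n = lin M n := by rw [hact_eq]; simp

theorem hmul_lt {a b : ℕ} (ha : a < 8192) (hb : b < 8192) : hmul a b < 8192 := by
  have := bil_lt BB a b
  rw [hmul_eq]; exact xor13 (xor13 ha hb) (by omega)

theorem xor_mul_mod (a : ℕ) (t : ℕ) : (a ^^^ 4096 * t) % 4096 = a % 4096 := by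
  rw [show (a ^^^ 4096 * t) % 4096 = a % 4096 ^^^ 4096 * t % 4096 from Nat.xor_mod_two_pow (n := 12)]; simp

theorem xor_mul_div (a : ℕ) (t : ℕ) : (a ^^^ 4096 * t) / 4096 = a / 4096 ^^^ t := by
  rw [show (a ^^^ 4096 * t) / 4096 = a / 4096 ^^^ 4096 * t / 4096 from Nat.xor_div_two_pow (n := 12)]; simp

theorem split13 {n : ℕ} (hn : n < 8192) : n = n % 4096 ^^^ 4096 * (n / 4096) := by
  have : allLt (fun n => Nat.beq n (Nat.xor (n % 4096) (4096 * (n / 4096)))) 8192 = true := by decide +kernel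
  exact beq_iff.1 (allLt_iff.1 this n hn)

theorem qf_mod (n : ℕ) : qf (n % 4096) = qf n := by
  have e : ∀ n : ℕ, Nat.land n 4095 = n % 4096 := fun n => Nat.and_two_pow_sub_one_eq_mod n 12
  rw [qf, qf, e, e, Nat.mod_mod]

variable {G : Type*} [Group G] {E : Subgroup G} {z : G}

theorem zpow_xor (hz : z * z = 1) {a b : ℕ} (ha : a < 2) (hb : b < 2) : z ^ (a ^^^ b) = z ^ a * z ^ b := by
  interval_cases a <;> interval_cases b <;> simp [hz]

theorem zpow_inj (hz : z ≠ 1) {a b : ℕ} (ha : a < 2) (hb : b < 2) (e : z ^ a = z ^ b) : a = b := by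
  interval_cases a <;> interval_cases b <;> simp_all [eq_comm]

open Classical in
/-- the commutator exponent -/
noncomputable def cm (e f : G) : ℕ := if e * f = f * e then 0 else 1

theorem cm_lt (e f : G) : cm e f < 2 := by unfold cm; split_ifs <;> norm_num

theorem cm_conj (h e f : G) : cm (h * e * h⁻¹) (h * f * h⁻¹) = cm e f := by
  unfold cm
  congr 1
  rw [conj_mul, conj_mul, eq_iff_iff]
  exact ⟨fun e => mul_left_cancel (mul_right_cancel e), fun e => by rw [e]⟩

theorem cm_spec (h : EZ E z) {e f : G} (he : e ∈ E) (hf : f ∈ E) : e * f = f * e * z ^ cm e f := by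
  unfold cm
  split_ifs with h1
  · rw [h1]; simp
  · have := (h.comm_or he hf).resolve_left h1
    rw [pow_one, mul_inv_eq_iff_eq_mul.1 this, mul_assoc, mul_assoc, h.comm he]

theorem cm_eq (h : EZ E z) {e f : G} {a : ℕ} (ha : a < 2) (he : e ∈ E) (hf : f ∈ E) (e1 : e * f = f * e * z ^ a) :
    cm e f = a := zpow_inj h.ne_one (cm_lt _ _) ha (mul_left_cancel ((cm_spec h he hf).symm.trans e1))

theorem zp_comm (h : EZ E z) {x : G} (hx : x ∈ 𝐂[z]) (a : ℕ) : z ^ a * x = x * z ^ a :=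
  ((show Commute x z from mem_cent1_iff.1 hx).pow_right a).eq.symm

theorem cm_mul_left (h : EZ E z) {e e' f : G} (he : e ∈ E) (he' : e' ∈ E) (hf : f ∈ E) :
    cm (e * e') f = cm e f ^^^ cm e' f := by
  apply cm_eq h (xor_lt' (n := 1) (cm_lt _ _) (cm_lt _ _)) (mul_mem he he') hf
  rw [zpow_xor h.sq (cm_lt _ _) (cm_lt _ _), mul_assoc, cm_spec h he' hf, ← mul_assoc, ← mul_assoc, cm_spec h he hf,
    mul_assoc _ _ e', zp_comm h (h.le_cent1 he')]
  simp only [mul_assoc]

theorem cm_symm (e f : G) : cm e f = cm f e := by unfold cm; congr 1; exact propext eq_comm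

theorem cm_mul_right (h : EZ E z) {e f f' : G} (he : e ∈ E) (hf : f ∈ E) (hf' : f' ∈ E) :
    cm e (f * f') = cm e f ^^^ cm e f' := by
  rw [cm_symm, cm_mul_left h hf hf' he, cm_symm f, cm_symm f']

theorem cm_z (h : EZ E z) {e f : G} (he : e ∈ zpowers z) (hf : f ∈ E) : cm e f = 0 := by
  unfold cm
  rcases h.mem_zp.1 he with rfl | rfl
  · simp
  · rw [if_pos (h.comm hf).symm]

theorem cm_self (e : G) : cm e e = 0 := by unfold cm; simp

/-- the norm with respect to `p` -/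
def nm (p e : G) : G := e * (p * e * p⁻¹) * (p * (p * e * p⁻¹) * p⁻¹)

theorem nm_mul (h : EZ E z) {p e f : G} (hp : p ∈ 𝐍(E)) (he : e ∈ E) (hf : f ∈ E) :
    nm p (e * f) = nm p e * nm p f * (z ^ cm f (p * e * p⁻¹) * z ^ cm f (p * (p * e * p⁻¹) * p⁻¹) *
      z ^ cm (p * f * p⁻¹) (p * (p * e * p⁻¹) * p⁻¹)) := by
  have e1 := conj_mem_of_mem_normalizer hp he
  have e2 := conj_mem_of_mem_normalizer hp e1
  have f1 := conj_mem_of_mem_normalizer hp hf
  have f2 := conj_mem_of_mem_normalizer hp f1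
  rw [nm, nm, nm, ← conj_mul (a := e) (b := p), ← conj_mul (a := p * e * p⁻¹) (b := p)]
  generalize p * (p * e * p⁻¹) * p⁻¹ = e'' at *
  generalize p * (p * f * p⁻¹) * p⁻¹ = f'' at *
  generalize p * e * p⁻¹ = e' at *
  generalize p * f * p⁻¹ = f' at *
  have a1 := cm_spec h hf e1
  have a2 := cm_spec h hf e2
  have a3 := cm_spec h f1 e2
  have c := fun {x} (hx : x ∈ E) a => zp_comm h (h.le_cent1 hx) a
  generalize cm f e' = i at *
  generalize cm f e'' = j at *
  generalize cm f' e'' = k at *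
  calc e * f * (e' * f') * (e'' * f'') = e * (f * e') * (f' * e'') * f'' := by simp only [mul_assoc]
    _ = e * e' * (f * (z ^ i * e'')) * f' * (z ^ k * f'') := by rw [a1, a3]; simp only [mul_assoc]
    _ = e * e' * (f * e'') * (z ^ i * (f' * f'')) * z ^ k := by rw [c e2, c f2]; simp only [mul_assoc]
    _ = e * e' * e'' * f * (z ^ j * (f' * f'')) * z ^ i * z ^ k := by
      rw [a2, c (mul_mem f1 f2)]; simp only [mul_assoc]
    _ = _ := by
      rw [c (mul_mem f1 f2), mul_assoc _ (z ^ i), mul_assoc _ _ (z ^ i * _), mul_assoc _ (z ^ j),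
        ← mul_assoc (z ^ j), ← pow_add, add_comm j, pow_add]; simp only [mul_assoc]

theorem nm_zpow (h : EZ E z) {p e : G} (hp : p ∈ 𝐍(E)) (he : e ∈ E) (a : ℕ) :
    nm p (e * z ^ a) = nm p e * z ^ a := by
  have hz : z ^ a ∈ zpowers z := pow_mem (mem_zpowers z) a
  have hp' := h.norm_le_cent1 hp
  have e0 : p * z ^ a * p⁻¹ = z ^ a := by rw [← zp_comm h hp']; simp
  have e1 := conj_mem_of_mem_normalizer hp he
  rw [nm_mul h hp he (h.zp_le hz), e0, cm_z h hz e1, cm_z h hz (conj_mem_of_mem_normalizer hp e1), nm, nm, e0, e0]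
  have : z ^ a * z ^ a = 1 := by rw [← mul_pow_self, h.sq, one_pow]
  rw [this]; simp
where mul_pow_self : (z * z) ^ a = z ^ a * z ^ a := (Commute.refl z).mul_pow a

end CA.J4
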