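import Cfsg.Agent.Lib.J4.Hyp1
import Cfsg.Prelude.Def_JankoFourType

/-!
From the hypothesis of type `J4` to the projection onto `D2` and the lifts of the generators.
-/

set_option autoImplicit false

namespace CA.J4
open Cfsg CA.Gol CA.Ex2 CA.Core Subgroup

variable {G : Type*} [Group G] {E : Subgroup G} {z p : G}

/-- first form of the hypothesis -/
structure J0 (z p : G) (E : Subgroup G) (π : ↥𝐂[z] →* Pm) : Prop where
  lq : LQ E z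
  oP_eq : oP 2 𝐂[z] = E
  card : Nat.card E = 8192
  p_ord : orderOf p = 3
  p_mem : p ∈ 𝐂[z]
  range : π.range = D2
  ker : pker π = E ⊔ zpowers p
  fpf : E ⊓ 𝐂[p] = zpowers z
  inv : ∃ s ∈ 𝐂[z], s ∈ 𝐍(zpowers p) ∧ s ∉ 𝐂[p]

theorem exists_J0 [Finite G] {P : Subgroup G} (hJ : IsOfJankoFourTypeWith z P) :
    ∃ p E π, P = zpowers p ∧ J0 z p E π := by
  obtain ⟨hz, hE, hc, hC, ⟨N, h1, h2, h3, h4, ⟨hn, ⟨e⟩⟩, h5⟩, hP, h6, h7, -⟩ := hJ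
  change IsExtraspecial 2 (oP 2 𝐂[z]) at hE
  change Nat.card (oP 2 𝐂[z]) = _ at hc
  change _ ⊓ 𝐂(oP 2 𝐂[z]) ≤ oP 2 𝐂[z] at hC
  change oP 2 𝐂[z] ≤ N at h1
  change _ = 3 * Nat.card (oP 2 𝐂[z]) at h4
  change oP 2 𝐂[z] ⊓ _ = _ at h6
  have hz2 : z * z = 1 := Inv.mul_self_of_orderOf hz
  have zE : z ∈ oP 2 𝐂[z] := le_oP ⟨zpowers_le.2 (self_mem_cent1 z), norms_zpowers_of_cent1 le_rfl⟩
    (isPGroup_two_zpowers hz2) (mem_zpowers z)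
  have lq : LQ (oP 2 𝐂[z]) z := lq_of_oP hz hE fun x hx => hC ⟨cent_le_cent1 zE hx, hx⟩
  obtain ⟨p, hp, po⟩ := exists_orderOf_eq_prime (A := P) Nat.prime_three (by rw [hP])
  have hp1 : p ≠ 1 := by rintro rfl; simp at po
  have eP : P = zpowers p := eq_zpowers_of_prime_card (by rw [hP]; norm_num) hp hp1
  subst eP
  let π : ↥𝐂[z] →* Pm := D2.subtype.comp (autEquiv.symm.toMonoidHom.comp
    (e.toMonoidHom.comp (QuotientGroup.mk' (N.subgroupOf 𝐂[z]))))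
  have hi : oP 2 𝐂[z] ⊓ zpowers p = ⊥ := inf_eq_bot_of_odd lq.ez.pg (by rw [hP]; decide)
  have hN : oP 2 𝐂[z] ⊔ zpowers p = N := by
    apply eq_of_le_of_card_eq (sup_le h1 h5)
    rw [card_sup_of_disjoint (Or.inl (h5.trans (h2.trans lq.le_norm))) hi, hP, h4, mul_comm]
  refine ⟨p, _, π, rfl, lq, rfl, hc, po, h2 (h5 hp), ?_, ?_, by rw [← cent_zpowers p]; exact h6, ?_⟩
  · ext g
    constructor
    · rintro ⟨x, rfl⟩; exact (autEquiv.symm _).2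
    · intro hg
      obtain ⟨y, hy⟩ := QuotientGroup.mk'_surjective (N.subgroupOf 𝐂[z]) (e.symm (autEquiv ⟨g, hg⟩))
      refine ⟨y, ?_⟩
      show D2.subtype (autEquiv.symm (e (QuotientGroup.mk' _ y))) = g
      rw [hy, MulEquiv.apply_symm_apply, MulEquiv.symm_apply_apply]; rfl
  · rw [hN]
    ext x
    rw [mem_pker]
    constructor
    · rintro ⟨hx, e1⟩
      rw [pel_of_mem _ hx] at e1
      simpa [π, mem_subgroupOf] using e1
    · intro hx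
      refine ⟨h2 hx, ?_⟩
      rw [pel_of_mem _ (h2 hx)]
      simpa [π, mem_subgroupOf] using hx
  · by_contra h
    push Not at h
    apply h7
    apply le_antisymm
    · rintro x ⟨a, b⟩; exact ⟨a, by rw [cent_zpowers]; exact h x a b⟩
    · exact inf_le_inf_left _ (centralizer_le_normalizer _)

theorem p3 (h : orderOf p = 3) : p ^ 3 = 1 := h ▸ pow_orderOf_eq_one p

theorem conj_p [Finite G] (h : orderOf p = 3) {k : G} (hk : k ∈ 𝐍(zpowers p)) :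
    k * p * k⁻¹ = p ∨ k * p * k⁻¹ = p⁻¹ := by
  obtain ⟨i, hi, e⟩ := exists_pow_lt (conj_mem_of_mem_normalizer hk (mem_zpowers p))
  rw [h] at hi
  interval_cases i
  · have : orderOf (k * p * k⁻¹) = 3 := by rw [CA.orderOf_conj', h]
    rw [e] at this; simp at this
  · left; rw [e, pow_one]
  · right; rw [e, eq_inv_iff_mul_eq_one, ← pow_succ, p3 h]

theorem cent_of_conj {k : G} (e : k * p * k⁻¹ = p) : k ∈ 𝐂[p] := conj_eq_iff_mem_cent1.1 e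

namespace J0
variable [Finite G] {π : ↥𝐂[z] →* Pm} (h : J0 z p E π)
include h

theorem sq : J0 z (p * p) E π := by
  have o2 : orderOf (p * p) = 3 := by
    rw [← pow_two, orderOf_pow' _ (by norm_num), h.p_ord]; norm_num
  have e : zpowers (p * p) = zpowers p := eq_of_le_of_card_eq (zpowers_le.2 (mul_mem (mem_zpowers p) (mem_zpowers p)))
    (by rw [Nat.card_zpowers, Nat.card_zpowers, o2, h.p_ord])
  have e' : 𝐂[p * p] = 𝐂[p] := by rw [← cent_zpowers, e, cent_zpowers]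
  exact ⟨h.lq, h.oP_eq, h.card, o2, mul_mem h.p_mem h.p_mem, h.range, e ▸ h.ker, e' ▸ h.fpf, by
    rw [e, e']; exact h.inv⟩

theorem E_le : E ≤ 𝐂[z] := h.lq.ez.le_cent1
theorem inf_P : E ⊓ zpowers p = ⊥ := inf_eq_bot_of_odd h.lq.ez.pg (by rw [Nat.card_zpowers, h.p_ord]; decide)
theorem P_norm : zpowers p ≤ 𝐍(E) := zpowers_le.2 (h.lq.le_norm h.p_mem)
theorem pi_E {e : G} (he : e ∈ E) : pel π e = 1 := (mem_pker.1 (h.ker ▸ mem_sup_left he)).2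
theorem pi_p : pel π p = 1 := (mem_pker.1 (h.ker ▸ mem_sup_right (mem_zpowers p))).2
theorem pi_mem {x : G} (hx : x ∈ 𝐂[z]) : pel π x ∈ D2 := by
  rw [pel_of_mem _ hx, ← h.range]; exact ⟨_, rfl⟩
theorem z_p : z ∈ 𝐂[p] := mem_cent1_comm.1 h.p_mem

theorem fratt {x : G} (hx : x ∈ 𝐂[z]) : ∃ e ∈ E, ∃ k ∈ 𝐂[z] ⊓ 𝐍(zpowers p), x = e * k := by
  have hS : SylowIn 3 (zpowers p) (E ⊔ zpowers p) := sylow_zpowers Nat.prime_three (mem_sup_right (mem_zpowers p))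
    h.p_ord (by rw [card_sup_of_disjoint (Or.inl h.P_norm) h.inf_P, h.card, Nat.card_zpowers, h.p_ord]; norm_num)
  obtain ⟨n, hn, g, hg, rfl⟩ := frattini_exists_mul (h.ker ▸ pker_normalIn π) hS x hx
  obtain ⟨e, he, q, hq, rfl⟩ := (mem_sup_of_norm_right h.P_norm).1 hn
  exact ⟨e, he, q * g, mul_mem ⟨zpowers_le.2 h.p_mem hq, le_normalizer hq⟩ hg, mul_assoc _ _ _⟩

theorem ker_K {k : G} (hk : k ∈ 𝐂[z] ⊓ 𝐍(zpowers p)) (e : pel π k = 1) : ∃ a < 2, ∃ b < 3, k = z ^ a * p ^ b := by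
  obtain ⟨x, hx, q, hq, rfl⟩ := (mem_sup_of_norm_right h.P_norm).1 (h.ker ▸ mem_pker.2 ⟨hk.1, e⟩)
  have h1 : x ∈ E ⊓ 𝐍(zpowers p) := ⟨hx, (Subgroup.mul_mem_cancel_right _ (le_normalizer hq)).1 hk.2⟩
  rw [inf_norm_eq_inf_cent h.P_norm h.inf_P, cent_zpowers, h.fpf] at h1
  obtain ⟨a, ha, rfl⟩ := exists_pow_lt h1
  obtain ⟨b, hb, rfl⟩ := exists_pow_lt hq
  exact ⟨a, h.lq.ez.ord ▸ ha, b, h.p_ord ▸ hb, rfl⟩

theorem liftK {g : Pm} (hg : g ∈ D2) : ∃ k ∈ 𝐂[z] ⊓ 𝐍(zpowers p), pel π k = g := by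
  rw [← h.range] at hg
  obtain ⟨x, rfl⟩ := hg
  obtain ⟨e, he, k, hk, e1⟩ := h.fratt x.2
  exact ⟨k, hk, by rw [← pel_coe, e1, pel_mul _ (h.E_le he) hk.1, h.pi_E he, one_mul]⟩

theorem C_le : 𝐂[z] ⊓ 𝐂[p] ≤ 𝐂[z] ⊓ 𝐍(zpowers p) :=
  inf_le_inf_left _ (by rw [← cent_zpowers]; exact centralizer_le_normalizer _)

theorem liftC {g : Pm} (hg : g ∈ Spor.M22) : ∃ k ∈ 𝐂[z] ⊓ 𝐂[p], pel π k = g := by
  have sq : ∀ g ∈ D2, g * g ∈ pmap π (𝐂[z] ⊓ 𝐂[p]) := by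
    intro g hg
    obtain ⟨k, hk, rfl⟩ := h.liftK hg
    rw [← pel_mul _ hk.1 hk.1]
    refine pel_mem_pmap _ ⟨mul_mem hk.1 hk.1, cent_of_conj ?_⟩
    rw [show k * k * p * (k * k)⁻¹ = k * (k * p * k⁻¹) * k⁻¹ by group]
    rcases conj_p h.p_ord hk.2 with e | e
    · rw [e, e]
    · rw [e, ← conj_inv, e, inv_inv]
  have hx : x0 ∈ pmap π (𝐂[z] ⊓ 𝐂[p]) := by
    have := sq _ (M22_le_D2 (pow_mem x0_mem 6))
    rwa [← pow_add, show 6 + 6 = 11 + 1 from rfl, pow_succ, x0_pow, one_mul] at this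
  have hxf : x0 * f0 ∈ pmap π (𝐂[z] ⊓ 𝐂[p]) := by
    have := sq _ (M22_le_D2 (pow_mem (mul_mem x0_mem f0_mem) 4))
    rwa [← pow_add, show 4 + 4 = 7 + 1 from rfl, pow_succ, xf_pow, one_mul] at this
  exact (mem_pmap_of_le inf_le_left).1 (M22_le_of hx ((Subgroup.mul_mem_cancel_left _ hx).1 hxf) hg)

theorem zp_mem_C (a b : ℕ) : z ^ a * p ^ b ∈ 𝐂[z] ⊓ 𝐂[p] :=
  mul_mem (pow_mem (mem_inf.2 ⟨self_mem_cent1 z, h.z_p⟩) a) (pow_mem (mem_inf.2 ⟨h.p_mem, self_mem_cent1 p⟩) b)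

theorem mem_C_of_pi {k : G} (hk : k ∈ 𝐂[z] ⊓ 𝐍(zpowers p)) (e : pel π k ∈ Spor.M22) : k ∈ 𝐂[z] ⊓ 𝐂[p] := by
  obtain ⟨k', hk', e'⟩ := h.liftC e
  obtain ⟨a, _, b, _, e2⟩ := h.ker_K (mul_mem (inv_mem (h.C_le hk')) hk) (by
    rw [pel_mul _ (inv_mem hk'.1) hk.1, pel_inv _ hk'.1, e', inv_mul_cancel])
  exact (Subgroup.mul_mem_cancel_left _ (inv_mem hk')).1 (e2 ▸ h.zp_mem_C a b)

theorem exists_s : ∃ s ∈ 𝐂[z], s * p * s⁻¹ = p⁻¹ ∧ pel π s = s0 := by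
  obtain ⟨s, h1, h2, h3⟩ := h.inv
  have hm := (mem_or_D2 (h.pi_mem h1)).resolve_left fun e => h3 (h.mem_C_of_pi ⟨h1, h2⟩ e).2
  obtain ⟨k, hk, e⟩ := h.liftC hm
  have hs : k * s⁻¹ ∈ 𝐂[z] ⊓ 𝐍(zpowers p) := mul_mem (h.C_le hk) (inv_mem ⟨h1, h2⟩)
  refine ⟨k * s⁻¹, hs.1, (conj_p h.p_ord hs.2).resolve_left fun e => h3 ?_, ?_⟩
  · exact inv_mem_iff.1 ((Subgroup.mul_mem_cancel_left _ hk.2).1 (cent_of_conj e))
  · rw [pel_mul _ hk.1 (inv_mem h1), pel_inv _ h1, e]; group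

theorem comm_zp {k : G} (hk : k ∈ 𝐂[z] ⊓ 𝐂[p]) (a b : ℕ) : Commute k (z ^ a * p ^ b) :=
  ((show Commute k z from mem_cent1_iff.1 hk.1).pow_right a).mul_right
    ((show Commute k p from mem_cent1_iff.1 hk.2).pow_right b)

theorem lift_pow {g : Pm} (hg : g ∈ Spor.M22) {n m : ℕ} (hn : g ^ n = 1) (hm : g ^ (3 * m) = g) :
    ∃ k ∈ 𝐂[z] ⊓ 𝐂[p], pel π k = g ∧ k ^ n ∈ zpowers z := by
  obtain ⟨k, hk, rfl⟩ := h.liftC hg
  obtain ⟨a, _, b, _, e⟩ := h.ker_K (pow_mem (h.C_le hk) n) (by rw [pel_pow _ hk.1, hn])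
  refine ⟨k ^ (3 * m), pow_mem hk _, by rw [pel_pow _ hk.1, hm], ?_⟩
  have c : Commute (z ^ a) (p ^ b) := ((show Commute z p from mem_cent1_iff.1 h.z_p).pow_pow a b)
  rw [← pow_mul, mul_comm, pow_mul, e, c.mul_pow, ← pow_mul p, mul_comm b, mul_assoc, pow_mul p, p3 h.p_ord,
    one_pow, mul_one]
  exact pow_mem (pow_mem (mem_zpowers z) _) _

theorem rel {x y : G} (hx : x ∈ 𝐂[z] ⊓ 𝐂[p]) (hy : y ∈ 𝐂[z] ⊓ 𝐍(zpowers p)) {n r : ℕ} (hn : x ^ n ∈ zpowers z)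
    (h3 : ¬ 3 ∣ n) (e : pel π y * pel π x = pel π x ^ r * pel π y) : ∃ a, y * x = z ^ a * (x ^ r * y) := by
  have hx' := h.C_le hx
  have m1 := mul_mem (mul_mem hy hx') (inv_mem (mul_mem (pow_mem hx' r) hy))
  obtain ⟨a, _, b, hb, e1⟩ := h.ker_K m1 (by
    rw [pel_mul _ (mul_mem hy.1 hx.1) (inv_mem (mul_mem (pow_mem hx.1 r) hy.1)), pel_inv _ (mul_mem (pow_mem hx.1 r) hy.1),
      pel_mul _ hy.1 hx.1, pel_mul _ (pow_mem hx.1 r) hy.1, pel_pow _ hx.1, e, mul_inv_cancel])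
  have e2 : y * x * y⁻¹ = z ^ a * p ^ b * x ^ r := by rw [← e1]; group
  have c : Commute (z ^ a) (p ^ b) := ((show Commute z p from mem_cent1_iff.1 h.z_p).pow_pow a b)
  have e3 : y * x ^ n * y⁻¹ = (z ^ a) ^ n * (p ^ b) ^ n * (x ^ n) ^ r := by
    rw [← conj_pow, e2, ((h.comm_zp hx a b).pow_left r).symm.mul_pow, c.mul_pow, ← pow_mul x, mul_comm r, pow_mul x]
  have m2 : y * x ^ n * y⁻¹ ∈ zpowers z := conj_mem_of_mem_normalizer (norms_zpowers_of_cent1 le_rfl hy.1) hn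
  rw [e3, Subgroup.mul_mem_cancel_right _ (pow_mem hn r),
    Subgroup.mul_mem_cancel_left _ (pow_mem (pow_mem (mem_zpowers z) a) n)] at m2
  have m3 : (p ^ b) ^ n ∈ E ⊓ zpowers p := ⟨h.lq.ez.zp_le m2, pow_mem (pow_mem (mem_zpowers p) b) n⟩
  rw [h.inf_P, mem_bot, ← pow_mul, ← orderOf_dvd_iff_pow_eq_one, h.p_ord] at m3
  have : b = 0 := by
    have := (Nat.prime_three.dvd_mul.1 m3).resolve_right h3
    omega
  subst this
  exact ⟨a, by rw [pow_zero, mul_one] at e1; rw [← e1]; group⟩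

end J0

/-- the module `E / ⟨z⟩` -/
structure WD (z : G) (E : Subgroup G) {W : Type*} [AddCommGroup W] (φ : G → W) (ρ : G → AddMonoid.End W) :
    Prop where
  mul : ∀ x ∈ E, ∀ y ∈ E, φ (x * y) = φ x + φ y
  surj : ∀ w, ∃ x ∈ E, φ x = w
  ker : ∀ x ∈ E, φ x = 0 ↔ x ∈ zpowers z
  act : ∀ h ∈ 𝐍(E), ∀ x ∈ E, ρ h (φ x) = φ (h * x * h⁻¹)
  card : Nat.card W * 2 = Nat.card E

universe u in
theorem exists_WD {G : Type u} [Group G] [Finite G] {E : Subgroup G} {z : G} (h : EZ E z) :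
    ∃ (W : Type u) (_ : AddCommGroup W) (_ : Finite W) (φ : G → W) (ρ : G → AddMonoid.End W), WD z E φ ρ := by
  classical
  obtain ⟨W, i1, i2, π, h1, h2, h3⟩ := ExOut.exists_quot ((zpowers z).subgroupOf E) fun x => h.sq_mem x.2
  let φ : G → W := fun x => if hx : x ∈ E then π ⟨x, hx⟩ else 0
  have hφ : ∀ x (hx : x ∈ E), φ x = π ⟨x, hx⟩ := fun x hx => dif_pos hx
  have m : ∀ x ∈ E, ∀ y ∈ E, φ (x * y) = φ x + φ y := fun x hx y hy => by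
    rw [hφ x hx, hφ y hy, hφ _ (mul_mem hx hy), ← h1]; rfl
  have k : ∀ x ∈ E, φ x = 0 ↔ x ∈ zpowers z := fun x hx => by rw [hφ x hx, h3]; rfl
  choose σ hσ using h2
  have wd : ∀ g ∈ 𝐍(E), ∀ x ∈ E, ∀ y ∈ E, φ x = φ y → φ (g * x * g⁻¹) = φ (g * y * g⁻¹) := by
    intro g hg x hx y hy e
    have two : ∀ w : W, w + w = 0 := ExOut.add_self_two
    have e1 : x * y ∈ zpowers z := (k _ (mul_mem hx hy)).1 (by rw [m x hx y hy, e, two])
    have e2 := (k _ (conj_mem_of_mem_normalizer hg (mul_mem hx hy))).2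
      (conj_mem_of_mem_normalizer (norms_zpowers_of_cent1 le_rfl (h.norm_le_cent1 hg)) e1)
    rw [← conj_mul, m _ (conj_mem_of_mem_normalizer hg hx) _ (conj_mem_of_mem_normalizer hg hy)] at e2
    rw [add_eq_zero_iff_eq_neg.1 e2, neg_eq_of_add_eq_zero_left (two _)]
  have hσ' : ∀ w, φ (σ w) = w := fun w => by rw [hφ _ (σ w).2]; exact hσ w
  let ρ : G → AddMonoid.End W := fun g => if hg : g ∈ 𝐍(E) then
    AddMonoidHom.mk' (fun w => φ (g * σ w * g⁻¹)) (fun a b => by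
      rw [← m _ (conj_mem_of_mem_normalizer hg (σ a).2) _ (conj_mem_of_mem_normalizer hg (σ b).2), conj_mul]
      exact wd g hg _ (σ _).2 _ (mul_mem (σ a).2 (σ b).2) (by rw [m _ (σ a).2 _ (σ b).2, hσ', hσ', hσ'])) else 1
  let f : E →* Multiplicative W := MonoidHom.mk' (fun x => Multiplicative.ofAdd (π x)) fun a b => by
    rw [h1]; rfl
  have hf : Function.Surjective f := fun w => ⟨σ w.toAdd, congrArg Multiplicative.ofAdd (hσ _)⟩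
  have hk : f.ker = (zpowers z).subgroupOf E := by ext x; exact h3 x
  refine ⟨W, i1, Finite.of_surjective π fun w => ⟨σ w, hσ w⟩, φ, ρ, m, fun w => ⟨σ w, (σ w).2, hσ' w⟩, k, ?_, ?_⟩
  · intro g hg x hx
    have : ρ g = _ := dif_pos hg
    rw [this]
    exact wd g hg _ (σ _).2 _ hx (hσ' _)
  · rw [Subgroup.card_eq_card_quotient_mul_card_subgroup f.ker,
      Nat.card_congr (QuotientGroup.quotientKerEquivOfSurjective f hf).toEquiv, hk, card_subgroupOf_of_le h.zp_le,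
      h.card_zp]
    rfl

end CA.J4
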