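import Cfsg.Agent.Lib.J4.Hyp2

/-!
Existence of the model `JH` of the involution centralizer: coordinates on `E`.
-/

set_option autoImplicit false

namespace CA.J4
open Cfsg CA.Gol CA.Ex2 CA.Core Subgroup

variable {G : Type*} [Group G] {E : Subgroup G} {z p : G}

namespace WD
variable {W : Type*} [AddCommGroup W] {φ : G → W} {ρ : G → AddMonoid.End W} (w : WD z E φ ρ)
include w

theorem ext {A B : AddMonoid.End W} (h : ∀ x ∈ E, A (φ x) = B (φ x)) : A = B := by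
  ext v; obtain ⟨x, hx, rfl⟩ := w.surj v; exact h x hx

theorem rmul {g k : G} (hg : g ∈ 𝐍(E)) (hk : k ∈ 𝐍(E)) : ρ (g * k) = ρ g * ρ k :=
  w.ext fun x hx => by
    rw [end_mul, w.act k hk x hx, w.act g hg _ (conj_mem_of_mem_normalizer hk hx), w.act _ (mul_mem hg hk) x hx]
    congr 1; group

theorem rone : ρ 1 = 1 := w.ext fun x hx => by rw [w.act 1 (one_mem _) x hx, end_one]; simp

theorem rpow {g : G} (hg : g ∈ 𝐍(E)) (n : ℕ) : ρ (g ^ n) = ρ g ^ n := by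
  induction n with
  | zero => rw [pow_zero, pow_zero, w.rone]
  | succ n ih => rw [pow_succ, w.rmul (pow_mem hg n) hg, ih, pow_succ]

theorem rz (h : EZ E z) {g : G} (hg : g ∈ zpowers z) : ρ g = 1 := w.ext fun x hx => by
  have hc : g ∈ 𝐂(E) := zpowers_le.2 h.memC hg
  rw [w.act g (centralizer_le_normalizer _ hc) x hx, end_one, conj_eq_of_mem_cent hc hx]

theorem two [Finite G] (h : EZ E z) (v : W) : v + v = 0 := by
  obtain ⟨x, hx, rfl⟩ := w.surj v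
  rw [← w.mul x hx x hx]; exact (w.ker _ (mul_mem hx hx)).2 (h.sq_mem hx)

theorem one : φ 1 = 0 := (w.ker 1 (one_mem _)).2 (one_mem _)

theorem exists_z [Finite G] (h : EZ E z) {x y : G} (hx : x ∈ E) (hy : y ∈ E) (e : φ x = φ y) :
    ∃ a < 2, y = x * z ^ a := by
  have e1 : φ x⁻¹ + φ x = 0 := by rw [← w.mul _ (inv_mem hx) _ hx, inv_mul_cancel, w.one]
  have e2 : x⁻¹ * y ∈ zpowers z := (w.ker _ (mul_mem (inv_mem hx) hy)).1 (by
    rw [w.mul _ (inv_mem hx) _ hy, ← e, e1])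
  obtain ⟨a, ha, e3⟩ := exists_pow_lt e2
  exact ⟨a, h.ord ▸ ha, by rw [← e3]; group⟩

theorem mul_z (h : EZ E z) {x : G} (hx : x ∈ E) (a : ℕ) : φ (x * z ^ a) = φ x := by
  rw [w.mul x hx _ (pow_mem h.mem a), (w.ker _ (pow_mem h.mem a)).2 (pow_mem (mem_zpowers z) a), add_zero]

theorem nm_eq {q x : G} (hq : q ∈ 𝐍(E)) (hx : x ∈ E) : φ (nm q x) = φ x + ρ q (φ x) + ρ q (ρ q (φ x)) := by
  have h1 := conj_mem_of_mem_normalizer hq hx
  have h2 := conj_mem_of_mem_normalizer hq h1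
  rw [nm, w.mul _ (mul_mem hx h1) _ h2, w.mul _ hx _ h1, w.act q hq x hx, w.act q hq _ h1]

end WD

theorem nm_mem {q x : G} (hq : q ∈ 𝐍(E)) (hx : x ∈ E) : nm q x ∈ E :=
  mul_mem (mul_mem hx (conj_mem_of_mem_normalizer hq hx))
    (conj_mem_of_mem_normalizer hq (conj_mem_of_mem_normalizer hq hx))

theorem nm_conj (k q x : G) : nm (k * q * k⁻¹) (k * x * k⁻¹) = k * nm q x * k⁻¹ := by
  unfold nm; group

namespace J0
variable [Finite G] {π : ↥𝐂[z] →* Pm} (h : J0 z p E π)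
  {W : Type*} [AddCommGroup W] {φ : G → W} {ρ : G → AddMonoid.End W} (w : WD z E φ ρ)
include h

theorem nE {k : G} (hk : k ∈ 𝐂[z]) : k ∈ 𝐍(E) := h.lq.le_norm hk

include w

theorem o3 : ρ p ^ 3 = 1 := by rw [← w.rpow (h.nE h.p_mem), p3 h.p_ord, w.rone]

theorem fix_zero {v : W} (e : ρ p v = v) : v = 0 := by
  obtain ⟨x, hx, rfl⟩ := w.surj v
  rw [w.act p (h.nE h.p_mem) x hx] at e
  obtain ⟨a, ha, e1⟩ := w.exists_z h.lq.ez hx (conj_mem_of_mem_normalizer (h.nE h.p_mem) hx) e.symm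
  have c : p * z ^ a * p⁻¹ = z ^ a := by rw [← zp_comm h.lq.ez h.p_mem]; group
  have st : ∀ y, p * (x * y) * p⁻¹ = x * z ^ a * (p * y * p⁻¹) := fun y => by rw [← e1, conj_mul]
  have e2 : p ^ 3 * x * (p ^ 3)⁻¹ = x * (z ^ a * z ^ a * z ^ a) := by
    rw [show p ^ 3 * x * (p ^ 3)⁻¹ = p * (p * (p * x * p⁻¹) * p⁻¹) * p⁻¹ by
      rw [pow_succ, pow_two]; simp only [mul_inv_rev, mul_assoc], e1, st, c, mul_assoc x, st, ← conj_mul, c]
    simp only [mul_assoc]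
  have e3 : z ^ a * z ^ a = 1 := by rw [← (Commute.refl z).mul_pow, h.lq.ez.sq, one_pow]
  rw [p3 h.p_ord, e3, one_mul, one_mul, inv_one, mul_one, left_eq_mul] at e2
  rw [e2, mul_one] at e1
  exact (w.ker x hx).2 (h.fpf ▸ mem_inf.2 ⟨hx, mem_cent1_comm.1 (conj_eq_iff_mem_cent1.1 e1)⟩)

theorem nm_zero (v : W) : v + ρ p v + ρ p (ρ p v) = 0 := by
  apply h.fix_zero w
  have := DFunLike.congr_fun (h.o3 w) v
  rw [pow_succ, pow_two, end_mul, end_mul, end_one] at this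
  rw [map_add, map_add, this]; abel

theorem oo : ρ p * ρ p = ρ p + 1 := by
  ext v
  have := h.nm_zero w v
  change (ρ p * ρ p) v = (ρ p + 1) v
  rw [end_mul, end_add, end_one, add_comm (ρ p v)]
  rw [add_eq_zero_iff_eq_neg.1 this, eq_comm, neg_eq_of_add_eq_zero_left (w.two h.lq.ez _)]

theorem ocomm {k : G} (hk : k ∈ 𝐂[z] ⊓ 𝐂[p]) : ρ k * ρ p = ρ p * ρ k := by
  rw [← w.rmul (h.nE hk.1) (h.nE h.p_mem), ← w.rmul (h.nE h.p_mem) (h.nE hk.1), mem_cent1_iff.1 hk.2]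

theorem rrel {x y : G} (hx : x ∈ 𝐂[z] ⊓ 𝐂[p]) (hy : y ∈ 𝐂[z] ⊓ 𝐍(zpowers p)) {n r : ℕ} (hn : x ^ n ∈ zpowers z)
    (h3 : ¬ 3 ∣ n) (e : pel π y * pel π x = pel π x ^ r * pel π y) : ρ y * ρ x = ρ x ^ r * ρ y := by
  obtain ⟨a, e1⟩ := h.rel hx hy hn h3 e
  rw [← w.rmul (h.nE hy.1) (h.nE hx.1), e1, w.rmul (h.nE (pow_mem (self_mem_cent1 z) a))
    (h.nE (mul_mem (pow_mem hx.1 r) hy.1)), w.rz h.lq.ez (pow_mem (mem_zpowers z) a), one_mul,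
    w.rmul (h.nE (pow_mem hx.1 r)) (h.nE hy.1), w.rpow (h.nE hx.1)]

theorem rker {k : G} (hk : k ∈ 𝐂[z] ⊓ 𝐂[p]) (e : pel π k = 1) : ρ k = 1 ∨ ρ k = ρ p ∨ ρ k = ρ p * ρ p := by
  obtain ⟨a, _, b, hb, rfl⟩ := h.ker_K (h.C_le hk) e
  rw [w.rmul (h.nE (pow_mem (self_mem_cent1 z) a)) (h.nE (pow_mem h.p_mem b)),
    w.rz h.lq.ez (pow_mem (mem_zpowers z) a), one_mul, w.rpow (h.nE h.p_mem)]
  interval_cases b
  · left; rw [pow_zero]
  · right; left; rw [pow_one]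
  · right; right; rw [pow_two]

theorem exists_crd [Finite W] : ∃ c0 : ℕ → W, ∃ x ∈ 𝐂[z] ⊓ 𝐂[p], ∃ f ∈ 𝐂[z] ⊓ 𝐂[p], Crd c0 ∧
    (Rep c0 (ρ p) OM ∨ Rep c0 (ρ (p * p)) OM) ∧ pel π x = x0 ∧ pel π f = f0 ∧ x ^ 11 ∈ zpowers z ∧
    f ^ 4 ∈ zpowers z ∧ Rep c0 (ρ x) XN ∧ Rep c0 (ρ f) FN := by
  obtain ⟨x, hx, ex, nx⟩ := h.lift_pow x0_mem x0_pow (m := 4) (by
    rw [show 3 * 4 = 11 + 1 from rfl, pow_succ, x0_pow, one_mul])
  obtain ⟨y, hy, ey, ny⟩ := h.lift_pow y0_mem y0_pow (m := 2) (by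
    rw [show 3 * 2 = 5 + 1 from rfl, pow_succ, y0_pow, one_mul])
  obtain ⟨f, hf, ef, nf⟩ := h.lift_pow f0_mem f0_pow (m := 3) (by
    rw [show 3 * 3 = 4 * 2 + 1 from rfl, pow_succ, pow_mul, f0_pow, one_pow, one_mul])
  have hc : Nat.card W = 4096 := by have := w.card; rw [h.card] at this; omega
  have pw : ∀ {k : G} {n : ℕ}, k ∈ 𝐂[z] ⊓ 𝐂[p] → k ^ n ∈ zpowers z → ρ k ^ n = 1 := fun hk hn => by
    rw [← w.rpow (h.nE hk.1), w.rz h.lq.ez hn]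
  have sc : ∀ (i n : ℕ), (x0 * f0 ^ i) ^ n = 1 → (ρ x * ρ f ^ i) ^ n = 1 ∨ (ρ x * ρ f ^ i) ^ n = ρ p ∨
      (ρ x * ρ f ^ i) ^ n = ρ p * ρ p := fun i n e => by
    have m := mul_mem hx (pow_mem hf i)
    rw [← w.rpow (h.nE hf.1), ← w.rmul (h.nE hx.1) (h.nE (pow_mem hf.1 i)), ← w.rpow (h.nE m.1)]
    exact h.rker w (pow_mem m n) (by rw [pel_pow _ m.1, pel_mul _ hx.1 (pow_mem hf.1 i), pel_pow _ hf.1, ex, ef, e])
  have hX1 : ρ x ≠ 1 := fun e => x0_ne (by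
    rw [← ex]
    refine h.pi_E (h.lq.mem_of_comm fun q hq => ?_)
    have e1 := w.act x (h.nE hx.1) q⁻¹ (inv_mem hq)
    rw [e, end_one] at e1
    obtain ⟨a, _, e2⟩ := w.exists_z h.lq.ez (inv_mem hq) (conj_mem_of_mem_normalizer (h.nE hx.1) (inv_mem hq)) e1
    rw [show q * x * q⁻¹ * x⁻¹ = q * (x * q⁻¹ * x⁻¹) by group, e2, mul_inv_cancel_left]
    exact pow_mem (mem_zpowers z) a)
  obtain ⟨c0, C, R, RX, -, RF⟩ := module_unique (w.two h.lq.ez) hc (h.oo w) (h.ocomm w hx) (h.ocomm w hy)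
    (h.ocomm w hf) (pw hx nx) hX1 (pw hy ny) (pw hf nf)
    (h.rrel w hx (h.C_le hy) nx (by norm_num) (by rw [ex, ey, yx]))
    (h.rrel w hy (h.C_le hf) ny (by norm_num) (by rw [ey, ef, fy]))
    (sc 1 7 (by rw [pow_one, xf_pow])) (sc 2 3 xff_pow)
  exact ⟨c0, x, hx, f, hf, C, by rwa [w.rmul (h.nE h.p_mem) (h.nE h.p_mem)], ex, ef, nx, nf, RX, RF⟩

theorem exists_can (v : W) : ∃ e ∈ E, φ e = v ∧ nm p e = 1 := by
  obtain ⟨x, hx, rfl⟩ := w.surj v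
  have hp := h.nE h.p_mem
  obtain ⟨a, ha, e⟩ := exists_pow_lt ((w.ker _ (nm_mem hp hx)).1 (by rw [w.nm_eq hp hx, h.nm_zero w]))
  refine ⟨x * z ^ a, mul_mem hx (pow_mem h.lq.ez.mem a), w.mul_z h.lq.ez hx a, ?_⟩
  rw [nm_zpow h.lq.ez hp hx, e, ← (Commute.refl z).mul_pow, h.lq.ez.sq, one_pow]

/-- an element is determined by its image and its norm -/
theorem eq_can {e e' : G} (he : e ∈ E) (he' : e' ∈ E) (e1 : φ e = φ e') (e2 : nm p e = 1) {a : ℕ}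
    (e3 : nm p e' = z ^ a) : e' = e * z ^ a := by
  obtain ⟨b, _, rfl⟩ := w.exists_z h.lq.ez he he' e1
  rw [nm_zpow h.lq.ez (h.nE h.p_mem) he, e2, one_mul] at e3
  rw [e3]

end J0

/-- data for the coordinates -/
structure CD (z p : G) (E : Subgroup G) {W : Type*} [AddCommGroup W] (φ : G → W) (ρ : G → AddMonoid.End W)
    (c0 : ℕ → W) (σ : ℕ → G) : Prop where
  crd : Crd c0
  ro : Rep c0 (ρ p) OM
  mem : ∀ n, σ n ∈ E
  phi : ∀ n, φ (σ n) = c0 n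
  nm1 : ∀ n, nm p (σ n) = 1

/-- the element with a given code -/
def cc (z : G) (σ : ℕ → G) (n : ℕ) : G := σ (n % 4096) * z ^ (n / 4096)

namespace J0
variable [Finite G] {π : ↥𝐂[z] →* Pm} (h : J0 z p E π)
  {W : Type*} [AddCommGroup W] {φ : G → W} {ρ : G → AddMonoid.End W} (w : WD z E φ ρ)
  {c0 : ℕ → W} {σ : ℕ → G} (d : CD z p E φ ρ c0 σ)
include h w d

theorem conj_sig {k : G} (hk : k ∈ 𝐂[z] ⊓ 𝐂[p]) {M : ℕ} (R : Rep c0 (ρ k) M) {n : ℕ} (hn : n < 4096) :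
    k * σ n * k⁻¹ = σ (lin M n) := by
  have := h.eq_can w (d.mem (lin M n)) (conj_mem_of_mem_normalizer (h.nE hk.1) (d.mem n)) (a := 0)
    (by rw [d.phi, ← w.act k (h.nE hk.1) _ (d.mem n), d.phi, (R n hn).2]) (d.nm1 _) (by
      have := nm_conj k p (σ n)
      rw [conj_eq_iff_mem_cent1.2 hk.2, d.nm1] at this
      rw [this]; simp)
  rwa [pow_zero, mul_one] at this

theorem p_sig {n : ℕ} (hn : n < 4096) : p * σ n * p⁻¹ = σ (om n) := by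
  rw [om_eq hn]; exact h.conj_sig w d ⟨h.p_mem, self_mem_cent1 p⟩ d.ro hn

theorem cm_congr {e e' f : G} (he : e ∈ E) (he' : e' ∈ E) (hf : f ∈ E) (e1 : φ e = φ e') : cm e f = cm e' f := by
  obtain ⟨a, _, rfl⟩ := w.exists_z h.lq.ez he he' e1
  rw [cm_mul_left h.lq.ez he (pow_mem h.lq.ez.mem a) hf, cm_z h.lq.ez (pow_mem (mem_zpowers z) a) hf, Nat.xor_zero]

theorem cm_sig {x f : G} (hx : x ∈ 𝐂[z] ⊓ 𝐂[p]) (hf : f ∈ 𝐂[z] ⊓ 𝐂[p]) (RX : Rep c0 (ρ x) XN)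
    (RF : Rep c0 (ρ f) FN) : ∀ a < 4096, ∀ b < 4096, cm (σ a) (σ b) = bf a b := by
  have hl : ∀ x < 4096, ∀ x' < 4096, ∀ y < 4096, cm (σ (x ^^^ x')) (σ y) = cm (σ x) (σ y) ^^^ cm (σ x') (σ y) := by
    intro x hx x' hx' y hy
    rw [← cm_mul_left h.lq.ez (d.mem _) (d.mem _) (d.mem _)]
    exact h.cm_congr w d (d.mem _) (mul_mem (d.mem _) (d.mem _)) (d.mem _) (by
      rw [w.mul _ (d.mem _) _ (d.mem _), d.phi, d.phi, d.phi, d.crd.add x hx x' hx'])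
  have iv : ∀ {k : G} {M : ℕ}, k ∈ 𝐂[z] ⊓ 𝐂[p] → Rep c0 (ρ k) M →
      ∀ x < 4096, ∀ y < 4096, cm (σ (lin M x)) (σ (lin M y)) = cm (σ x) (σ y) := by
    intro k M hk R x hx y hy
    rw [← h.conj_sig w d hk R hx, ← h.conj_sig w d hk R hy, cm_conj]
  refine form_unique (b := fun a b => cm (σ a) (σ b)) (fun _ _ => cm_lt _ _) hl ?_ (fun _ _ => cm_self _)
    (iv ⟨h.p_mem, self_mem_cent1 p⟩ d.ro) (iv hx RX) (iv hf RF) ?_
  · intro x hx y hy y' hy'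
    show cm (σ x) (σ (y ^^^ y')) = cm (σ x) (σ y) ^^^ cm (σ x) (σ y')
    rw [cm_symm, hl y hy y' hy' x hx, cm_symm (σ y), cm_symm (σ y')]
  · by_contra hne
    push Not at hne
    apply h.lq.ez.not_abelian
    refine ⟨⟨fun ⟨e, he⟩ ⟨f, hf⟩ => Subtype.ext ?_⟩⟩
    obtain ⟨a, ha, ea⟩ := d.crd.surj (φ e)
    obtain ⟨b, hb, eb⟩ := d.crd.surj (φ f)
    have := cm_spec h.lq.ez he hf
    rw [h.cm_congr w d he (d.mem a) hf (by rw [d.phi, ea]), cm_symm,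
      h.cm_congr w d hf (d.mem b) (d.mem a) (by rw [d.phi, eb]), cm_symm, hne a ha b hb, pow_zero, mul_one] at this
    exact this

variable (hb : ∀ a < 4096, ∀ b < 4096, cm (σ a) (σ b) = bf a b)
include hb

theorem sig_mul {a b : ℕ} (ha : a < 4096) (hb' : b < 4096) : σ a * σ b = σ (a ^^^ b) * z ^ bil BB a b := by
  refine h.eq_can w (d.mem _) (mul_mem (d.mem _) (d.mem _)) (by
    rw [w.mul _ (d.mem _) _ (d.mem _), d.phi, d.phi, d.phi, d.crd.add a ha b hb']) (d.nm1 _) ?_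
  rw [nm_mul h.lq.ez (h.nE h.p_mem) (d.mem _) (d.mem _), d.nm1, d.nm1, h.p_sig w d ha, h.p_sig w d hb',
    h.p_sig w d (om_lt a), hb _ hb' _ (om_lt _), hb _ hb' _ (om_lt _), hb _ (om_lt _) _ (om_lt _),
    bf_om hb' (om_lt _), bb_eq ha hb', bf_symm (a := om (om a)) ((om_lt _).trans (by norm_num)) (by omega),
    one_mul, one_mul, ((Commute.refl z).pow_pow _ _).eq, mul_assoc, ← (Commute.refl z).mul_pow, h.lq.ez.sq, one_pow,
    mul_one]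

theorem cc_mul : ∀ a < 8192, ∀ b < 8192, cc z σ (hmul a b) = cc z σ a * cc z σ b := by
  intro a ha b hb'
  have a1 : a % 4096 < 4096 := Nat.mod_lt _ (by norm_num)
  have b1 : b % 4096 < 4096 := Nat.mod_lt _ (by norm_num)
  have a2 : a / 4096 < 2 := by omega
  have b2 : b / 4096 < 2 := by omega
  have ez := h.lq.ez
  have e1 : (a ^^^ b) % 4096 = a % 4096 ^^^ b % 4096 := Nat.xor_mod_two_pow (n := 12)
  have e2 : (a ^^^ b) / 4096 = a / 4096 ^^^ b / 4096 := Nat.xor_div_two_pow (n := 12)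
  unfold cc
  rw [hmul_eq, xor_mul_mod, xor_mul_div, e1, e2, zpow_xor ez.sq (xor_lt' (n := 1) a2 b2) (bil_lt _ _ _),
    zpow_xor ez.sq a2 b2, mul_assoc (σ _), ← mul_assoc (z ^ _), zp_comm ez (h.E_le (d.mem _)),
    ← mul_assoc (σ (a % 4096)), ← mul_assoc (σ (a % 4096)), h.sig_mul w d hb a1 b1, bb_mod ha hb']
  simp only [mul_assoc, ← pow_add]
  congr 2; ring

theorem s_sig {s : G} (hs : s ∈ 𝐂[z]) (e : s * p * s⁻¹ = p⁻¹) {M : ℕ} (R : Rep c0 (ρ s) M) {n : ℕ} (hn : n < 4096) :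
    s * σ n * s⁻¹ = σ (lin M n) * z ^ qf n := by
  refine h.eq_can w (d.mem (lin M n)) (conj_mem_of_mem_normalizer (h.nE hs) (d.mem n))
    (by rw [d.phi, ← w.act s (h.nE hs) _ (d.mem n), d.phi, (R n hn).2]) (d.nm1 _) ?_
  have e' : s * p⁻¹ * s⁻¹ = p := by rw [← conj_inv, e, inv_inv]
  have := nm_conj s p⁻¹ (σ n)
  rw [e'] at this
  have q3 := p3 h.p_ord
  have pi : p⁻¹ = p * p := by rw [inv_eq_iff_mul_eq_one, ← q3, pow_succ', pow_two]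
  have cj2 : ∀ y, p⁻¹ * y * p⁻¹⁻¹ = p * (p * y * p⁻¹) * p⁻¹ := fun y => by
    have : p⁻¹⁻¹ = p⁻¹ * p⁻¹ := by rw [← mul_inv_rev, ← pi]
    rw [this]; nth_rewrite 1 [pi]; simp only [mul_assoc]
  have e1 : ∀ n < 4096, p⁻¹ * σ n * p⁻¹⁻¹ = σ (om (om n)) := fun n hn => by
    rw [cj2, h.p_sig w d hn, h.p_sig w d (om_lt n)]
  have e2 := d.nm1 n
  rw [nm, h.p_sig w d hn, h.p_sig w d (om_lt n)] at e2
  rw [this, nm, e1 n hn, e1 _ (om_lt _), om3 (om_lt n), mul_assoc (σ n), cm_spec h.lq.ez (d.mem _) (d.mem (om n)),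
    ← mul_assoc (σ n), ← mul_assoc (σ n), e2, one_mul, hb _ (om_lt _) _ (om_lt _), bf_om (om_lt _) hn,
    qf_eq (by omega), bb_eq hn hn, ← zp_comm h.lq.ez hs, mul_inv_cancel_right, om_om hn,
    bf_left _ _ (by omega), ← hb n hn n hn, cm_self, Nat.xor_zero]

theorem act_of {k : G} (hk : k ∈ 𝐂[z]) {M e : ℕ} (he : e < 2) (hM : ∀ n < 4096, lin M n < 4096) (h12 : col M 12 = 4096)
    (ha : ∀ n < 4096, k * σ n * k⁻¹ = σ (lin M n) * z ^ (e &&& qf n)) : Act (cc z σ) k M e := by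
  intro n hn
  have a1 : n % 4096 < 4096 := Nat.mod_lt _ (by norm_num)
  have a2 : n / 4096 < 2 := by omega
  have a3 : e &&& qf n < 2 := lt_of_le_of_lt Nat.and_le_right (qf_lt n)
  have e1 : lin M n = lin M (n % 4096) ^^^ 4096 * (n / 4096) := by
    conv_lhs => rw [split13 hn]
    rw [lin_xor13 M (by omega) (by omega)]
    congr 1
    interval_cases n / 4096
    · exact lin_zero M
    · exact (lin_pow M (j := 12) (by norm_num)).trans h12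
  have l := hM _ a1
  have e2 : hact M e n % 4096 = lin M (n % 4096) := by
    rw [hact_eq, xor_mul_mod, e1, xor_mul_mod, Nat.mod_eq_of_lt l]
  have e3 : hact M e n / 4096 = n / 4096 ^^^ (e &&& qf n) := by
    rw [hact_eq, xor_mul_div, e1, xor_mul_div, Nat.div_eq_of_lt l, Nat.zero_xor]
  have a4 : n / 4096 ^^^ (e &&& qf n) < 2 := xor_lt' (n := 1) a2 a3
  refine ⟨by omega, ?_⟩
  unfold cc
  rw [e2, e3, ← conj_mul, ha _ a1, qf_mod, zpow_xor h.lq.ez.sq a2 a3, ← zp_comm h.lq.ez hk, mul_inv_cancel_right,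
    mul_assoc, ((Commute.refl z).pow_pow _ _).eq]

end J0

end CA.J4
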