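import Cfsg.Agent.Lib.J4.Hyp3

/-!
Existence of the model `JH` of the involution centralizer.
-/

set_option autoImplicit false

namespace CA.J4
open Cfsg CA.Gol CA.Ex2 CA.Core Subgroup

variable {G : Type*} [Group G] {E : Subgroup G} {z p : G}

/-- `v` is a nonzero multiple of `m` -/
def sim (m v : ℕ) : Prop := v = m ∨ v = om m ∨ v = om (om m)

theorem sim.lt {m v : ℕ} (hm : m < 4096) (h : sim m v) : v < 4096 := by
  rcases h with rfl | rfl | rfl
  exacts [hm, om_lt _, om_lt _]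

theorem sim.trans {m v u : ℕ} (hm : m < 4096) (h : sim m v) (h' : sim v u) : sim m u := by
  have e1 := om3 hm
  have e2 := om3 (om_lt m)
  unfold sim at *
  generalize om = o at *
  rcases h with h | h | h <;> rcases h' with h' | h' | h' <;> rw [h', h] <;> simp [e1, e2]

theorem sim.map {M m v : ℕ} (hm : m < 4096) (hM : ∀ n < 4096, lin M (om n) = om (lin M n)) (h : sim m v) :
    sim (lin M m) (lin M v) := by
  rcases h with rfl | rfl | rfl
  · exact Or.inl rfl
  · exact Or.inr (Or.inl (hM _ hm))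
  · exact Or.inr (Or.inr (by rw [hM _ (om_lt _), hM _ hm]))

/-- Boolean form of `sim` -/
def simB (m v : ℕ) : Bool := force m fun m => force v fun v => Nat.beq v m || force (om m) fun m' =>
  Nat.beq v m' || Nat.beq v (om m')

theorem simB_iff {m v : ℕ} : simB m v = true ↔ sim m v := by
  simp only [simB, force_eq, Bool.or_eq_true, beq_iff, sim]

theorem pr2_eq (n v : ℕ) : pr2 (lin BN n) (lin BN (om n)) v = bf v n + 2 * bf v (om n) := by
  unfold pr2 bf bil; rfl

theorem pr2_om {n u : ℕ} (hn : n < 4096) (hu : u < 4096)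
    (e : pr2 (lin BN n) (lin BN (om n)) (om u) = pr2 (lin BN n) (lin BN (om n)) u) :
    pr2 (lin BN n) (lin BN (om n)) u = 0 := by
  rw [pr2_eq, pr2_eq, bf_om hu hn] at e
  rw [pr2_eq]
  have : bf (om u) n = bf u (om n) ^^^ bf u n := by
    conv_lhs => rw [← om3 hn]
    rw [bf_om hu (om_lt _), om_om hn, bf_right _ ((om_lt _).trans (by norm_num)) (by omega)]
  rw [this] at e
  have h1 := bf_lt u n
  have h2 := bf_lt u (om n)
  generalize bf u n = a at *
  generalize bf u (om n) = b at *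
  interval_cases a <;> interval_cases b <;> simp_all

theorem sel_abs {o P : ℕ → ℕ} {m v t : ℕ} (h : v = m ∨ v = o m ∨ v = o (o m)) (ht : t ≠ 0) (e : P v = t)
    (k1 : P (o m) = P m → P m = 0) (k2 : P (o (o m)) = P (o m) → P (o m) = 0)
    (k3 : P m = P (o (o m)) → P (o (o m)) = 0) :
    (force m fun m => Bool.rec (force (o m) fun m' => Bool.rec (o m') m' (Nat.beq (P m') t)) m (Nat.beq (P m) t))
      = v := by
  rw [force_eq, force_eq]
  cases h1 : Nat.beq (P m) t
  · cases h2 : Nat.beq (P (o m)) t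
    · rw [beq_false_iff] at h1 h2
      rcases h with rfl | rfl | rfl
      · exact absurd e h1
      · exact absurd e h2
      · rfl
    · rw [beq_false_iff] at h1; rw [beq_iff] at h2
      rcases h with rfl | rfl | rfl
      · exact absurd e h1
      · rfl
      · exact absurd (h2 ▸ k2 (e.trans h2.symm)) ht
  · rw [beq_iff] at h1
    rcases h with rfl | rfl | rfl
    · rfl
    · exact absurd (h1 ▸ k1 (e.trans h1.symm)) ht
    · exact absurd (e ▸ k3 (h1.trans e.symm)) ht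

theorem sel_eq {n m v t : ℕ} (hn : n < 4096) (hm : m < 4096) (h : sim m v) (ht : t ≠ 0)
    (e : pr2 (lin BN n) (lin BN (om n)) v = t) : sel (lin BN n) (lin BN (om n)) t m = v := by
  have k3 := pr2_om hn (om_lt (om m))
  rw [om3 hm] at k3
  exact sel_abs (o := om) (P := pr2 (lin BN n) (lin BN (om n))) h ht e (pr2_om hn hm) (pr2_om hn (om_lt m)) k3

theorem rep_cns {W : Type*} [AddCommGroup W] {c : ℕ → W} (h : Crd c) {T : AddMonoid.End W} {M : ℕ} (R : Rep c T M)
    (hM : ∀ n < 4096, lin M (om n) = om (lin M n)) :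
    Rep c T (cns (lin M 1) (cns (lin M 4) (cns (lin M 16) (cns (lin M 64) (cns (lin M 256) (cns (lin M 1024) 4096)))))) ∧
    col (cns (lin M 1) (cns (lin M 4) (cns (lin M 16) (cns (lin M 64) (cns (lin M 256) (cns (lin M 1024) 4096)))))) 12
      = 4096 := by
  have l := lin_lt M
  have l' : ∀ n, om n < 65536 := fun n => (om_lt n).trans (by norm_num)
  have od : ∀ {n m : ℕ}, n < 4096 → m = om n → om (lin M n) < 4096 ∧ T (c m) = c (om (lin M n)) := by
    intro n m hn em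
    exact ⟨om_lt _, by rw [em, (R _ (om_lt n)).2, hM n hn]⟩
  constructor
  · refine rep_of_basis h.add fun j hj => ?_
    interval_cases j <;>
      simp only [cns, force_eq, col_cons_succ (l _), col_cons_succ (l' _), col_cons_zero (l _), col_cons_zero (l' _)]
    · exact R 1 (by norm_num)
    · exact od (by norm_num) (by decide +kernel)
    · exact R 4 (by norm_num)
    · exact od (by norm_num) (by decide +kernel)
    · exact R 16 (by norm_num)
    · exact od (by norm_num) (by decide +kernel)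
    · exact R 64 (by norm_num)
    · exact od (by norm_num) (by decide +kernel)
    · exact R 256 (by norm_num)
    · exact od (by norm_num) (by decide +kernel)
    · exact R 1024 (by norm_num)
    · exact od (by norm_num) (by decide +kernel)
  · simp only [cns, force_eq, col_cons_succ (l _), col_cons_succ (l' _)]
    decide +kernel

theorem chk_gen : (allLt (fun a => allLt (fun b => simB (lv (ap xC a) (ap xC b)) (lin XN (lv a b)) &&
    simB (lv (ap fC a) (ap fC b)) (lin FN (lv a b))) 24) 24) = true := by decide +kernel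

namespace J0
variable [Finite G] {π : ↥𝐂[z] →* Pm} (h : J0 z p E π)
  {W : Type*} [AddCommGroup W] {φ : G → W} {ρ : G → AddMonoid.End W} (w : WD z E φ ρ)
  {c0 : ℕ → W} {σ : ℕ → G} (d : CD z p E φ ρ c0 σ)

/-- compatibility with the vectors attached to duads -/
def Good (p : G) (π : ↥𝐂[z] →* Pm) (ρ : G → AddMonoid.End W) (c0 : ℕ → W) (k : G) (M : ℕ) : Prop :=
  k ∈ 𝐂[z] ⊓ 𝐂[p] ∧ Rep c0 (ρ k) M ∧
    ∀ a < 24, ∀ b < 24, sim (lv (ap (code (pel π k)) a) (ap (code (pel π k)) b)) (lin M (lv a b))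

include h w d

theorem rep_om {k : G} (hk : k ∈ 𝐂[z] ⊓ 𝐂[p]) {M : ℕ} (R : Rep c0 (ρ k) M) :
    ∀ n < 4096, lin M (om n) = om (lin M n) := by
  intro n hn
  refine d.crd.inj (R _ (om_lt n)).1 (om_lt _) ?_
  rw [← (R _ (om_lt n)).2, om_eq hn, om_eq (R n hn).1, ← (d.ro n hn).2, ← (d.ro _ (R n hn).1).2, ← (R n hn).2,
    ← end_mul, h.ocomm w hk, end_mul]

theorem good_mul {k k' : G} {M M' : ℕ} (g : Good p π ρ c0 k M) (g' : Good p π ρ c0 k' M') :
    Good p π ρ c0 (k * k') (mm M M') := by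
  refine ⟨mul_mem g.1 g'.1, by rw [w.rmul (h.nE g.1.1) (h.nE g'.1.1)]; exact g.2.1.mul g'.2.1, fun a ha b hb => ?_⟩
  rw [pel_mul _ g.1.1 g'.1.1, ap_mul_code _ _ ha, ap_mul_code _ _ hb,
    lin_mm12 M (fun n hn => (g'.2.1 n hn).1) (lv_lt a b)]
  exact (g.2.2 _ (ap_code_lt _ ha) _ (ap_code_lt _ hb)).trans (lv_lt _ _)
    ((g'.2.2 a ha b hb).map (lv_lt _ _) (h.rep_om w d g.1 g.2.1))

theorem good_p : Good p π ρ c0 p OM := by
  refine ⟨⟨h.p_mem, self_mem_cent1 p⟩, d.ro, fun a ha b hb => ?_⟩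
  rw [h.pi_p, ap_code 1 ha, ap_code 1 hb, Equiv.Perm.one_apply, Equiv.Perm.one_apply, ix_pt ha, ix_pt hb,
    ← om_eq (lv_lt a b)]
  exact Or.inr (Or.inl rfl)

theorem exists_good {x f : G} (hx : x ∈ 𝐂[z] ⊓ 𝐂[p]) (hf : f ∈ 𝐂[z] ⊓ 𝐂[p]) (RX : Rep c0 (ρ x) XN)
    (RF : Rep c0 (ρ f) FN) (ex : pel π x = x0) (ef : pel π f = f0) {g : Pm} (hg : g ∈ Spor.M22) :
    ∃ k M, Good p π ρ c0 k M ∧ pel π k = g ∧ lin M 1821 = lv (ap (code g) 13) (ap (code g) 19) := by
  let S : Submonoid Pm :=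
    { carrier := {g | ∃ k M, Good p π ρ c0 k M ∧ pel π k = g}
      mul_mem' := by
        rintro _ _ ⟨k, M, g, rfl⟩ ⟨k', M', g', rfl⟩
        exact ⟨_, _, h.good_mul w d g g', pel_mul _ g.1.1 g'.1.1⟩
      one_mem' := ⟨p, OM, h.good_p w d, h.pi_p⟩ }
  let K : Subgroup Pm := { S with
    inv_mem' := fun {g} hg => by
      have : g⁻¹ = g ^ (orderOf g - 1) := by
        rw [inv_eq_iff_mul_eq_one, ← pow_succ', Nat.sub_add_cancel (orderOf_pos g), pow_orderOf_eq_one]
      rw [this]; exact S.pow_mem hg _ }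
  have c := allLt_iff.1 chk_gen
  simp only [allLt_iff, Bool.and_eq_true, simB_iff] at c
  obtain ⟨k, M, gd, rfl⟩ : g ∈ K := M22_le_of (K := K)
    ⟨x, XN, ⟨hx, RX, fun a ha b hb => by rw [ex, cx]; exact (c a ha b hb).1⟩, ex⟩
    ⟨f, FN, ⟨hf, RF, fun a ha b hb => by rw [ef, cf]; exact (c a ha b hb).2⟩, ef⟩ hg
  have e7 : lv 13 19 = 1821 := by decide +kernel
  have s := gd.2.2 13 (by norm_num) 19 (by norm_num)
  rw [e7] at s
  have lt := (gd.2.1 1821 (by norm_num)).1
  have st : ∀ {k M}, Good p π ρ c0 k M → Good p π ρ c0 (p * k) (mm OM M) ∧ pel π (p * k) = pel π k ∧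
      lin (mm OM M) 1821 = om (lin M 1821) := fun {k M} gd =>
    ⟨h.good_mul w d (h.good_p w d) gd, by rw [pel_mul _ h.p_mem gd.1.1, h.pi_p, one_mul], by
      rw [lin_mm12 _ (fun n hn => (gd.2.1 n hn).1) (by norm_num), om_eq (gd.2.1 1821 (by norm_num)).1]⟩
  rcases s with s | s | s
  · exact ⟨k, M, gd, rfl, s⟩
  · obtain ⟨a1, a2, a3⟩ := st gd
    obtain ⟨b1, b2, b3⟩ := st a1
    exact ⟨_, _, b1, b2.trans a2, by rw [b3, a3, s, om3 (lv_lt _ _)]⟩
  · obtain ⟨a1, a2, a3⟩ := st gd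
    exact ⟨_, _, a1, a2, by rw [a3, s, om3 (lv_lt _ _)]⟩

theorem good_matOf (hb : ∀ a < 4096, ∀ b < 4096, cm (σ a) (σ b) = bf a b) {k : G} {M : ℕ} (g : Good p π ρ c0 k M)
    (e : lin M 1821 = lv (ap (code (pel π k)) 13) (ap (code (pel π k)) 19)) :
    Rep c0 (ρ k) (matOf (code (pel π k))) ∧ col (matOf (code (pel π k))) 12 = 4096 := by
  have ho := h.rep_om w d g.1 g.2.1
  have iv : ∀ x < 4096, ∀ y < 4096, bf (lin M x) (lin M y) = bf x y := fun x hx y hy => by
    rw [← hb _ (g.2.1 x hx).1 _ (g.2.1 y hy).1, ← h.conj_sig w d g.1 g.2.1 hx, ← h.conj_sig w d g.1 g.2.1 hy, cm_conj,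
      hb x hx y hy]
  have key : ∀ {a b v t : ℕ}, a < 24 → b < 24 → v < 4096 → t ≠ 0 →
      (simB (lv a b) v && Nat.beq (bf v 1821 + 2 * bf v (om 1821)) t) = true →
      sel (lin BN (lv (ap (code (pel π k)) 13) (ap (code (pel π k)) 19)))
        (lin BN (om (lv (ap (code (pel π k)) 13) (ap (code (pel π k)) 19)))) t
        (lv (ap (code (pel π k)) a) (ap (code (pel π k)) b)) = lin M v := by
    intro a b v t ha hb hv ht c
    rw [Bool.and_eq_true, simB_iff, beq_iff] at c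
    refine sel_eq (lv_lt _ _) (lv_lt _ _) ((g.2.2 a ha b hb).trans (lv_lt _ _) (c.1.map (lv_lt _ _) ho)) ht ?_
    rw [pr2_eq, ← e, ← ho _ (by norm_num), iv _ hv _ (by norm_num), iv _ hv _ (om_lt _), c.2]
  unfold matOf
  simp only [force_eq]
  rw [key (v := 1) (by norm_num) (by norm_num) (by norm_num) (by norm_num) (by decide +kernel),
    key (v := 4) (by norm_num) (by norm_num) (by norm_num) (by norm_num) (by decide +kernel),
    key (v := 16) (by norm_num) (by norm_num) (by norm_num) (by norm_num) (by decide +kernel),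
    key (v := 64) (by norm_num) (by norm_num) (by norm_num) (by norm_num) (by decide +kernel),
    key (v := 256) (by norm_num) (by norm_num) (by norm_num) (by norm_num) (by decide +kernel),
    key (v := 1024) (by norm_num) (by norm_num) (by norm_num) (by norm_num) (by decide +kernel)]
  exact rep_cns d.crd g.2.1 ho

theorem jh_of {x f : G} (hx : x ∈ 𝐂[z] ⊓ 𝐂[p]) (hf : f ∈ 𝐂[z] ⊓ 𝐂[p]) (RX : Rep c0 (ρ x) XN)
    (RF : Rep c0 (ρ f) FN) (ex : pel π x = x0) (ef : pel π f = f0) (nx : x ^ 11 ∈ zpowers z)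
    (nf : f ^ 4 ∈ zpowers z) : ∃ s, JH z p s E π (cc z σ) := by
  have hb := h.cm_sig w d hx hf RX RF
  have ez := h.lq.ez
  obtain ⟨s, hs, sp, es⟩ := h.exists_s
  have hsN : s ∈ 𝐂[z] ⊓ 𝐍(zpowers p) := ⟨hs, mem_normalizer_iff_cj.2 (by rw [cj_zpowers, sp, zpowers_inv])⟩
  have pi : p⁻¹ = p * p := by rw [inv_eq_iff_mul_eq_one, ← p3 h.p_ord, pow_succ', pow_two]
  obtain ⟨j, -, RS⟩ := step_S d.crd d.ro RX RF (S := ρ s) (by
      rw [← w.rmul (h.nE h.p_mem) (h.nE h.p_mem), ← w.rmul (h.nE hs) (h.nE h.p_mem),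
        ← w.rmul (h.nE (mul_mem h.p_mem h.p_mem)) (h.nE hs), ← pi, ← sp]
      congr 1; group)
    (h.rrel w hx hsN nx (by norm_num) (by rw [ex, es, sx]))
    (by have := h.rrel w hf hsN (r := 1) nf (by norm_num) (by rw [ef, es, pow_one, sf]); rwa [pow_one] at this)
    (fun v e => by
      have := congrArg (ρ s⁻¹) e
      rwa [← end_mul, ← w.rmul (h.nE (inv_mem hs)) (h.nE hs), inv_mul_cancel, w.rone, end_one, map_zero] at this)
  rw [← w.rpow (h.nE h.p_mem), ← w.rmul (h.nE hs) (h.nE (pow_mem h.p_mem j))] at RS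
  have hs' := mul_mem hs (pow_mem h.p_mem j)
  have sp' : s * p ^ j * p * (s * p ^ j)⁻¹ = p⁻¹ := by rw [← sp]; group
  have s0' : σ 0 = 1 := by
    have := h.eq_can w (one_mem E) (d.mem 0) (by rw [w.one, d.phi, d.crd.zero]) (by simp [nm]) (a := 0)
      (by rw [d.nm1, pow_zero])
    simpa using this
  have aux : ∀ {k M}, k ∈ 𝐂[z] ⊓ 𝐂[p] → Rep c0 (ρ k) M → col M 12 = 4096 → Act (cc z σ) k M 0 :=
    fun {k M} hk R h12 => h.act_of w d hb hk.1 (by norm_num) (fun n hn => (R n hn).1) h12 fun n hn => by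
      rw [h.conj_sig w d hk R hn, Nat.zero_and, pow_zero, mul_one]
  refine ⟨s * p ^ j, h.lq, h.oP_eq, h.cc_mul w d hb, ?_, ?_, ?_, h.p_ord, h.p_mem, h.range, h.ker,
    aux ⟨h.p_mem, self_mem_cent1 p⟩ d.ro (by decide +kernel), ?_, hs', sp', ?_, ?_⟩
  · intro a ha b hb e
    unfold cc at e
    have e1 := congrArg φ e
    rw [w.mul_z ez (d.mem _), w.mul_z ez (d.mem _), d.phi, d.phi] at e1
    have e2 := d.crd.inj (Nat.mod_lt _ (by norm_num)) (Nat.mod_lt _ (by norm_num)) e1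
    rw [e2, mul_right_inj] at e
    have := zpow_inj ez.ne_one (by omega) (by omega) e
    omega
  · intro y
    constructor
    · intro hy
      obtain ⟨a, ha, e⟩ := d.crd.surj (φ y)
      obtain ⟨t, ht, e1⟩ := w.exists_z ez (d.mem a) hy (by rw [d.phi, e])
      refine ⟨a + 4096 * t, by omega, ?_⟩
      unfold cc
      rw [e1, Nat.add_mul_mod_self_left, Nat.mod_eq_of_lt ha, Nat.add_mul_div_left _ _ (by norm_num),
        Nat.div_eq_of_lt ha, zero_add]
    · rintro ⟨a, _, rfl⟩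
      exact mul_mem (d.mem _) (pow_mem ez.mem _)
  · show σ 0 * z ^ 1 = z
    rw [s0', one_mul, pow_one]
  · intro g hg
    obtain ⟨k, M, gd, rfl, e⟩ := h.exists_good w d hx hf RX RF ex ef hg
    obtain ⟨R, h12⟩ := h.good_matOf w d hb gd e
    exact ⟨k, gd.1, rfl, aux gd.1 R h12⟩
  · rw [pel_mul _ hs (pow_mem h.p_mem j), pel_pow _ h.p_mem, h.pi_p, one_pow, mul_one, es]
  · refine h.act_of w d hb hs' (by norm_num) (fun n hn => (RS n hn).1) (by decide +kernel) fun n hn => ?_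
    rw [h.s_sig w d hb hs' sp' RS hn]
    congr 2
    have := qf_lt n
    interval_cases qf n <;> rfl

end J0

theorem exists_JH [Finite G] {P : Subgroup G} (hJ : IsOfJankoFourTypeWith z P) :
    ∃ p s E π c, P = zpowers p ∧ JH z p s E π c := by
  obtain ⟨p, E, π, rfl, h⟩ := exists_J0 hJ
  obtain ⟨W, _, _, φ, ρ, w⟩ := exists_WD h.lq.ez
  obtain ⟨c0, x, hx, f, hf, C, R, ex, ef, nx, nf, RX, RF⟩ := h.exists_crd w
  rcases R with R | R
  · choose σ h1 h2 h3 using fun n => h.exists_can w (c0 n)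
    obtain ⟨s, hs⟩ := h.jh_of w ⟨C, R, h1, h2, h3⟩ hx hf RX RF ex ef nx nf
    exact ⟨p, s, E, π, _, rfl, hs⟩
  · have h' := h.sq
    choose σ h1 h2 h3 using fun n => h'.exists_can w (c0 n)
    have e : zpowers (p * p) = zpowers p := eq_of_le_of_card_eq
      (zpowers_le.2 (mul_mem (mem_zpowers p) (mem_zpowers p)))
      (by rw [Nat.card_zpowers, Nat.card_zpowers, h'.p_ord, h.p_ord])
    have e' : 𝐂[p * p] = 𝐂[p] := by rw [← cent_zpowers, e, cent_zpowers]
    obtain ⟨s, hs⟩ := h'.jh_of w ⟨C, R, h1, h2, h3⟩ (e' ▸ hx) (e' ▸ hf) RX RF ex ef nx nf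
    exact ⟨p * p, s, E, π, _, e.symm, hs⟩

end CA.J4
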