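import Cfsg.Agent.Lib.J4.Hyp1
import Cfsg.Agent.Lib.XS.Todd
import Cfsg.Agent.Lib.XS.TwoCls

/-!
The 2-local interface `Two` for groups of type `J4` and the calculus in `M = N(V) = 2^11 : M24`.
-/

set_option autoImplicit false
set_option linter.unusedSectionVars false
set_option linter.unusedVariables false

namespace CA.J4
open Cfsg CA.Gol CA.Ex2 CA.XS Subgroup
open scoped Pointwise

variable {G : Type*} [Group G]

/-- The 2-local structure: `N(V) = V : K` with `K = M24` acting on the Todd module `V`; two classes of involutions. -/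
structure Two (z : G) (V K : Subgroup G) (ν : Finset GolayPt → G) : Prop where
  todd : Todd V ν
  cent : 𝐂(V) ≤ V
  act : ∀ n ∈ 𝐍(V), ∃ g, Acts ν n g
  K_inf : K ⊓ V = ⊥
  onto : ∀ g ∈ M24, ∃ k ∈ K, Acts ν k g
  zV : ∃ s, s.card = 4 ∧ ν s = z
  duad : ∀ a b, a ≠ b → ¬ IsConj z (ν {a, b}) ∧ 𝐂[ν {a, b}] ≤ 𝐍(V)
  two : ∀ i : G, orderOf i = 2 → IsConj z i ∨ ∃ a b, a ≠ b ∧ IsConj (ν {a, b}) i

/-- the split model of `N(V)` -/
structure MM (V : Subgroup G) (ν : Finset GolayPt → G) (κ : M24 →* G) : Prop where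
  todd : Todd V ν
  cent : 𝐂(V) ≤ V
  act : ∀ n ∈ 𝐍(V), ∃ g, Acts ν n g
  acts : ∀ g : M24, Acts ν (κ g) g

theorem Two.exists_mm {z : G} {V K : Subgroup G} {ν : Finset GolayPt → G} (h : Two z V K ν) :
    ∃ κ : M24 →* G, MM V ν κ := by
  choose k hk ha using h.onto
  have uq : ∀ {a b : G} {g : Pm}, a ∈ K → b ∈ K → Acts ν a g → Acts ν b g → a = b := fun {a b g} h1 h2 h3 h4 => by
    have := h3.inv.mul h4
    rw [inv_mul_cancel, h.todd.acts_one_iff] at this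
    have : a⁻¹ * b ∈ K ⊓ V := ⟨K.mul_mem (K.inv_mem h1) h2, h.cent this⟩
    rw [h.K_inf, mem_bot, inv_mul_eq_one] at this
    exact this
  exact ⟨MonoidHom.mk' (fun g => k g g.2) fun a b => uq (hk _ _) (K.mul_mem (hk _ _) (hk _ _)) (ha _ _)
    ((ha _ _).mul (ha _ _)), h.todd, h.cent, h.act, fun g => ha g g.2⟩

/-! ### codes of elements of `V` and `M` -/

/-- even subsets -/
def ev (m : ℕ) : Bool := Nat.blt m 16777216 && Nat.beq (Nat.land (popc m) 1) 0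

theorem ev_lt {m : ℕ} (h : ev m = true) : m < 2 ^ 24 := by
  rw [ev, Bool.and_eq_true, blt_iff] at h; exact h.1

theorem ev_iff {m : ℕ} (hm : m < 2 ^ 24) : ev m = true ↔ Even (fs m).card := by
  rw [ev, Bool.and_eq_true, blt_iff, beq_iff, card_fs, Nat.even_iff]
  show _ ∧ popc m &&& 1 = 0 ↔ _
  rw [Nat.and_one_is_mod]; exact and_iff_right hm

theorem ev_even {m : ℕ} (h : ev m = true) : Even (fs m).card := (ev_iff (ev_lt h)).1 h

theorem ev_mask {s : Finset GolayPt} (h : Even s.card) : ev (mask s) = true :=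
  (ev_iff (mask_lt s)).2 (by rwa [fs_mask])

theorem ev_xor {a b : ℕ} (ha : ev a = true) (hb : ev b = true) : ev (Nat.xor a b) = true :=
  (ev_iff (xor_lt (ev_lt ha) (ev_lt hb))).2 (by rw [fs_xor]; exact even_symmDiff (ev_even ha) (ev_even hb))

theorem ev_apM (g : Pm) {a : ℕ} (ha : ev a = true) : ev (apM (code g) a) = true :=
  (ev_iff (apM_lt g (ev_lt ha))).2 (by rw [← smul_fs g (ev_lt ha), card_smul]; exact ev_even ha)

theorem ev_zero : ev 0 = true := by decide +kernel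

/-- equality in the cocode -/
def eqv (a b : ℕ) : Bool := isCode (Nat.xor a b)

/-- representative with zero low half -/
def hi (j : ℕ) : ℕ := Nat.mul j 4096

/-- valid code of an element of `M` -/
def okE (a : ℕ × ℕ) : Bool := ev a.1 && inM24 a.2
/-- product of codes -/
def mulE (a b : ℕ × ℕ) : ℕ × ℕ := (Nat.xor a.1 (apM a.2 b.1), mul a.2 b.2)
/-- equality of codes -/
def eqE (a b : ℕ × ℕ) : Bool := eqv a.1 b.1 && Nat.beq a.2 b.2

theorem okE_ev {a : ℕ × ℕ} (h : okE a = true) : ev a.1 = true := by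
  rw [okE, Bool.and_eq_true] at h; exact h.1
theorem okE_in {a : ℕ × ℕ} (h : okE a = true) : inM24 a.2 = true := by
  rw [okE, Bool.and_eq_true] at h; exact h.2
theorem okE_mk {m c : ℕ} (h : ev m = true) (h' : inM24 c = true) : okE (m, c) = true := by
  rw [okE, Bool.and_eq_true]; exact ⟨h, h'⟩
theorem okE_code {m : ℕ} {g : Pm} (h : ev m = true) (h' : g ∈ M24) : okE (m, code g) = true :=
  okE_mk h (mem_M24_iff_code.1 h')

theorem inM24_mul {a b : ℕ} (ha : inM24 a = true) (hb : inM24 b = true) : inM24 (mul a b) = true := by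
  rw [← code_perm' ha, ← code_perm' hb, ← code_mul, ← mem_M24_iff_code]
  exact M24.mul_mem (perm_mem_M24 ha) (perm_mem_M24 hb)

theorem okE_mul {a b : ℕ × ℕ} (ha : okE a = true) (hb : okE b = true) : okE (mulE a b) = true :=
  okE_mk (ev_xor (okE_ev ha) (by rw [← code_perm' (okE_in ha)]; exact ev_apM _ (okE_ev hb)))
    (inM24_mul (okE_in ha) (okE_in hb))

theorem oneC_in : inM24 oneC = true := by decide +kernel

theorem perm_pow' {a : ℕ} (ha : inM24 a = true) (n : ℕ) : perm a ^ n = perm (powC a n) := by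
  apply eq_perm_of_code; rw [code_pow, code_perm' ha]

theorem perm_mul' {a b : ℕ} (ha : inM24 a = true) (hb : inM24 b = true) : perm a * perm b = perm (mul a b) :=
  (perm_mul (inM24_valid ha) (inM24_valid hb)).symm

theorem perm_eq_iff {a b : ℕ} (ha : inM24 a = true) (hb : inM24 b = true) : perm a = perm b ↔ a = b :=
  ⟨fun h => by rw [← code_perm' ha, h, code_perm' hb], fun h => by rw [h]⟩

/-- intertwining test -/
def iw (c a b : ℕ) : Bool := Nat.beq (mul c a) (mul b c)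

theorem iw_iff {g : Pm} {s t : ℕ} (hs : inM24 s = true) (ht : inM24 t = true) :
    iw (code g) s t = true ↔ g * perm s = perm t * g := by
  rw [iw, beq_iff, ← code_injective.eq_iff, code_mul, code_mul, code_perm' hs, code_perm' ht]

theorem cmC_iff' {g : Pm} {s : ℕ} (hs : inM24 s = true) : cmC (code g) s = true ↔ g * perm s = perm s * g :=
  iw_iff hs hs

theorem sat_cj' {g : Pm} {s t : ℕ} (hs : inM24 s = true) (ht : inM24 t = true) (e : g * perm s = perm t * g) :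
    Sat (pCj s t) (code g) := by
  have := sat_cj e
  rwa [code_perm' hs, code_perm' ht] at this

theorem perm_conj {k a b : ℕ} (h : (inM24 k && inM24 a && inM24 b && iw k a b) = true) :
    perm k * perm a * (perm k)⁻¹ = perm b := by
  simp only [Bool.and_eq_true] at h
  rw [mul_inv_eq_iff_eq_mul, ← iw_iff h.1.1.2 h.1.2, code_perm' h.1.1.1]; exact h.2

/-- set stabiliser test -/
def st (c m : ℕ) : Bool := Nat.beq (apM c m) m

theorem st_iff {g : Pm} {m : ℕ} (hm : m < 2 ^ 24) : st (code g) m = true ↔ g • fs m = fs m := by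
  rw [smul_fs_eq_iff g hm hm, st, beq_iff]

theorem card_of_count {P : PC} {k ki n : ℕ} {leaf : ℕ → Bool}
    (h : (inM24 k && valid ki && Nat.beq (mul k ki) oneC && Nat.beq (count24 P k ki leaf) n) = true)
    {H : Subgroup Pm} (h1 : ∀ g ∈ H, g ∈ M24 ∧ Sat P (code g) ∧ leaf (code g) = true)
    (h2 : ∀ g ∈ M24, leaf (code g) = true → g ∈ H) : Nat.card H = n := by
  rw [Bool.and_eq_true, beq_iff] at h
  rw [← h.2, ← count24_sound h.1 (H : Set Pm) h1 h2]; rfl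

/-- order of the centralizer in `M24` -/
theorem card_cent24 {a k ki n : ℕ} (ha : inM24 a = true)
    (h : (inM24 k && valid ki && Nat.beq (mul k ki) oneC && Nat.beq (count24 (pCj a a) k ki (cmC · a)) n) = true) :
    Nat.card ↥(M24 ⊓ 𝐂[perm a]) = n :=
  card_of_count h (fun g hg => ⟨hg.1, sat_cj' ha ha (mem_cent1_iff.1 hg.2), (cmC_iff' ha).2 (mem_cent1_iff.1 hg.2)⟩)
    fun g hg h => ⟨hg, mem_cent1_iff.2 ((cmC_iff' ha).1 h)⟩

theorem satD2 {g : Pm} (h : g ∈ D2) : Sat (pSet DD DD) (code g) := sat_set h.2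

theorem DD_lt : DD < 2 ^ 24 := by decide

/-- order of the centralizer in `D2` -/
theorem card_centD2 {a k ki n : ℕ} (ha : inM24 a = true)
    (h : (inM24 k && valid ki && Nat.beq (mul k ki) oneC &&
      Nat.beq (count24 (pAnd (pSet DD DD) (pCj a a)) k ki fun c => st c DD && cmC c a) n) = true) :
    Nat.card ↥(D2 ⊓ 𝐂[perm a]) = n :=
  card_of_count h (fun g hg => ⟨hg.1.1, (satD2 hg.1).and (sat_cj' ha ha (mem_cent1_iff.1 hg.2)), by
      rw [Bool.and_eq_true]; exact ⟨(st_iff DD_lt).2 hg.1.2, (cmC_iff' ha).2 (mem_cent1_iff.1 hg.2)⟩⟩)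
    fun g hg h => by
      rw [Bool.and_eq_true] at h
      exact ⟨⟨hg, (st_iff DD_lt).1 h.1⟩, mem_cent1_iff.2 ((cmC_iff' ha).1 h.2)⟩

/-- the element of `M` with a given code -/
noncomputable def el (ν : Finset GolayPt → G) (κ : M24 →* G) (a : ℕ × ℕ) : G := ν (fs a.1) * pel κ (perm a.2)

namespace MM
variable {V : Subgroup G} {ν : Finset GolayPt → G} {κ : M24 →* G} (h : MM V ν κ)
include h

theorem acts' {g : Pm} (hg : g ∈ M24) : Acts ν (pel κ g) g := by rw [pel_of_mem _ hg]; exact h.acts ⟨g, hg⟩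

theorem k_mem {g : Pm} (hg : g ∈ M24) : pel κ g ∈ 𝐍(V) := h.todd.acts_norm (h.acts' hg)

theorem V_le : V ≤ 𝐍(V) := le_normalizer

theorem v_mem {m : ℕ} (hm : ev m = true) : ν (fs m) ∈ V := h.todd.nu_mem (ev_even hm)

theorem v_xor {a b : ℕ} (ha : ev a = true) (hb : ev b = true) : ν (fs (Nat.xor a b)) = ν (fs a) * ν (fs b) := by
  rw [fs_xor, h.todd.mul _ _ (ev_even ha) (ev_even hb)]

theorem v_eq_iff {a b : ℕ} (ha : ev a = true) (hb : ev b = true) : ν (fs a) = ν (fs b) ↔ eqv a b = true := by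
  rw [h.todd.eq_iff (ev_even ha) (ev_even hb), ← fs_xor, fs_mem_CW_iff (xor_lt (ev_lt ha) (ev_lt hb)), eqv]

theorem v_zero : ν (fs 0) = 1 := by rw [fs_zero, h.todd.empty]

theorem v_eq_one {a : ℕ} (ha : ev a = true) : ν (fs a) = 1 ↔ isCode a = true := by
  rw [← h.v_zero, h.v_eq_iff ha ev_zero, eqv]; exact Iff.of_eq (by congr 2; exact Nat.xor_zero a)

theorem v_sq {a : ℕ} (ha : ev a = true) : ν (fs a) * ν (fs a) = 1 := h.todd.sq (ev_even ha)

theorem v_inv {v : G} (hv : v ∈ V) : v⁻¹ = v := inv_eq_of_mul_eq_one_right (h.todd.mul_self hv)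

theorem conj_v {g : Pm} (hg : g ∈ M24) {a : ℕ} (ha : ev a = true) :
    pel κ g * ν (fs a) * (pel κ g)⁻¹ = ν (fs (apM (code g) a)) := by
  rw [h.acts' hg _ (ev_even ha), smul_fs g (ev_lt ha)]

theorem exists_v {v : G} (hv : v ∈ V) : ∃ m, ev m = true ∧ ν (fs m) = v := by
  obtain ⟨s, hs, rfl⟩ := (h.todd.mem v).1 hv
  exact ⟨mask s, ev_mask hs, by rw [fs_mask]⟩

theorem exists_hi {v : G} (hv : v ∈ V) : ∃ j < 4096, ev (hi j) = true ∧ ν (fs (hi j)) = v := by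
  obtain ⟨s, hs, rfl⟩ := (h.todd.mem v).1 hv
  obtain ⟨j, hj, e⟩ := exists_high_rep s
  have hl : hi j < 2 ^ 24 := by show j * 4096 < _; omega
  have he : Even (fs (hi j)).card := by
    have := even_symmDiff hs (even_of_CW e)
    rwa [symmDiff_symmDiff_cancel_left] at this
  exact ⟨j, hj, (ev_iff hl).2 he, ((h.todd.eq_iff hs he).2 e).symm⟩

theorem hi_inj {i j : ℕ} (hi' : i < 4096) (hj : j < 4096) (ei : ev (hi i) = true) (ej : ev (hi j) = true)
    (e : ν (fs (hi i)) = ν (fs (hi j))) : i = j := by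
  rw [h.v_eq_iff ei ej, eqv, isCode, beq_iff] at e
  have e1 : Nat.xor (hi i) (hi j) = (i ^^^ j) * 4096 := by
    show (i * 2 ^ 12) ^^^ (j * 2 ^ 12) = (i ^^^ j) * 2 ^ 12
    rw [← Nat.shiftLeft_eq, ← Nat.shiftLeft_eq, ← Nat.shiftLeft_eq, Nat.shiftLeft_xor_distrib]
  have e2 : Nat.land ((i ^^^ j) * 4096) 4095 = 0 := by
    show ((i ^^^ j) * 4096) &&& (2 ^ 12 - 1) = 0
    rw [Nat.and_two_pow_sub_one_eq_mod]; omega
  rw [e1, e2, show enc 0 = 0 by decide +kernel] at e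
  exact Nat.eq_of_xor_eq_zero (by omega)

theorem forall_V {P : G → Prop} {p : ℕ → Bool} (hp : allLt (fun j => !(ev (hi j)) || p (hi j)) 4096 = true)
    (H : ∀ m, ev m = true → p m = true → P (ν (fs m))) {v : G} (hv : v ∈ V) : P v := by
  obtain ⟨j, hj, e, rfl⟩ := h.exists_hi hv
  have := allLt_iff.1 hp j hj
  rw [e] at this
  exact H _ e this

theorem ncard_V {S : Set G} {p : ℕ → Bool} (hS : S ⊆ V) (H : ∀ m, ev m = true → (ν (fs m) ∈ S ↔ p m = true)) :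
    S.ncard = countLt (fun j => ev (hi j) && p (hi j)) 4096 := by
  have F : Fam (V : Set G) (fun j => ν (fs (hi j))) (fun j => ev (hi j)) 4096 :=
    ⟨fun i _ e => h.v_mem e, fun x hx => by
      obtain ⟨j, hj, e, rfl⟩ := h.exists_hi hx
      exact ⟨j, hj, e, rfl⟩, fun i hi' j hj ei ej e => h.hi_inj hi' hj ei ej e⟩
  rw [← F.ncard (P := (· ∈ S)) fun i _ e => H _ e]
  congr 1; ext x; exact ⟨fun hx => ⟨hS hx, hx⟩, fun hx => hx.2⟩

theorem card_V_inf {A : Subgroup G} {p : ℕ → Bool} (H : ∀ m, ev m = true → (ν (fs m) ∈ A ↔ p m = true)) :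
    Nat.card ↥(V ⊓ A) = countLt (fun j => ev (hi j) && p (hi j)) 4096 :=
  h.ncard_V (S := (V ⊓ A : Subgroup G)) (fun _ hx => hx.1) fun m e => by
    rw [← H m e]; exact and_iff_right (h.v_mem e)

theorem acts_vk {v : G} (hv : v ∈ V) {g : Pm} (hg : g ∈ M24) : Acts ν (v * pel κ g) g := by
  simpa using (h.todd.acts_one_iff.2 (h.todd.le_cent hv)).mul (h.acts' hg)

theorem dec {n : G} (hn : n ∈ 𝐍(V)) : ∃ m, ev m = true ∧ ∃ g ∈ M24, n = ν (fs m) * pel κ g := by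
  obtain ⟨g, hg⟩ := h.act n hn
  have hg' := h.todd.acts_mem_M24 hg
  have := hg.mul (h.acts' hg').inv
  rw [mul_inv_cancel, h.todd.acts_one_iff] at this
  obtain ⟨m, hm, e⟩ := h.exists_v (h.cent this)
  exact ⟨m, hm, g, hg', by rw [e, inv_mul_cancel_right]⟩

theorem vk_eq_iff {v w : G} (hv : v ∈ V) (hw : w ∈ V) {g k : Pm} (hg : g ∈ M24) (hk : k ∈ M24) :
    v * pel κ g = w * pel κ k ↔ v = w ∧ g = k := by
  refine ⟨fun e => ?_, fun e => by rw [e.1, e.2]⟩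
  have := h.todd.acts_unique (h.acts_vk hv hg) (e ▸ h.acts_vk hw hk)
  subst this
  exact ⟨mul_right_cancel e, rfl⟩

theorem k_inj {g k : Pm} (hg : g ∈ M24) (hk : k ∈ M24) (e : pel κ g = pel κ k) : g = k :=
  h.todd.acts_unique (h.acts' hg) (e ▸ h.acts' hk)

theorem vk_mem_V {v : G} (hv : v ∈ V) {g : Pm} (hg : g ∈ M24) : v * pel κ g ∈ V ↔ g = 1 := by
  rw [h.todd.acts_eq_one_iff (h.acts_vk hv hg)]
  exact ⟨fun a => h.todd.le_cent a, fun a => h.cent a⟩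

theorem orderOf_k {g : Pm} (hg : g ∈ M24) : orderOf (pel κ g) = orderOf g := by
  rw [orderOf_eq_orderOf_iff]
  intro n
  rw [← pel_pow _ hg, ← pel_one κ]
  exact ⟨fun e => h.k_inj (pow_mem hg n) (one_mem _) e, fun e => by rw [e]⟩

theorem vk_mul {a b : ℕ} (ha : ev a = true) (hb : ev b = true) {g k : Pm} (hg : g ∈ M24) (hk : k ∈ M24) :
    ν (fs a) * pel κ g * (ν (fs b) * pel κ k) = ν (fs (Nat.xor a (apM (code g) b))) * pel κ (g * k) := by
  rw [h.v_xor ha (ev_apM g hb), ← h.conj_v hg hb, pel_mul _ hg hk]; group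

theorem vk_comm_k {v : G} (hv : v ∈ V) {g k : Pm} (hg : g ∈ M24) (hk : k ∈ M24) :
    v * pel κ g ∈ 𝐂[pel κ k] ↔ v ∈ 𝐂[pel κ k] ∧ g * k = k * g := by
  have e : pel κ k * (v * pel κ g) = (pel κ k * v * (pel κ k)⁻¹) * pel κ (k * g) := by rw [pel_mul _ hk hg]; group
  rw [mem_cent1_iff, mem_cent1_iff, e, mul_assoc, ← pel_mul _ hg hk,
    h.vk_eq_iff hv ((mem_normalizer_iff.1 (h.k_mem hk) v).1 hv) (mul_mem hg hk) (mul_mem hk hg),
    eq_mul_inv_iff_mul_eq]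

theorem v_comm_k {m : ℕ} (hm : ev m = true) {k : Pm} (hk : k ∈ M24) :
    ν (fs m) ∈ 𝐂[pel κ k] ↔ eqv (apM (code k) m) m = true := by
  rw [mem_cent1_iff, ← h.v_eq_iff (ev_apM k hm) hm, ← h.conj_v hk hm, mul_inv_eq_iff_eq_mul, eq_comm]

theorem vk_comm_v {v : G} (hv : v ∈ V) {g : Pm} (hg : g ∈ M24) {m : ℕ} (hm : ev m = true) :
    v * pel κ g ∈ 𝐂[ν (fs m)] ↔ eqv (apM (code g) m) m = true := by
  rw [← h.v_comm_k hm hg, Subgroup.mul_mem_cancel_left _ (mem_cent1_iff.2 (h.todd.comm' hv (h.v_mem hm))),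
    mem_cent1_comm]

theorem el_mem {a : ℕ × ℕ} (ha : okE a = true) : el ν κ a ∈ 𝐍(V) :=
  mul_mem (h.V_le (h.v_mem (okE_ev ha))) (h.k_mem (perm_mem_M24 (okE_in ha)))

theorem el_mul {a b : ℕ × ℕ} (ha : okE a = true) (hb : okE b = true) : el ν κ a * el ν κ b = el ν κ (mulE a b) := by
  rw [el, el, h.vk_mul (okE_ev ha) (okE_ev hb) (perm_mem_M24 (okE_in ha)) (perm_mem_M24 (okE_in hb)),
    code_perm' (okE_in ha), perm_mul' (okE_in ha) (okE_in hb)]; rfl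

theorem el_eq_iff {a b : ℕ × ℕ} (ha : okE a = true) (hb : okE b = true) : el ν κ a = el ν κ b ↔ eqE a b = true := by
  rw [el, el, h.vk_eq_iff (h.v_mem (okE_ev ha)) (h.v_mem (okE_ev hb)) (perm_mem_M24 (okE_in ha))
    (perm_mem_M24 (okE_in hb)), h.v_eq_iff (okE_ev ha) (okE_ev hb), perm_eq_iff (okE_in ha) (okE_in hb), eqE,
    Bool.and_eq_true, beq_iff]

theorem el_v (m : ℕ) : el ν κ (m, oneC) = ν (fs m) := by rw [el, perm_oneC, pel_one, mul_one]

theorem el_k (c : ℕ) : el ν κ (0, c) = pel κ (perm c) := by rw [el, h.v_zero, one_mul]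

theorem el_one : el ν κ (0, oneC) = 1 := by rw [h.el_v, h.v_zero]

omit h in
theorem el_code (m : ℕ) (g : Pm) : el ν κ (m, code g) = ν (fs m) * pel κ g := by rw [el, perm_code]

theorem exists_el {n : G} (hn : n ∈ 𝐍(V)) : ∃ a, okE a = true ∧ n = el ν κ a := by
  obtain ⟨m, hm, g, hg, rfl⟩ := h.dec hn
  exact ⟨(m, code g), okE_code hm hg, (el_code m g).symm⟩

theorem mul_eq {a b c : ℕ × ℕ} (H : (okE a && okE b && okE c && eqE (mulE a b) c) = true) :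
    el ν κ a * el ν κ b = el ν κ c := by
  simp only [Bool.and_eq_true] at H
  rw [h.el_mul H.1.1.1 H.1.1.2, h.el_eq_iff (okE_mul H.1.1.1 H.1.1.2) H.1.2]; exact H.2

theorem conj_eq {a b c : ℕ × ℕ} (H : (okE a && okE b && okE c && eqE (mulE a b) (mulE c a)) = true) :
    el ν κ a * el ν κ b * (el ν κ a)⁻¹ = el ν κ c := by
  simp only [Bool.and_eq_true] at H
  rw [mul_inv_eq_iff_eq_mul, h.el_mul H.1.1.1 H.1.1.2, h.el_mul H.1.2 H.1.1.1,
    h.el_eq_iff (okE_mul H.1.1.1 H.1.1.2) (okE_mul H.1.2 H.1.1.1)]; exact H.2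

theorem comm_iff {a b : ℕ × ℕ} (ha : okE a = true) (hb : okE b = true) :
    el ν κ a * el ν κ b = el ν κ b * el ν κ a ↔ eqE (mulE a b) (mulE b a) = true := by
  rw [h.el_mul ha hb, h.el_mul hb ha, h.el_eq_iff (okE_mul ha hb) (okE_mul hb ha)]

theorem ne_of {a b : ℕ × ℕ} (H : (okE a && okE b && !(eqE a b)) = true) : el ν κ a ≠ el ν κ b := by
  simp only [Bool.and_eq_true, Bool.not_eq_true'] at H
  rw [Ne, h.el_eq_iff H.1.1 H.1.2, H.2]; simp

theorem exists_mu : ∃ μ : ↥𝐍(V) →* Pm, pker μ = V ∧ ∀ v ∈ V, ∀ g ∈ M24, pel μ (v * pel κ g) = g := by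
  obtain ⟨μ, h1, h2, h3⟩ := h.todd.exists_mu' h.act
  refine ⟨μ, ?_, fun v hv g hg => ?_⟩
  · ext x
    rw [mem_pker]
    refine ⟨fun ⟨a, b⟩ => h.cent ((h3 ⟨x, a⟩).1 (by rwa [pel_of_mem _ a] at b)), fun a => ⟨h.V_le a, ?_⟩⟩
    rw [pel_of_mem _ (h.V_le a), h3]; exact h.todd.le_cent a
  · have hm := mul_mem (h.V_le hv) (h.k_mem hg)
    rw [pel_of_mem _ hm]
    exact h.todd.acts_unique (h2 ⟨_, hm⟩) (h.acts_vk hv hg)

/-- the action of `N(V)` on the 24 points -/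
noncomputable def mu : ↥𝐍(V) →* Pm := h.exists_mu.choose

theorem ker_mu : pker h.mu = V := h.exists_mu.choose_spec.1

theorem mu_vk {v : G} (hv : v ∈ V) {g : Pm} (hg : g ∈ M24) : pel h.mu (v * pel κ g) = g :=
  h.exists_mu.choose_spec.2 v hv g hg

theorem mu_k {g : Pm} (hg : g ∈ M24) : pel h.mu (pel κ g) = g := by simpa using h.mu_vk (one_mem _) hg

theorem mu_v {v : G} (hv : v ∈ V) : pel h.mu v = 1 := by simpa [pel_one] using h.mu_vk hv (one_mem _)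

theorem mu_mem {n : G} (hn : n ∈ 𝐍(V)) : pel h.mu n ∈ M24 := by
  obtain ⟨m, hm, g, hg, rfl⟩ := h.dec hn
  rwa [h.mu_vk (h.v_mem hm) hg]

theorem dec' {n : G} (hn : n ∈ 𝐍(V)) : ∃ m, ev m = true ∧ n = ν (fs m) * pel κ (pel h.mu n) := by
  obtain ⟨m, hm, g, hg, rfl⟩ := h.dec hn
  exact ⟨m, hm, by rw [h.mu_vk (h.v_mem hm) hg]⟩

theorem acts_mu {n : G} (hn : n ∈ 𝐍(V)) : Acts ν n (pel h.mu n) := by
  obtain ⟨m, hm, g, hg, rfl⟩ := h.dec hn
  rw [h.mu_vk (h.v_mem hm) hg]; exact h.acts_vk (h.v_mem hm) hg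

theorem card_eq {A : Subgroup G} (hA : A ≤ 𝐍(V)) : Nat.card A = Nat.card ↥(V ⊓ A) * Nat.card (pmap h.mu A) := by
  rw [← card_pmap_mul h.mu hA, h.ker_mu]

/-- the image of a subgroup `A` of `M` which is normalised suitably -/
theorem pmap_eq {A : Subgroup G} (hA : A ≤ 𝐍(V)) {B : Subgroup Pm} (h1 : ∀ n ∈ A, pel h.mu n ∈ B)
    (h2 : ∀ g ∈ B, ∃ n ∈ A, pel h.mu n = g) : pmap h.mu A = B := by
  ext g; rw [mem_pmap_of_le hA]
  exact ⟨fun ⟨n, a, b⟩ => b ▸ h1 n a, h2 g⟩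

theorem card_M : Nat.card ↥𝐍(V) = 501397585920 := by
  rw [h.card_eq le_rfl, inf_eq_left.2 h.V_le, h.todd.card,
    h.pmap_eq le_rfl (B := M24) (fun n hn => h.mu_mem hn) fun g hg => ⟨_, h.k_mem hg, h.mu_k hg⟩, card_M24]
  norm_num

theorem pmap_cent_k {k : Pm} (hk : k ∈ M24) : pmap h.mu (𝐍(V) ⊓ 𝐂[pel κ k]) = M24 ⊓ 𝐂[k] :=
  h.pmap_eq inf_le_left (fun n hn => by
    obtain ⟨m, hm, g, hg, rfl⟩ := h.dec hn.1
    rw [h.mu_vk (h.v_mem hm) hg]
    exact ⟨hg, mem_cent1_iff.2 ((h.vk_comm_k (h.v_mem hm) hg hk).1 hn.2).2⟩) fun g hg =>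
    ⟨_, ⟨h.k_mem hg.1, mem_cent1_iff.2 (by rw [← pel_mul _ hg.1 hk, ← pel_mul _ hk hg.1, mem_cent1_iff.1 hg.2])⟩,
      h.mu_k hg.1⟩

theorem card_V_cent {c : ℕ} (hc : inM24 c = true) :
    Nat.card ↥(V ⊓ 𝐂[pel κ (perm c)]) = countLt (fun j => ev (hi j) && eqv (apM c (hi j)) (hi j)) 4096 :=
  h.card_V_inf (p := fun m => eqv (apM c m) m) fun m hm => by rw [h.v_comm_k hm (perm_mem_M24 hc), code_perm' hc]

theorem card_cent_k {c : ℕ} (hc : inM24 c = true) : Nat.card ↥(𝐍(V) ⊓ 𝐂[pel κ (perm c)]) =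
    countLt (fun j => ev (hi j) && eqv (apM c (hi j)) (hi j)) 4096 * Nat.card ↥(M24 ⊓ 𝐂[perm c]) := by
  rw [h.card_eq inf_le_left, h.pmap_cent_k (perm_mem_M24 hc), ← inf_assoc, inf_eq_left.2 h.V_le, h.card_V_cent hc]

theorem orbit1 : ∀ n ∈ 𝐍(V), ∃ g, Acts ν n g := h.act
theorem orbit2 : ∀ g ∈ M24, ∃ n ∈ 𝐍(V), Acts ν n g := fun _ hg => ⟨_, h.k_mem hg, h.acts' hg⟩

theorem card_cent_tetrad {s : Finset GolayPt} (hs : s.card = 4) : Nat.card ↥(𝐂[ν s] ⊓ 𝐍(V)) = 283115520 := by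
  have := card_inf_mul_relIndex 𝐂[ν s] 𝐍(V)
  rw [relIndex_cent1_eq_ncard, h.todd.ncard_orbit_tetrad h.orbit1 h.orbit2 hs, h.card_M] at this
  omega

theorem card_cent_duad {s : Finset GolayPt} (hs : s.card = 2) : Nat.card ↥(𝐂[ν s] ⊓ 𝐍(V)) = 1816657920 := by
  have := card_inf_mul_relIndex 𝐂[ν s] 𝐍(V)
  rw [relIndex_cent1_eq_ncard, h.todd.ncard_orbit_duad h.orbit1 h.orbit2 hs, h.card_M] at this
  omega

/-- change of coordinates -/
theorem smul {k : Pm} (hk : k ∈ M24) :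
    MM V (fun s => ν (k • s)) (κ.comp (MulAut.conj (⟨k, hk⟩ : M24)).toMonoidHom) := by
  refine ⟨⟨fun s t hs ht => ?_, fun s hs => ?_, fun v => ?_⟩, h.cent, fun n hn => ?_, fun g s hs => ?_⟩
  · rw [smul_symmDiff, h.todd.mul _ _ (by rwa [card_smul]) (by rwa [card_smul])]
  · rw [h.todd.ker _ (by rwa [card_smul]), smul_mem_CW_iff hk]
  · rw [h.todd.mem]
    exact ⟨fun ⟨s, a, b⟩ => ⟨k⁻¹ • s, by rwa [card_smul], by rwa [smul_inv_smul]⟩,
      fun ⟨s, a, b⟩ => ⟨k • s, by rwa [card_smul], b⟩⟩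
  · obtain ⟨g, hg⟩ := h.act n hn
    exact ⟨k⁻¹ * g * k, fun s hs => by rw [hg _ (by rwa [card_smul])]; simp [mul_smul]⟩
  · show κ (⟨k, hk⟩ * g * ⟨k, hk⟩⁻¹) * _ * (κ (⟨k, hk⟩ * g * ⟨k, hk⟩⁻¹))⁻¹ = _
    rw [h.acts _ _ (by rwa [card_smul])]; simp [mul_smul]

/-- conjugate the complement by an element of `V` -/
theorem conj {v : G} (hv : v ∈ V) : MM V ν ((MulAut.conj v).toMonoidHom.comp κ) :=
  ⟨h.todd, h.cent, h.act, fun g => by
    have h1 := h.todd.acts_one_iff.2 (h.todd.le_cent hv)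
    simpa using (h1.mul (h.acts g)).mul h1.inv⟩

end MM

end CA.J4
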