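import Cfsg.Agent.Lib.J4.Bru
import Cfsg.Agent.Lib.Classical.SmallIso

/-!
A Bruhat presentation of `L₂(32)`, and a two-level enumeration over an arbitrary subgroup.
-/

set_option autoImplicit false
set_option linter.unusedSectionVars false
set_option linter.unusedVariables false
set_option maxRecDepth 100000

namespace CA.BM
open CA.Gol CA.J4 Matrix Cfsg Subgroup
open scoped MatrixGroups

variable {G : Type*} [Group G] [Finite G] {ρ : G →* Mx}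

theorem two_level' {N Y : Subgroup G} {u c : G} {PL K1 K2 : List ℕ} {f1 f2 : G → ℕ} (hu : u ∈ Y) (cY : c ∈ Y)
    (cN : c ∈ N ⊓ 𝐂[u]) (hN : Nat.card N ≤ K2.length * orderOf c * K1.length) (n1 : K1.Nodup) (n2 : K2.Nodup)
    (hf : ∀ e n, f2 (c ^ n * e) = f2 e)
    (w1 : ∀ k ∈ K1, ∃ e, (∃ h ∈ N, h * u * h⁻¹ = e) ∧ Gd Y PL (fun e => ∃ y ∈ Y ⊓ N, y * u * y⁻¹ = e) e ∧ f1 e = k)
    (w2 : ∀ k ∈ K2, ∃ e, e ∈ N ⊓ 𝐂[u] ∧ Gd Y PL (· ∈ Y) e ∧ f2 e = k)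
    {X : Subgroup G} (hX : Y ≤ X) : (∀ p ∈ PL, p ∣ Nat.card X) ∨ X ⊓ N ≤ Y := by
  obtain ⟨T, hT⟩ : ∃ T : G → Prop, T = fun e => ∃ y ∈ Y ⊓ N, y * u * y⁻¹ = e := ⟨_, rfl⟩
  rw [← hT] at w1
  have a1 := le_ncard_fib f1 1 K1 n1 {e | (∃ h ∈ N, h * u * h⁻¹ = e) ∧ Gd Y PL T e} fun k hk => by
    obtain ⟨e, h1, h2, h3⟩ := w1 k hk
    exact (Set.ncard_pos (Set.toFinite _)).2 ⟨e, ⟨h1, h2⟩, h3⟩
  have a2 := le_ncard_fib f2 (orderOf c) K2 n2 {e | e ∈ N ⊓ 𝐂[u] ∧ Gd Y PL (· ∈ Y) e} fun k hk => by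
    obtain ⟨e, h1, h2, h3⟩ := w2 k hk
    rw [← Nat.card_zpowers, ← SetLike.coe_sort_coe, Nat.card_coe_set_eq,
      ← Set.ncard_image_of_injective _ (mul_left_injective e)]
    refine Set.ncard_le_ncard ?_
    rintro _ ⟨d, hd, rfl⟩
    obtain ⟨n, rfl⟩ := (mem_powers_iff_mem_zpowers.2 hd : ∃ n : ℕ, c ^ n = d)
    refine ⟨⟨mul_mem (pow_mem cN n) h1, fun Z hZ hz => (h2 Z hZ ?_).imp id (mul_mem (pow_mem cY n))⟩, (hf e n).trans h3⟩
    exact (mul_mem_cancel_left (hZ (pow_mem cY n))).1 hz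
  have b1 : {e | (∃ h ∈ N, h * u * h⁻¹ = e) ∧ Gd Y PL T e} ⊆ {e | ∃ h ∈ N, h * u * h⁻¹ = e} := fun e h => h.1
  have b2 : {e | e ∈ N ⊓ 𝐂[u] ∧ Gd Y PL (· ∈ Y) e} ⊆ ((N ⊓ 𝐂[u] : Subgroup G) : Set G) := fun e h => h.1
  have c0 := card_class_mul N u
  rw [← SetLike.coe_sort_coe, Nat.card_coe_set_eq] at c0
  have c1 := Set.ncard_le_ncard b1
  have c2 := Set.ncard_le_ncard b2
  have p0 : 0 < Nat.card N := Nat.card_pos
  rw [mul_one] at a1
  set x := {e | ∃ h ∈ N, h * u * h⁻¹ = e}.ncard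
  set y := ((N ⊓ 𝐂[u] : Subgroup G) : Set G).ncard
  have px : 0 < x := Nat.pos_of_mul_pos_left (c0 ▸ p0)
  have py : 0 < y := Nat.pos_of_mul_pos_right (c0 ▸ p0)
  have d1 : x ≤ K1.length := Nat.le_of_mul_le_mul_left
    (c0.le.trans (hN.trans (Nat.mul_le_mul_right _ (a2.trans c2)))) py
  have d2 : y ≤ K2.length * orderOf c := Nat.le_of_mul_le_mul_right
    (c0.le.trans (hN.trans (Nat.mul_le_mul_left _ (a1.trans c1)))) px
  have e1 := Set.eq_of_subset_of_ncard_le b1 (d1.trans a1)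
  have e2 := Set.eq_of_subset_of_ncard_le b2 (d2.trans a2)
  refine or_iff_not_imp_left.2 fun hn g hg => ?_
  have q1 := ((e1.ge (show g * u * g⁻¹ ∈ {e | ∃ h ∈ N, h * u * h⁻¹ = e} from ⟨g, hg.2, rfl⟩)).2 X hX
    (mul_mem (mul_mem hg.1 (hX hu)) (inv_mem hg.1))).resolve_left hn
  rw [hT] at q1
  obtain ⟨z, hz, q1⟩ := q1
  rw [mem_inf] at hz
  have : z⁻¹ * g ∈ N ⊓ 𝐂[u] := ⟨N.mul_mem (N.inv_mem hz.2) hg.2, mem_centralizer_singleton_iff.2 (by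
    rw [show z⁻¹ * g * u = z⁻¹ * (g * u * g⁻¹) * g by group, ← q1]; group)⟩
  exact (mul_mem_cancel_left (inv_mem hz.1)).1
    (((e2.ge this).2 X hX (mul_mem (inv_mem (hX hz.1)) hg.1)).resolve_left hn)

theorem InK.mem (hρ : Function.Injective ρ) {K : Subgroup G} {A : ℕ} (h : InK ρ K A) {g : G} (e : ρ g = mt A) : g ∈ K :=
  let ⟨_, h1, h2⟩ := h; hρ (h2.trans e.symm) ▸ h1

/-- the data of a two-level enumeration -/
structure Dt where
  S : ℕ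
  U : ℕ
  C : ℕ
  /-- generators of `N(⟨s⟩)` -/
  N : List (ℕ × ℕ × ℕ)
  /-- generators of `N(⟨s⟩) ∩ C(u)` as words -/
  H : List (ℕ × List ℕ)
  /-- elements of `Y ∩ N(⟨s⟩)` -/
  D : List (ℕ × ℕ × ℕ)
  YT : List ℕ
  PL : List ℕ
  v : ℕ

namespace Dt
variable (d : Dt)
def LG : List ℕ := d.N.map (·.1) ++ d.N.map (·.2.1)
def RG : List ℕ := d.N.map (·.2.1) ++ d.N.map (·.1)
def w1 (W : List Ins) : Bool :=
  walk d.LG d.RG (d.D.map (·.1)) (d.D.map (·.2.1)) d.YT d.PL 1 1 (fun B _ => Nat.beq B d.U) W d.U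
def w2 (W : List Ins) : Bool := walk [] (d.H.map (·.1)) [] [] d.YT d.PL d.v d.v (fun B _ => Nat.beq B I1) W I1
def ok : Bool := memL d.U d.YT && (memL d.C d.YT && (nrm d.S d.C 1 && (Nat.beq (mm d.C d.U) (mm d.U d.C) && (chkN d.S d.N &&
  (chkW d.LG d.H && (allL d.H (fun x => Nat.beq (mm x.1 d.U) (mm d.U x.1)) && (chkN d.S d.D &&
  (allL d.D (fun x => memL x.1 d.YT) && Nat.beq (vm d.v d.C) d.v))))))))

theorem main (hρ : Function.Injective ρ) (ok : d.ok = true) {Y : Subgroup G} (hY : AllK ρ Y d.YT) {s c : G}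
    (es : ρ s = mt d.S) (ec : ρ c = mt d.C) (hN : AllK ρ ⊤ (d.N.map (·.1))) (hP : ∀ p ∈ d.PL, p.Prime ∧ p < 128)
    {W1 W2 : List Ins} (h1 : d.w1 W1 = true) (h2 : d.w2 W2 = true) (n1 : ndL (keys W1) = true) (n2 : ndL (keys W2) = true)
    (hc : Nat.card 𝐍(zpowers s) ≤ (keys W2).length * orderOf c * (keys W1).length) {X : Subgroup G} (hX : Y ≤ X) :
    (∀ p ∈ d.PL, p ∣ Nat.card X) ∨ X ⊓ 𝐍(zpowers s) ≤ Y := by
  simp only [Dt.ok, Bool.and_eq_true, beq_iff, allL_iff, chkN, cn_iff, memL_iff] at ok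
  obtain ⟨o1, o2, o3, o4, o5, o6, o7, o8, o9, o10⟩ := ok
  obtain ⟨u, hu, eu⟩ := hY _ o1
  have cm : ∀ g B, ρ g = mt B → mm B d.U = mm d.U B → g ∈ 𝐂[u] := fun g B e h =>
    mem_centralizer_singleton_iff.2 (hρ (by rw [map_mul, map_mul, e, eu, ← mt_mm, ← mt_mm, h]))
  have gN : ∀ x ∈ d.N, ∃ g ∈ 𝐍(zpowers s), ρ g = mt x.1 ∧ ρ g⁻¹ = mt x.2.1 := fun x hx => by
    obtain ⟨g, -, eg⟩ := hN x.1 (List.mem_map_of_mem hx)
    exact ⟨g, mem_of_nrm hρ es eg (o5 x hx).1, eg, rho_inv eg (beq_iff.2 (o5 x hx).2)⟩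
  have cj : ∀ (K : Subgroup G), ∀ g ∈ K, ∀ e, (∃ h ∈ K, h * u * h⁻¹ = e) → ∃ h ∈ K, h * u * h⁻¹ = g * e * g⁻¹ := by
    rintro K g hg _ ⟨h, hh, rfl⟩
    exact ⟨g * h, mul_mem hg hh, by group⟩
  have aG : AllK ρ 𝐍(zpowers s) d.LG := AllK.append
    (fun A hA => by
      obtain ⟨x, hx, rfl⟩ := List.mem_map.1 hA
      obtain ⟨g, hg, e, -⟩ := gN x hx
      exact ⟨g, hg, e⟩)
    (fun A hA => by
      obtain ⟨x, hx, rfl⟩ := List.mem_map.1 hA
      obtain ⟨g, hg, -, e⟩ := gN x hx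
      exact ⟨g⁻¹, inv_mem hg, e⟩)
  refine two_level' (u := u) (f1 := ky ρ 1 1) (f2 := ky ρ d.v d.v) hu ((hY _ o2).mem hρ ec)
    ⟨mem_of_nrm hρ es ec o3, cm _ _ ec o4⟩ hc (nodup_of_ndL n1) (nodup_of_ndL n2) (ky_pow ec o10 o10)
    (fun k hk => ?_) (fun k hk => ?_) hX
  · refine walk_spec hρ (Mv.nI (List.rel_append (Dat.forall₂_map fun x hx => ?_) (Dat.forall₂_map fun x hx => ?_)))
      (Mv.nI (Dat.forall₂_map fun x hx => ?_)) hY hP
      (fun e B _ eB h => ⟨1, one_mem _, by rw [eq_of_beq hρ eB eu h]; simp⟩) W1 d.U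
      ⟨u, ⟨1, one_mem _, by simp⟩, eu⟩ h1 k hk
    · obtain ⟨g, hg, e, e'⟩ := gN x hx
      exact ⟨g, trivial, g⁻¹, trivial, e, e', cj _ g hg, fun _ _ => trivial⟩
    · obtain ⟨g, hg, e, e'⟩ := gN x hx
      exact ⟨g⁻¹, trivial, g⁻¹⁻¹, trivial, e', by rwa [inv_inv], cj _ _ (inv_mem hg), fun _ _ => trivial⟩
    · obtain ⟨g, hg, e⟩ := hY _ (o9 x hx)
      have n := mem_of_nrm hρ es e (o8 x hx).1
      exact ⟨g, hg, _, inv_mem hg, e, rho_inv e (beq_iff.2 (o8 x hx).2), cj _ g n, cj (Y ⊓ _) g ⟨hg, n⟩⟩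
  · refine walk_spec hρ (Dat.mv_right fun B hB => ?_) (Dat.mv_right fun B hB => absurd hB List.not_mem_nil) hY hP
      (fun e B k eB h => eq_of_beq hρ eB (by rw [map_one, mt_I1]) h ▸ one_mem Y) W2 I1
      ⟨1, one_mem _, by rw [map_one, mt_I1]⟩ h2 k hk
    obtain ⟨g, hg, e⟩ := aG.of_chkW o6 B hB
    obtain ⟨x, hx, rfl⟩ := List.mem_map.1 hB
    exact ⟨g, trivial, e, fun a ha => mul_mem ha ⟨hg, cm _ _ e (o7 x hx)⟩, fun _ _ => trivial⟩

end Dt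

namespace L2
open CA.SL2 Polynomial

/-- the presentation -/
def DL : Bru where
  n := 5
  pc := [(2, [], []), (2, [], [[(0, 1)]]), (2, [], [[(0, 1)], [(1, 1)]]), (2, [], [[(0, 1)], [(1, 1)], [(2, 1)]]),
    (2, [], [[(0, 1)], [(1, 1)], [(2, 1)], [(3, 1)]]), (31, [], [[(1, 1)], [(2, 1)], [(3, 1)], [(4, 1)], [(2, 1), (0, 1)]])]
  k := 30
  w2 := []
  reps := [([(0, 1)], [(0, 1)], [(0, 1)], 31)]

theorem okL : DL.ok = true := by decide +kernel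

variable {F : Type} [Field F] [Fintype F] [CharP F 2] (hF : Fintype.card F = 32)
include hF

theorem exists_om : ∃ ω : F, ω ^ 5 = ω ^ 2 + 1 := by
  by_contra h
  have h2 : (2 : F) = 0 := CharTwo.two_eq_zero
  have d : (X ^ 27 + X ^ 24 + X ^ 22 + X ^ 21 + X ^ 18 + X ^ 17 + X ^ 16 + X ^ 15 + X ^ 14 + X ^ 10 + X ^ 9 + X ^ 7 + X ^ 6 + X ^ 5 + X ^ 3 + X ^ 1 : F[X]).natDegree = 27 := by compute_degree!
  refine absurd (d.symm.trans ((congrArg natDegree (eq_zero_of_natDegree_lt_card_of_eval_eq_zero _ Function.injective_id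
    (fun x => ?_) (by rw [d, hF]; norm_num))).trans natDegree_zero)) (by norm_num)
  refine (mul_eq_zero.1 (?_ : (x ^ 5 + x ^ 2 + 1) * _ = 0)).resolve_left fun e =>
    h ⟨x, by linear_combination e - (x ^ 2 + 1) * h2⟩
  have := FiniteField.pow_card x
  rw [hF] at this
  simp only [eval_add, eval_pow, eval_X, id]
  linear_combination this + (1 * x ^ 1 + 1 * x ^ 3 + 1 * x ^ 5 + 1 * x ^ 6 + 1 * x ^ 7 + 1 * x ^ 8 + 1 * x ^ 9 + 1 * x ^ 10 + 1 * x ^ 11 + 1 * x ^ 12 + 1 * x ^ 14 + 1 * x ^ 15 + 1 * x ^ 16 + 1 * x ^ 17 + 1 * x ^ 18 + 1 * x ^ 19 + 1 * x ^ 20 + 1 * x ^ 21 + 1 * x ^ 22 + 1 * x ^ 23 + 1 * x ^ 24 + 1 * x ^ 26 + 1 * x ^ 27 + 1 * x ^ 29) * h2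

theorem card_sl : Nat.card SL(2, F) = 32736 := by rw [card_SL_two', hF]

theorem model : ∃ γ : ℕ → SL(2, F), Hold γ DL.rels ∧ Sg γ 7 = ⊤ := by
  haveI : Fact (Nat.Prime 31) := ⟨by norm_num⟩
  haveI : Fact (Nat.Prime 3) := ⟨by norm_num⟩
  obtain ⟨ω, hω⟩ := exists_om hF
  have h2 : (2 : F) = 0 := CharTwo.two_eq_zero
  have w0 : ω ≠ 0 := fun e => by simp [e] at hω
  have w1 : ω ≠ 1 := fun e => by simp [e] at hω
  have p : ω ^ 31 = 1 := by simpa [hF] using FiniteField.pow_card_sub_one_eq_one ω w0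
  have pr : IsPrimitiveRoot ω 31 := orderOf_eq_prime p w1 ▸ IsPrimitiveRoot.orderOf ω
  obtain ⟨d, hd⟩ : ∃ d : SL(2, F), (d : Matrix (Fin 2) (Fin 2) F) = !![ω ^ 16, 0; 0, ω ^ 15] := ⟨mk2 _ _ _ _ (by linear_combination p), rfl⟩
  obtain ⟨w, hw⟩ : ∃ w : SL(2, F), (w : Matrix (Fin 2) (Fin 2) F) = !![0, 1; 1, 0] := ⟨mk2 _ _ _ _ (by linear_combination -h2), rfl⟩
  have xt : ∀ a b : SL(2, F), (a : Matrix (Fin 2) (Fin 2) F) = b → a = b := fun a b h => Subtype.ext h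
  have cm : ∀ a b : SL(2, F), ((a * b : SL(2, F)) : Matrix (Fin 2) (Fin 2) F) = a * b := fun _ _ => rfl
  have A : ∀ a b : F, up a * up b = up (a + b) := fun a b => xt _ _ (by
    simp [up_coe, add_comm])
  have B : ∀ b : F, d * up b = up (ω * b) * d := fun b => xt _ _ (by
    simp [up_coe, hd]; ring)
  have C : ∀ n : ℕ, ((d ^ n : SL(2, F)) : Matrix (Fin 2) (Fin 2) F) = !![ω ^ (16 * n), 0; 0, ω ^ (15 * n)] := fun n => by
    induction n with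
    | zero => simp [Matrix.one_fin_two]
    | succ n ih => rw [pow_succ, cm, ih, hd]; simp [mul_add, pow_add]
  have q : ∀ a b : ℕ, ω ^ (31 * a + b) = ω ^ b := fun a b => by rw [pow_add, pow_mul, p, one_pow, one_mul]
  have d31 : d ^ 31 = 1 := xt _ _ (by
    rw [C, q 16 0, q 15 0]; simp [Matrix.one_fin_two])
  have wd : w * d = d ^ 30 * w := xt _ _ (by
    rw [cm, cm, C, q 15 15, q 14 16, hw, hd]; simp)
  have ww : w ^ 2 = 1 := xt _ _ (by simp [pow_two, hw, Matrix.one_fin_two])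
  have wu : w * up 1 * w = up 1 * (w * up 1) := xt _ _ (by simp [hw, up_coe, CharTwo.add_self_eq_zero])
  have u0 : up (0 : F) = 1 := xt _ _ (by simp [up_coe, Matrix.one_fin_two])
  have u2 : ∀ a : F, up a ^ 2 = 1 := fun a => by rw [pow_two, A, CharTwo.add_self_eq_zero, u0]
  obtain ⟨γ, hγ⟩ : ∃ γ : ℕ → SL(2, F), γ = fun i => if i < 5 then up (ω ^ i) else if i = 5 then d else w := ⟨_, rfl⟩
  have e5 : γ 5 = d := by simp [hγ]
  have e6 : γ 6 = w := by simp [hγ]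
  have e0 : γ 0 = up 1 := by simp [hγ]
  refine ⟨γ, fun r hr => ?_, ?_⟩
  · simp only [Bru.rels, DL, pcR, Bru.px, List.range_succ, List.range_zero, List.flatMap_cons, List.flatMap_nil,
      List.nil_append, List.cons_append, List.map_cons, List.map_nil, List.getD_cons_zero, List.getD_cons_succ,
      List.mem_cons, List.not_mem_nil, or_false] at hr
    rcases hr with rfl | rfl | rfl | rfl | rfl | rfl | rfl | rfl | rfl | rfl | rfl | rfl | rfl | rfl | rfl | rfl | rfl |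
      rfl | rfl | rfl | rfl | rfl | rfl | rfl <;>
    simp [hγ, u2, d31, wd, ww, wu, A, B, add_comm, ← mul_assoc, ← pow_succ', ← pow_two, hω]
  haveI := (Small.slEquivPSL (ι := Fin 2) (F := F) (by simp [hF])).symm.isSimpleGroup_congr.1
    (Matrix.ProjectiveSpecialLinearGroup.rank_two_simple (by simp [hF]))
  have md : d ∈ Sg γ 7 := e5 ▸ mem_Sg (by norm_num)
  have mu : ∀ n : ℕ, up (ω ^ n) ∈ Sg γ 7 := fun n => by
    induction n with
    | zero => rw [pow_zero, ← e0]; exact mem_Sg (by norm_num)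
    | succ n ih => rw [pow_succ', ← mul_inv_eq_iff_eq_mul.2 (B _)]; exact mul_mem (mul_mem md ih) (inv_mem md)
  have d1 := card_dvd_of_le (show US (SL2.e0 F) ≤ Sg γ 7 from fun g hg => by
    obtain ⟨b, rfl⟩ := mem_US_e0.1 hg
    by_cases b0 : b = 0
    · rw [b0, u0]; exact one_mem _
    · obtain ⟨i, -, rfl⟩ := pr.eq_pow_of_pow_eq_one (by simpa [hF] using FiniteField.pow_card_sub_one_eq_one b b0)
      exact mu i)
  have d2 := orderOf_dvd_natCard _ md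
  have d3 := orderOf_dvd_natCard _ (mul_mem (e6 ▸ mem_Sg (by norm_num) : w ∈ Sg γ 7) (mu 0))
  rw [card_US_e0, Nat.card_eq_fintype_card, hF] at d1
  rw [orderOf_eq_prime d31 fun e => w1 (up_injective (by simpa [e] using (B 1).symm))] at d2
  rw [pow_zero, orderOf_eq_prime (p := 3) (by
    rw [show (w * up 1) ^ 3 = w * up 1 * w * up 1 * w * up 1 by simp only [pow_succ, pow_zero, one_mul, mul_assoc], wu,
      show up 1 * (w * up 1) * up 1 * w * up 1 = up 1 * (w * up (1 : F) ^ 2 * w) * up 1 by simp only [pow_two, mul_assoc],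
      u2, mul_one, ← pow_two, ww, mul_one, ← pow_two, u2])
    fun e => by simpa [hw, up_coe] using congrArg (fun g : SL(2, F) => g 0 0) e] at d3
  refine top_of_index (p := 31) (by norm_num) (by rw [card_sl hF]; norm_num) ?_
  have := Nat.le_of_dvd Nat.card_pos (Nat.Coprime.mul_dvd_of_dvd_of_dvd (by norm_num)
    (Nat.Coprime.mul_dvd_of_dvd_of_dvd (by norm_num) d1 d2) d3)
  have e := card_mul_index (Sg γ 7)
  rw [card_sl hF] at e
  by_contra c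
  have := Nat.mul_le_mul this (not_lt.1 c)
  omega

end L2
end CA.BM
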