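import Cfsg.Agent.Lib.J4.Three

/-!
Classes of involutions of `M = 2^11 : M24` and the fusion of those over `2A`.
-/

set_option autoImplicit false
set_option linter.unusedSectionVars false
set_option linter.unusedVariables false

namespace CA.J4
open Cfsg CA.Gol CA.Ex2 CA.XS Subgroup
open scoped Pointwise commutatorElement

def LA : List ℕ :=
  [0x0, 0x12000, 0x280000, 0x292000, 0x467000, 0x475000, 0x6e7000, 0x6f5000,
   0x9c6000, 0x9d4000, 0xb46000, 0xb54000, 0xda1000, 0xdb3000, 0xf21000, 0xf33000]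
def WA : List ℕ :=
  [0x0, 0x3000, 0x81000, 0x82000, 0x84000, 0x801000, 0x5000, 0x6000,
   0xa0000, 0xa3000, 0x21000, 0x22000, 0x24000, 0x401000, 0xa5000, 0x480000]
def LB : List ℕ :=
  [0x0, 0x77000, 0x12c000, 0x15b000, 0x2ba000, 0x2cd000, 0x396000, 0x3e1000,
   0x483000, 0x4f4000, 0x5af000, 0x5d8000, 0x639000, 0x64e000, 0x715000, 0x762000,
   0x80e000, 0x879000, 0x922000, 0x955000, 0xab4000, 0xac3000, 0xb98000, 0xbef000,
   0xc8d000, 0xcfa000, 0xda1000, 0xdd6000, 0xe37000, 0xe40000, 0xf1b000, 0xf6c000]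
def WB : List ℕ :=
  [0x0, 0xc000, 0x41000, 0x201000, 0x14000, 0x18000, 0x22000, 0x102000,
   0x3000, 0x801000, 0x42000, 0x202000, 0x60000, 0x140000, 0x21000, 0x101000,
   0x50000, 0x210000, 0x11000, 0x1d000, 0x44000, 0x48000, 0x5000, 0x9000,
   0x24000, 0x28000, 0x12000, 0x810000, 0x30000, 0x110000, 0x6000, 0xa000]
def Q6L : List ℕ :=
  [0x10c93a1cd5460b63e929d47628457, 0x10ef3306da16124254bacdd688457, 0x1274ac8ad78e0c5a92831e3670457,
   0x12aa9ae2d4ba08951ec398b618457, 0x34ca3b0a448ed2451eb9d63070457, 0x34f4322247bacb62932accb018457,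
   0x366faadc4a46c89254c31c7028457, 0x36a99c864516cc5be88399d088457, 0x40cf3ca36a388c5a5489d4ad18457,
   0x40e932cb650c8893e8cace2d70457, 0x426aaa0764948b651f231dcd88457, 0x42b49b1d67c4924292b3986d28457,
   0x58d43ac70795a89292c9d5c488457, 0x58ea349d04c5ac5d1e8acc6428457, 0x5a69ab230539b243e8b31ca418457,
   0x5aaf9a0b0a0dab6255239a2470457, 0x90d43b22d7ba124292b9d4b6182e2, 0x90ea320ad48e0b651f2ace36702e2,
   0x9269aac6d5160893e8c31dd6882e2, 0x92af9c9cda460c5a54839876282e2, 0xb4cf3a064a16cb625529d5d0882e2,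
   0xb4e9331c4546d243e8bacc70282e2, 0xb66aaca244bacc5d1e831cb0182e2, 0xb6b49aca478ec89292c39a30702e2,
   0xc0ca3add64c488951ec9d46d282e2, 0xc0f4348767948c5a928acdcd882e2, 0xc26fab0b6a0c924254b31e2d702e2,
   0xc2a99a2365388b63e92398ad182e2, 0xd8c93c8b050dac5be889d624702e2, 0xd8ef32e30a39a89254cacca4182e2,
   0xda74aa1d07c5ab6293231c64282e2, 0xdaaa9b070495b2451eb399c4882e2, 0x110cf3acada0e089254c9d63675c01,
   0x110e934a2d53a0c5be88accb61dc01, 0x1126aab1cd4c612451eb31c762dc01, 0x112b49a06d7960b62932399d68dc01,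
   0x134d43c9c47c6cc5a9289d4702dc01, 0x134ea32c64496c8951ecacdd08dc01, 0x13669aa0a450ecb63e9231e3075c01,
   0x136af9b224a3ad24254b398b01dc01, 0x140c93b0765149243e8b9d5cd8dc01, 0x140ef321d6a448b62552acc6d2dc01,
   0x14274aae367b8889292c31cad1dc01, 0x142aa9c8b648c8c5d1e839a2d75c01, 0x158ca3a2304b9ab651f29d4a41dc01,
   0x158f4330b078db24292bace2475c01, 0x15a6fac870a15ac5a54831dc48dc01, 0x15aa99add0545a893e8c398642dc01,
   0xb90ca3c86d4960c5d1e89d5d688820, 0xb90f432dcd7c6089292cacc7628820, 0xb926faa22da3a0b6255231cb618820,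
   0xb92a99b0ad50e1243e8b39a3670820, 0xbb4c93ae2453ac893e8c9d4b018820, 0xbb4ef348a4a0ecc5a548ace3070820,
   0xbb674ab064796d24292b31dd088820, 0xbb6aa9a1c44c6cb651f23987028820, 0xbc0d43a0b678c8b629329d62d70820,
   0xbc0ea332364b892451ebaccad18820, 0xbc269ac9d65448c5be8831c6d28820, 0xbc2af9ac76a14889254c399cd88820,
   0xbd8cf3b1d0a45b24254b9d46428820, 0xbd8e932070515ab63e92acdc488820, 0xbda6aaacb048da8951ec31e2470820,
   0xbdab49ca307b9ac5a928398a418820]
def dL36 : List ℕ :=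
  [0xbdab49ca307b9ac5a928398a418820, 0xbca7033e2bb390aa11a93d4ac18402, 0xbd2d26baa9419e32b1712426a38041,
   0x72044ba8cc81e547d9a90826bac4a3, 0x9860ab30607b8524268b236372d4e6, 0xa396765da3310a20566144ad183d2a,
   0x65835145f09d1a371cc5b812454968, 0x5be03680e92cd41bba22b10d4ac90c, 0x95083682a974df7144a1858ea3216c,
   0xb3c2c11c74939359a166b822a2c08d, 0x8ac3613cec2550aa41a9b8272315c3, 0x1c1e24d64d02ec735c3355104645c5,
   0x55a6e32c10889ac40cb23d424bd12f, 0xa159345da33c221154c05c88eb254f, 0xb3c0c11869445553ae530dcb473604,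
   0x2501209a29439e79b175b88aa1da0d, 0x2b01012672b1d0a791b40deab33a23, 0x1a02d13cd284d6aa12c9b82ac3b8b1,
   0x1ce4f402154b4d712a8162ec72162e, 0x65211b02692d5f710dc1234ca3ad12, 0x65ab1986902a5b700dc2399e45224b,
   0x5bec36dcf48d521115c02426a32192, 0x382917ca022b42c58dc8526d7254d3, 0x302cf22062494325aa8c835d78d667,
   0x515b382c51305cc41eb225803bbe89, 0x7c593905a3359c2b9ea042e052268a, 0x5165540ad19c1d709cc062da3225f4,
   0x381af82e224b82c42a92258b71cea6, 0x9dc8f83060a44285a552b34a271aa7, 0x3d1d28d829401e48316d1944ab9a75,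
   0x8500c09c69595e6ac913b89ca8b496, 0x25525a480670a6c58e2853c27bc1b6, 0x2140b0a4d194dca7b114b8aa33b6d0,
   0xb6af3c8764ba0b42a8c34e2428817, 0x136aa348707c4886268b99cb670037, 0xb4cf3a064a16cb625529d5d0882e2]
def uA : ℕ := 0x9000
def uB : ℕ := 0x81000
def colsL : List ℕ := [0x800007, 0x24028, 0x41900, 0x108600, 0x2800c0, 0x412010]

/-- reduction modulo the code -/
def red (m : ℕ) : ℕ := Nat.xor m (enc (Nat.land m 4095))

theorem enc_xor {i j : ℕ} (hi : i < 4096) (hj : j < 4096) : enc (i ^^^ j) = enc i ^^^ enc j := by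
  rw [enc_eq hi, enc_eq hj, enc_eq (xor12 hi hj), xorSel_xor]

theorem red_xor (a b : ℕ) : red (a ^^^ b) = red a ^^^ red b := by
  show (a ^^^ b) ^^^ enc ((a ^^^ b) &&& 4095) = (a ^^^ enc (a &&& 4095)) ^^^ (b ^^^ enc (b &&& 4095))
  rw [Nat.and_xor_distrib_right, enc_xor (i := a &&& 4095) (j := b &&& 4095) (land4095_lt a) (land4095_lt b)]; ac_rfl

theorem xor_eq_zero' {a b : ℕ} : a ^^^ b = 0 ↔ a = b := ⟨Nat.eq_of_xor_eq_zero, fun h => h ▸ Nat.xor_self a⟩

theorem eqv_iff_red {a b : ℕ} : eqv a b = true ↔ red a = red b := by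
  rw [← xor_eq_zero', ← red_xor, eqv, isCode, beq_iff, red, eq_comm]; exact xor_eq_zero'.symm

theorem ncard_ge {X : Type*} {S : Set X} (hS : S.Finite) {y : ℕ → X} {v : ℕ → Bool} {n : ℕ}
    (h1 : ∀ i < n, v i = true → y i ∈ S) (h2 : ∀ i < n, ∀ j < n, v i = true → v j = true → y i = y j → i = j) :
    countLt v n ≤ S.ncard := by
  have F : Fam {x | ∃ i < n, v i = true ∧ y i = x} y v n := ⟨fun i hi e => ⟨i, hi, e, rfl⟩, fun x hx => hx, h2⟩
  have := F.ncard (P := fun _ => True) (p := fun _ => true) fun _ _ _ => by simp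
  simp only [Bool.and_true, and_true, Set.setOf_mem_eq] at this
  rw [← this]
  exact Set.ncard_le_ncard (fun x ⟨i, hi, e, h⟩ => h ▸ h1 i hi e) hS

theorem ncard_le_sum {X : Type*} {ι : Type} {S : Set X} {L : List ι} {T : ι → Set X} {b : ι → ℕ} (hS : S.Finite)
    (h1 : ∀ x ∈ S, ∃ i ∈ L, x ∈ T i) (h2 : ∀ i ∈ L, (S ∩ T i).ncard ≤ b i) : S.ncard ≤ sumL L b := by
  rw [sumL_eq]
  induction L generalizing S with
  | nil => rw [show S = ∅ from Set.eq_empty_of_forall_notMem fun x hx => by simpa using h1 x hx]; simp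
  | cons a L ih =>
    rw [List.map_cons, List.sum_cons, ← Set.ncard_inter_add_ncard_diff_eq_ncard S (T a) hS]
    refine Nat.add_le_add (h2 a List.mem_cons_self) (ih (hS.subset Set.diff_subset) (fun x hx => ?_) fun i hi => ?_)
    · obtain ⟨i, hi, e⟩ := h1 x hx.1
      rcases List.mem_cons.1 hi with rfl | hi
      · exact absurd e hx.2
      · exact ⟨i, hi, e⟩
    · exact (Set.ncard_le_ncard (Set.inter_subset_inter_left _ Set.diff_subset) (hS.subset Set.inter_subset_left)).trans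
        (h2 i (List.mem_cons_of_mem _ hi))

theorem ncard_eq_sum {X : Type*} {ι : Type} {S : Set X} {L : List ι} {T : ι → Set X} {b : ι → ℕ} (hS : S.Finite)
    (hL : L.Pairwise fun i j => ∀ x ∈ S, x ∈ T i → x ∉ T j)
    (h1 : ∀ x ∈ S, ∃ i ∈ L, x ∈ T i) (h2 : ∀ i ∈ L, (S ∩ T i).ncard = b i) : S.ncard = sumL L b := by
  rw [sumL_eq]
  induction L generalizing S with
  | nil => rw [show S = ∅ from Set.eq_empty_of_forall_notMem fun x hx => by simpa using h1 x hx]; simp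
  | cons a L ih =>
    rw [List.pairwise_cons] at hL
    rw [List.map_cons, List.sum_cons, ← Set.ncard_inter_add_ncard_diff_eq_ncard S (T a) hS, h2 a List.mem_cons_self,
      ih (hS.subset Set.diff_subset) (hL.2.imp fun h x hx => h x hx.1) (fun x hx => ?_) fun i hi => ?_]
    · obtain ⟨i, hi, e⟩ := h1 x hx.1
      rcases List.mem_cons.1 hi with rfl | hi
      · exact absurd e hx.2
      · exact ⟨i, hi, e⟩
    · rw [← h2 i (List.mem_cons_of_mem _ hi)]
      congr 1; ext x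
      exact ⟨fun h => ⟨h.1.1, h.2⟩, fun h => ⟨⟨h.1, fun a' => hL.1 i hi x h.1 a' h.2⟩, h.2⟩⟩

/-- three-way selection -/
def b3 (x y : Bool) (a b c : ℕ) : ℕ := Bool.rec (Bool.rec a b x) c y

theorem sumL_rec3 (L : List ℕ) (f g : ℕ → Bool) (a b c : ℕ) :
    sumL L (fun q => b3 (f q) (g q) a b c) = c * sumL L (fun q => b3 (f q) (g q) 0 0 1) +
      sumL L (fun q => b3 (f q) (g q) 1 0 0) * a + sumL L (fun q => b3 (f q) (g q) 0 1 0) * b := by
  simp only [sumL_eq]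
  induction L with
  | nil => simp
  | cons q L ih =>
    simp only [List.map_cons, List.sum_cons, ih]
    cases f q <;> cases g q <;> simp only [b3] <;> ring

/-- the sextet group -/
def Sx : Subgroup Pm where
  carrier := {g | g ∈ M24 ∧ symmDiff (g • fs T0) (fs T0) ∈ CW}
  mul_mem' := fun {a b} ha hb => ⟨mul_mem ha.1 hb.1, by
    have := symmDiff_mem_CW (smul_mem_CW ha.1 hb.2) ha.2
    rwa [smul_symmDiff, symmDiff_assoc, symmDiff_symmDiff_cancel_left, ← mul_smul] at this⟩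
  one_mem' := ⟨one_mem _, by rw [one_smul, symmDiff_self]; exact empty_mem_CW⟩
  inv_mem' := fun {a} ha => ⟨inv_mem ha.1, by
    have := smul_mem_CW (inv_mem ha.1) ha.2
    rwa [smul_symmDiff, inv_smul_smul, symmDiff_comm] at this⟩

theorem T0_lt : T0 < 2 ^ 24 := by decide
theorem mem_Sx {g : Pm} : g ∈ Sx ↔ g ∈ M24 ∧ eqv (apM (code g) T0) T0 = true := by
  rw [eqv, ← fs_mem_CW_iff (xor_lt (apM_lt g T0_lt) T0_lt), fs_xor, ← smul_fs g T0_lt]; rfl

theorem col_of_eqv {m : ℕ} (hm : m < 2 ^ 24) (h4 : popc m = 4) (h : eqv m T0 = true) : m ∈ colsL := by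
  obtain ⟨i, hi, e⟩ := exists_enc (fs_mem_CW h)
  have e1 := fs_inj (xor_lt hm T0_lt) (enc_lt hi) e
  have e2 : m = Nat.xor (enc i) T0 := by
    rw [← e1]; show m = (m ^^^ T0) ^^^ T0; rw [Nat.xor_assoc, Nat.xor_self, Nat.xor_zero]
  have key : allLt (fun i => !(Nat.beq (popc (Nat.xor (enc i) T0)) 4) || memL (Nat.xor (enc i) T0) colsL) 4096 = true := by
    decide +kernel
  have := allLt_iff.1 key i hi
  rw [← e2, h4] at this
  exact memL_iff.1 (by simpa using this)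

theorem colsL_spec {m : ℕ} (h : m ∈ colsL) : m < 2 ^ 24 ∧ popc m = 4 ∧ eqv m T0 = true := by
  have : allL colsL (fun m => Nat.blt m 16777216 && Nat.beq (popc m) 4 && eqv m T0) = true := by decide +kernel
  have := allL_iff.1 this m h
  simpa [blt_iff, beq_iff, and_assoc] using this

theorem Sx_col {g : Pm} (hg : g ∈ Sx) {m : ℕ} (h : m ∈ colsL) : apM (code g) m ∈ colsL := by
  obtain ⟨h1, h2, h3⟩ := colsL_spec h
  refine col_of_eqv (apM_lt g h1) (by rw [← card_fs, ← smul_fs g h1, card_smul, card_fs, h2]) ?_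
  rw [eqv, ← fs_mem_CW_iff (xor_lt (apM_lt g h1) T0_lt), fs_xor, ← smul_fs g h1]
  rw [eqv, ← fs_mem_CW_iff (xor_lt h1 T0_lt), fs_xor] at h3
  have := symmDiff_mem_CW (smul_mem_CW hg.1 h3) hg.2
  rwa [smul_symmDiff, symmDiff_assoc, symmDiff_symmDiff_cancel_left] at this

/-- the kernel of the action on the columns -/
def K6 : Subgroup Pm where
  carrier := {g | g ∈ M24 ∧ ∀ m ∈ colsL, g • fs m = fs m}
  mul_mem' := fun {a b} ha hb => ⟨mul_mem ha.1 hb.1, fun m hm => by rw [mul_smul, hb.2 m hm, ha.2 m hm]⟩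
  one_mem' := ⟨one_mem _, fun m _ => one_smul _ _⟩
  inv_mem' := fun {a} ha => ⟨inv_mem ha.1, fun m hm => by rw [inv_smul_eq_iff, ha.2 m hm]⟩

theorem Sx_norm : Sx ≤ 𝐍(K6) := fun g hg => mem_normalizer_of_cj_le (cj_le_iff'.2 fun k hk =>
  ⟨conj_H hg.1 hk.1, fun m hm => by
    rw [mul_smul, mul_smul, smul_fs g⁻¹ (colsL_spec hm).1, hk.2 _ (Sx_col (inv_mem hg) hm), ← smul_fs _ (colsL_spec hm).1,
      smul_inv_smul]⟩)

theorem p0_K6 : perm p0C ∈ K6 := ⟨perm_mem_M24 p0C_in, fun m hm => by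
  have : allL colsL (fun m => st p0C m) = true := by decide +kernel
  rw [← st_iff (colsL_spec hm).1, code_perm' p0C_in]; exact allL_iff.1 this m hm⟩

/-- all sets of a list are fixed -/
def pSets (L : List ℕ) : PC := fun i x j y => allL L fun m => pSet m m i x j y

theorem sat_sets {g : Pm} {L : List ℕ} (h : ∀ m ∈ L, g • fs m = fs m) : Sat (pSets L) (code g) :=
  fun i hi j hj => allL_iff.2 fun m hm => sat_set (h m hm) i hi j hj

theorem mem_Q6L {g : Pm} (hg : g ∈ K6) (h : g * g = 1) : code g ∈ Q6L := by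
  have := all24_sound (P := pSets colsL) (leaf := fun c => !(Nat.beq (mul c c) oneC) || !(allL colsL (st c)) || memL c Q6L)
    (k := 0xa81d32c6f252c23250f66c188125e6) (ki := 0x8a2eaa42460d4e573c444826b60db6) (by decide +kernel) hg.1
    (sat_sets hg.2)
  rw [← code_mul, h, code_one, beq_iff.2 rfl, allL_iff.2 fun m hm => (st_iff (colsL_spec hm).1).2 (hg.2 m hm)] at this
  exact memL_iff.1 (by simpa using this)

theorem ncard_code_le (L : List ℕ) : {g : Pm | code g ∈ L}.ncard ≤ L.length := by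
  classical
  rw [← Set.ncard_image_of_injective _ code_injective]
  refine (Set.ncard_le_ncard (t := (L.toFinset : Set ℕ)) (fun x hx => by
    obtain ⟨g, h, rfl⟩ := hx
    simpa using h)).trans ?_
  rw [Set.ncard_coe_finset]; exact List.toFinset_card_le L

variable {G : Type*} [Group G] [Finite G]

namespace MM
variable {V : Subgroup G} {ν : Finset GolayPt → G} {κ : M24 →* G} (h : MM V ν κ)
include h

theorem conjE {a b c : ℕ × ℕ} (ha : okE a = true) (hb : okE b = true) (hc : okE c = true)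
    (H : eqE (mulE a b) (mulE c a) = true) : el ν κ a * el ν κ b * (el ν κ a)⁻¹ = el ν κ c :=
  h.conj_eq (by rw [ha, hb, hc, H]; rfl)

theorem mu_el {a : ℕ × ℕ} (ha : okE a = true) : pel h.mu (el ν κ a) = perm a.2 :=
  h.mu_vk (h.v_mem (okE_ev ha)) (perm_mem_M24 (okE_in ha))

theorem el_sq {m r : ℕ} (hm : ev m = true) (hr : inM24 r = true) :
    el ν κ (m, r) * el ν κ (m, r) = 1 ↔ eqv (apM r m) m = true ∧ mul r r = oneC := by
  rw [← h.el_one, h.el_mul (okE_mk hm hr) (okE_mk hm hr), h.el_eq_iff (okE_mul (okE_mk hm hr) (okE_mk hm hr))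
    (okE_mk ev_zero oneC_in), eqE, Bool.and_eq_true, beq_iff, eqv, eqv]
  show isCode ((m ^^^ apM r m) ^^^ 0) = true ∧ _ ↔ isCode (apM r m ^^^ m) = true ∧ _
  rw [Nat.xor_zero, Nat.xor_comm]; rfl

theorem exists_el' {x : G} (hx : x ∈ 𝐍(V)) {r : ℕ} (e : pel h.mu x = perm r) : ∃ m, ev m = true ∧ x = el ν κ (m, r) := by
  obtain ⟨m, hm, e1⟩ := h.dec' hx
  exact ⟨m, hm, by rw [e1, e]; rfl⟩

/-- classification over a representative by a list of conjugators -/
theorem conj_over {r : ℕ} (hr : inM24 r = true) {t : ℕ × ℕ} {L : List (ℕ × ℕ)} {P : ℕ → Bool} (ht : okE t = true)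
    (hL : allL L okE = true) (hP : ∀ a b, red a = red b → P a = P b)
    (H : allLt (fun j => !(ev (hi j)) || (!(P (hi j)) || anyL L fun a => eqE (mulE a (hi j, r)) (mulE t a))) 4096 = true)
    {m : ℕ} (hm : ev m = true) (hp : P m = true) : ∃ n ∈ 𝐍(V), n * el ν κ (m, r) * n⁻¹ = el ν κ t := by
  obtain ⟨j, hj, e1, e2⟩ := h.exists_hi (h.v_mem hm)
  have := allLt_iff.1 H j hj
  rw [e1, hP _ m (eqv_iff_red.1 ((h.v_eq_iff e1 hm).1 e2)), hp] at this
  obtain ⟨a, ha, e⟩ := anyL_iff.1 (by simpa using this)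
  have oa := allL_iff.1 hL a ha
  exact ⟨_, h.el_mem oa, by
    rw [show el ν κ (m, r) = el ν κ (hi j, r) by rw [el, el, e2]]; exact h.conjE oa (okE_mk e1 hr) ht e⟩

theorem red_apM {g : Pm} (hg : g ∈ M24) {a b : ℕ} (ha : ev a = true) (hb : ev b = true) (e : red a = red b) :
    red (apM (code g) a) = red (apM (code g) b) := by
  rw [← eqv_iff_red, ← h.v_eq_iff (ev_apM g ha) (ev_apM g hb), ← h.conj_v hg ha, ← h.conj_v hg hb,
    (h.v_eq_iff ha hb).2 (eqv_iff_red.2 e)]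

/-- number of elements of a set over a given permutation -/
theorem ncard_over {T : Set G} {r : ℕ} (hr : inM24 r = true) {p : ℕ → Bool}
    (H : ∀ m, ev m = true → (el ν κ (m, r) ∈ T ↔ p m = true)) :
    (T ∩ {x | x ∈ 𝐍(V) ∧ pel h.mu x = perm r}).ncard = countLt (fun j => ev (hi j) && p (hi j)) 4096 := by
  rw [← h.ncard_V (S := {v | v ∈ V ∧ v * pel κ (perm r) ∈ T}) (fun _ a => a.1) fun m hm => by
    rw [← H m hm]; exact and_iff_right (h.v_mem hm),
    ← Set.ncard_image_of_injective {v | v ∈ V ∧ v * pel κ (perm r) ∈ T} (mul_left_injective (pel κ (perm r)))]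
  congr 1; ext x
  refine ⟨fun ⟨a, b, c⟩ => ?_, fun ⟨v, ⟨a, b⟩, c⟩ => c ▸ ⟨b, mul_mem (h.V_le a) (h.k_mem (perm_mem_M24 hr)),
    h.mu_vk a (perm_mem_M24 hr)⟩⟩
  obtain ⟨m, hm, rfl⟩ := h.exists_el' b c
  exact ⟨_, ⟨h.v_mem hm, a⟩, rfl⟩

theorem ncard_over_le {T : Set G} {r : ℕ} (hr : inM24 r = true) {p : ℕ → Bool}
    (hP : ∀ a b, ev a = true → ev b = true → red a = red b → p a = p b)
    (H : ∀ m, ev m = true → el ν κ (m, r) ∈ T → p m = true) :
    (T ∩ {x | x ∈ 𝐍(V) ∧ pel h.mu x = perm r}).ncard ≤ countLt (fun j => ev (hi j) && p (hi j)) 4096 := by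
  rw [← h.ncard_over (T := {x | ∃ m, ev m = true ∧ p m = true ∧ x = el ν κ (m, r)}) hr fun m hm =>
    ⟨fun ⟨m', a, b, c⟩ => by
      rw [h.el_eq_iff (okE_mk hm hr) (okE_mk a hr), eqE, Bool.and_eq_true] at c
      rw [hP m m' hm a (eqv_iff_red.1 c.1), b], fun a => ⟨m, hm, a, rfl⟩⟩]
  refine Set.ncard_le_ncard fun x ⟨a, b, c⟩ => ⟨?_, b, c⟩
  obtain ⟨m, hm, rfl⟩ := h.exists_el' b c
  exact ⟨m, hm, H m hm a, rfl⟩

theorem ncard_over_conj {T : Set G} {k g : Pm} (hk : k ∈ M24)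
    (hT : ∀ x, pel κ k * x * (pel κ k)⁻¹ ∈ T ↔ x ∈ T) :
    (T ∩ {x | x ∈ 𝐍(V) ∧ pel h.mu x = k * g * k⁻¹}).ncard = (T ∩ {x | x ∈ 𝐍(V) ∧ pel h.mu x = g}).ncard := by
  have hk' := h.k_mem hk
  rw [← Set.ncard_image_of_injective (T ∩ {x | x ∈ 𝐍(V) ∧ pel h.mu x = g}) (MulAut.conj (pel κ k)).injective]
  congr 1; ext x
  refine ⟨fun ⟨a, b, c⟩ => ⟨(pel κ k)⁻¹ * x * (pel κ k)⁻¹⁻¹, ⟨(hT _).1 (by simpa [mul_assoc] using a), conj_H (inv_mem hk') b, by
    rw [pel_conj _ (inv_mem hk') b, pel_inv _ hk', h.mu_k hk, c]; group⟩, by simp [mul_assoc]⟩, ?_⟩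
  rintro ⟨y, ⟨a, b, c⟩, rfl⟩
  exact ⟨(hT y).2 a, conj_H hk' b, by rw [MulAut.conj_apply, pel_conj _ hk' b, h.mu_k hk, c]⟩

end MM

/-- fixed by `r` -/
def fx (r m : ℕ) : Bool := eqv (apM r m) m
def s7A : ℕ := 0x9d8ca3bda060ae95a29270e040c4b5
def cA1 : List (ℕ × ℕ) := (List.range 7).flatMap fun i => WA.map fun w => (w, powC s7A i)

theorem isConj_conj_iff {a x g : G} : IsConj a (g * x * g⁻¹) ↔ IsConj a x :=
  ⟨fun h => h.trans (isConj_iff.2 ⟨g, rfl⟩).symm, fun h => h.trans (isConj_iff.2 ⟨g, rfl⟩)⟩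

namespace MM
variable {V : Subgroup G} {ν : Finset GolayPt → G} {κ : M24 →* G} (h : MM V ν κ)
include h

theorem fx_congr {r : ℕ} (hr : inM24 r = true) {a b : ℕ} (ha : ev a = true) (hb : ev b = true) (e : red a = red b) :
    fx r a = fx r b := by
  have := h.red_apM (perm_mem_M24 hr) ha hb e
  rw [code_perm' hr] at this
  rw [Bool.eq_iff_iff, fx, fx, eqv_iff_red, eqv_iff_red, this, e]

theorem clsA0 {m : ℕ} (hm : ev m = true) (hp : memL (red m) LA = true) :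
    ∃ n ∈ 𝐍(V), n * el ν κ (m, r2A) * n⁻¹ = el ν κ (0, r2A) :=
  h.conj_over r2A_in (L := WA.map fun w => (w, oneC)) (P := fun m => memL (red m) LA) (by decide +kernel)
    (by decide +kernel) (fun a b e => by rw [e]) (by decide +kernel) hm hp

theorem clsB0 {m : ℕ} (hm : ev m = true) (hp : memL (red m) LB = true) :
    ∃ n ∈ 𝐍(V), n * el ν κ (m, r2B) * n⁻¹ = el ν κ (0, r2B) :=
  h.conj_over r2B_in (L := WB.map fun w => (w, oneC)) (P := fun m => memL (red m) LB) (by decide +kernel)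
    (by decide +kernel) (fun a b e => by rw [e]) (by decide +kernel) hm hp

theorem exists_red {m : ℕ} (hm : ev m = true) : ev (red m) = true ∧ ν (fs (red m)) = ν (fs m) ∧ red (red m) = red m := by
  obtain ⟨j, hj, e1, e2⟩ := h.exists_hi (h.v_mem hm)
  have e3 := eqv_iff_red.1 ((h.v_eq_iff e1 hm).1 e2)
  have e4 : red (hi j) = hi j := by
    have : Nat.land (hi j) 4095 = 0 := by
      show (j * 4096) &&& (2 ^ 12 - 1) = 0
      rw [Nat.and_two_pow_sub_one_eq_mod]; omega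
    rw [red, this, show enc 0 = 0 by decide +kernel]; exact Nat.xor_zero _
  rw [← e3, e4]; exact ⟨e1, e2, e4⟩

theorem clsA1 {m : ℕ} (hm : ev m = true) (hf : fx r2A m = true) (hp : memL (red m) LA = false) :
    ∃ n ∈ 𝐍(V), n * el ν κ (m, r2A) * n⁻¹ = el ν κ (uA, r2A) := by
  obtain ⟨e1, e2, e3⟩ := h.exists_red hm
  exact h.conj_over r2A_in (L := cA1) (P := fun m => fx r2A (red m) && !(memL (red m) LA)) (by decide +kernel)
    (by decide +kernel) (fun a b e => by rw [e]) (by decide +kernel) hm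
    (by rw [h.fx_congr r2A_in e1 hm e3, hf, hp]; rfl)

theorem clsB1 {m : ℕ} (hm : ev m = true) (hf : fx r2B m = true) (hp : memL (red m) LB = false) :
    ∃ n ∈ 𝐍(V), n * el ν κ (m, r2B) * n⁻¹ = el ν κ (uB, r2B) := by
  obtain ⟨e1, e2, e3⟩ := h.exists_red hm
  exact h.conj_over r2B_in (L := WB.map fun w => (w, oneC)) (P := fun m => fx r2B (red m) && !(memL (red m) LB))
    (by decide +kernel) (by decide +kernel) (fun a b e => by rw [e]) (by decide +kernel) hm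
    (by rw [h.fx_congr r2B_in e1 hm e3, hf, hp]; rfl)

theorem el_conj_k {k r r' m : ℕ} (hm : ev m = true) (H : (inM24 k && inM24 r && inM24 r' && iw k r r') = true) :
    pel κ (perm k) * el ν κ (m, r) * (pel κ (perm k))⁻¹ = el ν κ (apM k m, r') := by
  have := perm_conj H
  simp only [Bool.and_eq_true] at H
  rw [el, el, ← conj_mul, h.conj_v (perm_mem_M24 H.1.1.1) hm, code_perm' H.1.1.1,
    ← pel_conj _ (perm_mem_M24 H.1.1.1) (perm_mem_M24 H.1.1.2), this]

end MM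

namespace St
variable (S : St G)

theorem mu_Sx {n : G} (hn : n ∈ 𝐂[S.z] ⊓ 𝐍(S.V)) : pel S.μ n ∈ Sx :=
  mem_Sx.2 ⟨S.mm.mu_mem hn.2, (S.mem_H_iff hn.2).1 hn.1⟩

theorem mu_E {e : G} (he : e ∈ S.E) : code (pel S.μ e) ∈ Q6L := by
  have h1 : S.E ≤ pcomap S.μ K6 := by
    rw [← S.jh.ez.odd_sup (S.jh.P_le.trans S.jh.E_norm) (by rw [S.jh.card_P]; decide), cent_zpowers]
    refine sup_le (fun x hx => ?_) (commutator_le.2 fun a ha b hb => ?_)
    · rcases S.jh.E_cent_p hx.1 hx.2 with rfl | rfl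
      · exact one_mem _
      · exact mem_pcomap.2 ⟨S.mm.V_le S.z_mem_V, by rw [S.mm.mu_v S.z_mem_V]; exact one_mem _⟩
    · have hb' : b ∈ pcomap S.μ K6 := zpowers_le.2 (mem_pcomap.2 ⟨S.ker_le_M S.jh.p_ker, by
        rw [S.p_eq, S.mm.mu_k (perm_mem_M24 p0C_in)]; exact p0_K6⟩) hb
      refine mul_mem ?_ (inv_mem hb')
      obtain ⟨b1, b2⟩ := mem_pcomap.1 hb'
      exact mem_pcomap.2 ⟨conj_H (S.E_le_M ha) b1, by
        rw [pel_conj _ (S.E_le_M ha) b1]
        exact conj_mem_of_mem_normalizer (Sx_norm (S.mu_Sx ⟨S.jh.E_le ha, S.E_le_M ha⟩)) b2⟩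
  refine mem_Q6L (mem_pcomap.1 (h1 he)).2 ?_
  rw [← pel_mul _ (S.E_le_M he) (S.E_le_M he), S.mm.mu_v (zpowers_le.2 S.z_mem_V (S.jh.ez.sq_mem he))]

theorem card_U : Nat.card ↥(S.V ⊓ S.E) = 128 ∧ Nat.card (pmap S.μ S.E) = 64 := by
  have h1 := S.jh.ez.card_mul_card_cent (U := S.V ⊓ S.E) ⟨S.z_mem_V, S.jh.z_mem⟩ inf_le_right
  have h2 : Nat.card ↥(S.V ⊓ S.E) ≤ Nat.card ↥(S.E ⊓ 𝐂(S.V ⊓ S.E)) :=
    card_le_of_le' (le_inf inf_le_right (inf_le_left.trans (S.mm.todd.le_cent.trans (cent_mono inf_le_left))))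
  have h3 := S.mm.card_eq S.E_le_M
  have h4 : Nat.card (pmap S.μ S.E) ≤ 64 := le_trans (Set.ncard_le_ncard (s := (pmap S.μ S.E : Set Pm)) fun g hg => by
    obtain ⟨e, he, rfl⟩ := (mem_pmap_of_le S.E_le_M).1 hg
    exact S.mu_E he) (ncard_code_le Q6L)
  rw [S.jh.card_E] at h1 h3
  have h5 : Nat.card ↥(S.V ⊓ S.E) ≤ 128 := by nlinarith
  have h6 : 128 ≤ Nat.card ↥(S.V ⊓ S.E) := by nlinarith
  have h7 := le_antisymm h5 h6
  rw [h7] at h3
  exact ⟨h7, Nat.eq_of_mul_eq_mul_left (show 0 < 128 by norm_num) h3.symm⟩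

theorem exists_E_over {q : ℕ} (hq : (inM24 q && memL q Q6L) = true) : ∃ e ∈ S.E, pel S.μ e = perm q := by
  rw [Bool.and_eq_true, memL_iff] at hq
  have := Set.eq_of_subset_of_ncard_le (s := (pmap S.μ S.E : Set Pm)) (t := {g | code g ∈ Q6L}) (fun g hg => by
    obtain ⟨e, he, rfl⟩ := (mem_pmap_of_le S.E_le_M).1 hg
    exact S.mu_E he) ((ncard_code_le Q6L).trans S.card_U.2.ge)
  exact (mem_pmap_of_le S.E_le_M).1 (this.ge (by rw [Set.mem_setOf_eq, code_perm' hq.1]; exact hq.2))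

/-- membership test for `U = E ∩ V` -/
def _root_.CA.J4.inU (m : ℕ) : Bool :=
  memL (red (Nat.xor (apM 0x36a99c864516cc5be88399d088457 m) m)) [0, 0xda1000] &&
  memL (red (Nat.xor (apM 0x42b49b1d67c4924292b3986d28457 m) m)) [0, 0xda1000]

theorem comm_U {q m : ℕ} (hq : (inM24 q && memL q Q6L) = true) (hm : ev m = true) (he : S.v m ∈ S.E) :
    memL (red (Nat.xor (apM q m) m)) [0, 0xda1000] = true := by
  obtain ⟨e, he', e1⟩ := S.exists_E_over hq
  rw [Bool.and_eq_true] at hq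
  have h1 := S.jh.ez.comm_mem he' he
  have h2 := S.mm.acts_mu (S.E_le_M he') _ (ev_even hm)
  have h3 := ev_apM (perm q) hm
  rw [e1, smul_fs _ (ev_lt hm)] at h2
  rw [h2, S.mm.v_inv (S.mm.v_mem hm), ← S.mm.v_xor h3 hm, S.jh.ez.mem_zp, S.z_eq, ← S.mm.v_zero,
    S.mm.v_eq_iff (ev_xor h3 hm) ev_zero, S.mm.v_eq_iff (ev_xor h3 hm) T0_ev, eqv_iff_red, eqv_iff_red,
    code_perm' hq.1, show red 0 = 0 by decide +kernel, show red T0 = 0xda1000 by decide +kernel] at h1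
  rw [memL_iff]; simpa using h1

theorem v_mem_E {m : ℕ} (hm : ev m = true) : S.v m ∈ S.E ↔ inU m = true := by
  have key : ∀ m, ev m = true → S.v m ∈ S.E → inU m = true := fun m hm he => by
    rw [inU, S.comm_U (by decide +kernel) hm he, S.comm_U (by decide +kernel) hm he]; rfl
  have inv : ∀ q, inM24 q = true → ∀ a b, ev a = true → ev b = true → red a = red b →
      red (Nat.xor (apM q a) a) = red (Nat.xor (apM q b) b) := fun q hq a b ha hb e => by
    have := S.mm.red_apM (perm_mem_M24 hq) ha hb e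
    rw [code_perm' hq] at this
    exact (red_xor _ _).trans ((show _ = red (apM q b) ^^^ red b by rw [this, e]).trans (red_xor _ _).symm)
  have h1 := S.mm.ncard_V (S := {v | ∃ m, ev m = true ∧ inU m = true ∧ S.v m = v}) (p := inU)
    (fun v ⟨m, a, b, c⟩ => c ▸ S.mm.v_mem a) fun m hm => ⟨fun ⟨m', a, b, c⟩ => by
      have e := eqv_iff_red.1 ((S.mm.v_eq_iff a hm).1 c)
      rw [inU] at b ⊢
      rwa [inv _ (by decide +kernel) _ _ hm a e.symm, inv _ (by decide +kernel) _ _ hm a e.symm], fun a => ⟨m, hm, a, rfl⟩⟩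
  rw [show countLt _ 4096 = 128 by decide +kernel] at h1
  have := Set.eq_of_subset_of_ncard_le (s := ((S.V ⊓ S.E : Subgroup G) : Set G))
    (t := {v | ∃ m, ev m = true ∧ inU m = true ∧ S.v m = v}) (fun v hv => by
    obtain ⟨m, hm, rfl⟩ := S.mm.exists_v hv.1
    exact ⟨m, hm, key m hm hv.2, rfl⟩) (h1.le.trans S.card_U.1.ge)
  exact ⟨key m hm, fun a => (this.ge ⟨m, hm, a, rfl⟩).2⟩

theorem t3_E : S.v 3 ∈ S.E := (S.v_mem_E (by decide +kernel)).2 (by decide +kernel)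
theorem t3_card : (fs 3).card = 2 := by rw [card_fs]; decide +kernel

theorem class_t3 : 2772 ≤ {y | ∃ h ∈ 𝐂[S.z], h * S.v 3 * h⁻¹ = y}.ncard := by
  have h1 : 36 ≤ 𝐂[S.v 3].relIndex (𝐂[S.z] ⊓ 𝐍(S.V)) := by
    rw [relIndex_cent1_eq_ncard]
    have k1 : allLt (fun i => inM24 (nth dL36 i) && eqv (apM (nth dL36 i) T0) T0) 36 = true := by decide +kernel
    have k2 : allLt (fun i => allLt (fun j => Nat.beq i j || !(eqv (apM (nth dL36 i) 3) (apM (nth dL36 j) 3))) 36) 36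
      = true := by decide +kernel
    have k3 : ∀ i < 36, inM24 (nth dL36 i) = true := fun i hi => ((Bool.and_eq_true _ _).mp (allLt_iff.1 k1 i hi)).1
    have k4 : ∀ i < 36, ev (apM (nth dL36 i) 3) = true := fun i hi => by
      rw [← code_perm' (k3 i hi)]; exact ev_apM _ (by decide +kernel)
    refine le_trans (by decide +kernel) (ncard_ge (Set.toFinite _) (y := fun i => S.v (apM (nth dL36 i) 3))
      (v := fun _ => true) (n := 36) (fun i hi _ => ⟨S.k (nth dL36 i), ⟨(S.k_mem_H (k3 i hi)).2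
        ((Bool.and_eq_true _ _).mp (allLt_iff.1 k1 i hi)).2, S.k_mem (k3 i hi)⟩, by
        rw [k, v, S.mm.conj_v (perm_mem_M24 (k3 i hi)) (by decide +kernel), code_perm' (k3 i hi)]⟩) fun i hi j hj _ _ e => ?_)
    have := allLt_iff.1 (allLt_iff.1 k2 i hi) j hj
    rw [(S.mm.v_eq_iff (k4 i hi) (k4 j hj)).1 e] at this
    simpa [beq_iff] using this
  have h2 := card_inf_mul_relIndex 𝐂[S.v 3] (𝐂[S.z] ⊓ 𝐍(S.V))
  have h3 := card_inf_mul_relIndex 𝐂[S.v 3] 𝐂[S.z]
  rw [inf_comm 𝐂[S.z], ← inf_assoc, inf_eq_left.2 (S.cent_duad t3_card), inf_comm 𝐍(S.V), S.card_HM] at h2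
  rw [S.jh.card_H, relIndex_cent1_eq_ncard] at h3
  nlinarith

theorem class_t3_sub {y : G} (hy : ∃ h ∈ 𝐂[S.z], h * S.v 3 * h⁻¹ = y) : y ∈ S.E ∧ IsConj S.t y := by
  obtain ⟨h, hh, rfl⟩ := hy
  exact ⟨conj_mem_of_mem_normalizer (S.jh.E_norm hh) S.t3_E, isConj_conj_iff.2 (S.conj_duad t3_card)⟩

theorem sq_of_conj {a x : G} (ha : orderOf a = 2) (h : IsConj a x) : x * x = 1 := by
  rw [← pow_two, ← ha, orderOf_eq_of_isConj h, pow_orderOf_eq_one]

/-- bound for the number of elements of a class in `E` -/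
theorem ncard_E_le {a : G} (ha : orderOf a = 2) {bA bB : ℕ}
    (hA : ({x | IsConj a x} ∩ {x | x ∈ 𝐍(S.V) ∧ pel S.μ x = perm r2A}).ncard ≤ bA)
    (hB : ({x | IsConj a x} ∩ {x | x ∈ 𝐍(S.V) ∧ pel S.μ x = perm r2B}).ncard ≤ bB) :
    {x | x ∈ S.E ∧ IsConj a x}.ncard ≤ 128 + 45 * bA + 18 * bB := by
  have key : allL Q6L (fun q => inM24 q && Nat.beq (mul q q) oneC) = true := by decide +kernel
  refine (ncard_le_sum (L := Q6L) (T := fun q => {x | x ∈ 𝐍(S.V) ∧ pel S.μ x = perm q})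
    (b := fun q => b3 (Nat.beq (popc (fixM q)) 0) (Nat.beq q oneC) bA bB 128) (Set.toFinite _)
    (fun x hx => ⟨_, S.mu_E hx.1, S.E_le_M hx.1, (perm_code _).symm⟩) fun q hq => ?_).trans ?_
  · have := allL_iff.1 key q hq
    rw [Bool.and_eq_true, beq_iff] at this
    cases e : Nat.beq q oneC
    · have o : orderOf (perm q) = 2 := orderOf_eq_prime (by rw [pow_two, perm_mul' this.1 this.1, this.2, perm_oneC])
        fun e' => beq_false_iff.1 e (by rw [← code_perm' this.1, e', code_one])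
      have c : (fixS (perm q)).card = popc (fixM q) := by rw [fixS_perm this.1, card_fs]
      refine (Set.ncard_le_ncard (Set.inter_subset_inter_left (t := {x | IsConj a x}) _ fun x hx => hx.2)).trans ?_
      cases e2 : Nat.beq (popc (fixM q)) 0
      · obtain ⟨k, hk, e3⟩ := class_2A (perm_mem_M24 this.1) o (c ▸ beq_false_iff.1 e2)
        rw [← S.mm.ncard_over_conj hk fun x => isConj_conj_iff, e3]; exact hA
      · obtain ⟨k, hk, e3⟩ := class_2B (perm_mem_M24 this.1) o (c ▸ beq_iff.1 e2)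
        rw [← S.mm.ncard_over_conj hk fun x => isConj_conj_iff, e3]; exact hB
    · rw [beq_iff.1 e, perm_oneC, ← S.card_U.1]
      exact Set.ncard_le_ncard (t := ((S.V ⊓ S.E : Subgroup G) : Set G)) fun x hx => ⟨S.mm.ker_mu ▸ mem_pker.2 hx.2, hx.1.1⟩
  · rw [sumL_rec3, show sumL Q6L _ = 1 by decide +kernel, show sumL Q6L _ = 45 by decide +kernel,
      show sumL Q6L _ = 18 by decide +kernel]

theorem fx_of_conj {a : G} (ha : orderOf a = 2) {m r : ℕ} (hm : ev m = true) (hr : inM24 r = true)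
    (h : IsConj a (S.e (m, r))) : fx r m = true := ((S.mm.el_sq hm hr).1 (sq_of_conj ha h)).1

theorem tyA : IsConj S.z (S.e (0, r2A)) ∧ IsConj S.t (S.e (uA, r2A)) := by
  have qL := S.k_mem_L (a := 0x20ab4995617a0038a92e39a5765a0d) (by decide +kernel)
  have t1L : S.v 0x800008 ∈ 𝐂[S.z] ⊓ 𝐂[S.p] := S.v_mem_L (by decide +kernel)
  have t1t := S.conj_duad (s := fs 0x800008) (by rw [card_fs]; decide +kernel)
  have t1z : IsConj S.z (S.v 0x800008 * S.z) := by
    conv_rhs => rw [S.z_eq', S.v_mul (c := 0x1490) (by decide +kernel)]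
    exact S.conj_tetrad (by rw [card_fs]; decide +kernel)
  have c0 := S.mm.el_conj_k (k := 0x8b9eb436e74daa20518454a0508cd3) (r := 0x20ab4995617a0038a92e39a5765a0d) (r' := r2A)
    ev_zero (by decide +kernel)
  have c1 := S.mm.el_conj_k (k := 0x8b9eb436e74daa20518454a0508cd3) (r := 0x20ab4995617a0038a92e39a5765a0d) (r' := r2A)
    T0_ev (by decide +kernel)
  obtain ⟨n, -, c2⟩ := S.mm.clsA1 (m := apM 0x8b9eb436e74daa20518454a0508cd3 T0) (by decide +kernel) (by decide +kernel)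
    (by decide +kernel)
  rw [S.mm.el_k, show apM _ 0 = 0 by decide +kernel] at c0
  rw [el, ← S.z_eq, ← mem_cent1_iff.1 qL.1] at c1
  obtain ⟨l, hl, e⟩ := S.jh.conj_invol_L qL t1L (S.k_ord (by norm_num) (by decide +kernel))
    (S.mm.orderOf_v (by decide +kernel)) (by rw [S.z_eq, ← S.mm.el_v, k, ← S.mm.el_k]; exact S.mm.ne_of (by decide +kernel))
    fun e => S.not_zt (by rw [← e]) t1t
  have zl : l * S.z * l⁻¹ = S.z := by rw [mem_cent1_iff.1 hl.1, mul_inv_cancel_right]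
  rw [St.e, St.e, ← c2, ← c1, ← c0, isConj_conj_iff, isConj_conj_iff, isConj_conj_iff, ← isConj_conj_iff (g := l),
    ← isConj_conj_iff (a := S.t) (g := l), ← conj_mul, zl]
  rcases e with e | e
  · exfalso
    have a1 : IsConj S.z (S.e (uA, r2A)) := by
      rw [St.e, ← c2, ← c1, isConj_conj_iff, isConj_conj_iff, ← isConj_conj_iff (g := l), ← conj_mul, zl, e]; exact t1z
    have h1 := S.ncard_E_le S.t_ord (bA := 16) (bB := 64)
      ((S.mm.ncard_over_le r2A_in (p := fun m => memL (red m) LA) (fun a b _ _ e => by rw [e]) fun m hm hx => by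
        by_contra hp
        obtain ⟨n, -, e⟩ := S.mm.clsA1 hm (S.fx_of_conj S.t_ord hm r2A_in hx) (by simpa using hp)
        exact S.not_zt a1 (by rw [St.e, ← e]; exact isConj_conj_iff.2 hx)).trans (by decide +kernel))
      ((S.mm.ncard_over_le r2B_in (p := fx r2B) (fun a b ha hb e => S.mm.fx_congr r2B_in ha hb e)
        fun m hm hx => S.fx_of_conj S.t_ord hm r2B_in hx).trans (by decide +kernel))
    have h2 := S.class_t3.trans (Set.ncard_le_ncard (t := {x | x ∈ S.E ∧ IsConj S.t x}) fun y hy => S.class_t3_sub hy)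
    omega
  · rw [e, mul_assoc, S.jh.z_sq, mul_one]; exact ⟨t1z, t1t⟩

theorem zA {m : ℕ} (hm : ev m = true) (hf : fx r2A m = true) : IsConj S.z (S.e (m, r2A)) ↔ memL (red m) LA = true := by
  refine ⟨fun hx => ?_, fun hp => ?_⟩
  · by_contra hp
    obtain ⟨n, -, e⟩ := S.mm.clsA1 hm hf (by simpa using hp)
    exact S.not_zt (isConj_conj_iff.2 hx) (by rw [St.e, e]; exact S.tyA.2)
  · obtain ⟨n, -, e⟩ := S.mm.clsA0 hm hp
    exact isConj_conj_iff.1 (by rw [St.e, e]; exact S.tyA.1)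

theorem z_k2A {g : Pm} (hg : g ∈ M24) (ho : orderOf g = 2) (hf : (fixS g).card ≠ 0) : IsConj S.z (pel S.κ g) := by
  obtain ⟨k, hk, e⟩ := class_2A hg ho hf
  have := S.tyA.1
  rwa [St.e, S.mm.el_k, ← e, pel_conj _ hk hg, isConj_conj_iff] at this

end St

end CA.J4
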