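import Cfsg.Agent.Lib.J4.Mod

/-!
Uniqueness of the 6-dimensional module over `F₄` of `3.M22:2`.
-/

set_option autoImplicit false

namespace CA.J4
open CA.Gol

variable {W : Type*} [AddCommGroup W]

theorem end_add (a b : AddMonoid.End W) (w : W) : (a + b) w = a w + b w := rfl
theorem end_mul (a b : AddMonoid.End W) (w : W) : (a * b) w = a (b w) := rfl
theorem end_one (w : W) : (1 : AddMonoid.End W) w = w := rfl

/-- coordinates on `W` -/
structure Crd (c : ℕ → W) : Prop where
  add : ∀ a < 4096, ∀ b < 4096, c (a ^^^ b) = c a + c b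
  inj0 : ∀ a < 4096, c a = 0 → a = 0
  surj : ∀ w, ∃ a < 4096, c a = w

/-- `M` is the matrix of `T` -/
def Rep (c : ℕ → W) (T : AddMonoid.End W) (M : ℕ) : Prop :=
  ∀ n < 4096, lin M n < 4096 ∧ T (c n) = c (lin M n)

theorem add_zero_of {c : ℕ → W} (h : ∀ a < 4096, ∀ b < 4096, c (a ^^^ b) = c a + c b) : c 0 = 0 := by
  have := h 0 (by norm_num) 0 (by norm_num)
  rw [Nat.xor_self] at this
  exact left_eq_add.1 this

theorem rep_of_basis {c : ℕ → W} (h : ∀ a < 4096, ∀ b < 4096, c (a ^^^ b) = c a + c b) {T : AddMonoid.End W}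
    {M : ℕ} (hM : ∀ j < 12, col M j < 4096 ∧ T (c (2 ^ j)) = c (col M j)) : Rep c T M := by
  have hl : ∀ n < 4096, lin M n < 4096 := fun n hn =>
    lin_lt_of (n := 12) (m := 12) (by norm_num) (fun j hj => (hM j hj).1) hn
  intro n hn
  refine ⟨hl n hn, xor_induction (n := 12) (P := fun n => T (c n) = c (lin M n)) ?_ ?_ ?_ n hn⟩
  · rw [lin_zero, add_zero_of h, map_zero]
  · intro j hj; rw [lin_pow _ (by omega)]; exact (hM j hj).2
  · intro a ha b hb h1 h2
    rw [h a ha b hb, map_add, h1, h2, lin_xor12 _ ha hb, h _ (hl a ha) _ (hl b hb)]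

namespace Crd
variable {c : ℕ → W} (h : Crd c)
include h

theorem zero : c 0 = 0 := add_zero_of h.add

theorem two (w : W) : w + w = 0 := by
  obtain ⟨a, ha, rfl⟩ := h.surj w
  rw [← h.add a ha a ha, Nat.xor_self, h.zero]

theorem inj {a b : ℕ} (ha : a < 4096) (hb : b < 4096) (e : c a = c b) : a = b :=
  Nat.xor_eq_zero_iff.1 (h.inj0 _ (xor12 ha hb) (by rw [h.add a ha b hb, e, h.two]))

theorem exists_rep (T : AddMonoid.End W) : ∃ M, Rep c T M := by
  choose f hf using fun j : ℕ => h.surj (T (c (2 ^ j)))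
  refine ⟨J4.mk f 12, rep_of_basis h.add fun j hj => ?_⟩
  rw [col_mk (fun j _ => by have := (hf j).1; omega) hj]
  exact ⟨(hf j).1, (hf j).2.symm⟩

theorem comp {T Ti : ℕ} (hT : (colsLt T 12 4096 && colsLt Ti 12 4096 && eq12 (mm T Ti) I13 &&
    eq12 (mm Ti T) I13) = true) : Crd fun n => c (lin T n) := by
  simp only [Bool.and_eq_true] at hT
  obtain ⟨⟨⟨h1, h2⟩, h3⟩, h4⟩ := hT
  refine ⟨fun a ha b hb => ?_, fun a ha e => ?_, fun w => ?_⟩
  · rw [lin_xor12 _ ha hb, h.add _ (lin_lt12 h1 ha) _ (lin_lt12 h1 hb)]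
  · rw [← lin_inv (A := Ti) (B := T) (by rw [h1, h4]; rfl) ha, h.inj0 _ (lin_lt12 h1 ha) e, lin_zero]
  · obtain ⟨a, ha, rfl⟩ := h.surj w
    exact ⟨_, lin_lt12 h2 ha, by rw [lin_inv (A := T) (B := Ti) (by rw [h2, h3]; rfl) ha]⟩

end Crd

theorem Rep.comp {c : ℕ → W} {A : AddMonoid.End W} {M M' T : ℕ} (h : Rep c A M)
    (hT : (colsLt T 12 4096 && colsLt M' 12 4096 && eq12 (mm M T) (mm T M')) = true) :
    Rep (fun n => c (lin T n)) A M' := by
  intro n hn
  have hT' := hT
  simp only [Bool.and_eq_true] at hT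
  exact ⟨lin_lt12 hT.1.2 hn, by rw [(h _ (lin_lt12 hT.1.1 hn)).2, lin_rel hT' hn]⟩

theorem Rep.congr {c : ℕ → W} {A : AddMonoid.End W} {M M' : ℕ} (h : Rep c A M)
    (e : ∀ n < 4096, lin M n = lin M' n) : Rep c A M' := fun n hn => by rw [← e n hn]; exact h n hn

theorem Rep.mul {c : ℕ → W} {A B : AddMonoid.End W} {M N : ℕ} (h : Rep c A M) (h' : Rep c B N) :
    Rep c (A * B) (mm M N) := by
  intro n hn
  rw [lin_mm12 _ (fun n hn => (h' n hn).1) hn]
  exact ⟨(h _ (h' n hn).1).1, by rw [AddMonoid.End.coe_mul, Function.comp, (h' n hn).2, (h _ (h' n hn).1).2]⟩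

/-- iterated application -/
def itr (M k n : ℕ) : ℕ := Nat.rec n (fun _ ih => force ih (lin M)) k

theorem itr_succ (M k n : ℕ) : itr M (k + 1) n = lin M (itr M k n) := force_eq _ _

theorem Rep.pow {c : ℕ → W} {A : AddMonoid.End W} {M : ℕ} (h : Rep c A M) (k : ℕ) {n : ℕ} (hn : n < 4096) :
    itr M k n < 4096 ∧ (A ^ k) (c n) = c (itr M k n) := by
  induction k with
  | zero => exact ⟨hn, rfl⟩
  | succ k ih =>
    rw [itr_succ, pow_succ', AddMonoid.End.coe_mul, Function.comp, ih.2]
    exact h _ ih.1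

/-- the combination of `e 0, ..., e 11` with the bits of `n` -/
def cw (e : ℕ → W) (n : ℕ) : W := ∑ j ∈ Finset.range 12, if n.testBit j then e j else 0

theorem cw_add (h2 : ∀ w : W, w + w = 0) (e : ℕ → W) (a b : ℕ) : cw e (a ^^^ b) = cw e a + cw e b := by
  rw [cw, cw, cw, ← Finset.sum_add_distrib]
  apply Finset.sum_congr rfl
  intro j _
  rw [Nat.testBit_xor]
  cases a.testBit j <;> cases b.testBit j <;> simp [h2]

theorem cw_pow (e : ℕ → W) {j : ℕ} (hj : j < 12) : cw e (2 ^ j) = e j := by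
  rw [cw, Finset.sum_eq_single j]
  · simp
  · intro i _ hi; simp [hi.symm]
  · intro h; exact absurd (Finset.mem_range.2 hj) h

/-- the companion basis -/
def bv (o X : AddMonoid.End W) (v u : W) (j : ℕ) : W :=
  if j < 10 then (o ^ (j % 2) * X ^ (j / 2)) v else (o ^ (j % 2)) u

section comp
variable (h2 : ∀ w : W, w + w = 0) {o X Y : AddMonoid.End W} (ho : o * o = o + 1) (hoX : X * o = o * X)
  {v u : W}
include h2 ho

theorem rep_o : Rep (cw (bv o X v u)) o OM := by
  have ho' : ∀ w, o (o w) = o w + w := fun w => DFunLike.congr_fun ho w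
  refine rep_of_basis (fun a _ b _ => cw_add h2 _ a b) fun j hj => ?_
  have key : allLt (fun j => Nat.blt (col OM j) 4096 && Nat.beq (col OM j)
      (Bool.rec (Nat.pow 2 (j + 1)) (Nat.xor (Nat.pow 2 j) (Nat.pow 2 (j - 1))) (Nat.beq (j % 2) 1))) 12 = true := by
    decide +kernel
  have := allLt_iff.1 key j hj
  simp only [Bool.and_eq_true, blt_iff, beq_iff] at this
  refine ⟨this.1, ?_⟩
  rw [this.2, cw_pow _ hj]
  rcases Nat.mod_two_eq_zero_or_one j with e | e <;> rw [e]
  · show _ = cw _ (2 ^ (j + 1))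
    rw [cw_pow _ (by omega), bv, bv, e, show (j + 1) % 2 = 1 by omega, show (j + 1) / 2 = j / 2 by omega]
    by_cases h : j < 10
    · rw [if_pos h, if_pos (by omega)]; simp
    · rw [if_neg h, if_neg (by omega)]; simp
  · show _ = cw _ (2 ^ j ^^^ 2 ^ (j - 1))
    rw [cw_add h2, cw_pow _ hj, cw_pow _ (by omega), bv, bv, e, show (j - 1) % 2 = 0 by omega,
      show (j - 1) / 2 = j / 2 by omega]
    by_cases h : j < 10
    · rw [if_pos h, if_pos (by omega)]; simp [ho']
    · rw [if_neg h, if_neg (by omega)]; simp [ho']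

include hoX in
theorem rep_X (hv : f1 X o v = 0) (hu : X u = u) : Rep (cw (bv o X v u)) X Xc := by
  have hc : ∀ w, X (o w) = o (X w) := fun w => by
    have := DFunLike.congr_fun hoX w; simpa using this
  have ho' : ∀ w, o (o w) = o w + w := fun w => DFunLike.congr_fun ho w
  have R := rep_o (X := X) (v := v) (u := u) h2 ho
  have ev : ∀ j < 12, j % 2 = 0 → X (cw (bv o X v u) (2 ^ j)) = cw (bv o X v u) (col Xc j) := by
    intro j hj e
    rw [cw_pow _ hj]
    have e1 : ∀ i < 4, col Xc (2 * i) = 2 ^ (2 * i + 2) := by decide +kernel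
    by_cases h8 : j < 8
    · obtain ⟨i, rfl⟩ : ∃ i, j = 2 * i := ⟨j / 2, by omega⟩
      rw [e1 i (by omega), cw_pow _ (by omega), bv, bv, if_pos (by omega), if_pos (by omega), e,
        show (2 * i + 2) % 2 = 0 by omega, show (2 * i + 2) / 2 = 2 * i / 2 + 1 by omega, pow_succ']
      simp
    · by_cases h9 : j = 8
      · subst h9
        rw [show col Xc 8 = 2 ^ 0 ^^^ 2 ^ 3 ^^^ 2 ^ 4 ^^^ 2 ^ 6 ^^^ 2 ^ 8 ^^^ 2 ^ 9 by decide +kernel]
        simp only [cw_add h2]
        rw [cw_pow _ (by norm_num), cw_pow _ (by norm_num), cw_pow _ (by norm_num), cw_pow _ (by norm_num),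
          cw_pow _ (by norm_num), cw_pow _ (by norm_num)]
        simp only [f1, pow_succ', pow_zero, mul_one, end_add, end_mul, end_one, ho'] at hv
        simp only [bv, Nat.reduceLT, if_true, Nat.reduceMod, Nat.reduceDiv, pow_succ', pow_zero, mul_one,
          AddMonoid.End.coe_mul, Function.comp, AddMonoid.End.coe_one, id, one_mul]
        rw [← add_eq_zero_iff_eq_neg.1 hv |>.trans (neg_eq_of_add_eq_zero_left (h2 _))]
        abel
      · obtain rfl : j = 10 := by omega
        rw [show col Xc 10 = 2 ^ 10 by decide +kernel, cw_pow _ (by norm_num)]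
        simp [bv, hu]
  refine rep_of_basis (fun a _ b _ => cw_add h2 _ a b) fun j hj => ?_
  have hlt : ∀ j < 12, col Xc j < 4096 := by decide +kernel
  refine ⟨hlt j hj, ?_⟩
  rcases Nat.mod_two_eq_zero_or_one j with e | e
  · exact ev j hj e
  · have e1 : ∀ j < 12, j % 2 = 1 → 2 ^ j = lin OM (2 ^ (j - 1)) ∧ col Xc j = lin OM (col Xc (j - 1)) := by
      decide +kernel
    have hp : 2 ^ (j - 1) < 4096 := Nat.pow_lt_pow_right (by norm_num) (show j - 1 < 12 by omega)
    rw [(e1 j hj e).1, (e1 j hj e).2, ← (R _ hp).2, ← (R _ (hlt _ (by omega))).2, hc, ev _ (by omega) (by omega)]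

include hoX in
theorem inj1 (hv : f1 X o v = 0) (hu : X u = u) (hv0 : v ≠ 0) :
    ∀ n < 1024, cw (bv o X v u) n = 0 → n = 0 := by
  have R := rep_o (X := X) (v := v) (u := u) h2 ho
  have R' := rep_X h2 ho hoX hv hu
  have key : allLt (fun n => Nat.ble n 1 || force (Nat.xor (lin Xc n) (lin OM n)) fun m =>
      Nat.blt m 1024 && Nat.blt 0 m && Nat.blt (fld 10 RK m) (fld 10 RK n)) 1024 = true := by decide +kernel
  have : ∀ k n, n < 1024 → fld 10 RK n = k → cw (bv o X v u) n = 0 → n = 0 := by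
    intro k
    induction k using Nat.strong_induction_on with
    | _ k ih =>
      intro n hn hk e
      have := allLt_iff.1 key n hn
      simp only [force_eq, Bool.or_eq_true, Bool.and_eq_true, ble_iff, blt_iff] at this
      rcases this with h | ⟨⟨h1, h3⟩, h4⟩
      · by_contra h0
        obtain rfl : n = 2 ^ 0 := by omega
        rw [cw_pow _ (by norm_num)] at e
        exact hv0 (by simpa [bv] using e)
      · have := ih _ (hk ▸ h4) _ h1 rfl (by
          show cw _ (_ ^^^ _) = 0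
          rw [cw_add h2, ← (R n (by omega)).2, ← (R' n (by omega)).2, e, map_zero, map_zero, add_zero])
        omega
  exact fun n hn => this _ n hn rfl

include hoX in
theorem crd_comp [Finite W] (hc : Nat.card W = 4096) (hv : f1 X o v = 0) (hu : X u = u) (hv0 : v ≠ 0)
    (hu0 : u ≠ 0) : Crd (cw (bv o X v u)) := by
  have R := rep_o (X := X) (v := v) (u := u) h2 ho
  have R' := rep_X h2 ho hoX hv hu
  have hi : ∀ a < 4096, cw (bv o X v u) a = 0 → a = 0 := by
    intro a ha e
    have key : allLt (fun n => force (Nat.xor n (lin Xc n)) fun m => Nat.blt m 1024 &&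
        (Nat.blt 0 m || Nat.beq n 0 || memL 1024 [n, lin OM n, lin OM (lin OM n)])) 4096 = true := by
      decide +kernel
    have := allLt_iff.1 key a ha
    simp only [force_eq, Bool.or_eq_true, Bool.and_eq_true, blt_iff, beq_iff, memL_iff] at this
    have e0 := inj1 h2 ho hoX hv hu hv0 _ this.1 (by
      show cw _ (_ ^^^ _) = 0
      rw [cw_add h2, ← (R' a ha).2, e, map_zero, add_zero])
    have e1 : cw (bv o X v u) (lin OM a) = 0 := by rw [← (R a ha).2, e, map_zero]
    have e2 : cw (bv o X v u) (lin OM (lin OM a)) = 0 := by rw [← (R _ (R a ha).1).2, e1, map_zero]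
    have e3 : cw (bv o X v u) 1024 ≠ 0 := by
      rw [show 1024 = 2 ^ 10 from rfl, cw_pow _ (by norm_num)]; simpa [bv] using hu0
    rcases this.2 with (h | h) | h
    · rw [e0] at h; exact absurd h (lt_irrefl _)
    · exact h
    · simp only [List.mem_cons, List.not_mem_nil, or_false] at h
      rcases h with h | h | h
      · exact absurd (h ▸ e) e3
      · exact absurd (h ▸ e1) e3
      · exact absurd (h ▸ e2) e3
  refine ⟨fun a _ b _ => cw_add h2 _ a b, hi, ?_⟩
  let φ : Fin 4096 → W := fun n => cw (bv o X v u) n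
  have hφ : Function.Injective φ := fun a b e => Fin.ext (Nat.xor_eq_zero_iff.1 (hi _ (xor12 a.2 b.2) (by
    rw [cw_add h2, show cw (bv o X v u) a = cw (bv o X v u) b from e, h2])))
  have hs := (hφ.bijective_of_nat_card_le (by rw [hc]; simp)).2
  intro w
  obtain ⟨a, rfl⟩ := hs w
  exact ⟨a, a.2, rfl⟩

end comp

end CA.J4
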