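import Cfsg.Agent.Lib.J4.Mod2

/-!
Uniqueness of the 6-dimensional module over `F₄` of `3.M22:2`: the main theorem.
-/

set_option autoImplicit false

namespace CA.J4
open CA.Gol

variable {W : Type*} [AddCommGroup W]

theorem itr_zero (M n : ℕ) : itr M 0 n = n := rfl

/-- prepend an `F₄`-column -/
def cons2 (x y : ℕ) : ℕ := cons x (cons (lin OM x) y)

/-- the `F₄`-linear map with six given columns -/
def mk6 (a b c d e f : ℕ) : ℕ := cons2 a (cons2 b (cons2 c (cons2 d (cons2 e (cons2 f 0)))))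

theorem rep_mk6 {c : ℕ → W} (h : Crd c) {o T : AddMonoid.End W} (ho : Rep c o OM) (hT : T * o = o * T)
    {a0 a1 a2 a3 a4 a5 : ℕ} (h0 : a0 < 4096) (h1 : a1 < 4096) (h2 : a2 < 4096) (h3 : a3 < 4096) (h4 : a4 < 4096)
    (h5 : a5 < 4096) (e0 : T (c 1) = c a0) (e1 : T (c 4) = c a1) (e2 : T (c 16) = c a2) (e3 : T (c 64) = c a3)
    (e4 : T (c 256) = c a4) (e5 : T (c 1024) = c a5) : Rep c T (mk6 a0 a1 a2 a3 a4 a5) := by
  have od : ∀ {n m a : ℕ}, n < 4096 → a < 4096 → T (c n) = c a → m = lin OM n →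
      lin OM a < 4096 ∧ T (c m) = c (lin OM a) := by
    intro n m a hn ha e em
    refine ⟨(ho a ha).1, ?_⟩
    rw [em, ← (ho n hn).2, ← end_mul, hT, end_mul, e, (ho a ha).2]
  have l := lin_lt OM
  have g0 : a0 < 65536 := by omega
  have g1 : a1 < 65536 := by omega
  have g2 : a2 < 65536 := by omega
  have g3 : a3 < 65536 := by omega
  have g4 : a4 < 65536 := by omega
  have g5 : a5 < 65536 := by omega
  refine rep_of_basis h.add fun j hj => ?_
  interval_cases j <;>
    simp only [mk6, cons2, col_cons_succ g0, col_cons_succ g1, col_cons_succ g2, col_cons_succ g3, col_cons_succ g4,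
      col_cons_succ g5, col_cons_succ (l _), col_cons_zero g0, col_cons_zero g1, col_cons_zero g2, col_cons_zero g3,
      col_cons_zero g4, col_cons_zero g5, col_cons_zero (l _)]
  · exact ⟨h0, e0⟩
  · exact od (by norm_num) h0 e0 (by decide +kernel)
  · exact ⟨h1, e1⟩
  · exact od (by norm_num) h1 e1 (by decide +kernel)
  · exact ⟨h2, e2⟩
  · exact od (by norm_num) h2 e2 (by decide +kernel)
  · exact ⟨h3, e3⟩
  · exact od (by norm_num) h3 e3 (by decide +kernel)
  · exact ⟨h4, e4⟩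
  · exact od (by norm_num) h4 e4 (by decide +kernel)
  · exact ⟨h5, e5⟩
  · exact od (by norm_num) h5 e5 (by decide +kernel)

def X1 : ℕ := 0x86004d007300e200ab205610df00ba00008000400210013
def Y1 : ℕ := 0xaa005500800040002000100008000400008000400020001

/-- `(X F ^ j) ^ k` is scalar on `n` -/
def sc7 (M j k n : ℕ) : Bool :=
  force (Nat.rec n (fun _ ih => force ih fun w => force (itr M j w) (lin X1)) k) fun r =>
    memL r [n, lin OM n, lin OM (lin OM n)]

/-- the test for the matrix of `F` -/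
def tstF (M : ℕ) : Bool :=
  !(Nat.beq (itr M 4 16) 16) || !(sc7 M 1 7 17) || !(sc7 M 2 3 17) ||
    memL M [0x13003200c10083004c00c800fb00a600002000100080004, 0x13003200c10083004c00c800fb00a6000010003000c0008,
      0x13003200c10083004c00c800fb00a60000300020004000c]

theorem chkF : allLt (fun a => allLt (fun b => force (cons2 a (cons2 b 0)) fun M1 =>
    !(Nat.beq (itr M1 4 1) 1) || !(Nat.beq (itr M1 4 4) 4) || allLt (fun k => force (16 * k) fun cc =>
      force (mk6 a b cc (itr Y1 2 cc) (itr Y1 4 cc) (itr Y1 6 cc)) tstF) 256) 16) 16 = true := by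
  decide +kernel

theorem itr_low {a b c d e f : ℕ} (ha : a < 16) (hb : b < 16) (k : ℕ) {n : ℕ} (hn : n < 16) :
    itr (cons2 a (cons2 b 0)) k n < 16 ∧ itr (mk6 a b c d e f) k n = itr (cons2 a (cons2 b 0)) k n := by
  have l := lin_lt OM
  have g0 : a < 65536 := by omega
  have g1 : b < 65536 := by omega
  have o : ∀ a < 16, lin OM a < 16 := by decide +kernel
  induction k with
  | zero => rw [itr_zero, itr_zero]; exact ⟨hn, rfl⟩
  | succ k ih =>
    rw [itr_succ, itr_succ, ih.2]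
    refine ⟨lin_lt_of (n := 4) (m := 4) (by norm_num) (fun j hj => ?_) ih.1,
      lin_congr (n := 4) (by norm_num) (fun j hj => ?_) ih.1⟩ <;> interval_cases j <;>
    simp only [mk6, cons2, col_cons_succ g0, col_cons_succ g1, col_cons_succ (l _), col_cons_zero g0,
      col_cons_zero g1, col_cons_zero (l _)]
    exacts [ha, o a ha, hb, o b hb]

theorem tstF_mk6 {a b k : ℕ} (ha : a < 16) (hb : b < 16) (hk : k < 256) {M : ℕ}
    (e : M = mk6 a b (16 * k) (itr Y1 2 (16 * k)) (itr Y1 4 (16 * k)) (itr Y1 6 (16 * k)))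
    (h1 : itr M 4 1 = 1) (h2 : itr M 4 4 = 4) : tstF M = true := by
  subst e
  have := allLt_iff.1 (allLt_iff.1 chkF a ha) b hb
  rw [(itr_low ha hb 4 (by norm_num)).2] at h1 h2
  simp only [force_eq, h1, h2, beq_iff.2 rfl, Bool.not_true, Bool.false_or, allLt_iff] at this
  exact this k hk

section main
variable [Finite W] (h2 : ∀ w : W, w + w = 0) (hc : Nat.card W = 4096) {o X Y F S : AddMonoid.End W}
  (ho : o * o = o + 1) (hoX : X * o = o * X) (hoY : Y * o = o * Y) (hoF : F * o = o * F)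
  (hX : X ^ 11 = 1) (hY : Y ^ 5 = 1) (hF : F ^ 4 = 1) (hYX : Y * X = X ^ 3 * Y) (hFY : F * Y = Y ^ 2 * F)
  (hXF : (X * F ^ 1) ^ 7 = 1 ∨ (X * F ^ 1) ^ 7 = o ∨ (X * F ^ 1) ^ 7 = o * o)
  (hXF2 : (X * F ^ 2) ^ 3 = 1 ∨ (X * F ^ 2) ^ 3 = o ∨ (X * F ^ 2) ^ 3 = o * o)
include h2 hc ho hoX

include hoY hX hY hYX in
theorem step_Y {w : W} (hw0 : w ≠ 0) (hw : f1 X o w = 0) :
    ∃ c : ℕ → W, Crd c ∧ Rep c o OM ∧ Rep c X Xc ∧ Rep c Y Yc := by
  obtain ⟨u, hu0, hu⟩ := exists_fixed_ne X (p := 11) (by norm_num) (fun a => by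
    rw [← AddMonoid.End.coe_pow, hX]; rfl) 0 (by rw [hc]; norm_num) (map_zero X)
  have C := crd_comp h2 ho hoX hc hw hu hw0 hu0
  have R := rep_o (X := X) (v := w) (u := u) h2 ho
  have R' := rep_X h2 ho hoX hw hu
  set c := cw (bv o X w u)
  obtain ⟨M, hM⟩ := C.exists_rep Y
  have hinv : ∀ n < 1024, lin M n < 1024 := by
    intro n hn
    have k1 : allLt (fun n => force (lin 0x27601ed02f601ad02d601bd02de01b902dc01b8 n) fun m =>
      Nat.blt m 4096 && Nat.beq n (Nat.xor (lin Xc m) m)) 1024 = true := by decide +kernel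
    have k2 : allLt (fun k => Nat.blt (Nat.xor (itr Xc 3 k) k) 1024) 4096 = true := by decide +kernel
    have := allLt_iff.1 k1 n hn
    simp only [force_eq, Bool.and_eq_true, blt_iff, beq_iff] at this
    obtain ⟨hm, e⟩ := this
    set m := lin 0x27601ed02f601ad02d601bd02de01b902dc01b8 n
    have hk := (hM m hm).1
    have e1 : c (lin M n) = c (itr Xc 3 (lin M m) ^^^ lin M m) := by
      rw [← (hM n (by omega)).2, C.add _ (R'.pow 3 hk).1 _ hk, ← (R'.pow 3 hk).2, ← (hM m hm).2, ← end_mul, ← hYX]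
      conv_lhs => rw [e]
      show Y (c (_ ^^^ _)) = _
      rw [C.add _ (R' m hm).1 _ hm, map_add, ← (R' m hm).2]; rfl
    rw [C.inj (hM n (by omega)).1 (xor12 (R'.pow 3 hk).1 hk) e1]
    exact blt_iff.1 (allLt_iff.1 k2 _ hk)
  let g : Fin 1024 → Fin 1024 := fun n => ⟨lin M n, hinv n n.2⟩
  have hg : ∀ k (n : Fin 1024), ((g^[k] n : Fin 1024) : ℕ) = itr M k n := by
    intro k n
    induction k with
    | zero => rfl
    | succ k ih => rw [Function.iterate_succ_apply', itr_succ, ← ih]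
  obtain ⟨n, hn0, hn⟩ := exists_fixed_ne g (p := 5) (by norm_num) (fun a => Fin.ext (by
    have ha : (a : ℕ) < 4096 := by omega
    rw [hg]; exact C.inj (hM.pow 5 ha).1 ha (by rw [← (hM.pow 5 ha).2, hY]; rfl))) ⟨0, by norm_num⟩
    (by rw [Nat.card_fin]; norm_num) (Fin.ext (lin_zero M))
  have hn4 : (n : ℕ) < 4096 := by omega
  have hv0 : c n ≠ 0 := fun e => hn0 (Fin.ext (C.inj0 _ hn4 e))
  have hYv : Y (c n) = c n := by rw [(hM n hn4).2]; exact congrArg (fun m : Fin 1024 => c m) hn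
  have hv : f1 X o (c n) = 0 := by
    have k : allLt (fun n => Nat.beq (Nat.xor (Nat.xor (Nat.xor (Nat.xor (Nat.xor n (lin OM (lin Xc n))) (itr Xc 2 n))
      (itr Xc 3 n)) (itr OM 2 (itr Xc 4 n))) (itr Xc 5 n)) 0) 1024 = true := by decide +kernel
    have e := beq_iff.1 (allLt_iff.1 k n n.2)
    have a1 := R _ (R' n hn4).1
    have a2 := R'.pow 2 hn4
    have a3 := R'.pow 3 hn4
    have a4 := R.pow 2 (R'.pow 4 hn4).1
    have a5 := R'.pow 5 hn4
    simp only [f1, end_add, end_mul, end_one]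
    rw [(R' n hn4).2, a1.2, a2.2, a3.2, (R'.pow 4 hn4).2, a4.2, a5.2, ← C.add _ hn4 _ a1.1,
      ← C.add _ (xor12 hn4 a1.1) _ a2.1, ← C.add _ (xor12 (xor12 hn4 a1.1) a2.1) _ a3.1,
      ← C.add _ (xor12 (xor12 (xor12 hn4 a1.1) a2.1) a3.1) _ a4.1,
      ← C.add _ (xor12 (xor12 (xor12 (xor12 hn4 a1.1) a2.1) a3.1) a4.1) _ a5.1]
    exact (congrArg c e).trans C.zero
  generalize c n = v at hv0 hYv hv
  clear C R R' hn hn0 hn4
  have C := crd_comp h2 ho hoX hc hv hu hv0 hu0
  have R := rep_o (X := X) (v := v) (u := u) h2 ho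
  have R' := rep_X h2 ho hoX hv hu
  have e1 : cw (bv o X v u) 1 = v := by
    rw [show 1 = 2 ^ 0 from rfl, cw_pow _ (by norm_num)]; simp [bv]
  generalize cw (bv o X v u) = c at C R R' e1
  refine ⟨c, C, R, R', ?_⟩
  have hp : ∀ i, Y * X ^ i = X ^ (3 * i) * Y := by
    intro i
    induction i with
    | zero => simp
    | succ i ih => rw [pow_succ, ← mul_assoc, ih, mul_assoc, hYX, ← mul_assoc, ← pow_add]; rfl
  have ev : ∀ i a b, a = itr Xc i 1 → b = itr Xc (3 * i) 1 → Y (c a) = c b := by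
    rintro i a b rfl rfl
    rw [← (R'.pow i (by norm_num)).2, ← (R'.pow _ (by norm_num)).2, ← end_mul, hp, end_mul, e1, hYv]
  obtain ⟨m, hm, em⟩ := C.surj (Y (c 1024))
  have hm' : m = 1024 := by
    have k : allLt (fun m => !(Nat.beq (itr Xc 3 m) m) || Nat.beq m 1024 ||
      !(Nat.beq (itr (mk6 1 64 0x393 0x21e 4 m) 5 1024) 1024)) 4096 = true := by decide +kernel
    have a1 : itr Xc 3 m = m := C.inj (R'.pow 3 hm).1 hm (by
      rw [← (R'.pow 3 hm).2, em, ← end_mul, ← hYX, end_mul, (R' _ (by norm_num)).2,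
        show lin Xc 1024 = 1024 by decide +kernel])
    have R2 := rep_mk6 C R hoY (a0 := 1) (a1 := 64) (a2 := 0x393) (a3 := 0x21e) (a4 := 4) (by norm_num)
      (by norm_num) (by norm_num) (by norm_num) (by norm_num) hm (ev 0 _ _ rfl rfl)
      (ev 1 _ _ (by decide +kernel) (by decide +kernel)) (ev 2 _ _ (by decide +kernel) (by decide +kernel))
      (ev 3 _ _ (by decide +kernel) (by decide +kernel)) (ev 4 _ _ (by decide +kernel) (by decide +kernel)) em.symm
    have a2 := C.inj (R2.pow 5 (n := 1024) (by norm_num)).1 (by norm_num : 1024 < 4096) (by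
      rw [← (R2.pow 5 (by norm_num)).2, hY]; rfl)
    have := allLt_iff.1 k m hm
    rw [a1, a2] at this
    simpa [beq_iff] using this
  have R2 := rep_mk6 C R hoY (a0 := 1) (a1 := 64) (a2 := 0x393) (a3 := 0x21e) (a4 := 4) (by norm_num)
    (by norm_num) (by norm_num) (by norm_num) (by norm_num) hm (ev 0 _ _ rfl rfl)
    (ev 1 _ _ (by decide +kernel) (by decide +kernel)) (ev 2 _ _ (by decide +kernel) (by decide +kernel))
    (ev 3 _ _ (by decide +kernel) (by decide +kernel)) (ev 4 _ _ (by decide +kernel) (by decide +kernel)) em.symm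
  rw [hm'] at R2
  exact R2.congr fun n hn => eq12_lin (by decide +kernel) hn

include hoY hoF hX hY hF hYX hFY hXF hXF2 in
theorem step_F {w : W} (hw0 : w ≠ 0) (hw : f1 X o w = 0) :
    ∃ c : ℕ → W, Crd c ∧ Rep c o OM ∧ Rep c X XN ∧ Rep c Y YN ∧ Rep c F FN := by
  obtain ⟨c, C, R, RX, RY⟩ := step_Y h2 hc ho hoX hoY hX hY hYX hw0 hw
  replace C := C.comp (T := 0x1af035a0326021d00810043000900070800040000020001)
    (Ti := 0x800040aa10553008100430de30b920021001300020001) (by decide +kernel)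
  replace R := R.comp (T := 0x1af035a0326021d00810043000900070800040000020001) (M' := OM) (by decide +kernel)
  replace RX := RX.comp (T := 0x1af035a0326021d00810043000900070800040000020001) (M' := X1) (by decide +kernel)
  replace RY := RY.comp (T := 0x1af035a0326021d00810043000900070800040000020001) (M' := Y1) (by decide +kernel)
  generalize (fun n => c (lin 0x1af035a0326021d00810043000900070800040000020001 n)) = c at C R RX RY
  have hp : ∀ i, F * Y ^ i = Y ^ (2 * i) * F := by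
    intro i
    induction i with
    | zero => simp
    | succ i ih => rw [pow_succ, ← mul_assoc, ih, mul_assoc, hFY, ← mul_assoc, ← pow_add]; rfl
  have fx : ∀ n < 4096, lin Y1 n = n → ∃ a < 16, F (c n) = c a := by
    intro n hn e
    obtain ⟨a, ha, ea⟩ := C.surj (F (c n))
    have k : allLt (fun a => !(Nat.beq (itr Y1 2 a) a) || Nat.blt a 16) 4096 = true := by decide +kernel
    have a1 : itr Y1 2 a = a := C.inj (RY.pow 2 ha).1 ha (by
      rw [← (RY.pow 2 ha).2, ea, ← end_mul, ← hFY, end_mul, (RY n hn).2, e])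
    have := allLt_iff.1 k a ha
    rw [a1] at this
    exact ⟨a, by simpa [beq_iff, blt_iff] using this, ea.symm⟩
  obtain ⟨a, ha, ea⟩ := fx 1 (by norm_num) (by decide +kernel)
  obtain ⟨b, hb, eb⟩ := fx 4 (by norm_num) (by decide +kernel)
  obtain ⟨m, hm, em⟩ := C.surj (F (c 16))
  have ev : ∀ i a, a = itr Y1 i 16 → F (c a) = c (itr Y1 (2 * i) m) := by
    rintro i a rfl
    rw [← (RY.pow i (by norm_num)).2, ← (RY.pow _ hm).2, ← end_mul, hp, end_mul, em]
  have R2 := rep_mk6 C R hoF (a0 := a) (a1 := b) (by omega) (by omega) hm (RY.pow 2 hm).1 (RY.pow 4 hm).1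
    (RY.pow 6 hm).1 ea eb em.symm (ev 1 _ (by decide +kernel)) (ev 2 _ (by decide +kernel))
    (ev 3 _ (by decide +kernel))
  obtain ⟨k, rfl⟩ : 16 ∣ m := by
    have k : allLt (fun m => !(Nat.beq (itr Y1 8 m) (Nat.xor (Nat.xor (Nat.xor m (itr Y1 2 m)) (itr Y1 4 m))
      (itr Y1 6 m))) || Nat.beq (Nat.mod m 16) 0) 4096 = true := by decide +kernel
    have a1 := ev 4 (16 ^^^ 64 ^^^ 256 ^^^ 1024) (by decide +kernel)
    rw [C.add _ (by decide +kernel) _ (by norm_num), C.add _ (by decide +kernel) _ (by norm_num),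
      C.add _ (by decide +kernel) _ (by norm_num), map_add, map_add, map_add, ← em, ev 1 _ (by decide +kernel),
      ev 2 _ (by decide +kernel), ev 3 _ (by decide +kernel), ← C.add _ hm _ (RY.pow _ hm).1,
      ← C.add _ (xor12 hm (RY.pow _ hm).1) _ (RY.pow _ hm).1,
      ← C.add _ (xor12 (xor12 hm (RY.pow _ hm).1) (RY.pow _ hm).1) _ (RY.pow _ hm).1] at a1
    have a2 := C.inj (xor12 (xor12 (xor12 hm (RY.pow _ hm).1) (RY.pow _ hm).1) (RY.pow _ hm).1) (RY.pow _ hm).1 a1
    have := allLt_iff.1 k m hm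
    rw [Bool.or_eq_true, Bool.not_eq_true', beq_false_iff, beq_iff] at this
    exact Nat.dvd_of_mod_eq_zero (this.resolve_left fun h => h a2.symm)
  obtain ⟨M, eM⟩ : ∃ M, M = mk6 a b (16 * k) (itr Y1 2 (16 * k)) (itr Y1 4 (16 * k)) (itr Y1 6 (16 * k)) :=
    ⟨_, rfl⟩
  rw [← eM] at R2
  have p4 : ∀ n < 4096, itr M 4 n = n := fun n hn =>
    C.inj (R2.pow 4 hn).1 hn (by rw [← (R2.pow 4 hn).2, hF]; rfl)
  have t := tstF_mk6 ha hb (show k < 256 by omega) eM (p4 _ (by norm_num)) (p4 _ (by norm_num))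
  have p7 : ∀ j k, ((X * F ^ j) ^ k = 1 ∨ (X * F ^ j) ^ k = o ∨ (X * F ^ j) ^ k = o * o) →
      ∀ n < 4096, sc7 M j k n = true := by
    intro j k hXF n hn
    have key : ∀ k, (Nat.rec n (fun _ ih => force ih fun w => force (itr M j w) (lin X1)) k : ℕ) < 4096 ∧
        ((X * F ^ j) ^ k) (c n) = c (Nat.rec n (fun _ ih => force ih fun w => force (itr M j w) (lin X1)) k) := by
      intro k
      induction k with
      | zero => exact ⟨hn, rfl⟩
      | succ k ih =>
        simp only [force_eq] at ih ⊢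
        rw [pow_succ', end_mul, ih.2, end_mul, (R2.pow j ih.1).2]
        exact RX _ (R2.pow j ih.1).1
    obtain ⟨a1, a2⟩ := key k
    rw [sc7, force_eq, memL_iff]
    simp only [List.mem_cons, List.not_mem_nil, or_false]
    rcases hXF with e | e | e <;> rw [e] at a2
    · exact Or.inl (C.inj a1 hn a2.symm)
    · exact Or.inr (Or.inl (C.inj a1 (R n hn).1 (by rw [← a2, (R n hn).2])))
    · exact Or.inr (Or.inr (C.inj a1 (R _ (R n hn).1).1 (by rw [← a2, end_mul, (R n hn).2, (R _ (R n hn).1).2])))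
  rw [tstF, p4 _ (by norm_num), p7 _ _ hXF _ (by norm_num), p7 _ _ hXF2 _ (by norm_num)] at t
  simp only [beq_iff.2 rfl, Bool.not_true, Bool.false_or, memL_iff, List.mem_cons, List.not_mem_nil, or_false] at t
  clear eM
  have fin : ∀ T Ti, (colsLt T 12 4096 && colsLt Ti 12 4096 && eq12 (mm T Ti) I13 && eq12 (mm Ti T) I13) = true →
      (colsLt T 12 4096 && colsLt OM 12 4096 && eq12 (mm OM T) (mm T OM)) = true →
      (colsLt T 12 4096 && colsLt XN 12 4096 && eq12 (mm X1 T) (mm T XN)) = true →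
      (colsLt T 12 4096 && colsLt YN 12 4096 && eq12 (mm Y1 T) (mm T YN)) = true →
      (colsLt T 12 4096 && colsLt FN 12 4096 && eq12 (mm M T) (mm T FN)) = true →
      ∃ c : ℕ → W, Crd c ∧ Rep c o OM ∧ Rep c X XN ∧ Rep c Y YN ∧ Rep c F FN :=
    fun T Ti a1 a2 a3 a4 a5 => ⟨_, C.comp a1, R.comp a2, RX.comp a3, RY.comp a4, R2.comp a5⟩
  rcases t with rfl | rfl | rfl
  · exact fin 0x7de0eb90f270a1e064e0dc901dd03bb0ca008500d700be0 0x2c80184070e0e090ccf088a0f8b0a460ebf096a095507ff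
      (by decide +kernel) (by decide +kernel) (by decide +kernel) (by decide +kernel) (by decide +kernel)
  · exact fin 0x7d60ebd0f2b0a1606460dcd01d503bf0ca008500d700be0 0x2c80184070e0e090ccf088a0f8b0a46096a07d5095507ff
      (by decide +kernel) (by decide +kernel) (by decide +kernel) (by decide +kernel) (by decide +kernel)
  · exact fin 0x7da0eb50f2f0a1a064a0dc501d903b70ca008500d700be0 0x2c80184070e0e090ccf088a0f8b0a4607d50ebf095507ff
      (by decide +kernel) (by decide +kernel) (by decide +kernel) (by decide +kernel) (by decide +kernel)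

end main

theorem step_S {c : ℕ → W} (C : Crd c) {o X F S : AddMonoid.End W} (R : Rep c o OM) (RX : Rep c X XN)
    (RF : Rep c F FN) (hSo : S * o = o * o * S) (hSX : S * X = X ^ 10 * S) (hSF : S * F = F * S)
    (hS : ∀ w, S w = 0 → w = 0) : ∃ j < 3, Rep c (S * o ^ j) SN := by
  obtain ⟨M, hM⟩ := C.exists_rep S
  have hu := (hM 2410 (by norm_num)).1
  have a1 : itr XN 10 (lin M 2410) = lin M 2410 := C.inj (RX.pow 10 hu).1 hu (by
    rw [← (RX.pow 10 hu).2, ← (hM _ (by norm_num)).2, ← end_mul, ← hSX, end_mul, (RX _ (by norm_num)).2,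
      show lin XN 2410 = 2410 by decide +kernel])
  have a2 : lin M 2410 ≠ 0 := fun e => by
    have := hS _ (by rw [(hM 2410 (by norm_num)).2, e, C.zero])
    exact absurd (C.inj0 _ (by norm_num) this) (by norm_num)
  have k : allLt (fun m => !(Nat.beq (itr XN 10 m) m) || Nat.beq m 0 ||
    anyLt (fun j => Nat.beq (itr OM (2 * j) m) (lin SN 2410)) 3) 4096 = true := by decide +kernel
  have := allLt_iff.1 k _ hu
  rw [a1] at this
  simp only [beq_iff.2 rfl, Bool.not_true, Bool.false_or, Bool.or_eq_true, beq_iff, anyLt_iff, a2, false_or] at this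
  obtain ⟨j, hj, ej⟩ := this
  have hp : ∀ i, S * o ^ i = o ^ (2 * i) * S := by
    intro i
    induction i with
    | zero => simp
    | succ i ih => rw [pow_succ, ← mul_assoc, ih, mul_assoc, hSo, ← mul_assoc, ← pow_two, ← pow_add]; rfl
  have cX : X * o = o * X := by
    ext w; obtain ⟨n, hn, rfl⟩ := C.surj w
    rw [end_mul, end_mul, (R n hn).2, (RX n hn).2, (RX _ (R n hn).1).2, (R _ (RX n hn).1).2,
      lin_rel (A := XN) (B := OM) (C := OM) (D := XN) (by decide +kernel) hn]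
  have cF : F * o = o * F := by
    ext w; obtain ⟨n, hn, rfl⟩ := C.surj w
    rw [end_mul, end_mul, (R n hn).2, (RF n hn).2, (RF _ (R n hn).1).2, (R _ (RF n hn).1).2,
      lin_rel (A := FN) (B := OM) (C := OM) (D := FN) (by decide +kernel) hn]
  refine ⟨j, hj, fun n hn => ⟨SN_lt hn, gen_u (P := fun n => (S * o ^ j) (c n) = c (lin SN n)) ?_ ?_ ?_ ?_ ?_ n hn⟩⟩
  · intro a ha b hb h1 h2
    rw [C.add a ha b hb, map_add, h1, h2, lin_xor12 _ ha hb, C.add _ (SN_lt ha) _ (SN_lt hb)]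
  · intro a ha h1
    have e : S * o ^ j * o = o * o * (S * o ^ j) := by
      rw [mul_assoc, ← pow_succ, pow_succ', ← mul_assoc, hSo, mul_assoc]
    have k : allLt (fun a => Nat.beq (lin SN (lin OM a)) (lin OM (lin OM (lin SN a)))) 4096 = true := by
      decide +kernel
    rw [← (R a ha).2, ← end_mul, e, end_mul, h1, end_mul, (R _ (SN_lt ha)).2, (R _ (R _ (SN_lt ha)).1).2,
      beq_iff.1 (allLt_iff.1 k a ha)]
  · intro a ha h1
    have e : S * o ^ j * X = X ^ 10 * (S * o ^ j) := by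
      rw [mul_assoc, ← ((show Commute X o from cX).pow_right j).eq, ← mul_assoc, hSX, mul_assoc]
    have k : allLt (fun a => Nat.beq (lin SN (lin XN a)) (itr XN 10 (lin SN a))) 4096 = true := by
      decide +kernel
    rw [← (RX a ha).2, ← end_mul, e, end_mul, h1, (RX.pow 10 (SN_lt ha)).2, beq_iff.1 (allLt_iff.1 k a ha)]
  · intro a ha h1
    have e : S * o ^ j * F = F * (S * o ^ j) := by
      rw [mul_assoc, ← ((show Commute F o from cF).pow_right j).eq, ← mul_assoc, hSF, mul_assoc]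
    rw [← (RF a ha).2, ← end_mul, e, end_mul, h1, (RF _ (SN_lt ha)).2,
      lin_rel (A := SN) (B := FN) (C := FN) (D := SN) (by decide +kernel) ha]
  · rw [hp, end_mul, (hM _ (by norm_num)).2, (R.pow _ hu).2, ej]

theorem module_unique [Finite W] (h2 : ∀ w : W, w + w = 0) (hc : Nat.card W = 4096) {o X Y F : AddMonoid.End W}
    (ho : o * o = o + 1) (hoX : X * o = o * X) (hoY : Y * o = o * Y) (hoF : F * o = o * F)
    (hX : X ^ 11 = 1) (hX1 : X ≠ 1) (hY : Y ^ 5 = 1) (hF : F ^ 4 = 1) (hYX : Y * X = X ^ 3 * Y)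
    (hFY : F * Y = Y ^ 2 * F) (hXF : (X * F ^ 1) ^ 7 = 1 ∨ (X * F ^ 1) ^ 7 = o ∨ (X * F ^ 1) ^ 7 = o * o)
    (hXF2 : (X * F ^ 2) ^ 3 = 1 ∨ (X * F ^ 2) ^ 3 = o ∨ (X * F ^ 2) ^ 3 = o * o) :
    ∃ c : ℕ → W, Crd c ∧ (Rep c o OM ∨ Rep c (o * o) OM) ∧ Rep c X XN ∧ Rep c Y YN ∧ Rep c F FN := by
  have e2 : (1 : AddMonoid.End W) + 1 = 0 := by ext w; exact h2 w
  obtain ⟨w, hw⟩ : ∃ w, X w ≠ w := by
    by_contra h; push Not at h; exact hX1 (by ext w; exact h w)
  have hw' : (X + 1) w ≠ 0 := fun e => hw (by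
    rw [end_add, end_one] at e
    rw [add_eq_zero_iff_eq_neg.1 e, neg_eq_of_add_eq_zero_left (h2 _)])
  have key := DFunLike.congr_fun (f12 X o e2 ho hoX) w
  rw [hX, e2, end_mul, end_mul] at key
  by_cases h : f1 X (o * o) ((X + 1) w) = 0
  · have o3 : o * o * o = 1 := by rw [ho, add_mul, ho, one_mul, add_right_comm, ← two_mul, ← one_add_one_eq_two, e2]; simp
    have o4 : o * o * (o * o) = o := by rw [← mul_assoc, o3, one_mul]
    obtain ⟨c, a1, a2, a3⟩ := step_F h2 hc (o := o * o) (by rw [o4, ho, add_assoc, e2, add_zero])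
      (by rw [← mul_assoc, hoX, mul_assoc, hoX, mul_assoc]) (by rw [← mul_assoc, hoY, mul_assoc, hoY, mul_assoc])
      (by rw [← mul_assoc, hoF, mul_assoc, hoF, mul_assoc]) hX hY hF hYX hFY (by rw [o4]; tauto)
      (by rw [o4]; tauto) hw' h
    exact ⟨c, a1, Or.inr a2, a3⟩
  · obtain ⟨c, a1, a2, a3⟩ := step_F h2 hc ho hoX hoY hoF hX hY hF hYX hFY hXF hXF2 h key
    exact ⟨c, a1, Or.inl a2, a3⟩

end CA.J4
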