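import Cfsg.Agent.Lib.J4.Big
import Cfsg.Agent.Lib.J4.Elev2

/-!
Numerical conditions on the orders of the subgroups of a group of type `J4`.
-/

set_option autoImplicit false
set_option linter.unusedSectionVars false
set_option linter.unusedVariables false

namespace CA.J4
open Cfsg CA.Gol Subgroup MulAction

/-- a product of prime powers -/
def prd : List (ℕ × ℕ) → ℕ
  | [] => 1
  | x :: L => x.1 ^ x.2 * prd L

/-- `f (a * n)` for all divisors `n` of `prd L` -/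
def allD (f : ℕ → Bool) (L : List (ℕ × ℕ)) : ℕ → Bool :=
  List.rec f (fun x _ ih a => allLt (fun i => force (a * x.1 ^ i) ih) (x.2 + 1)) L

theorem allD_spec {f : ℕ → Bool} {L : List (ℕ × ℕ)} (hp : ∀ x ∈ L, x.1.Prime) {a n : ℕ} (H : allD f L a = true)
    (h : n ∣ prd L) : f (a * n) = true := by
  induction L generalizing a n with
  | nil => rw [Nat.dvd_one.1 h, mul_one]; exact H
  | cons x L ih =>
    obtain ⟨u, v, hu, hv, rfl⟩ := Nat.dvd_mul.1 h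
    obtain ⟨i, hi, rfl⟩ := (Nat.dvd_prime_pow (hp x List.mem_cons_self)).1 hu
    have := allLt_iff.1 (show allLt (fun i => force (a * x.1 ^ i) (allD f L)) (x.2 + 1) = true from H) i (Nat.lt_succ_of_le hi)
    rw [force_eq] at this
    rw [← mul_assoc]
    exact ih (fun y hy => hp y (List.mem_cons_of_mem _ hy)) this hv

/-- the prime divisors of the order -/
def PR : List ℕ := [2, 3, 5, 7, 11, 23, 29, 31, 37, 43]
theorem PR_prime : ∀ r ∈ PR, r.Prime := by simp only [PR, List.mem_cons, List.not_mem_nil, or_false]; rintro _ (rfl | rfl | rfl | rfl | rfl | rfl | rfl | rfl | rfl | rfl) <;> norm_num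
theorem PR_of {L : List (ℕ × ℕ)} (h : ∀ x ∈ L, x.1 ∈ PR) : ∀ x ∈ L, x.1.Prime := fun x hx => PR_prime _ (h x hx)
/-- the `r`-part -/
def pp (r n : ℕ) : ℕ := Nat.gcd n (r ^ 21)
/-- the large primes with their automizers -/
def BL : List (ℕ × ℕ) := [(23, 22), (29, 28), (31, 10), (37, 12), (43, 14)]
def fpf (q n : ℕ) : Bool := allL PR fun r => Nat.beq r q || Nat.beq (pp r n % q) 1
/-- `n = m * d * k` with `k ≡ 1 mod m` -/
def cg (n m d : ℕ) : Bool := Nat.beq (n % (m * d)) 0 && Nat.beq (n / (m * d) % m) 1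
def bigOk (n : ℕ) : Bool := allL BL fun x => !(Nat.beq (n % x.1) 0) ||
  anyLt (fun d => Nat.beq (x.2 % d) 0 && cg n x.1 d && (!(Nat.beq d 1) || fpf x.1 n)) (x.2 + 1)
def ok11 (n : ℕ) : Bool := force (pp 11 n) fun m => Nat.beq m 1 || anyLt (fun d => Nat.beq (240 % d) 0 && cg n m d) 241

theorem cg_of {n m d k : ℕ} (h : n = m * d * k) (h0 : n ≠ 0) (hk : k % m = 1) : cg n m d = true := by
  rw [cg, Bool.and_eq_true, beq_iff, beq_iff, h, Nat.mul_mod_right, Nat.mul_div_cancel_left _ (Nat.pos_of_ne_zero fun e => by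
    rw [e, zero_mul] at h; exact h0 h)]
  exact ⟨rfl, hk⟩

theorem ok11_of {n d k : ℕ} (h1 : d ∣ 240) (h2 : n = pp 11 n * d * k) (h0 : n ≠ 0) (h3 : k ≡ 1 [MOD pp 11 n]) :
    ok11 n = true := by
  rw [ok11, force_eq, Bool.or_eq_true, beq_iff, or_iff_not_imp_left, anyLt_iff]
  refine fun h => ⟨d, Nat.lt_succ_of_le (Nat.le_of_dvd (by norm_num) h1), ?_⟩
  rw [Bool.and_eq_true, beq_iff]
  exact ⟨Nat.mod_eq_zero_of_dvd h1, cg_of h2 h0 (Eq.trans h3 (Nat.mod_eq_of_lt (lt_of_le_of_ne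
    (Nat.pos_of_ne_zero fun e => by rw [e, zero_mul, zero_mul] at h2; exact h0 h2) (Ne.symm h))))⟩

variable {G : Type*} [Group G] [Finite G] {X Y : Subgroup G}

/-- Burnside's transfer theorem and coprime action -/
theorem burn {s : G} {q r : ℕ} (hq : q.Prime) (hP : SylowIn q (zpowers s) X) (h : X ⊓ 𝐍(zpowers s) ≤ 𝐂[s]) (hr : r ≠ q) :
    ∃ R, SylowIn r R X ∧ s ∈ 𝐍(R) ∧ Nat.card R ≡ Nat.card ↥(R ⊓ 𝐂[s]) [MOD q] := by
  haveI := Fact.mk hq
  have h1 := hP.normalPCompl_of_cent (by rwa [cent_zpowers])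
  obtain ⟨R, hR, n⟩ := (copAct_p_right (hP.le.trans (piCoreOf_norm {q}ᶜ X)) (piCoreOf_piGrp _ X) hP.piGrp).exists_sylowIn r
  exact ⟨R, hR.sylow_trans h1 hr, n (mem_zpowers s), cent_zpowers s ▸ card_modEq_card_inf_cent (hP.isPGroup hq) n⟩

theorem ti_count {P R : Subgroup G} (hR : R ≤ X) (hP : R ≤ P) (h : ∀ y ∈ R, y ≠ 1 → ∀ g, g * y * g⁻¹ ∈ 𝐍(P) → g ∈ 𝐍(P)) :
    𝐍(P).relIndex X ≡ 1 [MOD Nat.card R] := by
  set O := orbit X ((1 : G) : G ⧸ 𝐍(P)) with hO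
  have e1 := orb_card (M := 𝐍(P)) X 1
  rw [cj_one, ← card_inf_mul_relIndex 𝐍(P) X, inf_comm, mul_comm, mul_right_inj' Nat.card_pos.ne'] at e1
  have m1 : ((1 : G) : G ⧸ 𝐍(P)) ∈ O := mem_orbit_self _
  have f1 : ∀ x ∈ R, x • ((1 : G) : G ⧸ 𝐍(P)) = (1 : G) := fun x hx => smul_mk_eq.2 (by rw [cj_one]; exact le_normalizer (hP hx))
  have := orb_ind (X := R) (p := fun n => Nat.card R ∣ n) (dvd_zero _) (fun _ _ => dvd_add) (R := O \ {((1 : G) : G ⧸ 𝐍(P))})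
    (fun x hx q hq => ⟨by
      obtain ⟨y, hy, rfl⟩ := mem_orb.1 hq.1
      exact mem_orb.2 ⟨x * y, mul_mem (hR hx) hy, mul_smul _ _ _⟩, fun e => hq.2 (by
        rw [← inv_smul_smul x q, show x • q = _ from e]; exact f1 _ (inv_mem hx))⟩) (fun q hq => by
      obtain ⟨g, rfl⟩ := QuotientGroup.mk_surjective q
      have a := orb_card (M := 𝐍(P)) R g
      rw [show R ⊓ cj g 𝐍(P) = ⊥ from eq_bot_iff.2 fun y hy => by
        by_contra y1
        have := h y hy.1 y1 g⁻¹ (by rw [inv_inv]; exact mem_cj.1 hy.2)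
        exact hq.2 (QuotientGroup.eq.2 (by rwa [mul_one])), card_bot, mul_one] at a
      exact a ▸ dvd_rfl)
  rw [Set.ncard_sdiff_singleton_of_mem m1, e1] at this
  exact ((Nat.modEq_iff_dvd' (relIndex_pos' _ _)).2 this).symm

namespace St
variable (S : St G)
include S

theorem dvd_G (X : Subgroup G) : Nat.card X ∣ 86775571046077562880 := S.card_G ▸ card_subgroup_dvd_card X

/-- the sieve -/
theorem sieve (h : Y ≤ X) {f : ℕ → Bool} {L : List (ℕ × ℕ)} (hp : ∀ x ∈ L, x.1 ∈ PR) {y : ℕ} (hy : Nat.card Y = y)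
    (hL : y * prd L = 86775571046077562880) (H : allD f L y = true) : f (Nat.card X) = true := by
  have e := card_mul_relIndex h
  have := S.dvd_G X
  rw [← e, ← hL, hy] at this
  rw [← e, hy]
  exact allD_spec (PR_of hp) H (Nat.dvd_of_mul_dvd_mul_left (hy ▸ Nat.card_pos) this)

theorem card_syl {r : ℕ} (hr : r ∈ PR) {R : Subgroup G} (h : SylowIn r R X) : Nat.card R = pp r (Nat.card X) := by
  have hp := PR_prime r hr
  obtain ⟨k, hk⟩ := (piGrp_singleton_iff_card hp).1 h.piGrp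
  have k21 : k ≤ 21 := not_lt.1 fun a => (show ∀ r ∈ PR, ¬ r ^ 22 ∣ 86775571046077562880 by decide +kernel) r hr
    ((pow_dvd_pow r a).trans (hk ▸ S.dvd_G R))
  rw [pp, ← card_mul_relIndex h.le, hk, ← Nat.add_sub_cancel' k21, pow_add, Nat.gcd_mul_left,
    ((Nat.Coprime.symm (hp.coprime_iff_not_dvd.2 (h.not_dvd hp))).pow_right _), mul_one]

theorem BL_big : ∀ x ∈ BL, S.Big x.1 x.2 ∧ x.1 ∈ [23, 29, 31, 37, 43] := by
  simp only [BL, List.mem_cons, List.not_mem_nil, or_false]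
  rintro _ (rfl | rfl | rfl | rfl | rfl)
  exacts [⟨S.big23 S.c5 S.c11, by simp⟩, ⟨S.big29 S.c5 S.c11, by simp⟩, ⟨S.big31 S.c5 S.c11, by simp⟩,
    ⟨S.big37 S.c5 S.c11, by simp⟩, ⟨S.big43 S.c5 S.c11, by simp⟩]

theorem big_ok (X : Subgroup G) : bigOk (Nat.card X) = true := allL_iff.2 fun x hx => by
  obtain ⟨b, hq⟩ := S.BL_big x hx
  have hp := (big_spec _ hq).1
  rw [Bool.or_eq_true, Bool.not_eq_true', ← Bool.not_eq_true, beq_iff, ← imp_iff_not_or]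
  intro h
  obtain ⟨u, hu, ou⟩ := exists_orderOf_eq_prime hp (Nat.dvd_of_mod_eq_zero h)
  obtain ⟨e, k, e1, e2, e3⟩ := sylow_split hp hu ou (S.sq_big hq)
  have d : e ∣ x.2 := Nat.dvd_of_mul_dvd_mul_left hp.pos (e1 ▸ (b u ou).2 ▸ card_dvd_of_le' inf_le_right)
  refine anyLt_iff.2 ⟨e, Nat.lt_succ_of_le (Nat.le_of_dvd ((show ∀ x ∈ BL, 0 < x.2 by decide) x hx) d), ?_⟩
  rw [Bool.and_eq_true, Bool.and_eq_true, beq_iff, Bool.or_eq_true, Bool.not_eq_true', ← Bool.not_eq_true, beq_iff,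
    ← imp_iff_not_or]
  refine ⟨⟨Nat.mod_eq_zero_of_dvd d, cg_of e2 Nat.card_pos.ne' e3⟩, fun e4 => allL_iff.2 fun r hr => ?_⟩
  rw [Bool.or_eq_true, beq_iff, beq_iff, or_iff_not_imp_left]
  intro ne
  have c : zpowers u = X ⊓ 𝐍(zpowers u) := eq_of_le_of_card_eq (le_inf (zpowers_le.2 hu) le_normalizer)
    (by rw [e1, e4, Nat.card_zpowers, ou, mul_one])
  have sy := sylow_zpowers hp hu ou (S.sq_big hq)
  obtain ⟨R, hR, -, m⟩ := burn hp sy (by rw [← c, (b u ou).1]) ne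
  rw [(b u ou).1, (hR.piGrp.mono (ρ := {x.1}ᶜ) (Set.singleton_subset_iff.2 ne)).inf_eq_bot' sy.piGrp, card_bot, S.card_syl hr hR] at m
  exact Eq.trans m (Nat.mod_eq_of_lt hp.one_lt)

theorem xa_of_N {w : G} (hw : w ∈ 𝐍(S.Ua)) (h : IsConj S.xa w) : w ∈ zpowers S.xa := by
  by_contra hn
  have o : orderOf w = 11 := by obtain ⟨g, rfl⟩ := isConj_iff.1 h; rw [orderOf_conj', S.xa_ord]
  exact S.not_conj_ab (h.trans (S.conj_xb (SylowIn.le_of_norm' S.Ua_syl (piGrp_zpowers.2 (by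
    rw [piElt_of_orderOf_prime (by norm_num) o]; rfl)) le_top (zpowers_le.2 hw) (mem_zpowers w)) hn).1.symm)

/-- the Sylow `11`-subgroups are TI -/
theorem ti_Ua {y g : G} (hy : y ∈ S.Ua) (y1 : y ≠ 1) (h : g * y * g⁻¹ ∈ 𝐍(S.Ua)) : g ∈ 𝐍(S.Ua) := by
  have h1 : g * y * g⁻¹ ∈ S.Ua := SylowIn.le_of_norm' S.Ua_syl (piGrp_zpowers.2 (piElt_conj.2 (S.Ua_pi.piElt hy))) le_top
    (zpowers_le.2 h) (mem_zpowers _)
  have h2 : 𝐂[g * y * g⁻¹] ≤ 𝐍(S.Ua) := by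
    by_cases a : g * y * g⁻¹ ∈ zpowers S.xa
    · rw [S.norm_Ua, eq_zpowers_of_prime_card (by rw [Nat.card_zpowers, S.xa_ord]; norm_num) a (by rwa [Ne, conj_eq_one_iff])]
      exact cent1_le_norm _
    · exact (S.conj_xb h1 a).2
  have h3 : S.xa ∈ 𝐂[y] := cent_le_cent1 hy (S.center_Ua.ge (mem_zpowers _)).2
  rw [S.norm_Ua]
  refine mem_normalizer_of_cj_le ?_
  rw [cj_zpowers, zpowers_le]
  exact S.xa_of_N (h2 (conj_cent_iff.2 h3)) (isConj_iff.2 ⟨g, rfl⟩)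

theorem ti_cj {k y g : G} (hy : y ∈ cj k S.Ua) (y1 : y ≠ 1) (h : g * y * g⁻¹ ∈ 𝐍(cj k S.Ua)) : g ∈ 𝐍(cj k S.Ua) := by
  rw [← cj_normalizer, mem_cj] at h ⊢
  refine S.ti_Ua (mem_cj.1 hy) (fun e => y1 (by rw [← conj_eq_one_iff (a := k⁻¹), inv_inv, e])) ?_
  convert h using 1; group

theorem card_N_cj (k : G) : Nat.card 𝐍(cj k S.Ua) = 319440 := by rw [← cj_normalizer, card_cj, S.card_NU]

/-- an element normalizing a nontrivial `11`-subgroup -/
theorem dvd_of_norm11 {R : Subgroup G} (hR : PiGrp {11} R) (h1 : R ≠ ⊥) {s : G} (hs : s ∈ 𝐍(R)) : orderOf s ∣ 319440 := by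
  obtain ⟨k, -, hk⟩ := S.Ua_syl.exists_le_cj hR le_top
  obtain ⟨y, hy, y1⟩ := exists_ne_one_mem' h1
  exact S.card_N_cj k ▸ orderOf_dvd_card_of_mem
    (S.ti_cj (hk hy) y1 (le_normalizer (hk (conj_mem_of_mem_normalizer hs hy))))

theorem ti11 {R : Subgroup G} (hR : SylowIn 11 R X) : ∃ d k, d ∣ 240 ∧ Nat.card X = Nat.card R * d * k ∧ k ≡ 1 [MOD Nat.card R] := by
  obtain ⟨k, -, hk⟩ := S.Ua_syl.exists_le_cj hR.piGrp le_top
  have e : cj k S.Ua ⊓ (𝐍(cj k S.Ua) ⊓ X) = R := hR.eq_of_le (le_inf hk (le_inf (hk.trans le_normalizer) hR.le))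
    (inf_le_right.trans inf_le_right) ((S.Ua_syl.cj_of_mem (mem_top k)).piGrp.inf_left _)
  have d := relIndex_dvd_of_norm (A := cj k S.Ua) le_normalizer (inf_le_left (b := X)) inf_le_left
  have e2 := card_mul_relIndex (le_normalizer (H := cj k S.Ua))
  rw [S.card_N_cj, card_cj, S.card_Ua.1] at e2
  rw [show (cj k S.Ua).relIndex 𝐍(cj k S.Ua) = 240 by omega] at d
  exact ⟨_, _, d, by rw [← card_inf_mul_relIndex 𝐍(cj k S.Ua) X, ← card_inf_mul_relIndex (cj k S.Ua) (𝐍(cj k S.Ua) ⊓ X), e],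
    ti_count hR.le hk fun y hy y1 g => S.ti_cj (hk hy) y1⟩

theorem ok_11 (X : Subgroup G) : ok11 (Nat.card X) = true := by
  obtain ⟨R, hR⟩ := exists_sylowIn 11 X
  obtain ⟨d, k, h1, h2, h3⟩ := S.ti11 hR
  rw [S.card_syl (by decide) hR] at h2 h3
  exact ok11_of h1 h2 Nat.card_pos.ne' h3

/-- overgroups of the normalizer of a Sylow `11`-subgroup -/
theorem ti_norm {a : G} (ha : IsConj S.xa a) : Nat.card 𝐍(zpowers a) = 319440 ∧
    ∀ X, 𝐍(zpowers a) ≤ X → 𝐍(zpowers a).relIndex X % 1331 = 1 := by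
  obtain ⟨k, rfl⟩ := isConj_iff.1 ha
  rw [← cj_zpowers, ← cj_normalizer, ← S.norm_Ua, cj_normalizer]
  refine ⟨S.card_N_cj k, fun X h => ?_⟩
  have := ti_count (le_normalizer.trans h) le_rfl fun y hy y1 g => S.ti_cj (k := k) hy y1
  rwa [card_cj, S.card_Ua.1] at this

end St
end CA.J4
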