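import Cfsg.Agent.Lib.J4.Mx0

/-!
Overgroups of the normalizers of the Sylow subgroups for `11, 29, 37, 43` in a group of type `J4`.
-/

set_option autoImplicit false
set_option linter.unusedSectionVars false
set_option linter.unusedVariables false

namespace CA.J4
open Cfsg CA.Gol Subgroup
open scoped commutatorElement

/-- condition on the order `n` of a group with a Sylow subgroup of order `q` which is central in its normalizer,
of order dividing `c` -/
def locOk (q c n : ℕ) : Bool :=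
  allL PR (fun r => Nat.beq r q || force (pp r n) fun m =>
    anyLt (fun e => Nat.beq (c % e) 0 && Nat.beq (m % e) 0 && Nat.beq (m % q) (e % q)) (c + 1)) &&
  allL BL (fun x => Nat.beq x.1 q || Nat.beq (pp x.1 n) 1 || Nat.beq (x.1 * x.2 % q) 0) &&
  (Nat.beq 11 q || Nat.beq (pp 11 n) 1 || Nat.beq (319440 % q) 0)

/-- the test for the overgroups of a group of order `y` -/
def fY (y p : ℕ) (f : ℕ → Bool) (n : ℕ) : Bool := !(Nat.beq (n / y % p) 1) || !(bigOk n) || !(ok11 n) || f n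

variable {G : Type*} [Group G] [Finite G] {X Y : Subgroup G}

theorem loc0 {a s : G} {q : ℕ} (hq : q.Prime) (h1 : 𝐍(zpowers a) ≤ X) (hs : s ∈ 𝐍(zpowers a)) (os : orderOf s = q)
    (hy : ¬ q * q ∣ Nat.card 𝐍(zpowers a)) (nc : ¬ q ∣ Nat.card 𝐂[a]) (h2 : X ⊓ 𝐍(zpowers s) ≤ 𝐍(zpowers a)) :
    SylowIn q (zpowers s) X ∧ X ⊓ 𝐍(zpowers s) ≤ 𝐂[s] ∧ 𝐍(zpowers a).relIndex X % q = 1 ∧
      Nat.card ↥(X ⊓ 𝐂[s]) ∣ Nat.gcd (Nat.card 𝐍(zpowers a)) (Nat.card 𝐂[s]) := by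
  have s1 := sylow_zpowers hq hs os hy
  have s2 := s1.of_norm_le h1 h2
  refine ⟨s2, fun g hg => ?_, ?_, Nat.dvd_gcd (card_dvd_of_le' ((inf_le_inf_left X (cent1_le_norm s)).trans h2))
    (card_dvd_of_le' inf_le_right)⟩
  · have b : zpowers s ⊓ 𝐂[a] = ⊥ := inf_eq_bot_of_prime_card (by rwa [Nat.card_zpowers, os]) fun e =>
      nc (os ▸ orderOf_dvd_card_of_mem (e (mem_zpowers s)))
    have c : ⁅g, s⁆ ∈ zpowers s ⊓ 𝐂[a] := ⟨(zpowers s).mul_mem (conj_mem_of_mem_normalizer hg.2 (mem_zpowers s)) (inv_mem (mem_zpowers s)),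
      cent_zpowers a ▸ der_cents_of_norms_cyclic inferInstance le_rfl (commutator_mem_commutator (h2 hg) hs)⟩
    rw [b, mem_bot, commutatorElement_eq_one_iff_mul_comm] at c
    exact mem_cent1_iff.2 c
  · have e := relIndex_mul_relIndex (𝐍(zpowers s) ⊓ 𝐍(zpowers a)) _ X inf_le_right h1
    have e1 := relIndex_norm_mod hq s1
    have e2 := relIndex_norm_mod hq s2
    rw [inf_relIndex_right, show 𝐍(zpowers s) ⊓ 𝐍(zpowers a) = 𝐍(zpowers s) ⊓ X from
      le_antisymm (inf_le_inf_left _ h1) (le_inf inf_le_left (inf_comm X _ ▸ h2)), inf_relIndex_right] at e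
    rwa [← e, Nat.mul_mod, e1, one_mul, Nat.mod_mod] at e2

theorem div_relIndex (h : Y ≤ X) : Nat.card X / Nat.card Y = Y.relIndex X := by
  rw [← card_mul_relIndex h, Nat.mul_div_cancel_left _ Nat.card_pos]

namespace St
variable (S : St G)
include S

theorem loc_ok {s : G} {q c : ℕ} (hq : q.Prime) (os : orderOf s = q) (hP : SylowIn q (zpowers s) X)
    (h : X ⊓ 𝐍(zpowers s) ≤ 𝐂[s]) (c0 : 0 < c) (hc : Nat.card ↥(X ⊓ 𝐂[s]) ∣ c) : locOk q c (Nat.card X) = true := by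
  simp only [locOk, Bool.and_eq_true, allL_iff, Bool.or_eq_true, beq_iff, force_eq, anyLt_iff, or_assoc]
  simp only [or_iff_not_imp_left]
  refine ⟨⟨fun r hr ne => ?_, fun x hx ne h1 => ?_⟩, fun ne h1 => ?_⟩
  · obtain ⟨R, hR, -, m⟩ := burn hq hP h ne
    have d := (card_dvd_of_le' (inf_le_inf_right 𝐂[s] hR.le)).trans hc
    rw [← S.card_syl hr hR]
    exact ⟨_, Nat.lt_succ_of_le (Nat.le_of_dvd c0 d), ⟨Nat.mod_eq_zero_of_dvd d,
      Nat.mod_eq_zero_of_dvd (card_dvd_of_le' inf_le_left)⟩, m⟩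
  · obtain ⟨R, hR, n, -⟩ := burn hq hP h ne
    obtain ⟨b, hb⟩ := S.BL_big x hx
    have hp := (big_spec _ hb).1
    rw [← S.card_syl ((show ∀ x ∈ BL, x.1 ∈ PR by decide) x hx) hR] at h1
    obtain ⟨u, hu, ou⟩ := exists_orderOf_eq_prime hp
      (@IsPGroup.dvd_card_of_ne_bot _ _ _ _ ⟨hp⟩ _ (hR.isPGroup hp) fun e => h1 (by rw [e, card_bot]))
    rw [(sylow_zpowers hp (hR.le hu) ou (S.sq_big hb)).eq_of_le (zpowers_le.2 hu) hR.le hR.piGrp] at n
    exact Nat.mod_eq_zero_of_dvd ((b u ou).2 ▸ os ▸ orderOf_dvd_card_of_mem n)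
  · obtain ⟨R, hR, n, -⟩ := burn hq hP h ne
    rw [← S.card_syl (by decide) hR] at h1
    exact Nat.mod_eq_zero_of_dvd (os ▸ S.dvd_of_norm11 hR.piGrp (fun e => h1 (by rw [e, card_bot])) n)

theorem sieveY (h : Y ≤ X) {f : ℕ → Bool} {L : List (ℕ × ℕ)} {y p : ℕ} (hy : Nat.card Y = y) (hp : Y.relIndex X % p = 1)
    (H : (allL L (fun x => anyL PR (Nat.beq x.1)) && Nat.beq (y * prd L) 86775571046077562880 && allD (fY y p f) L y) = true) :
    f (Nat.card X) = true := by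
  simp only [Bool.and_eq_true, allL_iff, anyL_iff, beq_iff] at H
  have := S.sieve h (fun x hx => by obtain ⟨a, ha, e⟩ := H.1.1 x hx; rwa [e]) hy H.1.2 H.2
  rwa [fY, S.big_ok, S.ok_11, ← hy, div_relIndex h, hp] at this

theorem big_mod {a : G} {x : ℕ × ℕ} (hx : x ∈ BL) (oa : orderOf a = x.1) : Nat.card 𝐂[a] = x.1 ∧
    Nat.card 𝐍(zpowers a) = x.1 * x.2 ∧ (𝐍(zpowers a) ≤ X → 𝐍(zpowers a).relIndex X % x.1 = 1) := by
  obtain ⟨b, hb⟩ := S.BL_big x hx
  have hp := (big_spec _ hb).1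
  exact ⟨by rw [(b a oa).1, Nat.card_zpowers, oa], (b a oa).2, fun h =>
    relIndex_norm_mod hp (sylow_zpowers hp (h (le_normalizer (mem_zpowers a))) oa (S.sq_big hb))⟩

theorem eq_top' (h : Nat.beq (Nat.card X) 86775571046077562880 = true) : X = ⊤ :=
  eq_top_of_card_eq _ (by rw [beq_iff.1 h, S.card_G])

/-- the test in the local case -/
def fL (y q c n : ℕ) : Bool := !(Nat.beq (n / y % q) 1) || !(locOk q c n) || Nat.beq n y || Nat.beq n 49728

theorem loc1 {a s : G} {p q y c : ℕ} {L : List (ℕ × ℕ)} (hq : q.Prime) (h1 : 𝐍(zpowers a) ≤ X) (hs : s ∈ 𝐍(zpowers a))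
    (os : orderOf s = q) (hy : Nat.card 𝐍(zpowers a) = y) (hc : Nat.card 𝐂[s] = c) (hqy : ¬ q * q ∣ y)
    (nc : ¬ q ∣ Nat.card 𝐂[a]) (h2 : X ⊓ 𝐍(zpowers s) ≤ 𝐍(zpowers a)) (hp : 𝐍(zpowers a).relIndex X % p = 1)
    (H : (allL L (fun x => anyL PR (Nat.beq x.1)) && Nat.beq (y * prd L) 86775571046077562880 &&
      allD (fY y p (fL y q (Nat.gcd y c))) L y) = true) : X = 𝐍(zpowers a) ∨ Nat.card X = 49728 := by
  obtain ⟨a1, a2, a3, a4⟩ := loc0 hq h1 hs os (hy ▸ hqy) nc h2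
  have := S.sieveY h1 hy hp H
  rw [fL, ← hy, ← hc, S.loc_ok hq os a1 a2 (Nat.gcd_pos_of_pos_left _ Nat.card_pos) a4, div_relIndex h1, a3] at this
  simp only [Bool.or_eq_true, beq_iff] at this
  exact (this.imp_left fun e => (eq_of_le_of_card_eq h1 (Eq.symm (by simpa using e))).symm)

variable {a : G} (h1 : 𝐍(zpowers a) ≤ X)
include h1

theorem loc29 (oa : orderOf a = 29) {s : G} (hs : s ∈ 𝐍(zpowers a)) (os : orderOf s = 7)
    (h2 : X ⊓ 𝐍(zpowers s) ≤ 𝐍(zpowers a)) : X = 𝐍(zpowers a) := by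
  obtain ⟨b1, b2, b3⟩ := S.big_mod (X := X) (x := (29, 28)) (by decide) oa
  exact (S.loc1 (L := [(2, 19), (3, 3), (5, 1), (11, 3), (23, 1), (31, 1), (37, 1), (43, 1)]) (by norm_num) h1 hs os b2
    (S.card_cent7 os) (by norm_num) (by rw [b1]; norm_num) h2 (b3 h1) (by decide +kernel)).resolve_right fun e => by
      have := card_dvd_of_le' h1
      rw [e, b2] at this; norm_num at this

theorem loc43 (oa : orderOf a = 43) {s : G} (hs : s ∈ 𝐍(zpowers a)) (os : orderOf s = 7)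
    (h2 : X ⊓ 𝐍(zpowers s) ≤ 𝐍(zpowers a)) : X = 𝐍(zpowers a) := by
  obtain ⟨b1, b2, b3⟩ := S.big_mod (X := X) (x := (43, 14)) (by decide) oa
  exact (S.loc1 (L := [(2, 20), (3, 3), (5, 1), (11, 3), (23, 1), (29, 1), (31, 1), (37, 1)]) (by norm_num) h1 hs os b2
    (S.card_cent7 os) (by norm_num) (by rw [b1]; norm_num) h2 (b3 h1) (by decide +kernel)).resolve_right fun e => by
      have := card_dvd_of_le' h1
      rw [e, b2] at this; norm_num at this

theorem loc11 (ha : IsConj S.xa a) {f : G} (hf : f ∈ 𝐍(zpowers a)) (of : orderOf f = 5)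
    (h2 : X ⊓ 𝐍(zpowers f) ≤ 𝐍(zpowers a)) : X = 𝐍(zpowers a) := by
  obtain ⟨b1, b2⟩ := S.ti_norm ha
  exact (S.loc1 (L := [(2, 17), (3, 2), (7, 1), (23, 1), (29, 1), (31, 1), (37, 1), (43, 1)]) (by norm_num) h1 hf of b1
    (S.c5 f of) (by norm_num) (by
      obtain ⟨g, rfl⟩ := isConj_iff.1 ha
      rw [← cj_centralizer_singleton, card_cj, S.card_Ua.2]; norm_num) h2 (b2 X h1) (by decide +kernel)).resolve_right fun e => by
      have := card_dvd_of_le' h1
      rw [e, b1] at this; norm_num at this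

theorem loc37 (oa : orderOf a = 37) {r : G} (hr : r ∈ 𝐍(zpowers a)) (or : orderOf r = 3)
    (h2 : X ⊓ 𝐍(zpowers r) ≤ 𝐍(zpowers a)) : X = 𝐍(zpowers a) := by
  obtain ⟨b1, b2, b3⟩ := S.big_mod (X := X) (x := (37, 12)) (by decide) oa
  refine (S.loc1 (L := [(2, 19), (3, 2), (5, 1), (7, 1), (11, 3), (23, 1), (29, 1), (31, 1), (43, 1)]) (by norm_num) h1 hr or b2
    (S.card_cent3 or) (by norm_num) (by rw [b1]; norm_num) h2 (b3 h1) (by decide +kernel)).resolve_right fun e => ?_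
  obtain ⟨a1, a2, -⟩ := loc0 (by norm_num) h1 hr or (by rw [b2]; norm_num) (by rw [b1]; norm_num) h2
  have c := (a1.sdprod_of_cent (by rwa [cent_zpowers])).card_eq
  rw [e, Nat.card_zpowers, or] at c
  have c : Nat.card (piCoreOf {3}ᶜ X) = 16576 := by omega
  obtain ⟨u, hu, ou⟩ := exists_orderOf_eq_prime (p := 7) (A := piCoreOf {3}ᶜ X) (by norm_num) (by rw [c]; norm_num)
  have n := (S.res5573 (zpowers u) (by rw [Nat.card_zpowers, ou])).2.2.1
  rw [← card_mul_relIndex (centralizer_le_normalizer _), mul_comm, mul_left_inj' Nat.card_pos.ne'] at n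
  have := S.loc_ok (by norm_num) ou (sylow_zpowers (by norm_num) hu ou (by rw [c]; norm_num)) (by
    rw [← cent_zpowers, ← relIndex_eq_one]
    exact Nat.eq_one_of_dvd_coprimes (show Nat.Coprime 3 16576 by norm_num)
      (n ▸ relIndex_dvd_of_norm (centralizer_le_normalizer _) inf_le_right (norms_cent inf_le_right))
      (c ▸ (relIndex_dvd_card _ _).trans (card_dvd_of_le' inf_le_left))) (by norm_num : 0 < 840)
    (S.card_cent7 ou ▸ card_dvd_of_le' inf_le_right)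
  rw [c] at this
  exact absurd this (by decide +kernel)

/-- the test in the global case -/
def fG (m n : ℕ) : Bool := !(Nat.beq (n % m) 0) || Nat.beq n 86775571046077562880

omit h1 in
theorem fG_top {m : ℕ} (h : m ∣ Nat.card X) (H : fG m (Nat.card X) = true) : X = ⊤ := by
  rw [fG, Nat.mod_eq_zero_of_dvd h] at H
  exact S.eq_top' H

theorem gen29 (oa : orderOf a = 29) (d1 : 31 ∣ Nat.card X) (d2 : 43 ∣ Nat.card X) : X = ⊤ := by
  obtain ⟨b1, b2, b3⟩ := S.big_mod (X := X) (x := (29, 28)) (by decide) oa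
  exact S.fG_top (Nat.Coprime.mul_dvd_of_dvd_of_dvd (by norm_num) d1 d2) (S.sieveY
    (L := [(2, 19), (3, 3), (5, 1), (11, 3), (23, 1), (31, 1), (37, 1), (43, 1)]) h1 b2 (b3 h1) (by decide +kernel))

theorem gen43 (oa : orderOf a = 43) (d : 23 ∣ Nat.card X) : X = ⊤ := by
  obtain ⟨b1, b2, b3⟩ := S.big_mod (X := X) (x := (43, 14)) (by decide) oa
  exact S.fG_top d (S.sieveY
    (L := [(2, 20), (3, 3), (5, 1), (11, 3), (23, 1), (29, 1), (31, 1), (37, 1)]) h1 b2 (b3 h1) (by decide +kernel))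

theorem gen37 (oa : orderOf a = 37) (d : 43 ∣ Nat.card X) : X = ⊤ := by
  obtain ⟨b1, b2, b3⟩ := S.big_mod (X := X) (x := (37, 12)) (by decide) oa
  exact S.fG_top d (S.sieveY
    (L := [(2, 19), (3, 2), (5, 1), (7, 1), (11, 3), (23, 1), (29, 1), (31, 1), (43, 1)]) h1 b2 (b3 h1) (by decide +kernel))

theorem gen11 (ha : IsConj S.xa a) {q : ℕ} (hq : q ∈ [31, 37, 43]) (d : q ∣ Nat.card X) : X = ⊤ := by
  obtain ⟨b1, b2⟩ := S.ti_norm ha
  have := S.sieveY (f := fun n => allL [31, 37, 43] fun q => fG q n)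
    (L := [(2, 17), (3, 2), (7, 1), (23, 1), (29, 1), (31, 1), (37, 1), (43, 1)]) h1 b1 (b2 X h1) (by decide +kernel)
  exact S.fG_top d (allL_iff.1 this q hq)

end St
end CA.J4
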