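import Cfsg.Agent.Lib.J4.At
import Cfsg.Agent.Lib.J4.AzC1
import Cfsg.Agent.Lib.J4.AzC2
import Cfsg.Agent.Lib.J4.AzC3

/-!
The structure constant `a(z)` and the order of a group of type `J4`.
-/

set_option autoImplicit false
set_option linter.unusedSectionVars false
set_option linter.unusedVariables false
set_option maxRecDepth 100000

namespace CA.J4
open Cfsg CA.Gol CA.Ex2 CA.XS Subgroup
open scoped Pointwise

theorem azI : sumL LI phiI = 28530773040 := by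
  rw [LI, sumL_append, sumL_append, sumL_append, sumL_append, azI0, azI1, azI2, azI3, azI4]
theorem azJ : sumL LJ phiJ = 348796800 := by rw [LJ, sumL_append, sumL_append, azJ0, azJ1, azJ2]

theorem pick_ok {B M A v : ℕ} {K : ℕ → ℕ} {P : ℕ → Prop} (h0 : P B) (h1 : ∀ B, P B → P (mm OM B))
    (h : ∀ B, P B → mm B M = mm M A → Ok (K B) v) : Ok (pick B M A K) v := by
  rw [pick, force_eq, force_eq, force_eq, force_eq, cnd_beq, cnd_beq, cnd_beq]
  split_ifs with a b c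
  exacts [h _ h0 a, h _ (h1 _ h0) b, h _ (h1 _ (h1 _ h0)) c, ok_big v]

variable {G : Type*} [Group G] [Finite G]

namespace St
variable (S : St G)

theorem odd_ne {x y : G} (hx : IsConj S.z x) (hy : IsConj S.t y) (n : ℕ) (hn : Odd n) : (x * y) ^ n ≠ 1 := fun e => by
  obtain ⟨w, h1, h2, -⟩ := exists_invol ((orderOf_eq_of_isConj hx).symm.trans S.z_ord)
    ((orderOf_eq_of_isConj hy).symm.trans S.t_ord) fun a => S.not_zt (hx.trans a) hy
  have := (orderOf_dvd_of_mem_zpowers h1).trans (orderOf_dvd_of_pow_eq_one e)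
  rw [h2] at this
  exact Nat.not_even_iff_odd.2 hn (even_iff_two_dvd.2 this)

/-- the test for the pair with vector `u` -/
noncomputable def zf (y : G) (B d u : ℕ) : ℕ := ind (∃ x, IsConj S.z x ∧ S.R x u B d ∧ S.z ∈ zpowers (x * y))

theorem zf_eq {x y : G} {u B d v A e : ℕ} (hx : IsConj S.z x) (r : S.R x u B d) (hy : IsConj S.t y) (r' : S.R y v A e) :
    S.zf y B d u = ind (S.z ∈ zpowers (x * y)) := by
  refine ind_congr ⟨fun ⟨x', a, b, c⟩ => ?_, fun a => ⟨x, hx, r, a⟩⟩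
  have r1 := S.jh.rp_mul r r'
  have ex : ∃ k, pw1 (J4.mm B A) k = I13 := by
    obtain ⟨k, e⟩ := Nat.exists_eq_succ_of_ne_zero (orderOf_pos (x * y)).ne'
    have := S.jh.rp_pow r1 k
    refine ⟨k, ?_⟩
    have m : (x * y) ^ (k + 1) ∈ S.E := by rw [← Nat.succ_eq_add_one, ← e, pow_orderOf_eq_one]; exact one_mem _
    cases k <;> exact S.jh.rp_of_E this m
  refine ind_eq_one.1 ?_
  rw [S.jh.z_test S.sq_NP r1 (S.odd_ne hx hy) (Nat.find_spec ex) (fun i => Nat.find_min ex),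
    ← S.jh.z_test S.sq_NP (S.jh.rp_mul b r') (S.odd_ne a hy) (Nat.find_spec ex) (fun i => Nat.find_min ex), ind_pos c]

theorem cnt1_ok {y : G} {B d v A e : ℕ} (hy : IsConj S.t y) (r' : S.R y v A e) {bs o1 o2 : List ℕ}
    (hB : ∀ n < 4096, lin B n < 4096) (hb : ∀ u ∈ bs, u < 4096) (h1 : ∀ u ∈ o1, u < 4096) (h2 : ∀ u ∈ o2, u < 4096)
    (hx : ∀ u, u ∈ spans bs o1 ∨ u ∈ spans bs o2 → ∃ x, IsConj S.z x ∧ S.R x u B d) :
    Ok (cnt1 B d bs o1 o2 v A e) (sumL (spans bs o1) (S.zf y B d) + 2 * sumL (spans bs o2) (S.zf y B d)) := by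
  rw [cnt1, force_eq]
  refine olp_spec (J4.mm B A) _ 30 0 (fun i hi => by omega) fun k hk hj => Or.inl ?_
  have key : ∀ os, (∀ u ∈ os, u < 4096) → (∀ u ∈ spans bs os, ∃ x, IsConj S.z x ∧ S.R x u B d) →
      ∀ N N' od dm, N = sn (J4.mm B A) (k + 1) → N' = sn (J4.mm B A) ((k + 1) / 2) → od = (k + 1) % 2 →
      dm = 1 ^^^ ((d ^^^ e) &&& ((k + 1) / 2 % 2)) → (sumL os fun o => force (Nat.xor (ph N N' o) (ph N N' (lin B v)))
        (sp (zl od dm) (bs.map (ph N N')))) = sumL (spans bs os) (S.zf y B d) := fun os ho hx N N' od dm e1 e2 e3 e4 => by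
    rw [sum_spans (P := (· < 4096)) (fun a b => xor12) (fun a b => ph_xor N N') hb ho]
    refine sumL_congr fun u hu => ?_
    obtain ⟨x, a, r⟩ := hx u hu
    rw [S.zf_eq a r hy r', S.jh.z_test S.sq_NP (S.jh.rp_mul r r') (S.odd_ne a hy) hk hj, ← ph_xor _ _ r.lt (hB _ r'.lt),
      e1, e2, e3, e4]
  simp only [force_eq, fmapL_eq] at key ⊢
  have e1 : nth (snL (J4.mm B A) (k + 1)) (Nat.sub (Nat.sub (k + 1) 1) (Nat.div (k + 1) 2)) =
      sn (J4.mm B A) ((k + 1) / 2) := nth_snL _ (show (k + 1) / 2 < k + 1 by omega)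
  rw [e1, key o1 h1 (fun u a => hx u (Or.inl a)) _ _ (Nat.mod (k + 1) 2)
      (Nat.xor 1 (Nat.land (Nat.xor d e) (Nat.mod (Nat.div (k + 1) 2) 2))) rfl rfl rfl rfl,
    key o2 h2 (fun u a => hx u (Or.inr a)) _ _ (Nat.mod (k + 1) 2)
      (Nat.xor 1 (Nat.land (Nat.xor d e) (Nat.mod (Nat.div (k + 1) 2) 2))) rfl rfl rfl rfl]
  rfl

/-- representatives of the classes of involutions of type `t` in `H` -/
def Reps (Y : ℕ × ℕ × ℕ × ℕ → G) : Prop := ∀ q ∈ ysL, IsConj S.t (Y q) ∧ S.R (Y q) q.2.1 q.2.2.1 q.2.2.2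

theorem exists_t {k : G} {u A d : ℕ} (a : NA S.c S.z S.p k A d) (hu : u < 4096) {b : G} (h : S.mu2 b u A d ≠ 0) :
    ∃ y, IsConj b y ∧ S.R y u A d := by
  have r := S.jh.rp_c a hu
  by_contra! c
  rw [mu2, S.jh.ps_eq r, ind_neg (c _ · r), ind_neg (c _ · (S.jh.rp_z r))] at h
  exact h rfl

theorem exists_reps : ∃ Y, S.Reps Y := by
  obtain ⟨k, -, a, -⟩ := S.jh.na_I
  obtain ⟨l, b, -⟩ := S.jh.na_J
  have : ∀ q : ℕ × ℕ × ℕ × ℕ, ∃ y, q ∈ ysL → IsConj S.t y ∧ S.R y q.2.1 q.2.2.1 q.2.2.2 := fun q => by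
    by_cases hq : q ∈ ysL
    · simp only [hq, true_imp_iff]
      simp only [ysL, List.mem_cons, List.not_mem_nil, or_false] at hq
      rcases hq with rfl | rfl | rfl | rfl | rfl
      · exact S.exists_t S.jh.na_one (by norm_num) (by rw [S.ty_E.2.1]; norm_num)
      · exact S.exists_t a (by norm_num) (by rw [S.ty_I0]; norm_num)
      · exact S.exists_t a (by norm_num) (by rw [S.types.2.1]; norm_num)
      · exact S.exists_t b (by norm_num) (by rw [S.types.2.2.1]; norm_num)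
      · exact S.exists_t S.jh.na_S (by norm_num) (by rw [S.types.2.2.2.1]; norm_num)
    · exact ⟨1, fun a => absurd a hq⟩
  choose Y hY using this
  exact ⟨Y, hY⟩

theorem ps_mul {a y : G} {u A d : ℕ} {φ : G → ℕ} {n : ℕ} (r : S.R y u A d) (h : ∀ x, IsConj a x → S.R x u A d → φ x = n) :
    PS S.E S.c S.z S.p (fun x => ind (IsConj a x) * φ x) u A d = S.mu2 a u A d * n := by
  rw [mu2, PS, PS, mul_comm, ← sm_mul]
  refine sm_congr fun x hx => ?_
  by_cases c : IsConj a x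
  · rw [h x c hx, mul_comm]
  · rw [ind_neg c, zero_mul, mul_zero]

theorem sm_H_t {Y : ℕ × ℕ × ℕ × ℕ → G} (hY : S.Reps Y) {φ : G → ℕ} (h : ∀ g ∈ 𝐂[S.z], ∀ x, φ (g * x * g⁻¹) = φ x) :
    sm 𝐂[S.z] (fun x => ind (IsConj S.t x) * φ x) = sumL ysL fun q => q.1 * φ (Y q) := by
  have z0 : ∀ {k u A d}, NA S.c S.z S.p k A d → u < 4096 → S.mu2 S.t u A d = 0 →
      PS S.E S.c S.z S.p (fun x => ind (IsConj S.t x) * φ x) u A d = 0 := fun a hu e => by
    rw [PS]; refine sm_zero fun x r => ?_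
    rw [mu2, S.jh.ps_eq r] at e
    rw [show ind (IsConj S.t x) = 0 by omega, zero_mul]
  have z1 : ∀ q ∈ ysL, S.mu2 S.t q.2.1 q.2.2.1 q.2.2.2 = 1 → PS S.E S.c S.z S.p (fun x => ind (IsConj S.t x) * φ x)
      q.2.1 q.2.2.1 q.2.2.2 = φ (Y q) := fun q hq e => by
    rw [mu2, S.jh.ps_eq (hY q hq).2, ind_pos (hY q hq).1] at e
    rw [S.jh.ps_eq (hY q hq).2, ind_pos (hY q hq).1, show ind (IsConj S.t (Y q * S.z)) = 0 by omega]; simp
  have z2 : ∀ q ∈ ysL, ∀ e, (Nat.blt e 4096 && Nat.beq (lin q.2.2.1 e) e && Nat.beq (Nat.add (bf e q.2.1)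
      (Nat.land q.2.2.2 (qf e))) 1) = true → PS S.E S.c S.z S.p (fun x => ind (IsConj S.t x) * φ x)
      q.2.1 q.2.2.1 q.2.2.2 = 2 * φ (Y q) := fun q hq e H => by
    obtain ⟨g, hg, e1⟩ := S.jh.conj_xz (hY q hq).2 H
    rw [S.jh.ps_eq (hY q hq).2, ← e1, h g hg, ind_congr isConj_conj_iff, ind_pos (hY q hq).1]; ring
  obtain ⟨k, -, a, -⟩ := S.jh.na_I
  rw [S.jh.sm_H_inv S.sq_NP (ind_sq S.t_ord φ) fun g hg x => by rw [h g hg, ind_congr isConj_conj_iff],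
    ind_neg S.nt_one, ind_neg fun a => S.not_conj a.symm, z0 S.jh.na_one (by norm_num) S.ty_E.1,
    z0 a (by norm_num) S.types.1, z2 (2772, 21, I13, 0) (by simp [ysL]) 64 (by decide +kernel),
    z1 (18480, 0, AI, 0) (by simp [ysL]) S.ty_I0, z2 (221760, 20, AI, 0) (by simp [ysL]) 448 (by decide +kernel),
    z1 (63360, 0, AJ0, 1) (by simp [ysL]) S.types.2.2.1, z2 (532224, 0, AS0, 1) (by simp [ysL]) 97 (by decide +kernel)]
  simp only [ysL, sumL_cons, sumL_nil]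
  ring

/-- the weight of an involution of type `z` -/
noncomputable def wz (Y : ℕ × ℕ × ℕ × ℕ → G) (x : G) : ℕ := sumL ysL fun q => q.1 * ind (S.z ∈ zpowers (x * Y q))
noncomputable def wf (Y : ℕ × ℕ × ℕ × ℕ → G) (B d u : ℕ) : ℕ := sumL ysL fun q => q.1 * S.zf (Y q) B d u

variable {Y : ℕ × ℕ × ℕ × ℕ → G} (hY : S.Reps Y)
include hY

theorem wz_eq {x : G} {u B d : ℕ} (hx : IsConj S.z x) (r : S.R x u B d) : S.wz Y x = S.wf Y B d u :=
  sumL_congr fun q hq => by rw [S.zf_eq hx r (hY q hq).1 (hY q hq).2]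

theorem cnt5_ok {B d : ℕ} {bs o1 o2 : List ℕ} (hB : ∀ n < 4096, lin B n < 4096) (hb : ∀ u ∈ bs, u < 4096)
    (h1 : ∀ u ∈ o1, u < 4096) (h2 : ∀ u ∈ o2, u < 4096)
    (hx : ∀ u, u ∈ spans bs o1 ∨ u ∈ spans bs o2 → ∃ x, IsConj S.z x ∧ S.R x u B d) :
    Ok (cnt5 B d bs o1 o2) (sumL (spans bs o1) (S.wf Y B d) + 2 * sumL (spans bs o2) (S.wf Y B d)) := by
  have := Ok.sumL (L := ysL) fun q hq => (S.cnt1_ok (hY q hq).1 (hY q hq).2 hB hb h1 h2 hx).mul q.1
  unfold wf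
  rw [sumL_comm, sumL_comm (spans bs o2), ← sumL_mul, ← sumL_add]
  refine (sumL_congr fun q _ => ?_) ▸ this
  rw [sumL_mul, sumL_mul]; ring

theorem cntC_ok {l k k' : G} {B M A d : ℕ} {bs o1 o2 : List ℕ} (m : NA S.c S.z S.p l M 0) (a : NA S.c S.z S.p k A d)
    (b : NA S.c S.z S.p k' B d) (hb : allL (bs ++ o1 ++ o2) (Nat.blt · 4096) = true)
    (h1 : ∀ u ∈ spans bs o1, S.mu2 S.z u A d = 1) (h2 : ∀ u ∈ spans bs o2, S.mu2 S.z u A d = 2) :
    Ok (cntC B M A d bs o1 o2) (sumL (spans bs o1) (fun u => PS S.E S.c S.z S.p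
      (fun x => ind (IsConj S.z (l * x * l⁻¹)) * S.wz Y (l * x * l⁻¹)) u A d) + sumL (spans bs o2) fun u => PS S.E S.c S.z S.p
      (fun x => ind (IsConj S.z (l * x * l⁻¹)) * S.wz Y (l * x * l⁻¹)) u A d) := by
  simp only [allL_iff, blt_iff, List.mem_append] at hb
  have l0 : ∀ u ∈ bs, u < 4096 := fun u c => hb u (by simp [c])
  have l1 : ∀ u ∈ o1, u < 4096 := fun u c => hb u (by simp [c])
  have l2 : ∀ u ∈ o2, u < 4096 := fun u c => hb u (by simp [c])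
  have sp : ∀ {os}, (∀ u ∈ os, u < 4096) → spans (bs.map (lin M)) (os.map (lin M)) = (spans bs os).map (lin M) :=
    fun ho => spans_map (P := (· < 4096)) (fun a b => xor12) (fun a b c e => lin_xor M (by omega) (by omega)) l0 ho
  have lt : ∀ {os}, (∀ u ∈ os, u < 4096) → ∀ u ∈ spans bs os, u < 4096 :=
    fun ho => spans_prop (P := (· < 4096)) (fun a b => xor12) l0 ho
  refine pick_ok (P := fun B => ∃ k', NA S.c S.z S.p k' B d) ⟨_, b⟩ (fun B ⟨k, c⟩ => ⟨_, (S.jh.na_om c).1⟩)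
    fun B ⟨k', b⟩ e => ?_
  have key : ∀ u < 4096, PS S.E S.c S.z S.p (fun x => ind (IsConj S.z (l * x * l⁻¹)) * S.wz Y (l * x * l⁻¹)) u A d =
      S.mu2 S.z u A d * S.wf Y B d (lin M u) := fun u hu => by
    simp only [ind_congr (isConj_conj_iff (g := l))]
    exact S.ps_mul (S.jh.rp_c a hu) fun x c r => S.wz_eq hY (isConj_conj_iff.2 c) (S.jh.rp_conj m b e r)
  have mp : ∀ {L : List ℕ}, (∀ u ∈ L, u < 4096) → ∀ u ∈ L.map (lin M), u < 4096 := fun hL u hu => by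
    obtain ⟨w, hw, rfl⟩ := List.mem_map.1 hu; exact m.lt _ (hL w hw)
  have := S.cnt5_ok hY b.lt (mp l0) (mp l1) (mp l2) (d := d) fun u hu => by
    rw [sp l1, sp l2] at hu
    obtain ⟨w, hw, h0, rfl⟩ : ∃ w < 4096, S.mu2 S.z w A d ≠ 0 ∧ lin M w = u := by
      rcases hu with hu | hu <;> obtain ⟨w, hw, rfl⟩ := List.mem_map.1 hu
      · exact ⟨w, lt l1 w hw, by rw [h1 w hw]; norm_num, rfl⟩
      · exact ⟨w, lt l2 w hw, by rw [h2 w hw]; norm_num, rfl⟩
    obtain ⟨x, c, r⟩ := S.exists_t a hw h0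
    exact ⟨_, isConj_conj_iff.2 c, S.jh.rp_conj m b e r⟩
  rw [sp l1, sp l2, sumL_map, sumL_map, ← sumL_mul] at this
  rw [fmapL_eq, fmapL_eq, fmapL_eq, sumL_congr fun u hu => (key u (lt l1 u hu)).trans (by rw [h1 u hu, one_mul]),
    sumL_congr (L := spans bs o2) fun u hu => (key u (lt l2 u hu)).trans (by rw [h2 u hu])]
  exact this

omit hY in
theorem mu2_mv {k : G} {u A u' A' d : ℕ} (a : NA S.c S.z S.p k A d) (m : u < 4096 ∧ Mv S.E S.c S.z S.p u A u' A' d) (b : G) :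
    S.mu2 b u A d = S.mu2 b u' A' d := S.jh.ps_mv a m.1 m.2 (ind_inv b _)

omit hY in
theorem ps_zero {φ : G → ℕ} {l : G} {u A d : ℕ} (h : S.mu2 S.z u A d = 0) :
    PS S.E S.c S.z S.p (fun x => ind (IsConj S.z (l * x * l⁻¹)) * φ x) u A d = 0 := sm_zero fun x r => by
  rw [mu2, S.jh.ps_eq r] at h
  rw [ind_congr isConj_conj_iff, show ind (IsConj S.z x) = 0 by omega, zero_mul]

omit hY in
theorem conj_sq (l : G) (φ : G → ℕ) (x : G) (h : ind (IsConj S.z (l * x * l⁻¹)) * φ (l * x * l⁻¹) ≠ 0) : x * x = 1 := by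
  simpa [conj_mul] using ind_sq S.z_ord φ _ h

theorem phiI_ok : Ok (sumL LI phiI) (sm (clD (perm i2C)) (FH S.π fun x => ind (IsConj S.z x) * S.wz Y x)) := by
  rw [sm_clD (in22_24 i2C_in) LI_ok (ncard_clI.trans LI_len.symm)]
  refine Ok.sumL fun d hd => ?_
  obtain ⟨a, b, -⟩ := (okCL_spec (in22_24 i2C_in) LI_ok).1 d hd
  obtain ⟨l, m, e⟩ := S.jh.na_lift (perm_mem22 a)
  obtain ⟨k', m', -⟩ := S.jh.na_lift (g := cjP (perm i2C) d) (conj_H (perm_mem22 a) (perm_mem22 i2C_in))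
  obtain ⟨k, -, c, -⟩ := S.jh.na_I
  rw [code_perm22 a] at m
  rw [b] at m'
  rw [phiI, force_eq, cjP, ← e, S.jh.fh_conj m.mem, S.jh.fh_I S.sq_NP (S.conj_sq l _),
    sumL_const (L := spans bI o96) (n := 0) fun u hu => S.ps_zero ((S.mu2_mv c (S.jh.lab_I.2.2 hu) _).trans S.types_z.2.2.1),
    mul_zero, add_zero]
  exact S.cntC_ok hY m c m' (by decide +kernel) (fun u hu => (S.mu2_mv c (S.jh.lab_I.1 hu) _).trans S.types_z.1)
    fun u hu => (S.mu2_mv c (S.jh.lab_I.2.1 hu) _).trans S.types_z.2.1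

theorem phiJ_ok : Ok (sumL LJ phiJ) (sm (clD (perm j2C)) (FH S.π fun x => ind (IsConj S.z x) * S.wz Y x)) := by
  rw [sm_clD j2C_in LJ_ok (ncard_clJ.trans LJ_len.symm)]
  refine Ok.sumL fun d hd => ?_
  obtain ⟨a, b, -⟩ := (okCL_spec j2C_in LJ_ok).1 d hd
  obtain ⟨l, m, e⟩ := S.jh.na_lift (perm_mem22 a)
  obtain ⟨k', m', -⟩ := S.jh.na_out (g := cjP (perm j2C) d) (conj_H (M22_le_D2 (perm_mem22 a)) j2_mem) fun c =>
    j2_not_mem (by simpa [cjP, mul_assoc] using conj_H (inv_mem (perm_mem22 a)) c)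
  obtain ⟨k, c0, -⟩ := S.jh.na_J
  obtain ⟨⟨k1, c1⟩, k2, c2⟩ := S.jh.na_J12
  have sp : ∀ L, spans L [] = [] := fun _ => rfl
  rw [code_perm22 a] at m
  rw [b] at m'
  have o0 := S.cntC_ok hY m c0 m' (bs := bJ0) (o1 := [0]) (o2 := []) (by decide +kernel)
    (fun u hu => (S.mu2_mv c0 (S.jh.lab_J.1 hu) _).trans S.types_z.2.2.2.1) (by simp [spans])
  have o1 := S.cntC_ok hY m c1 m' (bs := bJ1) (o1 := [0]) (o2 := []) (by decide +kernel)
    (fun u hu => (S.mu2_mv c1 (S.jh.lab_J.2.1 hu) _).trans S.types_z.2.2.2.1) (by simp [spans])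
  have o2 := S.cntC_ok hY m c2 m' (bs := bJ2) (o1 := [0]) (o2 := []) (by decide +kernel)
    (fun u hu => (S.mu2_mv c2 (S.jh.lab_J.2.2 hu) _).trans S.types_z.2.2.2.1) (by simp [spans])
  rw [sp, sumL_nil, add_zero] at o0 o1 o2
  rw [phiJ, force_eq, force_eq, cjP, ← e, S.jh.fh_conj m.mem, S.jh.fh_J S.sq_NP (S.conj_sq l _), Nat.add_eq, Nat.add_eq]
  exact o0.add (o1.add o2)

theorem phiE_ok : Ok (cnt5 I13 0 [] [0] O693) (FH S.π (fun x => ind (IsConj S.z x) * S.wz Y x) 1) := by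
  have rz : S.R S.z 0 I13 0 := JH.wv_z S.jh ▸ S.jh.rp_E S.jh.z_mem
  have sp : ∀ L, spans [] L = L := fun L => List.flatMap_singleton' L
  have m2 : ∀ u ∈ O693, S.mu2 S.z u I13 0 = 2 := fun u hu =>
    (S.mu2_mv S.jh.na_one (S.jh.lab_E.1 hu) _).trans S.ty_E.2.2.1
  have := S.cnt5_ok hY (B := I13) (d := 0) (bs := []) (o1 := [0]) (o2 := O693) S.jh.na_one.lt (by simp) (by simp)
    (fun u hu => (S.jh.lab_E.1 hu).1) fun u hu => by
      rw [sp, sp] at hu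
      rcases hu with hu | hu
      · exact ⟨_, IsConj.refl _, List.mem_singleton.1 hu ▸ rz⟩
      · exact S.exists_t S.jh.na_one (S.jh.lab_E.1 hu).1 (by rw [m2 u hu]; norm_num)
  rw [sp, sp, ← sumL_mul] at this
  rw [S.jh.fh_one S.sq_NP (ind_sq S.z_ord _), S.jh.ps_eq rz, S.jh.z_sq, ind_neg S.nz_one, ind_pos (IsConj.refl _),
    S.wz_eq hY (IsConj.refl _) rz, sumL_const (L := O1386) (n := 0) fun u hu => by
      simpa using S.ps_zero (l := 1) ((S.mu2_mv S.jh.na_one (S.jh.lab_E.2 hu) _).trans S.ty_E.2.2.2),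
    sumL_congr (L := O693) fun u hu => (S.ps_mul (S.jh.rp_c S.jh.na_one (S.jh.lab_E.1 hu).1) fun x c r =>
      S.wz_eq hY c r).trans (by rw [m2 u hu])]
  simpa [sumL_cons, sumL_nil] using this

omit hY in
theorem aTh_z : aTh S.z S.t S.z = 29236337328 := by
  obtain ⟨Y, hY⟩ := S.exists_reps
  have tt := S.jh.z_sq
  rw [aTh, ncard_prod fun x y => IsConj S.z x ∧ IsConj S.t y ∧ S.z ∈ zpowers (x * y),
    sm_congr (ψ := fun y => ind (IsConj S.t y) * sm 𝐂[S.z] fun x => ind (IsConj S.z x) * ind (S.z ∈ zpowers (x * y)))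
      fun y _ => by
        rw [← sm_mul, sm_supp (S := (𝐂[S.z] : Subgroup G)) (T := Set.univ) (fun _ _ => trivial) fun x _ hx => ind_neg fun c =>
          hx (mem_cent1_iff.2 (comm_of_mem_zpowers (sq_of_conj S.z_ord c.1) (sq_of_conj S.t_ord c.2.1) c.2.2 tt).1.symm)]
        exact sm_congr fun x _ => by rw [ind_and, ind_and]; ring,
    sm_supp (S := (𝐂[S.z] : Subgroup G)) (T := Set.univ) (fun _ _ => trivial) fun y _ hy => by
      rw [← sm_mul]
      exact sm_zero fun x _ => by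
        rw [← ind_and, ← ind_and]
        exact ind_neg fun c => hy (mem_cent1_iff.2
          (comm_of_mem_zpowers (sq_of_conj S.z_ord c.2.1) (sq_of_conj S.t_ord c.1) c.2.2 tt).2.symm),
    S.sm_H_t hY fun g hg y => by
      rw [sm_equiv (MulAut.conj g).toEquiv (S := (𝐂[S.z] : Subgroup G)) fun y => ⟨conj_H hg, fun a => by
        simpa [mul_assoc] using conj_H (inv_mem hg) a⟩]
      refine sm_congr fun x _ => ?_
      show ind (IsConj S.z (g * x * g⁻¹)) * ind (S.z ∈ zpowers (g * x * g⁻¹ * (g * y * g⁻¹))) = _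
      rw [ind_congr isConj_conj_iff, conj_mul, ← cj_zpowers, ind_congr mem_cj, mul_assoc, ← mem_cent1_iff.1 hg,
        inv_mul_cancel_left]]
  have e : sm 𝐂[S.z] (fun x => ind (IsConj S.z x) * S.wz Y x) = sumL ysL fun q => q.1 *
      sm 𝐂[S.z] fun x => ind (IsConj S.z x) * ind (S.z ∈ zpowers (x * Y q)) := by
    simp only [← sm_mul]
    rw [← sm_sumL]
    exact sm_congr fun y _ => by rw [wz, ← sumL_mul]; exact sumL_congr fun x _ => by ring
  have o0 := S.phiE_ok hY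
  have o1 := S.phiI_ok hY
  have o2 := S.phiJ_ok hY
  rw [azE] at o0
  rw [azI] at o1
  rw [azJ] at o2
  rw [← e, S.jh.sm_H (ind_sq S.z_ord _), o0.eq (by decide), o1.eq (by decide), o2.eq (by decide),
    sm_zero (S := clD (perm sC)) (φ := FH _ _) fun g hg => sm_zero fun x hx => by_contra fun c => ?_]
  have a : IsConj S.z x := by_contra fun a => c (by rw [ind_neg a, zero_mul])
  exact S.not_zt a (S.t_of_s0 hx.1 (sq_of_conj S.z_ord a) (hx.2 ▸ hg))

omit hY in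
/-- the order of a group of type `J4` -/
theorem card_G (S : St G) : Nat.card G = 86775571046077562880 := by
  obtain ⟨S, -, -, hB⟩ := S.exists_swap
  rw [thompson_order S.z_ord S.t_ord S.not_conj fun i => S.two', S.aTh_z, S.aTh_t hB, S.card_Ct, S.jh.card_H]

end St

end CA.J4
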