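import Cfsg.Agent.Lib.J4.Rk2

/-!
The seven orbits of `N(V)` on its cosets in a group of type `J4`.
-/

set_option autoImplicit false
set_option linter.unusedSectionVars false
set_option linter.unusedVariables false

namespace CA.J4
open Cfsg CA.Gol CA.Ex2 CA.XS Subgroup MulAction
open scoped Pointwise commutatorElement

section sums
variable {α β : Type*} [Finite α] [Finite β]

/-- sum over a finite set -/
noncomputable def smq (Q : Set α) (f : α → ℕ) : ℕ := ∑ q ∈ Q.toFinite.toFinset, f q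

theorem smq_congr {Q : Set α} {f g : α → ℕ} (h : ∀ q ∈ Q, f q = g q) : smq Q f = smq Q g :=
  Finset.sum_congr rfl fun q hq => h q (by simpa using hq)

theorem smq_const {Q : Set α} {f : α → ℕ} {k : ℕ} (h : ∀ q ∈ Q, f q = k) : smq Q f = Q.ncard * k := by
  rw [smq_congr h, smq, Finset.sum_const, Set.ncard_eq_toFinset_card Q, smul_eq_mul]

theorem smq_split {Q R : Set α} (f : α → ℕ) (h : R ⊆ Q) : smq Q f = smq R f + smq (Q \ R) f := by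
  classical
  rw [smq, smq, smq, add_comm, ← Finset.sum_sdiff (s₁ := R.toFinite.toFinset) (by simpa using h)]
  congr 2; ext; simp

theorem smq_zero {Q : Set α} {f : α → ℕ} (h : smq Q f = 0) : ∀ q ∈ Q, f q = 0 := fun q hq =>
  Finset.sum_eq_zero_iff.1 h q (by simpa using hq)

theorem smq_comm (A : Set α) (Q : Set β) (r : α → β → Prop) :
    smq A (fun a => {q | q ∈ Q ∧ r a q}.ncard) = smq Q fun q => {a | a ∈ A ∧ r a q}.ncard := by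
  classical
  have h1 : ∀ a, {q | q ∈ Q ∧ r a q}.ncard = ∑ q ∈ Q.toFinite.toFinset, if r a q then 1 else 0 := fun a => by
    rw [← Finset.card_filter, ← Set.ncard_coe_finset]; congr 1; ext; simp
  have h2 : ∀ q, {a | a ∈ A ∧ r a q}.ncard = ∑ a ∈ A.toFinite.toFinset, if r a q then 1 else 0 := fun a => by
    rw [← Finset.card_filter, ← Set.ncard_coe_finset]; congr 1; ext; simp
  simp only [smq, h1, h2]
  exact Finset.sum_comm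

end sums

variable {G : Type*} [Group G] [Finite G]

section orb
variable {M X : Subgroup G}

theorem mem_orb {p q : G ⧸ M} : p ∈ orbit X q ↔ ∃ x ∈ X, x • q = p :=
  ⟨fun ⟨x, e⟩ => ⟨x, x.2, e⟩, fun ⟨x, hx, e⟩ => ⟨⟨x, hx⟩, e⟩⟩

theorem smul_mk_eq {x g : G} : x • (g : G ⧸ M) = g ↔ x ∈ cj g M := by
  rw [Quotient.smul_coe, smul_eq_mul, eq_comm, QuotientGroup.eq, mem_cj, mul_assoc]

theorem orb_card (X : Subgroup G) (g : G) :
    (orbit X (g : G ⧸ M)).ncard * Nat.card ↥(X ⊓ cj g M) = Nat.card X := by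
  have : stabilizer X (g : G ⧸ M) = (cj g M).subgroupOf X := by
    ext x; rw [mem_stabilizer_iff, mem_subgroupOf, ← smul_mk_eq]; rfl
  rw [← index_stabilizer, this, mul_comm, inf_comm]
  exact card_inf_mul_relIndex _ _

theorem orb_ind {p : ℕ → Prop} (p0 : p 0) (pa : ∀ a b, p a → p b → p (a + b)) {R : Set (G ⧸ M)}
    (inv : ∀ x ∈ X, ∀ q ∈ R, x • q ∈ R) (h : ∀ q ∈ R, p (orbit X q).ncard) : p R.ncard := by
  induction hn : R.ncard using Nat.strong_induction_on generalizing R with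
  | _ n ih =>
  rcases R.eq_empty_or_nonempty with rfl | ⟨q, hq⟩
  · rw [← hn, Set.ncard_empty]; exact p0
  have sub : orbit X q ⊆ R := fun r hr => by
    obtain ⟨x, hx, rfl⟩ := mem_orb.1 hr
    exact inv x hx q hq
  have e := Set.ncard_sdiff_add_ncard_of_subset sub
  have pos : 0 < (orbit X q).ncard := (Set.ncard_pos (Set.toFinite _)).2 ⟨q, mem_orbit_self q⟩
  rw [← hn, ← e]
  refine pa _ _ (ih _ (by omega) (R := R \ orbit X q) (fun x hx r hr => ⟨inv x hx r hr.1, fun a => hr.2 ?_⟩)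
    (fun r hr => h r hr.1) rfl) (h q hq)
  obtain ⟨y, hy, e⟩ := mem_orb.1 a
  exact mem_orb.2 ⟨x⁻¹ * y, mul_mem (inv_mem hx) hy, by rw [mul_smul, e, inv_smul_smul]⟩

theorem ncard_smul (x : G) (R : Set (G ⧸ M)) : {q | x • q ∈ R}.ncard = R.ncard := by
  rw [← Set.ncard_image_of_injective _ (MulAction.injective x)]
  congr 1; ext q
  exact ⟨fun ⟨r, hr, e⟩ => by rw [← e]; exact hr, fun h => ⟨x⁻¹ • q, by simpa using h, by simp⟩⟩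

theorem orb_eq_of_lt {R : Set (G ⧸ M)} {p q : G ⧸ M} (hp : orbit X p ⊆ R) (hq : orbit X q ⊆ R)
    (h : R.ncard < (orbit X p).ncard + (orbit X q).ncard) : p ∈ orbit X q := by
  by_contra hn
  have := Set.ncard_le_ncard (Set.union_subset hp hq)
  rw [Set.ncard_union_eq (Set.disjoint_left.2 fun r a b => hn (orbit_eq_iff.1
    ((orbit_eq_iff.2 a).symm.trans (orbit_eq_iff.2 b))))] at this
  omega

theorem rank7 (hi : M.index = 173067389)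
    (h : ∀ s ∈ [1, 15180, 28336, 3400320, 32643072, 54405120, 82575360], ∃ g, s * Nat.card ↥(M ⊓ cj g M) = Nat.card M) :
    ∃ c : Fin 7 → G ⧸ M, (∀ i j : Fin 7, i ≠ j → orbit M (c i) ≠ orbit M (c j)) ∧ (∀ q, ∃ i : Fin 7, q ∈ orbit M (c i)) ∧
      (List.ofFn fun i => (orbit M (c i)).ncard) = [1, 15180, 28336, 3400320, 32643072, 54405120, 82575360] := by
  have : ∀ i : Fin 7, ∃ c : G ⧸ M, (orbit M c).ncard = ![1, 15180, 28336, 3400320, 32643072, 54405120, 82575360] i :=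
    fun i => by
      obtain ⟨g, hg⟩ := h (![1, 15180, 28336, 3400320, 32643072, 54405120, 82575360] i) (by revert i; decide)
      exact ⟨g, Nat.eq_of_mul_eq_mul_right Nat.card_pos ((orb_card M g).trans hg.symm)⟩
  choose c hc using this
  have d : ∀ i j : Fin 7, i ≠ j → orbit M (c i) ≠ orbit M (c j) := fun i j ij e => by
    have := hc i
    rw [e, hc] at this
    clear e; revert i j; decide
  refine ⟨c, d, fun q => Set.mem_iUnion.1 ?_, by simp only [hc]; rfl⟩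
  rw [Set.eq_of_subset_of_ncard_le (Set.subset_univ (⋃ i, orbit M (c i))) (by
    rw [Set.ncard_iUnion_of_finite (fun _ => Set.toFinite _) (fun i j ij => Set.disjoint_left.2 fun r a b =>
      d i j ij ((orbit_eq_iff.2 a).symm.trans (orbit_eq_iff.2 b))), Set.ncard_univ, ← index, hi, finsum_eq_sum_of_fintype]
    simp only [hc]; decide)]
  trivial

end orb

theorem zc_bot {z : G} (h : z ≠ 1) : zc z ⊥ = 0 := by
  rw [zc, Set.ncard_eq_zero, Set.eq_empty_iff_forall_notMem]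
  exact fun y hy => h (isConj_one_left.1 (mem_bot.1 hy.1 ▸ hy.2))

theorem arithT {t a m : ℕ} (o : t * (49152 * a) = 501397585920) (s : 1020096 * m + t * 15 = 83647872)
    (d : 49152 * a ∣ 16 * 244823040) (n5 : ¬ 5 ∣ 49152 * a) : a = 3 := by
  have e1 : t * a = 10200960 := by rw [Nat.mul_left_comm] at o; omega
  have n2 : ¬ 2 ∣ a := fun b => by
    have : 49152 * 2 ∣ 16 * 244823040 := Nat.dvd_trans (Nat.mul_dvd_mul_left 49152 b) d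
    norm_num at this
  have c2 := ((Nat.Prime.coprime_iff_not_dvd Nat.prime_two).2 n2).symm
  have c5 := ((Nat.Prime.coprime_iff_not_dvd Nat.prime_five).2 fun b => n5 (b.mul_left _)).symm
  clear o d n5 n2
  obtain ⟨u, hu⟩ : ∃ u, m + u = 82 := ⟨82 - m, by omega⟩
  have e2 : a * u = 3 * (2 * 5 * 5) := by
    zify at s hu e1 ⊢
    have : (1020096 : ℤ) * (a * u) = 1020096 * 150 := by linear_combination 1020096 * a * hu - a * s + 15 * e1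
    linarith
  rcases (Nat.dvd_prime Nat.prime_three).1 (((c2.mul_right c5).mul_right c5).dvd_of_dvd_mul_right ⟨_, e2.symm⟩) with b | b
  · rw [b] at e2; omega
  · exact b

namespace St
variable (S : St G)

/-- the conjugate of `V` belonging to a coset -/
noncomputable def Vq (q : G ⧸ 𝐍(S.V)) : Subgroup G := cj q.out S.V

theorem Vq_mk (g : G) : S.Vq g = cj g S.V := by
  obtain ⟨h, e⟩ := QuotientGroup.mk_out_eq_mul 𝐍(S.V) g
  rw [Vq, e, ← cj_cj, cj_eq_of_mem_normalizer h.2]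

theorem Vq_smul (x : G) (q : G ⧸ 𝐍(S.V)) : S.Vq (x • q) = cj x (S.Vq q) := by
  induction q using QuotientGroup.induction_on with | H g =>
  rw [Quotient.smul_coe, Vq_mk, Vq_mk, smul_eq_mul, cj_cj]

theorem exists_cjH {X : Subgroup G} (hX : X ≤ 𝐂[S.z]) (h2 : ∀ x ∈ X, x * x = 1) (hc : 2048 ≤ Nat.card X) :
    ∃ k ∈ 𝐂[S.z], cj k S.V = X := by
  obtain ⟨y, m, τ, d⟩ := JH.exists_TD S.jh
  obtain ⟨k, hk, e⟩ := JH.exists_cj S.jh d S.V_le_H S.V_sq S.mm.card_V.ge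
  obtain ⟨k', hk', e'⟩ := JH.exists_cj S.jh d hX h2 hc
  exact ⟨k'⁻¹ * k, mul_mem (inv_mem hk') hk, by rw [← cj_cj, e, ← e', cj_inv_cj]⟩

theorem exists_cjG {X : Subgroup G} (h2 : ∀ x ∈ X, x * x = 1) (hc : 2048 ≤ Nat.card X) : ∃ k, cj k S.V = X := by
  obtain ⟨y, m, τ, d⟩ := JH.exists_TD S.jh
  obtain ⟨k, e⟩ := JH.exists_cj' S.jh d S.V_sq S.mm.card_V.ge
  obtain ⟨k', e'⟩ := JH.exists_cj' S.jh d h2 hc
  exact ⟨k'⁻¹ * k, by rw [← cj_cj, e, ← e', cj_inv_cj]⟩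

theorem Vq_inj {p q : G ⧸ 𝐍(S.V)} (e : S.Vq p = S.Vq q) : p = q := by
  induction p using QuotientGroup.induction_on with | H a =>
  induction q using QuotientGroup.induction_on with | H b =>
  rw [Vq_mk, Vq_mk] at e
  rw [QuotientGroup.eq, mem_normalizer_iff_cj, ← cj_cj, ← e, cj_inv_cj]

theorem F77 {y : G} (hy : IsConj S.z y) : {q | y ∈ S.Vq q}.ncard = 77 := by
  obtain ⟨g, rfl⟩ := isConj_iff.1 hy
  have e : {q | S.z ∈ S.Vq q} = orbit 𝐂[S.z] ((1 : G) : G ⧸ 𝐍(S.V)) := Set.ext fun q => ⟨fun h => by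
    obtain ⟨k, hk, e⟩ := S.exists_cjH (X := S.Vq q) (fun x hx => mem_cent1_iff.2 (comm_of_sq (sq_cj S.V_sq _) hx h))
      (sq_cj S.V_sq _) (by rw [Vq, card_cj, S.mm.card_V])
    exact mem_orb.2 ⟨k, hk, S.Vq_inj (by rw [Vq_smul, Vq_mk, cj_one, e])⟩, fun h => by
    obtain ⟨k, hk, rfl⟩ := mem_orb.1 h
    rw [Set.mem_ofPred_eq, Vq_smul, Vq_mk, cj_one]
    exact mem_cj_of_fix (JH.conj_z S.jh hk) S.z_mem_V⟩
  have := orb_card (M := 𝐍(S.V)) 𝐂[S.z] 1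
  rw [cj_one, S.card_HM, S.jh.card_H, ← e] at this
  rw [← ncard_smul g]
  simp only [Set.mem_ofPred_eq, Vq_smul, conj_mem_cj]
  omega

theorem sum_zc (X : Subgroup G) : smq Set.univ (fun q => zc S.z (X ⊓ S.Vq q)) = zc S.z X * 77 := by
  rw [zc, ← smq_const (f := fun y => {q | q ∈ Set.univ ∧ y ∈ S.Vq q}.ncard) fun y hy => by simpa using S.F77 hy.2, smq_comm]
  exact smq_congr fun q _ => congrArg Set.ncard (Set.ext fun y => and_right_comm)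

theorem orb_zc {X : Subgroup G} (hX : 𝐍(S.V) ≤ 𝐍(X)) {g : G} {q : G ⧸ 𝐍(S.V)} (hq : q ∈ orbit 𝐍(S.V) (g : G ⧸ 𝐍(S.V))) :
    zc S.z (X ⊓ S.Vq q) = zc S.z (X ⊓ cj g S.V) := by
  obtain ⟨m, hm, rfl⟩ := mem_orb.1 hq
  rw [Vq_smul, Vq_mk, ← zc_cj S.z m (X ⊓ cj g S.V), cj_inf, cj_eq_of_mem_normalizer (hX hm)]

theorem cls_spec {a y : G} (ha : a ∈ 𝐍(S.V)) (hV : a ∉ S.V) (hz : IsConj S.z a) (h : CjIn 𝐍(S.V) a y) :
    y ∈ 𝐍(S.V) ∧ y ∉ S.V ∧ IsConj S.z y ∧ (S.IsA y ↔ S.IsA a) := by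
  obtain ⟨m, hm, rfl⟩ := h
  exact ⟨conj_H hm ha, fun b => hV (by simpa [mul_assoc] using S.mm.conj_mem_V (inv_mem hm) b), isConj_conj_iff.2 hz,
    S.isA_conj hm ha⟩

theorem clsA_iff {y : G} : CjIn 𝐍(S.V) (S.e (0, r2A)) y ↔ y ∈ 𝐍(S.V) ∧ y ∉ S.V ∧ IsConj S.z y ∧ S.IsA y := by
  have o0 : okE (0, r2A) = true := by decide +kernel
  have m : pel S.μ (S.e (0, r2A)) = perm r2A := S.mm.mu_el o0
  refine ⟨fun h => ?_, fun h => (S.clsAz h.1 h.2.1 h.2.2.1 h.2.2.2).symm⟩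
  obtain ⟨a, b, c, d⟩ := S.cls_spec (S.mm.el_mem o0) (fun a => by
    have := r2A_order
    rw [← m, S.mm.mu_v a] at this; simp at this) S.tyA.1 h
  exact ⟨a, b, c, d.2 (by rw [IsA, m, fixS_perm r2A_in, card_fs]; decide +kernel)⟩

theorem exists_yB' : ∃ yB, Nat.card ↥(𝐍(S.V) ⊓ 𝐂[yB]) = 491520 ∧
    ∀ y, CjIn 𝐍(S.V) yB y ↔ y ∈ 𝐍(S.V) ∧ y ∉ S.V ∧ IsConj S.z y ∧ ¬ S.IsA y := by
  obtain ⟨yB, b1, b2, b3, b4, b5, -⟩ := S.exists_yB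
  refine ⟨yB, b4, fun y => ⟨fun h => ?_, fun h => (b5 y h.1 h.2.1 h.2.2.1 h.2.2.2).symm⟩⟩
  obtain ⟨a, b, c, d⟩ := S.cls_spec b1 (fun a => by
    have := r2B_order
    rw [← b3, S.mm.mu_v a] at this; simp at this) b2 h
  exact ⟨a, b, c, fun e => d.1 e (by rw [b3, r2B_fix])⟩

theorem zc_M : zc S.z 𝐍(S.V) = 1204027 := by
  obtain ⟨yB, b1, b2⟩ := S.exists_yB'
  have cA := card_class_mul 𝐍(S.V) (S.e (0, r2A))
  have cB := card_class_mul 𝐍(S.V) yB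
  rw [S.card_CA, S.mm.card_M] at cA
  rw [b1, S.mm.card_M] at cB
  have h1 := Set.ncard_inter_add_ncard_sdiff_eq_ncard {y | y ∈ 𝐍(S.V) ∧ IsConj S.z y} S.V
  have h2 := Set.ncard_inter_add_ncard_sdiff_eq_ncard ({y | y ∈ 𝐍(S.V) ∧ IsConj S.z y} \ S.V) {y | S.IsA y}
  have h3 := S.zc_V
  rw [show {y | y ∈ 𝐍(S.V) ∧ IsConj S.z y} ∩ (S.V : Set G) = {y | y ∈ S.V ∧ IsConj S.z y} from
    Set.ext fun y => ⟨fun a => ⟨a.2, a.1.2⟩, fun a => ⟨⟨S.mm.V_le a.1, a.2⟩, a.1⟩⟩] at h1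
  rw [show ({y | y ∈ 𝐍(S.V) ∧ IsConj S.z y} \ S.V) ∩ {y | S.IsA y} = {y | ∃ h ∈ 𝐍(S.V), h * S.e (0, r2A) * h⁻¹ = y} from
    Set.ext fun y => ⟨fun a => S.clsA_iff.2 ⟨a.1.1.1, a.1.2, a.1.1.2, a.2⟩, fun a =>
      have b := S.clsA_iff.1 a; ⟨⟨⟨b.1, b.2.2.1⟩, b.2.1⟩, b.2.2.2⟩⟩,
    show ({y | y ∈ 𝐍(S.V) ∧ IsConj S.z y} \ S.V) \ {y | S.IsA y} = {y | ∃ h ∈ 𝐍(S.V), h * yB * h⁻¹ = y} from
    Set.ext fun y => ⟨fun a => (b2 y).2 ⟨a.1.1.1, a.1.2, a.1.1.2, a.2⟩, fun a =>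
      have b := (b2 y).1 a; ⟨⟨⟨b.1, b.2.2.1⟩, b.2.1⟩, b.2.2.2⟩⟩] at h2
  rw [zc] at h3 ⊢
  omega

/-- cosets whose conjugate meets `V` trivially -/
def TT : Set (G ⧸ 𝐍(S.V)) := {q | S.V ⊓ S.Vq q = ⊥}

theorem sumT (hi : 𝐍(S.V).index = 173067389) : S.TT.ncard = 173023872 ∧
    smq S.TT (fun q => zc S.z (𝐍(S.V) ⊓ S.Vq q)) = 83647872 ∧
    (∃ g, 15180 * Nat.card (S.Dg g) = Nat.card 𝐍(S.V)) ∧ ∃ g, 28336 * Nat.card (S.Dg g) = Nat.card 𝐍(S.V) := by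
  obtain ⟨n, hn, hM⟩ := SetLike.not_le_iff_exists.1 S.not_N_le_M
  obtain ⟨h, hh, e⟩ := S.exists_h
  have c0 := orb_card (M := 𝐍(S.V)) 𝐍(S.V) 1
  have c1 := orb_card (M := 𝐍(S.V)) 𝐍(S.V) n
  have c2 := orb_card (M := 𝐍(S.V)) 𝐍(S.V) h
  have f0 := fun q hq => (S.orb_zc (g := 1) (q := q) le_rfl hq).trans (by rw [cj_one, inf_idem, S.zc_V])
  have f1 := fun q hq => (S.orb_zc (g := n) (q := q) le_rfl hq).trans (by rw [S.inter1 hn hM, S.zc_Z])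
  have f2 := fun q hq => (S.orb_zc (g := h) (q := q) le_rfl hq).trans (by rw [e, S.zc_z])
  have g0 := fun q hq => (S.orb_zc (g := 1) (q := q) le_normalizer hq).trans (by
    rw [cj_one, inf_eq_right.2 S.mm.V_le, S.zc_V])
  have g1 := fun q hq => (S.orb_zc (g := n) (q := q) le_normalizer hq).trans (by
    rw [inf_comm, ← BB, S.BB1 hn hM, zc_cj, S.zc_W])
  have g2 := fun q hq => (S.orb_zc (g := h) (q := q) le_normalizer hq).trans (by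
    rw [inf_comm, ← BB, S.BB2 hh e, zc_cj, S.zc_U])
  have h0 := mem_orbit_self (M := 𝐍(S.V)) ((1 : G) : G ⧸ 𝐍(S.V))
  generalize orbit 𝐍(S.V) ((1 : G) : G ⧸ 𝐍(S.V)) = U0 at *
  generalize orbit 𝐍(S.V) (n : G ⧸ 𝐍(S.V)) = U1 at *
  generalize orbit 𝐍(S.V) (h : G ⧸ 𝐍(S.V)) = U2 at *
  have sp : ∀ φ, smq Set.univ φ = smq U0 φ + (smq U1 φ + (smq U2 φ + smq (((Set.univ \ U0) \ U1) \ U2) φ)) := fun φ => by
    rw [← smq_split, ← smq_split, ← smq_split φ (Set.subset_univ _)]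
    · exact fun q hq => ⟨trivial, fun a => by have := f0 q a; have := f1 q hq; omega⟩
    · exact fun q hq => ⟨⟨trivial, fun a => by have := f0 q a; have := f2 q hq; omega⟩,
        fun a => by have := f1 q a; have := f2 q hq; omega⟩
  have s1 := sp fun q => zc S.z (S.V ⊓ S.Vq q)
  have s2 := sp fun q => zc S.z (𝐍(S.V) ⊓ S.Vq q)
  have s3 := sp fun _ => 1
  rw [S.sum_zc, S.zc_V, smq_const f0, smq_const f1, smq_const f2] at s1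
  rw [S.sum_zc, S.zc_M, smq_const g0, smq_const g1, smq_const g2] at s2
  simp only [smq_const fun _ _ => rfl, Set.ncard_univ, ← index_eq_card, hi] at s3
  rw [cj_one, inf_idem, S.mm.card_M] at c0
  have d1 := Nat.mul_le_mul_left U1.ncard (S.card_Dg1 hn hM)
  have d2 := Nat.mul_le_mul_left U2.ncard (S.card_Dg2 hh e)
  rw [Dg, c1, S.mm.card_M] at d1
  rw [Dg, c2, S.mm.card_M] at d2
  have eT : ((Set.univ \ U0) \ U1) \ U2 = S.TT := Set.ext fun q => ⟨fun hq => eq_bot_iff.2 fun y hy => by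
    by_contra y1
    rcases S.two' (orderOf_eq_prime (by rw [pow_two, S.V_sq y hy.1]) y1) with a | a
    · have := smq_zero (f := fun q => zc S.z (S.V ⊓ S.Vq q)) (by omega) q hq
      exact ((Set.ncard_eq_zero (Set.toFinite _)).1 this).subset (show y ∈ _ from ⟨hy, a⟩)
    · exact hq.1.1.2 (S.Vq_inj (p := (1 : G)) (q := q) (by
        rw [Vq_mk, cj_one, Vq, cj_eq_of_mem_normalizer (S.eq_of_t hy.1 a hy.2)]) ▸ h0), fun hq => by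
    have : zc S.z (S.V ⊓ S.Vq q) = 0 := by rw [hq, zc_bot S.jh.ez.ne_one]
    exact ⟨⟨⟨trivial, fun a => by have := f0 q a; omega⟩, fun a => by have := f1 q a; omega⟩,
      fun a => by have := f2 q a; omega⟩⟩
  rw [eT] at s2 s3
  exact ⟨by omega, by omega, ⟨n, by rw [← c1, Dg]; congr 1; omega⟩, h, by rw [← c2, Dg]; congr 1; omega⟩

theorem Dg_mk {x g : G} : x ∈ S.Dg g ↔ x ∈ 𝐍(S.V) ∧ x • (g : G ⧸ 𝐍(S.V)) = g := by rw [smul_mk_eq]; rfl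

theorem TT_smul {m : G} (hm : m ∈ 𝐍(S.V)) {q : G ⧸ 𝐍(S.V)} (hq : q ∈ S.TT) : m • q ∈ S.TT := by
  have : S.V ⊓ S.Vq q = ⊥ := hq
  show _ ⊓ _ = _
  rw [Vq_smul, ← cj_eq_of_mem_normalizer hm, ← cj_inf, this, cj_bot]

/-- the cosets without elements over `2A` -/
def TB : Set (G ⧸ 𝐍(S.V)) := {q | q ∈ S.TT ∧ ∀ y ∈ S.Vq q ⊓ 𝐍(S.V), y ≠ 1 → ¬ S.IsA y}

theorem TB_smul {m : G} (hm : m ∈ 𝐍(S.V)) {q : G ⧸ 𝐍(S.V)} (hq : q ∈ S.TB) : m • q ∈ S.TB :=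
  ⟨S.TT_smul hm hq.1, fun y hy y1 a => by
    rw [Vq_smul] at hy
    obtain ⟨x, hx, rfl⟩ := mem_cj'.1 hy.1
    have xM : x ∈ 𝐍(S.V) := by simpa [mul_assoc] using conj_H (inv_mem hm) hy.2
    exact hq.2 x ⟨hx, xM⟩ (fun e => y1 (by simp [e])) ((S.isA_conj hm xM).1 a)⟩

theorem TA_smul {m : G} (hm : m ∈ 𝐍(S.V)) {q : G ⧸ 𝐍(S.V)} (hq : q ∈ S.TT \ S.TB) : m • q ∈ S.TT \ S.TB :=
  ⟨S.TT_smul hm hq.1, fun a => hq.2 (by simpa using S.TB_smul (inv_mem hm) a)⟩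

theorem far_mk {g : G} (h : (g : G ⧸ 𝐍(S.V)) ∈ S.TT) : S.V ⊓ cj g S.V = ⊥ := S.Vq_mk g ▸ h

theorem zc_far {g : G} (h : (g : G ⧸ 𝐍(S.V)) ∈ S.TT) : zc S.z (𝐍(S.V) ⊓ S.Vq g) + 1 = Nat.card (S.BB g) := by
  rw [Vq_mk, inf_comm]; exact S.zc_pure fun y hy => S.far_pure (S.far_mk h) hy

theorem sub_F {X : Subgroup G} {y : G} (hX : X ≤ 𝐂[y]) {q : G ⧸ 𝐍(S.V)} (h : y ∈ S.Vq q) :
    orbit X q ⊆ {q | y ∈ S.Vq q} := fun p hp => by
  obtain ⟨x, hx, rfl⟩ := mem_orb.1 hp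
  rw [Set.mem_ofPred_eq, Vq_smul]
  exact mem_cj_of_fix (mul_inv_eq_iff_eq_mul.2 (mem_cent1_iff.1 (hX hx))) h

theorem orb_card' (y g : G) : (orbit ↥(𝐍(S.V) ⊓ 𝐂[y]) (g : G ⧸ 𝐍(S.V))).ncard * Nat.card ↥(S.Dg g ⊓ 𝐂[y]) =
    Nat.card ↥(𝐍(S.V) ⊓ 𝐂[y]) := by
  rw [Dg, inf_right_comm]; exact orb_card _ _

theorem TA_rep {q : G ⧸ 𝐍(S.V)} (hq : q ∈ S.TT \ S.TB) : ∃ m ∈ 𝐍(S.V), ∃ g : G, m • q = g ∧ S.V ⊓ cj g S.V = ⊥ ∧
    S.e (0, r2A) ∈ S.BB g ∧ Nat.card ↥(S.Dg g ⊓ 𝐂[S.e (0, r2A)]) = 49152 ∧ Nat.card (S.BB g) = 16 ∧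
    Nat.card (S.BB g⁻¹) = 16 := by
  induction q using QuotientGroup.induction_on with | H g =>
  have hg := S.far_mk hq.1
  obtain ⟨y, hy, y1, hA⟩ : ∃ y ∈ S.BB g, y ≠ 1 ∧ S.IsA y := by
    by_contra hn
    exact hq.2 ⟨hq.1, fun y hy y1 a => hn ⟨y, by rwa [Vq_mk] at hy, y1, a⟩⟩
  obtain ⟨m, hm, e⟩ := S.clsAz hy.2 (S.far_notV hg hy y1) (S.far_pure hg hy y1) hA
  have h0 : ((m * g : G) : G ⧸ 𝐍(S.V)) = m • (g : G ⧸ 𝐍(S.V)) := rfl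
  have h1 := S.far_mk (h0 ▸ S.TT_smul hm hq.1)
  obtain ⟨a1, a2, a3, a4⟩ := S.clsA_iff.1 (CjIn.refl _ _)
  have h2 : S.e (0, r2A) ∈ S.BB (m * g) := ⟨by rw [← e, ← cj_cj]; exact mem_cj'.2 ⟨_, hy.1, rfl⟩, a1⟩
  have := S.typeA' h1 h2 (S.z_ne_one a3) a4
  exact ⟨m, hm, m * g, h0.symm, h1, h2, this.1, S.typeA h1 h2 (S.z_ne_one a3) a4, this.2⟩

theorem TA_orb {p q : G ⧸ 𝐍(S.V)} (hp : p ∈ S.TT \ S.TB) (hq : q ∈ S.TT \ S.TB) : p ∈ orbit 𝐍(S.V) q := by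
  obtain ⟨m, hm, g, e, -, a, b, -⟩ := S.TA_rep hp
  obtain ⟨m', hm', g', e', -, a', b', -⟩ := S.TA_rep hq
  have c := S.orb_card' (S.e (0, r2A)) g
  have c' := S.orb_card' (S.e (0, r2A)) g'
  rw [b, S.card_CA] at c
  rw [b', S.card_CA] at c'
  obtain ⟨x, hx, e2⟩ := mem_orb.1 (orb_eq_of_lt (S.sub_F (X := 𝐍(S.V) ⊓ _) inf_le_right (q := g) (S.Vq_mk g ▸ a.1))
    (S.sub_F inf_le_right (q := g') (S.Vq_mk g' ▸ a'.1)) (by rw [S.F77 S.tyA.1]; omega))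
  exact mem_orb.2 ⟨m⁻¹ * x * m', mul_mem (mul_mem (inv_mem hm) hx.1) hm', by
    rw [mul_smul, mul_smul, e', e2, ← e, inv_smul_smul]⟩

set_option maxHeartbeats 800000 in
theorem sumA (h5 : S.Five) (hi : 𝐍(S.V).index = 173067389) {yB : G}
    (hB : ∀ y, CjIn 𝐍(S.V) yB y ↔ y ∈ 𝐍(S.V) ∧ y ∉ S.V ∧ IsConj S.z y ∧ ¬ S.IsA y)
    (cB : Nat.card ↥(𝐍(S.V) ⊓ 𝐂[yB]) = 491520) : (S.TT \ S.TB).ncard = 3400320 ∧
    {q | q ∈ S.TB ∧ yB ∈ S.Vq q}.ncard = 32 ∧ ∃ g, 3400320 * Nat.card (S.Dg g) = Nat.card 𝐍(S.V) := by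
  have s := (S.sumT hi).2.1
  have c := card_class_mul 𝐍(S.V) yB
  rw [cB, S.mm.card_M] at c
  rw [smq_split _ (show S.TB ⊆ S.TT from fun q hq => hq.1), smq_const (Q := S.TT \ S.TB) (k := 15) fun q hq => by
      obtain ⟨m, hm, g, e, h1, -, -, a, -⟩ := S.TA_rep hq
      have := S.zc_far (g := g) (e ▸ S.TT_smul hm hq.1)
      rw [S.orb_zc le_normalizer (g := g) (q := q) (mem_orb.2 ⟨m⁻¹, inv_mem hm, by rw [← e, inv_smul_smul]⟩)]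
      rw [Vq_mk] at this; omega,
    smq_congr (Q := S.TB) (g := fun q => {y | y ∈ {y | ∃ h ∈ 𝐍(S.V), h * yB * h⁻¹ = y} ∧ y ∈ S.Vq q}.ncard) fun q hq => by
      rw [zc]; congr 1; ext y
      exact ⟨fun a => ⟨(hB y).2 ⟨a.1.1, fun b => S.z_ne_one a.2 (mem_bot.1
        (hq.1 ▸ (⟨b, a.1.2⟩ : y ∈ S.V ⊓ S.Vq q))), a.2, hq.2 y ⟨a.1.2, a.1.1⟩ (S.z_ne_one a.2)⟩, a.1.2⟩,
        fun a => ⟨⟨((hB y).1 a.1).1, a.2⟩, ((hB y).1 a.1).2.2.1⟩⟩,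
    ← smq_comm _ _ fun y q => y ∈ S.Vq q, smq_const (k := {q | q ∈ S.TB ∧ yB ∈ S.Vq q}.ncard) fun y hy => by
      obtain ⟨m, hm, rfl⟩ := hy
      rw [← ncard_smul m]
      exact congrArg Set.ncard (Set.ext fun q => and_congr ⟨fun a => by simpa using S.TB_smul (inv_mem hm) a,
        S.TB_smul hm⟩ (by rw [Vq_smul, conj_mem_cj]))] at s
  have l77 : {q | q ∈ S.TB ∧ yB ∈ S.Vq q}.ncard ≤ 77 := S.F77 ((hB _).1 (CjIn.refl _ _)).2.2.1 ▸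
    Set.ncard_le_ncard fun q hq => hq.2
  generalize {q | q ∈ S.TB ∧ yB ∈ S.Vq q}.ncard = m at *
  rw [show {y | ∃ h ∈ 𝐍(S.V), h * yB * h⁻¹ = y}.ncard = 1020096 by omega] at s
  obtain ⟨q, hq⟩ := (Set.ncard_pos (s := S.TT \ S.TB)).1 (by omega)
  obtain ⟨k, hk, g, e, h1, -, a1, a2, a3⟩ := S.TA_rep hq
  have gT : (g : G ⧸ 𝐍(S.V)) ∈ S.TT \ S.TB := e ▸ S.TA_smul hk hq
  have o := orb_card (M := 𝐍(S.V)) 𝐍(S.V) g
  rw [show orbit 𝐍(S.V) (g : G ⧸ 𝐍(S.V)) = S.TT \ S.TB from Set.ext fun p => ⟨fun hp => by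
    obtain ⟨x, hx, rfl⟩ := mem_orb.1 hp
    exact S.TA_smul hx gT, fun hp => S.TA_orb hp gT⟩, ← Dg] at o
  obtain ⟨a, ha⟩ := card_dvd_of_le (inf_le_left (a := S.Dg g) (b := 𝐂[S.e (0, r2A)]))
  have d := S.card_Dg_dvd g
  have n5 : ¬ 5 ∣ Nat.card (S.Dg g) := fun b => by have := S.far5 h1 h5 b; omega
  have o' := o
  rw [a1] at ha
  rw [ha, a3] at d
  rw [ha] at n5
  rw [ha, S.mm.card_M] at o
  generalize (S.TT \ S.TB).ncard = t at *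
  have a3 : a = 3 := arithT o s d n5
  subst a3
  exact ⟨by omega, by omega, g, by rw [← o']; congr 1; omega⟩

theorem orbits (h5 : S.Five) (hi : 𝐍(S.V).index = 173067389) :
    ∀ s ∈ [1, 15180, 28336, 3400320, 32643072, 54405120, 82575360], ∃ g, s * Nat.card (S.Dg g) = Nat.card 𝐍(S.V) := by
  obtain ⟨yB, cB, hB⟩ := S.exists_yB'
  obtain ⟨t1, -, o1, o2⟩ := S.sumT hi
  obtain ⟨t2, t3, o3⟩ := S.sumA h5 hi hB cB
  obtain ⟨b1, b2, b3, b4⟩ := (hB _).1 (CjIn.refl _ _)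
  have inv : ∀ x ∈ 𝐍(S.V) ⊓ 𝐂[yB], ∀ q ∈ {q | q ∈ S.TB ∧ yB ∈ S.Vq q}, x • q ∈ {q | q ∈ S.TB ∧ yB ∈ S.Vq q} :=
    fun x hx q hq => ⟨S.TB_smul hx.1 hq.1, S.sub_F inf_le_right hq.2 (mem_orb.2 ⟨x, hx, rfl⟩)⟩
  obtain ⟨q, hq, n5⟩ : ∃ q ∈ {q | q ∈ S.TB ∧ yB ∈ S.Vq q}, ¬ 5 ∣ (orbit ↥(𝐍(S.V) ⊓ 𝐂[yB]) q).ncard := by
    by_contra hn
    have := orb_ind (p := (5 ∣ ·)) (dvd_zero _) (fun _ _ => dvd_add) inv fun q hq => not_not.1 fun a => hn ⟨q, hq, a⟩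
    rw [t3] at this; norm_num at this
  induction q using QuotientGroup.induction_on with | H g =>
  have c := S.orb_card' yB g
  have sub : orbit ↥(𝐍(S.V) ⊓ 𝐂[yB]) (g : G ⧸ 𝐍(S.V)) ⊆ {q | q ∈ S.TB ∧ yB ∈ S.Vq q} := fun p hp => by
    obtain ⟨x, hx, rfl⟩ := mem_orb.1 hp
    exact inv x hx _ hq
  obtain ⟨k1, k2⟩ := S.typeB (S.far_mk hq.1.1) h5 (fun y hy => hq.1.2 y (S.Vq_mk g ▸ hy)) (y := yB)
    ⟨S.Vq_mk g ▸ hq.2, b1⟩ (S.z_ne_one b3) ((((Nat.Prime.dvd_mul Nat.prime_five).1 (by rw [c, cB]; norm_num)).resolve_left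
      n5).trans (card_dvd_of_le inf_le_left))
  rw [inf_eq_left.2 k2, cB] at c
  have l := Set.ncard_le_ncard sub
  have l2 := Nat.mul_le_mul_left (orbit ↥(𝐍(S.V) ⊓ 𝐂[yB]) (g : G ⧸ 𝐍(S.V))).ncard k1
  have e32 : (orbit ↥(𝐍(S.V) ⊓ 𝐂[yB]) (g : G ⧸ 𝐍(S.V))).ncard = 32 := by omega
  have e1 := Set.eq_of_subset_of_ncard_le sub (by omega)
  rw [e32] at c
  have o4 := orb_card (M := 𝐍(S.V)) 𝐍(S.V) g
  have sub2 : orbit 𝐍(S.V) (g : G ⧸ 𝐍(S.V)) ⊆ S.TB := fun p hp => by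
    obtain ⟨x, hx, rfl⟩ := mem_orb.1 hp
    exact S.TB_smul hx hq.1
  have e4 : (orbit 𝐍(S.V) (g : G ⧸ 𝐍(S.V))).ncard = 32643072 := by
    rw [← Dg, show Nat.card (S.Dg g) = 15360 by omega, S.mm.card_M] at o4; omega
  have cR : (S.TB \ orbit 𝐍(S.V) (g : G ⧸ 𝐍(S.V))).ncard = 215040 * 637 := by
    have := Set.ncard_sdiff_add_ncard_of_subset sub2
    have := Set.ncard_sdiff_add_ncard_of_subset (show S.TB ⊆ S.TT from fun q hq => hq.1)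
    omega
  have invR : ∀ x ∈ 𝐍(S.V), ∀ q ∈ S.TB \ orbit 𝐍(S.V) (g : G ⧸ 𝐍(S.V)), x • q ∈ S.TB \ orbit 𝐍(S.V) (g : G ⧸ 𝐍(S.V)) :=
    fun x hx q hq => ⟨S.TB_smul hx hq.1, fun a => by
      obtain ⟨y, hy, e⟩ := mem_orb.1 a
      exact hq.2 (mem_orb.2 ⟨x⁻¹ * y, mul_mem (inv_mem hx) hy, by rw [mul_smul, e, inv_smul_smul]⟩)⟩
  have tR : ∀ q ∈ S.TB \ orbit 𝐍(S.V) (g : G ⧸ 𝐍(S.V)), ∃ m ∈ [506, 384, 253, 207, 176],
      (orbit 𝐍(S.V) q).ncard = 215040 * m := fun q hq => by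
    induction q using QuotientGroup.induction_on with | H k =>
    have hk := S.far_mk hq.1.1
    refine S.typeR hk h5 (eq_bot_iff.2 fun y hy => by_contra fun y1 => hq.2 ?_)
      (by rw [mul_comm, ← S.mm.card_M]; exact orb_card _ _) (le_of_le_of_eq (Set.ncard_le_ncard fun p hp => by
        obtain ⟨x, hx, rfl⟩ := mem_orb.1 hp
        exact invR x hx _ hq) cR)
    obtain ⟨m, hm, e⟩ := ((hB y).2 ⟨hy.2, S.far_notV hk hy y1, S.far_pure hk hy y1, hq.1.2 y (S.Vq_mk k ▸ hy) y1⟩).symm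
    obtain ⟨x, hx, e2⟩ := mem_orb.1 (e1.ge (show m • (k : G ⧸ 𝐍(S.V)) ∈ _ from ⟨S.TB_smul hm hq.1, by
      rw [Vq_smul, Vq_mk, ← e, conj_mem_cj]; exact hy.1⟩))
    exact mem_orb.2 ⟨m⁻¹ * x, mul_mem (inv_mem hm) hx.1, by rw [mul_smul, e2, inv_smul_smul]⟩
  have ex : ∀ s, (∀ a b c d e, 506 * a + 384 * b + 253 * c + 207 * d + 176 * e = 637 →
      ¬ (s = 384 ∧ b = 0 ∨ s = 253 ∧ c = 0)) → s = 384 ∨ s = 253 →
      ∃ g, 215040 * s * Nat.card (S.Dg g) = Nat.card 𝐍(S.V) := fun s H hs => by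
    by_contra hn
    obtain ⟨a, b, c, d, e, h1, h2⟩ := orb_ind (p := fun n => ∃ a b c d e,
      n = 215040 * (506 * a + 384 * b + 253 * c + 207 * d + 176 * e) ∧ (s = 384 ∧ b = 0 ∨ s = 253 ∧ c = 0))
      ⟨0, 0, 0, 0, 0, rfl, by omega⟩ (fun _ _ ⟨a, b, c, d, e, h1, h2⟩ ⟨a', b', c', d', e', h1', h2'⟩ =>
        ⟨a + a', b + b', c + c', d + d', e + e', by omega, by omega⟩) invR fun q hq => by
        obtain ⟨m, hm, e⟩ := tR q hq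
        have : m ≠ s := fun a => by
          induction q using QuotientGroup.induction_on with | H k =>
          exact hn ⟨k, by rw [← a, ← e]; exact orb_card _ _⟩
        rw [e]
        simp only [List.mem_cons, List.not_mem_nil, or_false] at hm
        rcases hm with rfl | rfl | rfl | rfl | rfl
        exacts [⟨1, 0, 0, 0, 0, rfl, by omega⟩, ⟨0, 1, 0, 0, 0, rfl, by omega⟩, ⟨0, 0, 1, 0, 0, rfl, by omega⟩,
          ⟨0, 0, 0, 1, 0, rfl, by omega⟩, ⟨0, 0, 0, 0, 1, rfl, by omega⟩]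
    exact H a b c d e (by omega) h2
  have H : ∀ s a b c d e, 506 * a + 384 * b + 253 * c + 207 * d + 176 * e = 637 →
      ¬ (s = 384 ∧ b = 0 ∨ s = 253 ∧ c = 0) := fun s a b c d e h => by
    have : a < 2 ∧ b < 2 ∧ c < 3 ∧ d < 4 := by omega
    obtain ⟨h1, h2, h3, h4⟩ := this
    interval_cases a <;> interval_cases b <;> interval_cases c <;> interval_cases d <;> omega
  intro s hs
  simp only [List.mem_cons, List.not_mem_nil, or_false] at hs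
  rcases hs with rfl | rfl | rfl | rfl | rfl | rfl | rfl
  exacts [⟨1, by rw [Dg, cj_one, inf_idem, one_mul]⟩, o1, o2, o3, ⟨g, e4 ▸ o4⟩, ex 253 (H _) (Or.inr rfl),
    ex 384 (H _) (Or.inl rfl)]

theorem res5629 (h5 : S.Five) (hG : Nat.card G = 86775571046077562880) (V : Subgroup G) (hV : IsElementaryAbelian 2 V)
    (hc : Nat.card V = 2 ^ 11) : 𝐍(V).index = 173067389 ∧ ∃ c : Fin 7 → G ⧸ 𝐍(V),
      (∀ i j : Fin 7, i ≠ j → orbit 𝐍(V) (c i) ≠ orbit 𝐍(V) (c j)) ∧ (∀ q, ∃ i : Fin 7, q ∈ orbit 𝐍(V) (c i)) ∧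
      (List.ofFn fun i => (orbit 𝐍(V) (c i)).ncard) = [1, 15180, 28336, 3400320, 32643072, 54405120, 82575360] := by
  obtain ⟨a, rfl⟩ := S.exists_cjG (X := V) (fun x hx => pow_two x ▸ hV.2 x hx) (by rw [hc]; norm_num)
  have ix : ∀ X : Subgroup G, Nat.card X = 501397585920 → X.index = 173067389 := fun X h => by
    have := X.card_mul_index
    rw [h, hG] at this; omega
  have hi := ix 𝐍(cj a S.V) (by rw [← cj_normalizer, card_cj, S.mm.card_M])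
  refine ⟨hi, rank7 hi fun s hs => ?_⟩
  obtain ⟨g, e⟩ := S.orbits h5 (ix _ S.mm.card_M) s hs
  exact ⟨a * g * a⁻¹, by rw [← cj_normalizer, cj_cj, inv_mul_cancel_right, ← cj_cj, ← cj_inf, card_cj, card_cj]; exact e⟩

end St

end CA.J4
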