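import Cfsg.Agent.Lib.J4.HAct
import Cfsg.Agent.Lib.J4.Gen

/-!
The 3-local structure of a group of type `J4`.
-/

set_option autoImplicit false
set_option linter.unusedSectionVars false
set_option linter.unusedVariables false

namespace CA.J4
open Cfsg CA.Gol CA.Ex2 CA.XS Subgroup
open scoped Pointwise commutatorElement

theorem cent_M22 {g : Pm} (hg : g ∈ D2) (h : ∀ m ∈ Spor.M22, g * m = m * g) : g = 1 := by
  have := (injective_iff_map_eq_one cD).1 cD_inj ⟨g, hg⟩ (by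
    ext1 m; apply Subtype.ext; rw [cD_apply]; simp [h m m.2])
  exact congrArg Subtype.val this

theorem comm22 {a b c : ℕ} (H : (in22 a && in22 b && in22 c && Nat.beq (mul a b) (mul (mul c b) a)) = true) :
    perm c ∈ ⁅Spor.M22, Spor.M22⁆ := by
  simp only [Bool.and_eq_true, beq_iff] at H
  have := comm_mem (perm_mem22 H.1.1.1) (perm_mem22 H.1.1.2)
  rwa [perm_mul' (in22_24 H.1.1.1) (in22_24 H.1.1.2), H.2, ← perm_mul' (inM24_mul (in22_24 H.1.2) (in22_24 H.1.1.2))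
    (in22_24 H.1.1.1), ← perm_mul' (in22_24 H.1.2) (in22_24 H.1.1.2), mul_inv_cancel_right, mul_inv_cancel_right] at this

theorem M22_perfect : ⁅Spor.M22, Spor.M22⁆ = Spor.M22 :=
  le_antisymm (der_le _) (M22_le_of
    (comm22 (a := 0xbc5b2196d55ce04789873293470500) (b := 0xbb2ab54c4e1924f39514499b10c2c0) (by decide +kernel))
    (comm22 (a := 0xbacf62a5c382a8c8b44643e53a8480) (b := 0xbc474091c8ab54bb326f81c4532640) (by decide +kernel)))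

def w3C : ℕ := 0xb8994ac95670c333152859e2d7c080
/-- a Sylow 3-subgroup of `D2` -/
noncomputable def A9 : Subgroup Pm := zpowers (perm u3C) ⊔ zpowers (perm w3C)
def inA9 (c : ℕ) : Bool := anyLt (fun i => anyLt (fun j => Nat.beq (mul (powC u3C i) (powC w3C j)) c) 3) 3

theorem w3C_in : in22 w3C = true := by decide +kernel
theorem w3_ord : orderOf (perm w3C) = 3 := order_perm (in22_24 w3C_in) (by norm_num) (by decide +kernel)
theorem w3_u3 : perm w3C ∈ 𝐂[perm u3C] :=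
  mem_cent1_iff.2 ((cmC_iff' (in22_24 u3C_in)).1 (by rw [code_perm22 w3C_in]; decide +kernel))
theorem mem_A9 {g : Pm} : g ∈ A9 ↔ inA9 (code g) = true := by
  rw [A9, mem_sup_of_norm_right (zpowers_le.2 (cent1_le_norm _ w3_u3)), inA9, anyLt_iff]
  constructor
  · rintro ⟨a, ha, b, hb, rfl⟩
    obtain ⟨i, hi, rfl⟩ := exists_pow_lt ha
    obtain ⟨j, hj, rfl⟩ := exists_pow_lt hb
    exact ⟨i, u3_ord ▸ hi, anyLt_iff.2 ⟨j, w3_ord ▸ hj, by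
      rw [code_mul, code_pow, code_pow, code_perm22 u3C_in, code_perm22 w3C_in, beq_iff]⟩⟩
  · rintro ⟨i, _, h⟩
    obtain ⟨j, _, h⟩ := anyLt_iff.1 h
    exact ⟨_, pow_mem (mem_zpowers _) i, _, pow_mem (mem_zpowers _) j, code_inj (by
      rw [code_mul, code_pow, code_pow, code_perm22 u3C_in, code_perm22 w3C_in, beq_iff.1 h])⟩
theorem card_A9 : Nat.card A9 = 9 := by
  rw [A9, card_sup_zpowers (by norm_num) w3_ord (fun h => ?_) (cent1_le_norm _ w3_u3), Nat.card_zpowers, u3_ord]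
  obtain ⟨i, hi, e⟩ := exists_pow_lt h
  have := congrArg code e
  rw [u3_ord] at hi
  rw [code_pow, code_perm22 u3C_in, code_perm22 w3C_in] at this
  revert this; interval_cases i <;> decide +kernel
theorem A9_le : A9 ≤ D2 :=
  sup_le (zpowers_le.2 (M22_le_D2 (perm_mem22 u3C_in))) (zpowers_le.2 (M22_le_D2 (perm_mem22 w3C_in)))
theorem u3_A9 : perm u3C ∈ A9 := mem_sup_left (mem_zpowers _)
theorem w3_A9 : perm w3C ∈ A9 := mem_sup_right (mem_zpowers _)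

/-- `c a c⁻¹` lies in `A9` -/
def cjA9 (c a : ℕ) : Bool := anyLt (fun i => anyLt (fun j => iw c a (mul (powC u3C i) (powC w3C j))) 3) 3

theorem inM24_pow {a : ℕ} (ha : inM24 a = true) (n : ℕ) : inM24 (powC a n) = true := by
  rw [← code_perm' ha, ← code_pow, ← mem_M24_iff_code]; exact pow_mem (perm_mem_M24 ha) n

theorem cjA9_iff {g : Pm} {a : ℕ} (ha : inM24 a = true) : cjA9 (code g) a = true ↔ g * perm a * g⁻¹ ∈ A9 := by
  rw [mem_A9, cjA9, inA9, anyLt_iff, anyLt_iff]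
  refine exists_congr fun i => and_congr_right fun _ => ?_
  rw [anyLt_iff, anyLt_iff]
  refine exists_congr fun j => and_congr_right fun _ => ?_
  have hb := inM24_mul (inM24_pow (in22_24 u3C_in) i) (inM24_pow (in22_24 w3C_in) j)
  rw [iw_iff ha hb, beq_iff, ← mul_inv_eq_iff_eq_mul]
  exact ⟨fun e => by rw [e, code_perm' hb], fun e => by rw [e, perm_code]⟩

theorem mem_norm_A9 {g : Pm} : g ∈ 𝐍(A9) ↔ (cjA9 (code g) u3C && cjA9 (code g) w3C) = true := by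
  rw [Bool.and_eq_true, cjA9_iff (in22_24 u3C_in), cjA9_iff (in22_24 w3C_in)]
  exact ⟨fun h => ⟨conj_mem_of_mem_normalizer h u3_A9, conj_mem_of_mem_normalizer h w3_A9⟩,
    fun h => mem_norm_of_gens (conj_zpowers_mem h.1) (conj_zpowers_mem h.2)⟩

theorem card_N_A9 : Nat.card ↥(D2 ⊓ 𝐍(A9)) = 144 := by
  have hu := in22_24 u3C_in
  have h1 : Nat.card ↥(𝐂[perm u3C] ⊓ (D2 ⊓ 𝐍(A9))) = 18 :=
    card_of_count (P := pAnd (pSet DD DD) (pCj u3C u3C)) (leaf := fun c => st c DD && cmC c u3C && (cjA9 c u3C && cjA9 c w3C))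
      (k := 0x152e1b1f10d2cb84947120d3692b7) (ki := 0x342e22a0b8d072626a6416c299df7) (by decide +kernel)
      (fun g hg => ⟨hg.2.1.1, (satD2 hg.2.1).and (sat_cj' hu hu (mem_cent1_iff.1 hg.1)), by
        rw [(st_iff DD_lt).2 hg.2.1.2, (cmC_iff' hu).2 (mem_cent1_iff.1 hg.1), mem_norm_A9.1 hg.2.2]; rfl⟩)
      fun g hg h => by
        rw [Bool.and_eq_true, Bool.and_eq_true] at h
        exact ⟨mem_cent1_iff.2 ((cmC_iff' hu).1 h.1.2), ⟨hg, (st_iff DD_lt).1 h.1.1⟩, mem_norm_A9.2 h.2⟩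
  have h2 : {y | ∃ h ∈ D2 ⊓ 𝐍(A9), h * perm u3C * h⁻¹ = y} = (A9 : Set Pm) \ {1} := by
    ext y
    refine ⟨fun ⟨h, hh, e⟩ => ⟨e ▸ conj_mem_of_mem_normalizer hh.2 u3_A9, fun e1 => ?_⟩, fun ⟨hy, h1⟩ => ?_⟩
    · have := u3_ord
      rw [← CA.orderOf_conj' h, e, e1, orderOf_one] at this; omega
    · have hq : inM24 0x20f4704521acac359a47d60a9a637 = true := by decide +kernel
      have key : allLt (fun i => allLt (fun j => force (mul (powC u3C i) (powC w3C j)) fun c => Nat.beq c oneC ||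
        anyLt (fun l => iw (powC 0x20f4704521acac359a47d60a9a637 l) u3C c) 8) 3) 3 = true := by decide +kernel
      obtain ⟨i, hi, h⟩ := anyLt_iff.1 (mem_A9.1 hy)
      obtain ⟨j, hj, h⟩ := anyLt_iff.1 h
      have := allLt_iff.1 (allLt_iff.1 key i hi) j hj
      rw [force_eq, beq_iff.1 h, Bool.or_eq_true, beq_iff, code_eq_one_iff, anyLt_iff] at this
      obtain ⟨l, _, e⟩ := this.resolve_left h1
      rw [← code_perm' hq, ← code_pow, iw_iff hu (mem_M24_iff_code.1 (A9_le hy).1), perm_code] at e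
      refine ⟨_, pow_mem (⟨⟨perm_mem_M24 hq, (st_iff DD_lt).1 ?_⟩, mem_norm_A9.2 ?_⟩ : _ ∈ D2 ⊓ 𝐍(A9)) l,
        mul_inv_eq_iff_eq_mul.2 e⟩ <;> rw [code_perm' hq] <;> decide +kernel
  rw [← card_inf_mul_relIndex 𝐂[perm u3C], h1, relIndex_cent1_eq_ncard, h2,
    Set.ncard_diff_singleton_of_mem A9.one_mem, show (A9 : Set Pm).ncard = 9 from card_A9]

theorem card_ND2 {A : Subgroup Pm} (hA : A ≤ D2) (hc : Nat.card A = 9) : Nat.card ↥(D2 ⊓ 𝐍(A)) = 144 := by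
  obtain ⟨g, hg, rfl⟩ := (sylowIn_of_card (k := 2) (by norm_num) A9_le card_A9 (by rw [card_D2]; norm_num)).exists_cj
    (sylowIn_of_card (q := 3) (k := 2) (by norm_num) hA hc (by rw [card_D2]; norm_num))
  rw [← card_N_A9, ← card_cj g (D2 ⊓ 𝐍(A9)), cj_inf, cj_eq_of_mem hg, cj_normalizer]

variable {G : Type*} [Group G] [Finite G]

namespace JX
variable {z p s : G} {E : Subgroup G} {π : ↥𝐂[z] →* Pm} {c : ℕ → G} (h : JX z p s E π c)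
include h

theorem Z_cent : zpowers z ⊔ zpowers p ≤ 𝐂(𝐂[z] ⊓ 𝐂[p]) :=
  sup_le (zpowers_le.2 (mem_cent_iff_le_cent1.2 inf_le_left)) (zpowers_le.2 (mem_cent_iff_le_cent1.2 inf_le_right))

theorem center_L : 𝐙(𝐂[z] ⊓ 𝐂[p]) = zpowers z ⊔ zpowers p := by
  refine le_antisymm (fun x hx => ?_) (le_inf (h.ker_inf_L.ge.trans inf_le_right) h.Z_cent)
  rw [← h.ker_inf_L]
  refine ⟨mem_pker.2 ⟨hx.1.1, cent_M22 (h.pi_mem hx.1.1) fun m hm => ?_⟩, hx.1⟩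
  obtain ⟨l, hl, rfl, -⟩ := h.lift m hm
  rw [← pel_mul _ hx.1.1 hl.1, ← pel_mul _ hl.1 hx.1.1, mem_cent_iff'.1 hx.2 l hl]

theorem eq_z_of_Z {i : G} (hi : i ∈ zpowers z ⊔ zpowers p) (ho : orderOf i = 2) : i = z := by
  rw [h.Z_eq] at hi
  exact invol_unique hi (h.Z_eq ▸ mem_sup_left (mem_zpowers z)) ho h.z_ord

theorem eq_z_of_ker {i : G} (hi : i ∈ 𝐂[z] ⊓ 𝐂[p]) (ho : orderOf i = 2) (e : pel π i = 1) : i = z :=
  h.eq_z_of_Z (h.ker_inf_L ▸ ⟨mem_pker.2 ⟨hi.1, e⟩, hi⟩) ho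

/-- involutions of `L` with the same image -/
theorem invol_L {i j : G} (hi : i ∈ 𝐂[z] ⊓ 𝐂[p]) (hj : j ∈ 𝐂[z] ⊓ 𝐂[p]) (oi : i * i = 1) (oj : j * j = 1)
    (e : pel π i = pel π j) : i = j ∨ i = j * z := by
  have h1 : j⁻¹ * i ∈ zpowers z ⊔ zpowers p := h.ker_inf_L ▸ ⟨mem_pker.2 ⟨𝐂[z].mul_mem (𝐂[z].inv_mem hj.1) hi.1, by
    rw [pel_mul _ (𝐂[z].inv_mem hj.1) hi.1, pel_inv _ hj.1, e, inv_mul_cancel]⟩,
    (𝐂[z] ⊓ 𝐂[p]).mul_mem (inv_mem hj) hi⟩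
  have h2 := mem_cent_iff.1 (h.Z_cent h1) j hj
  have h3 : (j⁻¹ * i) ^ 2 = 1 := by
    rw [inv_eq_of_mul_eq_one_right oj] at h2 ⊢
    rw [← mul_assoc, oj, one_mul] at h2
    rw [pow_two, ← mul_assoc, ← h2, oi]
  by_cases h4 : j⁻¹ * i = 1
  · exact Or.inl (inv_mul_eq_one.1 h4).symm
  · exact Or.inr (by rw [← h.eq_z_of_Z h1 (orderOf_eq_prime h3 h4), mul_inv_cancel_left])

theorem conj_invol_L {i j : G} (hi : i ∈ 𝐂[z] ⊓ 𝐂[p]) (hj : j ∈ 𝐂[z] ⊓ 𝐂[p]) (oi : orderOf i = 2)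
    (oj : orderOf j = 2) (iz : i ≠ z) (jz : j ≠ z) : ∃ l ∈ 𝐂[z] ⊓ 𝐂[p], l * i * l⁻¹ = j ∨ l * i * l⁻¹ = j * z := by
  obtain ⟨d, hd, e⟩ := cls_i2 (h.pi_L hi) (h.orderOf_pi hi.1 (by norm_num) oi fun e => iz (h.eq_z_of_ker hi oi e))
  obtain ⟨d', hd', e'⟩ := cls_i2 (h.pi_L hj) (h.orderOf_pi hj.1 (by norm_num) oj fun e => jz (h.eq_z_of_ker hj oj e))
  obtain ⟨l, hl, e1⟩ := h.exists_conj_pi hi.1 (mul_mem (inv_mem hd') hd) (conj_of_conj e e')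
  have sq : ∀ x : G, orderOf x = 2 → x * x = 1 := fun x hx => by rw [← pow_two, ← hx, pow_orderOf_eq_one]
  exact ⟨l, hl, h.invol_L (conj_H hl hi) hj (sq _ (by rw [CA.orderOf_conj', oi])) (sq _ oj) e1⟩

theorem ker_inf_cent' {x : G} (hx : x ∈ 𝐂[p]) : pker π ⊓ 𝐂[x] = (E ⊓ 𝐂[x]) ⊔ zpowers p := by
  rw [h.ker, dedekind_right (Or.inl (h.P_le.trans h.E_norm)) (zpowers_le.2 (mem_cent1_comm.1 hx))]

theorem card_ker_cent {x : G} (hx : x ∈ 𝐂[z] ⊓ 𝐂[p]) : Nat.card ↥(pker π ⊓ 𝐂[x]) = Nat.card ↥(E ⊓ 𝐂[x]) * 3 := by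
  rw [h.ker_inf_cent' hx.2, card_sup_zpowers (by norm_num) h.p_ord (A := E ⊓ 𝐂[x]) (fun a => h.p_not_mem_E a.1)
    (zpowers_le.1 (norms_inf (h.P_le.trans h.E_norm) (norms_cent1 (zpowers_le.2 (mem_cent1_comm.1 hx.2)))))]

theorem card_CH {x : G} (hx : x ∈ 𝐂[z] ⊓ 𝐂[p]) :
    Nat.card ↥(𝐂[z] ⊓ 𝐂[x]) = Nat.card ↥(E ⊓ 𝐂[x]) * 3 * Nat.card (pmap π (𝐂[z] ⊓ 𝐂[x])) := by
  rw [← card_pmap_mul π inf_le_left, ← inf_assoc, inf_eq_left.2 (pker_le_dom π), h.card_ker_cent hx]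

theorem pmap_CH_le {x : G} (hx : x ∈ 𝐂[z]) : pmap π (𝐂[z] ⊓ 𝐂[x]) ≤ D2 ⊓ 𝐂[pel π x] :=
  le_inf ((pmap_le_range _ _).trans h.range.le) ((pmap_mono _ inf_le_right).trans (pmap_cent1 _ hx))

end JX

def a3C : ℕ := 0xbae69316c8a42438a9ee3d5ac20820
def b3C : ℕ := 0x544530410e348a469eb6b8563625f4
theorem a3C_in : inM24 a3C = true := by decide +kernel
theorem b3C_in : inM24 b3C = true := by decide +kernel

namespace St
variable (S : St G)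

theorem z_eq' : S.z = S.v T0 := S.z_eq
theorem p_eq' : S.p = S.k p0C := S.p_eq
theorem k_mem {a : ℕ} (ha : inM24 a = true) : S.k a ∈ 𝐍(S.V) := S.mm.k_mem (perm_mem_M24 ha)
theorem k_ord {a q : ℕ} (hq : q.Prime) (ha : (inM24 a && ordIs a q) = true) : orderOf (S.k a) = q := by
  rw [Bool.and_eq_true] at ha
  rw [S.mm.orderOf_k (perm_mem_M24 ha.1), order_perm ha.1 hq ha.2]
theorem k_conj {g a b : ℕ} (H : (inM24 g && inM24 a && inM24 b && iw g a b) = true) :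
    S.k g * S.k a * (S.k g)⁻¹ = S.k b := by
  have := perm_conj H
  simp only [Bool.and_eq_true] at H
  rw [k, k, k, ← pel_conj _ (perm_mem_M24 H.1.1.1) (perm_mem_M24 H.1.1.2), this]
theorem k_mul {a b c : ℕ} (H : (inM24 a && inM24 b && Nat.beq (mul a b) c) = true) : S.k a * S.k b = S.k c := by
  simp only [Bool.and_eq_true, beq_iff] at H
  rw [k, k, k, ← pel_mul _ (perm_mem_M24 H.1.1) (perm_mem_M24 H.1.2), perm_mul' H.1.1 H.1.2, H.2]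
theorem k_conj_v {g m m' : ℕ} (H : (inM24 g && ev m && ev m' && eqv (apM g m) m') = true) :
    S.k g * S.v m * (S.k g)⁻¹ = S.v m' := by
  simp only [Bool.and_eq_true] at H
  have hm := ev_apM (perm g) H.1.1.2
  rw [k, v, S.mm.conj_v (perm_mem_M24 H.1.1.1) H.1.1.2, S.mm.v_eq_iff hm H.1.2, code_perm' H.1.1.1, H.2]
theorem v_mul {a b c : ℕ} (H : (ev a && ev b && ev c && eqv (Nat.xor a b) c) = true) : S.v a * S.v b = S.v c := by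
  simp only [Bool.and_eq_true] at H
  rw [v, v, v, ← S.mm.v_xor H.1.1.1 H.1.1.2, S.mm.v_eq_iff (ev_xor H.1.1.1 H.1.1.2) H.1.2, H.2]
theorem vk_mem_H {v : G} (hv : v ∈ S.V) {g : Pm} (hg : g ∈ M24) :
    v * pel S.κ g ∈ 𝐂[S.z] ↔ eqv (apM (code g) T0) T0 = true := by
  rw [S.z_eq, S.mm.vk_comm_v hv hg T0_ev]
theorem k_mem_H' {g : Pm} (hg : g ∈ M24) : pel S.κ g ∈ 𝐂[S.z] ↔ eqv (apM (code g) T0) T0 = true := by
  simpa using S.vk_mem_H (one_mem _) hg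
theorem k_mem_H {a : ℕ} (ha : inM24 a = true) : S.k a ∈ 𝐂[S.z] ↔ eqv (apM a T0) T0 = true := by
  rw [k, S.k_mem_H' (perm_mem_M24 ha), code_perm' ha]
theorem mem_H_iff {n : G} (hn : n ∈ 𝐍(S.V)) : n ∈ 𝐂[S.z] ↔ eqv (apM (code (pel S.μ n)) T0) T0 = true := by
  obtain ⟨m, hm, e⟩ := S.mm.dec' hn
  conv_lhs => rw [e]
  exact S.vk_mem_H (S.mm.v_mem hm) (S.mm.mu_mem hn)
theorem k_mem_L {a : ℕ} (H : (inM24 a && inM24 p0C && cmC a p0C) = true) : S.k a ∈ 𝐂[S.z] ⊓ 𝐂[S.p] := by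
  have := S.mm.k_comm H
  simp only [Bool.and_eq_true] at H
  rw [← S.p_eq] at this
  exact ⟨S.CMp_le ⟨S.k_mem H.1.1, this⟩, this⟩
theorem v_mem_L {m : ℕ} (H : (ev m && eqv (apM p0C m) m) = true) : S.v m ∈ 𝐂[S.z] ⊓ 𝐂[S.p] := by
  rw [Bool.and_eq_true] at H
  exact ⟨S.V_le_H (S.mm.v_mem H.1), by
    rw [S.p_eq]; exact (S.mm.v_comm_k H.1 (perm_mem_M24 p0C_in)).2 (by rw [code_perm' p0C_in, H.2])⟩

/-- the order of the centralizer in `H ∩ M` of an element of the complement -/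
theorem card_HM_cent {a k ki n : ℕ} (ha : inM24 a = true)
    (H : (inM24 k && valid ki && Nat.beq (mul k ki) oneC &&
      Nat.beq (count24 (pCj a a) k ki fun c => cmC c a && eqv (apM c T0) T0) n) = true) :
    Nat.card ↥(𝐂[S.z] ⊓ (𝐍(S.V) ⊓ 𝐂[S.k a])) = countLt (fun j => ev (hi j) && eqv (apM a (hi j)) (hi j)) 4096 * n := by
  have hle : 𝐂[S.z] ⊓ (𝐍(S.V) ⊓ 𝐂[S.k a]) ≤ 𝐍(S.V) := inf_le_right.trans inf_le_left
  rw [S.mm.card_eq hle, ← inf_assoc, inf_eq_left.2 S.V_le_H, ← inf_assoc, inf_eq_left.2 S.mm.V_le, S.mm.card_V_cent ha]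
  congr 1
  refine card_of_count H (fun g hg => ?_) fun g hg h => ?_
  · obtain ⟨x, hx, rfl⟩ := (mem_pmap_of_le hle).1 hg
    have h1 : pel S.μ x ∈ M24 ⊓ 𝐂[perm a] := S.mm.pmap_cent_k (perm_mem_M24 ha) ▸ pel_mem_pmap _ hx.2
    have h2 := mem_cent1_iff.1 h1.2
    exact ⟨h1.1, sat_cj' ha ha h2, by rw [(cmC_iff' ha).2 h2, (S.mem_H_iff hx.2.1).1 hx.1]; rfl⟩
  · rw [Bool.and_eq_true] at h
    exact (mem_pmap_of_le hle).2 ⟨_, ⟨(S.k_mem_H' hg).2 h.2, S.mm.k_mem hg,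
      S.mm.k_comm' hg (perm_mem_M24 ha) ((cmC_iff' ha).1 h.1)⟩, S.mm.mu_k hg⟩

/-- a Sylow 3-subgroup -/
noncomputable def R0 : Subgroup G := zpowers S.p ⊔ zpowers (S.k a3C) ⊔ zpowers (S.k b3C)

theorem a3_L : S.k a3C ∈ 𝐂[S.z] ⊓ 𝐂[S.p] := S.k_mem_L (by decide +kernel)
theorem b3_L : S.k b3C ∈ 𝐂[S.z] ⊓ 𝐂[S.p] := S.k_mem_L (by decide +kernel)
theorem a3_ord : orderOf (S.k a3C) = 3 := S.k_ord (by norm_num) (by decide +kernel)
theorem b3_ord : orderOf (S.k b3C) = 3 := S.k_ord (by norm_num) (by decide +kernel)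
theorem ba3 : S.k b3C * S.k a3C * (S.k b3C)⁻¹ = S.k a3C * S.p := by
  rw [S.p_eq', S.k_mul (a := a3C) (c := mul a3C p0C) (by decide +kernel)]; exact S.k_conj (by decide +kernel)
theorem R0_heis : Nat.card S.R0 = 3 ^ 3 ∧ Extraspecial 3 S.R0 ∧ 𝐙(S.R0) = zpowers S.p ∧ ∀ x ∈ S.R0, x ^ 3 = 1 :=
  heis (by norm_num) (by norm_num) S.a3_ord S.b3_ord S.jh.p_ord S.a3_L.2 S.b3_L.2 S.ba3 rfl
theorem R0_le_L : S.R0 ≤ 𝐂[S.z] ⊓ 𝐂[S.p] :=
  sup_le (sup_le (zpowers_le.2 ⟨S.jh.p_mem, self_mem_cent1 _⟩) (zpowers_le.2 S.a3_L)) (zpowers_le.2 S.b3_L)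
theorem R0_le_H : S.R0 ≤ 𝐂[S.z] := S.R0_le_L.trans inf_le_left
theorem R0_le_M : S.R0 ≤ 𝐍(S.V) :=
  sup_le (sup_le (zpowers_le.2 (S.ker_le_M S.jh.p_ker)) (zpowers_le.2 (S.k_mem a3C_in))) (zpowers_le.2 (S.k_mem b3C_in))
theorem p_R0 : S.p ∈ S.R0 := mem_sup_left (mem_sup_left (mem_zpowers _))
theorem a3_R0 : S.k a3C ∈ S.R0 := mem_sup_left (mem_sup_right (mem_zpowers _))
theorem b3_R0 : S.k b3C ∈ S.R0 := mem_sup_right (mem_zpowers _)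
theorem R0_syl : SylowIn 3 S.R0 𝐂[S.z] :=
  sylowIn_of_card (by norm_num) S.R0_le_H S.R0_heis.1 (by rw [S.jh.card_H]; norm_num)
theorem ab3_ne : S.k b3C ∉ 𝐂[S.k a3C] := fun e => by
  have := S.ba3
  rw [mem_cent1_iff.1 e, mul_inv_cancel_right, left_eq_mul] at this
  exact S.jh.p_not_mem_E (this ▸ one_mem _)
theorem pi_ne_one_of {x y : G} (hx : x ∈ 𝐂[S.z] ⊓ 𝐂[S.p]) (hy : y ∈ 𝐂[S.z] ⊓ 𝐂[S.p]) (h : y ∉ 𝐂[x]) :
    pel S.π x ≠ 1 := fun e =>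
  h (mem_cent_iff_le_cent1.1 (S.jh.Z_cent (S.jh.ker_inf_L ▸ ⟨mem_pker.2 ⟨hx.1, e⟩, hx⟩)) hy)
theorem pi_a3 : pel S.π (S.k a3C) ≠ 1 := S.pi_ne_one_of S.a3_L S.b3_L S.ab3_ne
theorem pi_b3 : pel S.π (S.k b3C) ≠ 1 := S.pi_ne_one_of S.b3_L S.a3_L fun e => S.ab3_ne (mem_cent1_comm.1 e)

theorem card_CH_a3 : Nat.card ↥(𝐂[S.z] ⊓ 𝐂[S.k a3C]) = 2304 ∧ 𝐂[S.z] ⊓ 𝐂[S.k a3C] ≤ 𝐍(S.V) := by
  have h1 := S.card_HM_cent (k := 0x7413635d0f3cc25a116d5300315651) (ki := 0x9504b7041685d0649eb17cd8a20da5) (n := 72)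
    a3C_in (by decide +kernel)
  rw [show countLt _ 4096 = 32 by decide +kernel] at h1
  have hle : 𝐂[S.z] ⊓ (𝐍(S.V) ⊓ 𝐂[S.k a3C]) ≤ 𝐂[S.z] ⊓ 𝐂[S.k a3C] := inf_le_inf_left _ inf_le_right
  have h2 := card_dvd_of_le' hle
  have h3 := S.jh.card_CH S.a3_L
  have h4 := card_dvd_of_le' (S.jh.pmap_CH_le S.a3_L.1)
  rw [S.jh.card_E_cent3 S.a3_L.1 S.a3_ord S.pi_a3] at h3
  rw [card_CD3 (S.jh.pi_mem S.a3_L.1) (S.jh.orderOf_pi S.a3_L.1 (by norm_num) S.a3_ord S.pi_a3)] at h4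
  have h5 : ¬ 27 ∣ Nat.card ↥(𝐂[S.z] ⊓ 𝐂[S.k a3C]) := fun hd => by
    obtain ⟨R, a1, a2, a3⟩ := exists_sylow_card (k := 3) (by norm_num) (isPGroup_zpowers S.a3_ord)
      (zpowers_le.2 (⟨S.a3_L.1, self_mem_cent1 _⟩ : _ ∈ 𝐂[S.z] ⊓ 𝐂[S.k a3C])) hd fun h =>
        absurd (h.trans (card_dvd_of_le' inf_le_left)) (by rw [S.jh.card_H]; norm_num)
    obtain ⟨g, hg, rfl⟩ := S.R0_syl.exists_cj (sylowIn_of_card (by norm_num) (a2.trans inf_le_left) a3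
      (by rw [S.jh.card_H]; norm_num))
    have : S.k a3C ∈ 𝐙(cj g S.R0) := ⟨a1 (mem_zpowers _), mem_cent_iff_le_cent1.2 (a2.trans inf_le_right)⟩
    rw [← cj_center, S.R0_heis.2.2.1] at this
    exact S.pi_a3 (mem_pker.1 (cj_le_of_mem_normalizer (zpowers_le.2 S.jh.p_ker) ((pker_normalIn _).norm hg) this)).2
  rw [h1] at h2
  rw [h3] at h2 h5
  have h6 : Nat.card ↥(𝐂[S.z] ⊓ 𝐂[S.k a3C]) = 2304 := by
    rw [h3]
    generalize Nat.card (pmap S.π _) = m at *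
    have := Nat.le_of_dvd (by norm_num) h4
    obtain ⟨u, rfl⟩ : 24 ∣ m := by omega
    have : u ≤ 3 := by omega
    interval_cases u <;> omega
  exact ⟨h6, (eq_of_le_of_card_eq hle (by rw [h1, h6])).ge.trans (inf_le_right.trans inf_le_left)⟩

theorem cent_p : 𝐂[S.p] ≤ 𝐂[S.z] := by
  have t1L : S.v 0x800008 ∈ 𝐂[S.z] ⊓ 𝐂[S.p] := S.v_mem_L (by decide +kernel)
  have t1o : orderOf (S.v 0x800008) = 2 := S.mm.orderOf_v (by decide +kernel)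
  have t1c : (fs 0x800008).card = 2 := by rw [card_fs]; decide +kernel
  have t1t := S.conj_duad t1c
  have t1z : S.v 0x800008 ≠ S.z := fun e => S.not_zt (by rw [← e]) t1t
  have c1 : 𝐂[S.p] ⊓ 𝐂[S.v 0x800008] ≤ 𝐂[S.z] := fun x hx => S.CMp_le ⟨S.cent_duad t1c hx.2, hx.1⟩
  have c2 : 𝐂[S.p] ⊓ 𝐂[S.v 0x800008 * S.z] ≤ 𝐂[S.z] := fun x hx => by
    have hg := S.k_mem (a := 0x3c9d180ccdb4cb7609640a2a053d34) (by decide +kernel)
    refine S.CMp_le (mem_inf.2 ⟨?_, hx.1⟩)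
    rw [← cj_eq_of_mem (inv_mem hg), mem_cj_inv]
    apply S.card_CH_a3.2
    rw [← S.k_conj (g := 0x3c9d180ccdb4cb7609640a2a053d34) (a := p0C) (by decide +kernel), S.z_eq',
      ← S.k_conj_v (g := 0x3c9d180ccdb4cb7609640a2a053d34) (m := 0x1490) (by decide +kernel), ← cj_centralizer_singleton,
      ← cj_centralizer_singleton, ← cj_inf, conj_mem_cj, ← S.v_mul (a := 0x800008) (b := T0) (by decide +kernel)]
    rw [S.z_eq', S.p_eq'] at hx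
    exact ⟨hx.2, hx.1⟩
  have key : ∀ i ∈ 𝐂[S.z] ⊓ 𝐂[S.p], orderOf i = 2 → 𝐂[S.p] ⊓ 𝐂[i] ≤ 𝐂[S.z] ⊓ 𝐂[S.p] := fun i hi oi => by
    refine le_inf ?_ inf_le_left
    by_cases iz : i = S.z
    · rw [iz]; exact inf_le_right
    obtain ⟨l, hl, e⟩ := S.jh.conj_invol_L hi t1L oi t1o iz t1z
    rw [← cj_le_cj (g := l), cj_inf, cj_eq_of_mem hl.1, cj_eq_of_mem hl.2, cj_centralizer_singleton]
    rcases e with e | e <;> rw [e] <;> assumption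
  have zL : S.z ∈ 𝐂[S.z] ⊓ 𝐂[S.p] := ⟨self_mem_cent1 _, mem_cent1_iff.2 S.jh.zp⟩
  intro g hg
  have h1 := conj_mem_of_two_classes inf_le_right key t1L zL t1o S.z_ord (fun e => S.not_zt e.symm t1t) g hg
  have o1 : orderOf (g * S.z * g⁻¹) = 2 := by rw [CA.orderOf_conj', S.z_ord]
  have h2 := eq_of_le_of_card_eq (key _ h1 o1) (by
    rw [← card_cj g (𝐂[S.z] ⊓ 𝐂[S.p]), cj_inf, cj_eq_of_mem hg, cj_centralizer_singleton, inf_comm])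
  have h3 : g * S.z * g⁻¹ ∈ 𝐙(𝐂[S.z] ⊓ 𝐂[S.p]) := ⟨h1, mem_cent_iff_le_cent1.2 (h2.ge.trans inf_le_right)⟩
  rw [S.jh.center_L] at h3
  exact mem_cent1_iff.2 (mul_inv_eq_iff_eq_mul.1 (S.jh.eq_z_of_Z h3 o1))

theorem L_eq : 𝐂[S.z] ⊓ 𝐂[S.p] = 𝐂[S.p] := inf_eq_right.2 S.cent_p
theorem card_Cp : Nat.card 𝐂[S.p] = 2661120 := by rw [← S.L_eq, S.jh.card_L]

theorem norm_P : 𝐍(zpowers S.p) ≤ 𝐂[S.z] := fun g hg => by
  have h1 : g ∈ 𝐍(𝐙(𝐂[S.z] ⊓ 𝐂[S.p])) := by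
    rw [S.L_eq, ← cent_zpowers]; exact zpowers_le.1 (norms_center (norms_cent (zpowers_le.2 hg)))
  rw [S.jh.center_L] at h1
  exact mem_cent1_iff.2 (mul_inv_eq_iff_eq_mul.1 (S.jh.eq_z_of_Z (conj_mem_of_mem_normalizer h1
    (mem_sup_left (mem_zpowers _))) (by rw [CA.orderOf_conj', S.z_ord])))

theorem L_perfect : ⁅𝐂[S.z] ⊓ 𝐂[S.p], 𝐂[S.z] ⊓ 𝐂[S.p]⁆ = 𝐂[S.z] ⊓ 𝐂[S.p] := by
  set L := 𝐂[S.z] ⊓ 𝐂[S.p]
  have hle : ⁅L, L⁆ ≤ L := der_le _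
  have cv : ∀ g m m', (inM24 g && inM24 p0C && cmC g p0C) = true → (ev m && eqv (apM p0C m) m) = true →
      (inM24 g && ev m && ev m' && eqv (apM g m) m') = true → S.v m' * S.v m ∈ ⁅L, L⁆ := fun g m m' h1 h2 h3 => by
    have := comm_mem (S.k_mem_L h1) (S.v_mem_L h2)
    rw [Bool.and_eq_true] at h2
    rwa [S.k_conj_v h3, S.mm.v_inv (S.mm.v_mem h2.1)] at this
  have hz : S.z ∈ ⁅L, L⁆ := by
    have := mul_mem (cv 0x50a68345a15d803732453d6172512f 0x88 0x90 (by decide +kernel) (by decide +kernel)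
      (by decide +kernel)) (cv 0x3c1629452d03ec375c2562284554d3 0x480 0x801000 (by decide +kernel) (by decide +kernel)
      (by decide +kernel))
    rwa [S.v_mul (c := 0x18) (by decide +kernel), S.v_mul (c := 0x801480) (by decide +kernel),
      S.v_mul (c := T0) (by decide +kernel), v, ← S.z_eq] at this
  have hp : S.p ∈ ⁅L, L⁆ := by
    have := comm_mem (inv_mem S.a3_L) S.b3_L
    rwa [inv_inv, mul_assoc, mul_assoc, ← mul_assoc (S.k b3C), S.ba3, inv_mul_cancel_left] at this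
  refine le_antisymm hle ?_
  have h1 : L ≤ pker S.π ⊔ ⁅L, L⁆ := by
    rw [← pmap_le_pmap_iff inf_le_left (hle.trans inf_le_left), pmap_commutator _ inf_le_left inf_le_left,
      S.jh.pmap_L, M22_perfect]
  have h2 := dedekind_right (A := pker S.π) (Or.inl ((hle.trans inf_le_left).trans (pker_normalIn _).norm)) hle
  rw [inf_eq_right.2 h1, S.jh.ker_inf_L] at h2
  exact h2.le.trans (sup_le (sup_le (zpowers_le.2 hz) (zpowers_le.2 hp)) le_rfl)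

theorem norm_R0 : 𝐍(S.R0) ≤ 𝐂[S.z] := by
  refine le_trans ?_ S.norm_P
  rw [← S.R0_heis.2.2.1]; exact norms_center le_rfl
theorem R0_syl_top : SylowIn 3 S.R0 ⊤ := S.R0_syl.of_norm_le_top S.norm_R0

theorem ker_inf_R0 : pker S.π ⊓ S.R0 = zpowers S.p := by
  refine le_antisymm (fun x hx => ?_) (zpowers_le.2 ⟨S.jh.p_ker, S.p_R0⟩)
  rw [← S.R0_heis.2.2.1]
  exact ⟨hx.2, cent_mono S.R0_le_L (S.jh.Z_cent (S.jh.ker_inf_L ▸ ⟨hx.1, S.R0_le_L hx.2⟩))⟩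

theorem card_norm_R0 : Nat.card 𝐍(S.R0) = 864 := by
  have h1 := card_pmap_mul S.π S.R0_le_H
  rw [S.ker_inf_R0, S.jh.card_P, S.R0_heis.1] at h1
  have h2 := pmap_norm_sylow (f := S.π) S.R0_le_H (S.R0_syl.of_le le_sup_right (sup_le (pker_le_dom _) S.R0_le_H))
  rw [inf_eq_right.2 S.norm_R0] at h2
  rw [← card_pmap_mul S.π S.norm_R0, h2, S.jh.range, card_ND2 ((pmap_le_range _ _).trans S.jh.range.le) (by omega)]
  have : pker S.π ⊓ 𝐍(S.R0) = zpowers S.z ⊔ zpowers S.p := by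
    refine le_antisymm (fun x hx => ?_) (le_inf (S.jh.ker_inf_L.ge.trans inf_le_left)
      (S.jh.Z_cent.trans ((cent_mono S.R0_le_L).trans (norms_of_cents le_rfl))))
    rw [← S.jh.ker_inf_cent]
    refine ⟨hx.1, ?_⟩
    have h3 := S.jh.conj_p22 (pker_le_dom _ hx.1) (by rw [(mem_pker.1 hx.1).2]; exact one_mem _)
    have h4 : x * S.p * x⁻¹ * S.p⁻¹ ∈ S.E ⊓ S.R0 :=
      ⟨h3, S.R0.mul_mem (conj_mem_of_mem_normalizer hx.2 S.p_R0) (inv_mem S.p_R0)⟩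
    rw [inf_eq_bot_of_coprime (by rw [S.jh.card_E, S.R0_heis.1]; norm_num), mem_bot, mul_inv_eq_one,
      mul_inv_eq_iff_eq_mul] at h4
    exact mem_cent1_iff.2 h4
  rw [this, S.jh.card_Z]

/-- elements of order three in `H` outside the kernel are conjugate in `H` -/
theorem conj3_H {x y : G} (hx : x ∈ 𝐂[S.z]) (hy : y ∈ S.R0) (ox : orderOf x = 3) (oy : orderOf y = 3)
    (h1 : pel S.π x ≠ 1) (h2 : pel S.π y ≠ 1) : ∃ g ∈ 𝐂[S.z], g * x * g⁻¹ = y := by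
  have yH := S.R0_le_H hy
  obtain ⟨d, hd, e⟩ := cls_u3 (S.jh.pi_mem hx) (S.jh.orderOf_pi hx (by norm_num) ox h1)
  obtain ⟨d', hd', e'⟩ := cls_u3 (S.jh.pi_mem yH) (S.jh.orderOf_pi yH (by norm_num) oy h2)
  obtain ⟨l, hl, e1⟩ := S.jh.exists_conj_pi hx (mul_mem (inv_mem hd') hd) (conj_of_conj e e')
  have x1 := conj_H hl.1 hx
  have yZ : y ∉ 𝐙(S.R0) := fun a => h2 (mem_pker.1 (zpowers_le.2 S.jh.p_ker (S.R0_heis.2.2.1 ▸ a))).2
  have hA : zpowers S.p ⊔ zpowers y ≤ 𝐍(S.E) := (sup_le S.jh.P_le (zpowers_le.2 yH)).trans S.jh.E_norm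
  have hA' : zpowers S.p ⊔ zpowers y ≤ S.R0 := sup_le (zpowers_le.2 S.p_R0) (zpowers_le.2 hy)
  obtain ⟨e, he, h3⟩ := (copAct_of_coprime_prime S.jh.ez.pg hA (Nat.Coprime.coprime_dvd_left (card_dvd_of_le' hA')
    (by rw [S.R0_heis.1]; norm_num))).cj_le (B := zpowers (l * x * l⁻¹)) (zpowers_le.2 (by
      rw [← sup_assoc, ← S.jh.ker, ← inv_mul_cancel_right (l * x * l⁻¹) y]
      exact mul_mem (mem_sup_left (mem_pker.2 ⟨mul_mem x1 (inv_mem yH), by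
        rw [pel_mul _ x1 (inv_mem yH), pel_inv _ yH, e1, mul_inv_cancel]⟩)) (mem_sup_right (mem_zpowers _))))
    (by rw [S.jh.card_E, Nat.card_zpowers, CA.orderOf_conj', ox]; norm_num)
  rw [cj_zpowers, zpowers_le] at h3
  have eH := S.jh.E_le he
  have h4 : y⁻¹ * (e * (l * x * l⁻¹) * e⁻¹) ∈ 𝐙(S.R0) := by
    rw [S.R0_heis.2.2.1, ← S.ker_inf_R0]
    exact ⟨mem_pker.2 ⟨mul_mem (inv_mem yH) (conj_H eH x1), by
      rw [pel_mul _ (inv_mem yH) (conj_H eH x1), pel_inv _ yH, pel_conj _ eH x1, S.jh.pi_E he, e1]; group⟩,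
      S.R0.mul_mem (inv_mem hy) (hA' h3)⟩
  obtain ⟨r, hr, e2⟩ := extra_conj (by norm_num) S.R0_heis.2.1 hy yZ h4
  refine ⟨r⁻¹ * e * l, mul_mem (mul_mem (inv_mem (S.R0_le_H hr)) eH) hl.1, ?_⟩
  rw [mul_inv_cancel_left] at e2
  rw [show r⁻¹ * e * l * x * (r⁻¹ * e * l)⁻¹ = r⁻¹ * (e * (l * x * l⁻¹) * e⁻¹) * r by group, ← e2]; group

theorem conj3 {x : G} (ox : orderOf x = 3) : IsConj S.p x := by
  obtain ⟨g, -, hg⟩ := S.R0_syl_top.exists_conj_mem (mem_top x) (by rw [piElt_of_orderOf_prime (by norm_num) ox]; rfl)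
  refine IsConj.trans ?_ (isConj_iff.2 ⟨g, rfl⟩).symm
  have o1 : orderOf (g * x * g⁻¹) = 3 := by rw [CA.orderOf_conj', ox]
  generalize g * x * g⁻¹ = y at *
  have hy := S.R0_le_M hg
  have ab : IsConj S.p (S.k b3C) := by
    obtain ⟨g, -, e⟩ := S.conj3_H S.a3_L.1 S.b3_R0 S.a3_ord S.b3_ord S.pi_a3 S.pi_b3
    exact (isConj_iff.2 ⟨_, by
      rw [S.p_eq]; exact S.k_conj (g := 0x3c9d180ccdb4cb7609640a2a053d34) (by decide +kernel)⟩).trans (isConj_iff.2 ⟨g, e⟩)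
  obtain ⟨k, hk, e | e⟩ := class_three (S.mm.mu_mem hy) (S.mm.orderOf_mu hy (by norm_num) (by norm_num) o1)
  · obtain ⟨k, hk, e⟩ := conj_3A_p0 (S.mm.mu_mem hy) ⟨k, hk, e⟩
    obtain ⟨n, -, e1⟩ := S.mm.isConj_k hy (by rw [o1]; decide) hk e
    exact (isConj_iff.2 ⟨n, e1.trans S.p_eq.symm⟩).symm
  · obtain ⟨n, -, e1⟩ := S.mm.isConj_k hy (by rw [o1]; decide) hk e
    exact (ab.trans (isConj_iff.2 ⟨_, S.k_conj (g := 0x754f342da200c892d1569059079af1) (b := r3B)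
      (by decide +kernel)⟩)).trans (isConj_iff.2 ⟨n, e1⟩).symm

theorem card_cent3 (S : St G) {x : G} (ox : orderOf x = 3) : Nat.card 𝐂[x] = 2661120 := by
  rw [card_cent_conj (S.conj3 ox), S.card_Cp]

theorem card_CH3 {x : G} (hx : x ∈ 𝐂[S.z]) (ox : orderOf x = 3) (h1 : pel S.π x ≠ 1) :
    Nat.card ↥(𝐂[S.z] ⊓ 𝐂[x]) = 2304 := by
  obtain ⟨g, hg, e⟩ := S.conj3_H hx S.a3_R0 ox S.a3_ord h1 S.pi_a3
  rw [← card_inf_cent_conj hg, e, S.card_CH_a3.1]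

theorem res5563 :
    ⁅𝐂[S.z] ⊓ 𝐂(zpowers S.p), 𝐂[S.z] ⊓ 𝐂(zpowers S.p)⁆ = 𝐂[S.z] ⊓ 𝐂(zpowers S.p) ∧
    IsCyclic ↥(center ↥(𝐂[S.z] ⊓ 𝐂(zpowers S.p))) ∧ Nat.card ↥(center ↥(𝐂[S.z] ⊓ 𝐂(zpowers S.p))) = 6 ∧
    Spor.IsoM22 (↥(𝐂[S.z] ⊓ 𝐂(zpowers S.p)) ⧸ center ↥(𝐂[S.z] ⊓ 𝐂(zpowers S.p))) ∧ 𝐍(zpowers S.p) ≤ 𝐂[S.z] := by
  rw [cent_zpowers]
  have e := (center ↥(𝐂[S.z] ⊓ 𝐂[S.p])).equivMapOfInjective _ (subtype_injective _)
  rw [center_eq_map, S.jh.center_L, S.jh.Z_eq] at e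
  refine ⟨S.L_perfect, e.isCyclic.2 inferInstance, by rw [Nat.card_congr e.toEquiv, Nat.card_zpowers, S.jh.zp_ord],
    ⟨?_⟩, S.norm_P⟩
  refine (QuotientGroup.quotientMulEquivOfEq ?_).trans ((QuotientGroup.quotientKerEquivOfSurjective _
    (pmapHom_surjective S.π inf_le_left)).trans (MulEquiv.subgroupCongr S.jh.pmap_L))
  apply map_injective (subtype_injective _)
  rw [pmapHom_ker, center_eq_map, S.jh.center_L, subgroupOf_map_subtype, S.jh.ker_inf_L]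

theorem res5564 (S : St G) (x y : G) (hx : orderOf x = 3) (hy : orderOf y = 3) : IsConj x y :=
  (S.conj3 hx).symm.trans (S.conj3 hy)

theorem res5565 (R : Sylow 3 G) (hR : (R : Subgroup G) ≤ 𝐂[S.z]) :
    IsExtraspecial 3 ↥(R : Subgroup G) ∧ Nat.card ↥(R : Subgroup G) = 27 ∧ Monoid.exponent ↥(R : Subgroup G) = 3 ∧
    𝐍((R : Subgroup G)) ≤ 𝐂[S.z] ∧ Nat.card ↥𝐍((R : Subgroup G)) = 864 := by
  have : Fact (Nat.Prime 3) := ⟨by norm_num⟩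
  obtain ⟨g, hg, e⟩ := S.R0_syl.exists_cj ((sylowIn_top R).of_le hR le_top)
  rw [e]
  refine ⟨isExtraspecial_iff.2 (S.R0_heis.2.1.cj g), by rw [card_cj, S.R0_heis.1]; rfl, ?_, ?_, ?_⟩
  · have := (nontrivial_iff_ne_bot _).2 (S.R0_heis.2.1.cj g).ne_bot
    rw [Monoid.exponent_eq_prime_iff (by norm_num)]
    intro x hx
    obtain ⟨y, hy, e⟩ := mem_cj'.1 x.2
    refine orderOf_eq_prime (Subtype.ext ?_) hx
    rw [Subgroup.coe_pow, e, conj_pow, S.R0_heis.2.2.2 y hy]; simp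
  · rw [← cj_normalizer]; exact cj_le_of_le S.norm_R0 hg
  · rw [← cj_normalizer, card_cj, S.card_norm_R0]

end St

end CA.J4
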