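import Cfsg.Agent.Lib.J4.Trio3
import Cfsg.Agent.Lib.J4.Three
import Cfsg.Agent.Lib.J4.HTy

/-!
An involution `t` outside `M = 2^11 : M24` centralizing the trio subgroup of the complement, and its relations.
-/

set_option autoImplicit false

namespace CA.J4
open Cfsg CA.Gol CA.Ex2 CA.XS Subgroup

namespace UB
def upC : ℕ := 0x2e
def qC : ℕ := 0xbc0ea332364b892451ebaccad18820
def c1C : ℕ := 0x3dab49a5a15dc4f6494870e04044a6
def c2C : ℕ := 0x75ab49a84561e2b7a648b802433603
def f1C : ℕ := 0x1bd1661c4968695340935caea03a25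
def f2C : ℕ := 0x2b1ed44072a8696310f34aeea881c2
def k1C : ℕ := 0xade2b02262a406c7c92a704853b4d6
def k2C : ℕ := 0x385d41a9b17ccac5c90905e02ad886
def cpC : ℕ := 0x1862c13dc4534c95a2543dae59c2a0
def zS : ℕ := 0x820021
def CL : List (ℕ × ℕ) := [(0x49435735e0b522781266189975a912, 0x8cc94b4ae6788ec5a9286c0150b865),
  (0x5c40d74243aaaf6310f31168163d09, 0xc0f4348767948c5a928acdcd882e2),
  (0x32577508ef74240184b1452ccab664, 0xdaaa9b070495b2451eb399c4882e2),
  (0x72684554726819684cc75a22f15c25, 0xbd6cb22627638cfa224a834b318820),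
  (0x946f6141e06a0279d4c428d4e6512b, 0x2d6d424807784cc5a928836f310dd1),
  (0x22e4ea166a055818dc627a2096d8c7, 0x75aa89bc5095da952d9439824044a3),
  (0x59ec580286726770c462235557c988, 0x1274ac8ad78e0c5a92831e3670457),
  (0x1bd1661c4968695340935caea03a25, 0xbc0ea332364b892451ebaccad18820),
  (0x58cf9c8ad4c48b42a8ca9dd01dc22, 0xbb4c93ae2453ac893e8c9d4b018820),
  (0x134c982c33402ca9328f254672de2e, 0xb9e086be3593a6952d94b10a618820),
  (0x5c2c5ac553bbc81708603350764934, 0x199b484833782ac5a92825847b962e),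
  (0x331179466a0352110dc57d2ab812c7, 0x1dab29d030401aa4b16f39844b962e),
  (0xa1e77202562b2a313831699307a90b, 0x71e146c8557de6c5a928b1026044a3),
  (0x555a138a861a217880aeb4d844adf2, 0x134d43c9c47c6cc5a9289d4702dc01),
  (0xb2583588d474df701621448eaac1a4, 0x15aa99add0545a893e8c398642dc01),
  (0xbb1467c0ababa4db1e644d06888402, 0xb926faa22da3a0b6255231cb618820),
  (0x3c42f2b0d7955d442d491808284db6, 0x8daac9aaf0589b47c909398040b865),
  (0x191b29a0557de09629743da2671420, 0xbcc8cb2a265b8f47c9096c0b518820),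
  (0xb516345cef8cd20138a164aaa33490, 0x5aaf9a0b0a0dab6255239a2470457),
  (0x386ef8a88e5d8484b292282a399a0d, 0x2daab9a410605afa224a39ae410dd1),
  (0x2c90d4daf438586854937ae2a1b840, 0xb99b28523343aaa4b16f258a718820)]

/-- normalizes `⟨tau⟩` -/
def nr0 (n : ℕ) : Bool := iw n tauC tauC || iw n tauC (mul tauC tauC)
def nrm (n : ℕ) : Bool := inM24 n && nr0 n
/-- membership in the trio group -/
def inA (c : ℕ) : Bool := inM24 c && anyL RL fun q => force (mul q c) nr0
/-- `c a c⁻¹ = a'`, `c m = m'` -/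
def cjR (c m : ℕ) (a : ℕ × ℕ) (m' : ℕ) (a' : ℕ × ℕ) : Bool :=
  inM24 c && ev m && okE a && ev m' && okE a' && eqv (apM c m) m' && eqv (apM c a.1) a'.1 && iw c a.2 a'.2
def cA (c ci k : ℕ) : Bool := force (mul ci (mul k c)) fun k' => inM24 c && inM24 k && inA k' && iw c k' k

theorem CL_chk : allL CL (fun a => nrm a.1 && inM24 a.2 && iw a.1 qC a.2) = true := by decide +kernel
theorem RL_chk2 : allL RL (fun r => Nat.beq r oneC || anyL CL fun a => Nat.beq r a.2 ||
    force (mul a.2 r) fun x => anyL CL fun b => Nat.beq x b.2) = true := by decide +kernel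
theorem RL_chk3 : allL RL (fun r => !(cmC r f1C) || !(cmC r f2C) || Nat.beq r oneC || Nat.beq r qC) = true := by
  decide +kernel

theorem cent1 {g : Pm} (hg : g ∈ M24) (h1 : g * perm sgC = perm sgC * g) (h2 : g * perm tauC = perm tauC * g)
    (h3 : g * g = 1) : g = 1 := by
  have := all24_sound (P := pAnd (pCj sgC sgC) (pCj tauC tauC))
    (leaf := fun c => !(Nat.beq (mul c c) oneC) || Nat.beq c oneC)
    (k := 0x29e4f2346044c56332aabc5d44c161) (ki := 0x3b124754c2a164a0a06fb2ef38b410) (by decide +kernel) hg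
    ((sat_cj' sgC_in sgC_in h1).and (sat_cj' tauC_in tauC_in h2))
  rw [← code_mul, h3, code_one] at this
  exact code_inj (by simpa [code_one] using this)

theorem k1_in : inM24 k1C = true := by decide +kernel
theorem k2_in : inM24 k2C = true := by decide +kernel
theorem cent2 {g : Pm} (hg : g ∈ M24) (h1 : g * perm k1C = perm k1C * g) (h2 : g * perm k2C = perm k2C * g) :
    g = 1 := by
  have := all24_sound (P := pAnd (pCj k1C k1C) (pCj k2C k2C)) (leaf := fun c => Nat.beq c oneC)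
    (k := 0x6d5c91d8377d05342cd091cac2022a) (ki := 0x84ace61c287d6e45028b324a39b622) (by decide +kernel) hg
    ((sat_cj' k1_in k1_in h1).and (sat_cj' k2_in k2_in h2))
  exact code_inj (by rw [code_one]; exact beq_iff.1 this)

variable {G : Type*} [Group G] [Finite G] {S : St G} {t x : G}

/-- `x v x = a` -/
def Rg (S : St G) (x : G) (m : ℕ) (a : ℕ × ℕ) : Prop := x * S.v m * x = S.e a

theorem Rg.cj {m m' c : ℕ} {a a' : ℕ × ℕ} (h : Rg S x m a) (H : cjR c m a m' a' = true) :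
    Rg S (S.k c * x * (S.k c)⁻¹) m' a' := by
  simp only [cjR, Bool.and_eq_true] at H
  obtain ⟨⟨⟨⟨⟨⟨⟨h1, h2⟩, h3⟩, h4⟩, h5⟩, h6⟩, h7⟩, h8⟩ := H
  rw [Rg, ← S.k_conj_v (g := c) (m := m) (by rw [h1, h2, h4, h6]; rfl), conj_mul, conj_mul, h, St.e, el, ← conj_mul,
    S.k_conj_v (m' := a'.1) (by rw [h1, okE_ev h3, okE_ev h5, h7]; rfl),
    S.k_conj (b := a'.2) (by rw [h1, okE_in h3, okE_in h5, h8]; rfl)]; rfl

theorem Rg.cj' {m m' c : ℕ} {a a' : ℕ × ℕ} (h : Rg S x m a) (hc : S.k c ∈ 𝐂[x]) (H : cjR c m a m' a' = true) :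
    Rg S x m' a' := by
  have := h.cj H
  rwa [conj_eq_iff_mem_cent1.2 hc] at this

theorem Rg.mul {m m' m'' : ℕ} {a a' a'' : ℕ × ℕ} (hx : x * x = 1) (h : Rg S x m a) (h' : Rg S x m' a')
    (H : (ev m && ev m' && ev m'' && eqv (Nat.xor m m') m'' && (okE a && okE a' && okE a'' && eqE (mulE a a') a''))
      = true) : Rg S x m'' a'' := by
  rw [Bool.and_eq_true] at H
  rw [Rg, ← S.v_mul H.1, St.e, ← S.mm.mul_eq H.2, ← show _ = el _ _ _ from h, ← show _ = el _ _ _ from h',
    show ∀ a b : G, x * a * x * (x * b * x) = x * (a * (x * x) * b) * x from fun a b => by group, hx, mul_one]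

theorem rg_of_cent (hx : x * x = 1) {m : ℕ} (h : S.v m ∈ 𝐂[x]) : Rg S x m (m, oneC) := by
  rw [Rg, ← mem_cent1_iff.1 h, mul_assoc, hx, mul_one, St.e, S.mm.el_v]

theorem Rg.cent (hx : x * x = 1) {m : ℕ} (h : Rg S x m (m, oneC)) : x ∈ 𝐂[S.v m] := by
  have h' : x * S.v m * x = S.v m := h.trans (S.mm.el_v m)
  rw [mem_cent1_iff]
  conv_rhs => rw [← h', mul_assoc, hx, mul_one]

theorem Rg.comm (hx : x * x = 1) {m q : ℕ} (h : Rg S x m (m, q)) : x * S.v m = S.v m * S.k q * x := by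
  rw [← show _ = S.v m * S.k q from h, mul_assoc, hx, mul_one]

/-- the involution `t` -/
structure TT (S : St G) (t : G) : Prop where
  sq : t * t = 1
  ne : t ≠ 1
  nr : ∀ n, nrm n = true → S.k n ∈ 𝐂[t]
  cZ : S.Z ≤ 𝐂[t]
  ty : ¬ IsConj S.z (S.k sC)

theorem exists_TT (S : St G) (h : ¬ IsConj S.z (S.k sC)) : ∃ t, TT S t := by
  obtain ⟨g, hg⟩ := isConj_iff.1 (S.conj3 (S.k_ord (a := tauC) Nat.prime_three (by decide +kernel)))
  have hn : 𝐍(zpowers (S.k tauC)) ≤ 𝐂[g * S.z * g⁻¹] := by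
    rw [← hg, ← cj_zpowers, ← cj_normalizer, ← cj_centralizer_singleton, cj_le_cj]; exact S.norm_P
  refine ⟨g * S.z * g⁻¹, by rw [conj_mul, S.jh.ez.sq]; simp, fun e => S.jh.ez.ne_one (conj_eq_one_iff.1 e),
    fun n H => hn (mem_norm_zpowers ?_), ?_, h⟩
  · rw [nrm, nr0, Bool.and_eq_true, Bool.or_eq_true] at H
    rcases H.2 with e | e
    · rw [S.k_conj (b := tauC) (by rw [H.1, tauC_in, e]; rfl)]; exact mem_zpowers _
    · rw [S.k_conj (b := mul tauC tauC) (by rw [H.1, tauC_in, inM24_mul tauC_in tauC_in, e]; rfl),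
        ← S.k_mul (a := tauC) (b := tauC) (c := mul tauC tauC) (by decide +kernel)]
      exact mul_mem (mem_zpowers _) (mem_zpowers _)
  · have k : ∀ m, (ev m && fx tauC m) = true → S.v m ∈ 𝐂[g * S.z * g⁻¹] := fun m H => by
      rw [Bool.and_eq_true] at H
      exact hn (cent1_le_norm _ ((S.mm.v_comm_k H.1 (perm_mem_M24 tauC_in)).2 (by rw [code_perm' tauC_in]; exact H.2)))
    exact S.Z_ind (S.z_eq' ▸ k T0 (by decide +kernel)) (k z2 (by decide +kernel)) (k z3 (by decide +kernel))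

namespace TT
variable (h : TT S t)
include h

theorem not_mem : t ∉ 𝐍(S.V) := fun hn => by
  obtain ⟨m, hm, g, hg, e⟩ := S.mm.dec hn
  have a1 := mem_cent1_comm.1 (h.nr sgC (by decide +kernel))
  have a2 := mem_cent1_comm.1 (h.nr tauC (by decide +kernel))
  have sq := h.sq
  rw [e, St.k, S.mm.vk_comm_k (S.mm.v_mem hm) hg (perm_mem_M24 (by decide +kernel))] at a1 a2
  rw [e, S.mm.vk_mul hm hm hg hg] at sq
  have g1 := cent1 hg a1.2 a2.2 ((S.mm.vk_mem_V (S.mm.v_mem (ev_xor hm (ev_apM g hm))) (mul_mem hg hg)).1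
    (sq ▸ one_mem _))
  apply h.ne
  rw [e, g1, pel_one, mul_one]
  refine S.mm.forall_V (P := fun v => v ∈ 𝐂[S.k sgC] → v ∈ 𝐂[S.k tauC] → v = 1)
    (p := fun m => !(fx sgC m) || !(fx tauC m) || isCode m) (by decide +kernel) (fun m hm hp b1 b2 => ?_)
    (S.mm.v_mem hm) a1.1 a2.1
  rw [S.mm.v_comm_k hm (perm_mem_M24 (by decide +kernel)), code_perm' (by decide +kernel)] at b1 b2
  rw [S.mm.v_eq_one hm]
  simpa [fx, b1, b2] using hp

theorem rgZ {m : ℕ} (H : (ev m && pZ (red m)) = true) : Rg S t m (m, oneC) := rg_of_cent h.sq (h.cZ (S.memZ' H))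

theorem base : Rg S t upC (upC, qC) := by
  have inv : t⁻¹ = t := inv_eq_of_mul_eq_one_right h.sq
  have hL : t * S.v upC * t⁻¹ ∈ S.L := conj_mem_of_mem_normalizer
    (S.norm_L ▸ centralizer_le_normalizer _ (mem_cent_iff_le_cent1.2 h.cZ)) (S.W_le_L (S.memW' (by decide +kernel)))
  have cf : ∀ f, (nrm f && fx f upC) = true → t * S.v upC * t⁻¹ ∈ 𝐂[S.k f] := fun f H => by
    rw [Bool.and_eq_true] at H
    have a := mem_cent1_comm.1 (h.nr f H.1)
    have i := (Bool.and_eq_true _ _ ▸ H.1 : _ ∧ _).1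
    exact mul_mem (mul_mem a ((S.mm.v_comm_k (by decide +kernel) (perm_mem_M24 i)).2 (by
      rw [code_perm' i]; exact H.2))) (inv_mem a)
  have a1 := cf f1C (by decide +kernel)
  have a2 := cf f2C (by decide +kernel)
  have n1 : t * S.v upC * t⁻¹ ≠ 1 := fun e => by
    have := (S.mm.v_eq_one (a := upC) (by decide +kernel)).1 (conj_eq_one_iff.1 e)
    revert this; decide +kernel
  obtain ⟨w, hw, q, hq, e⟩ := S.memL.1 hL
  rw [← e, St.k, S.mm.vk_comm_k (S.W_le_V hw) (R6_24 hq) (perm_mem_M24 (by decide +kernel))] at a1 a2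
  have hw' : w = S.v 0 ∨ w = S.v upC := by
    refine S.mm.forall_V (P := fun v => v ∈ S.W → v ∈ 𝐂[S.k f1C] → v ∈ 𝐂[S.k f2C] → v = S.v 0 ∨ v = S.v upC)
      (p := fun m => !(pW (red m)) || !(fx f1C m) || !(fx f2C m) || eqv m 0 || eqv m upC) (by decide +kernel)
      (fun m hm hp b0 b1 b2 => ?_) (S.W_le_V hw) hw a1.1 a2.1
    rw [S.mm.v_comm_k hm (perm_mem_M24 (by decide +kernel)), code_perm' (by decide +kernel)] at b1 b2
    rw [S.memW hm] at b0
    rw [S.mm.v_eq_iff hm ev_zero, S.mm.v_eq_iff hm (by decide +kernel)]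
    simpa [fx, b0, b1, b2] using hp
  have hq' : q = perm oneC ∨ q = perm qC := by
    have := allL_iff.1 RL_chk3 _ (memR6.1 hq)
    rw [(cmC_iff' (by decide +kernel)).2 a1.2, (cmC_iff' (by decide +kernel)).2 a2.2] at this
    simp only [Bool.not_true, Bool.false_or, Bool.or_eq_true, beq_iff] at this
    exact this.imp eq_perm_of_code eq_perm_of_code
  rw [inv] at e n1
  rcases hw' with rfl | rfl <;> rcases hq' with rfl | rfl
  · exact absurd (e.symm.trans S.mm.el_one) n1
  · have r0 : Rg S t upC (0, qC) := e.symm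
    have r1 := (r0.cj' (h.nr 0x49435735e0b522781266189975a912 (by decide +kernel)) (m' := 0x1d00)
      (a' := (0, 0x8cc94b4ae6788ec5a9286c0150b865)) (by decide +kernel))
    have r2 := r0.mul h.sq r1 (m'' := 0x14041) (a'' := (0, 0x899aa832f348ab2451eb258070b865)) (by decide +kernel)
    refine absurd ((S.conj_tetrad (s := fs 0x14041) (by rw [card_fs]; decide +kernel)).trans ?_) h.ty
    rw [← S.k_conj (g := 0x3a6740af48d4cb534902c8291b1f6) (a := 0x899aa832f348ab2451eb258070b865) (b := sC)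
      (by decide +kernel), isConj_conj_iff, St.k, ← S.mm.el_k]
    exact isConj_iff.2 ⟨t, inv.symm ▸ r2⟩
  · have r0 : Rg S t upC (upC, oneC) := e.symm
    have r1 := (r0.cj' (h.nr 0x5c40d74243aaaf6310f31168163d09 (by decide +kernel)) (m' := 0x109100)
      (a' := (0x109100, oneC)) (by decide +kernel))
    have r2 := (r0.mul h.sq r1 (m'' := 0x10912e) (a'' := (0x10912e, oneC)) (by decide +kernel)).mul h.sq
      (h.rgZ (m := 0x56f000) (by decide +kernel)) (m'' := 0x200080) (a'' := (0x200080, oneC)) (by decide +kernel)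
    exact absurd (S.cent_duad (s := fs 0x200080) (by rw [card_fs]; decide +kernel) (r2.cent h.sq)) h.not_mem
  · exact e.symm

theorem q_mem : S.k qC ∈ 𝐂[t] := by
  have b := h.base.comm h.sq
  have q2 : S.k qC * S.k qC = 1 := by
    rw [S.k_mul (c := oneC) (by decide +kernel), St.k, perm_oneC, pel_one]
  have : S.v upC * (S.k qC * t * S.k qC * t) = S.v upC * 1 := by
    calc _ = (S.v upC * S.k qC * t) * S.k qC * t := by simp only [mul_assoc]
      _ = t * (S.v upC * S.k qC * t) := by rw [← b]; simp only [mul_assoc]; rw [b]; simp only [mul_assoc]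
      _ = _ := by rw [← b, ← mul_assoc, h.sq, one_mul, mul_one]
  rw [mem_cent1_iff, ← mul_inv_eq_one, mul_inv_rev, inv_eq_of_mul_eq_one_right q2, inv_eq_of_mul_eq_one_right h.sq,
    ← mul_assoc, mul_left_cancel this]

theorem RL_mem {r : ℕ} (hr : r ∈ RL) : S.k r ∈ 𝐂[t] := by
  have c : ∀ a ∈ CL, inM24 a.2 = true ∧ S.k a.2 ∈ 𝐂[t] := fun a ha => by
    have := allL_iff.1 CL_chk a ha
    rw [Bool.and_eq_true, Bool.and_eq_true] at this
    have n := h.nr _ this.1.1
    have i : inM24 a.1 = true := (Bool.and_eq_true _ _ ▸ this.1.1 : _ ∧ _).1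
    refine ⟨this.1.2, ?_⟩
    rw [← S.k_conj (g := a.1) (a := qC) (by
      rw [i, this.1.2, this.2]; decide +kernel)]
    exact mul_mem (mul_mem n h.q_mem) (inv_mem n)
  have := allL_iff.1 RL_chk2 r hr
  simp only [Bool.or_eq_true, beq_iff, anyL_iff, force_eq] at this
  rcases this with rfl | ⟨a, ha, rfl | ⟨b, hb, e⟩⟩
  · rw [St.k, perm_oneC, pel_one]; exact one_mem _
  · exact (c a ha).2
  · rw [← Subgroup.mul_mem_cancel_left _ (c a ha).2, S.k_mul (c := b.2) (by
      rw [(c a ha).1, (R6_mem (memL_iff.2 hr)).1, e]; simp)]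
    exact (c b hb).2

theorem A_mem {c : ℕ} (H : inA c = true) : S.k c ∈ 𝐂[t] := by
  simp only [inA, Bool.and_eq_true, anyL_iff, force_eq] at H
  obtain ⟨h1, q, hq, e⟩ := H
  have i := (R6_mem (memL_iff.2 hq)).1
  rw [← Subgroup.mul_mem_cancel_left _ (h.RL_mem hq), S.k_mul (c := mul q c) (by rw [i, h1]; simp)]
  exact h.nr _ (by rw [nrm, inM24_mul i h1, e]; rfl)

omit h in
/-- the conjugate of `t` -/
noncomputable abbrev T (S : St G) (t : G) (c : ℕ) : G := S.k c * t * (S.k c)⁻¹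

theorem T_sq (c : ℕ) : T S t c * T S t c = 1 := by rw [conj_mul, h.sq]; simp

theorem T_eq {b c a : ℕ} (H : (inM24 c && inA a && Nat.beq (mul c a) b) = true) : T S t b = T S t c := by
  rw [Bool.and_eq_true, Bool.and_eq_true] at H
  have i := (Bool.and_eq_true _ _ ▸ H.1.2 : _ ∧ _).1
  rw [T, ← S.k_mul (a := c) (b := a) (by rw [H.1.1, i, H.2]; rfl), T,
    ← conj_eq_iff_mem_cent1.2 (h.A_mem H.1.2)]
  rw [conj_eq_iff_mem_cent1.2 (h.A_mem H.1.2), mul_inv_rev, ← mul_assoc, mul_assoc _ _ t, mul_assoc (S.k c),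
    conj_eq_iff_mem_cent1.2 (h.A_mem H.1.2)]

theorem T_comm {c ci k : ℕ} (H : cA c ci k = true) : T S t c ∈ 𝐂[S.k k] := by
  simp only [cA, force_eq, Bool.and_eq_true] at H
  have i := (Bool.and_eq_true _ _ ▸ H.1.2 : _ ∧ _).1
  rw [← S.k_conj (g := c) (a := mul ci (mul k c)) (b := k) (by rw [H.1.1.1, H.1.1.2, i, H.2]; rfl), mem_cent1_iff,
    conj_mul, conj_mul, mem_cent1_iff.1 (h.A_mem H.1.2)]

omit h in
theorem T_conj {b c d : ℕ} (H : (inM24 b && inM24 c && Nat.beq (mul b c) d) = true) :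
    S.k b * T S t c * (S.k b)⁻¹ = T S t d := by rw [T, T, ← S.k_mul H]; group

theorem cube : (S.k c1C * t) ^ 3 = 1 := by
  have tt := h.sq
  have e0 : (S.k c1C * t) ^ 3 = T S t c1C * T S t c2C * t := by
    have e1 : S.k c2C = S.k c1C * S.k c1C := (S.k_mul (by decide +kernel)).symm
    have e2 : (S.k c2C)⁻¹ = S.k c1C := inv_eq_of_mul_eq_one_right (by
      rw [S.k_mul (c := oneC) (by decide +kernel), St.k, perm_oneC, pel_one])
    rw [T, T, e2, e1]; simp only [pow_succ, pow_zero, one_mul, mul_assoc, inv_mul_cancel_left]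
  rw [e0]
  have r0 := h.base
  have r1 := (r0.cj' (h.nr 0x5c40d74243aaaf6310f31168163d09 (by decide +kernel)) (m' := 0x109100)
    (a' := (0x109100, 0xc0f4348767948c5a928acdcd882e2)) (by decide +kernel))
  have r2 := (r0.mul tt r1 (m'' := 0x10912e) (a'' := mulE (upC, qC) (0x109100, 0xc0f4348767948c5a928acdcd882e2))
    (by decide +kernel)).mul tt (h.rgZ (m := 0x56f000) (by decide +kernel)) (m'' := 0x200080)
    (a'' := (0x200080, 0xdaaa9b070495b2451eb399c4882e2)) (by decide +kernel)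
  have rA := (r2.cj' (h.A_mem (c := 0x8a130a4c5220175336c753eec08cae) (by decide +kernel)) (m' := 0x600)
    (a' := (0x600, 0x1274ac8ad78e0c5a92831e3670457)) (by decide +kernel)).comm tt
  have rB := ((r2.cj' (h.A_mem (c := 0x324d4542f80e96218f34a84b71637) (by decide +kernel)) (m' := 0x40200)
    (a' := (0x40200, 0x2d6d424807784cc5a928836f310dd1)) (by decide +kernel)).cj (c := c1C) (m' := 0x600)
    (a' := (0x600, 0x2d6d424807784cc5a928836f310dd1)) (by decide +kernel)).comm (h.T_sq _)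
  have rD := ((r2.cj' (h.A_mem (c := 0x33e514866b0568315cae5208cb1e0d) (by decide +kernel)) (m' := 0x40400)
    (a' := (0x40400, 0x8cc94b4ae6788ec5a9286c0150b865)) (by decide +kernel)).cj (c := c2C) (m' := 0x600)
    (a' := (0x600, 0x8cc94b4ae6788ec5a9286c0150b865)) (by decide +kernel)).comm (h.T_sq _)
  have b1 := mem_cent1_iff.1 (h.T_comm (c := c1C) (ci := c2C) (k := 0x1274ac8ad78e0c5a92831e3670457) (by decide +kernel))
  have b2 := mem_cent1_iff.1 (h.T_comm (c := c1C) (ci := c2C) (k := 0x8cc94b4ae6788ec5a9286c0150b865) (by decide +kernel))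
  have b3 := mem_cent1_iff.1 (h.T_comm (c := c2C) (ci := c1C) (k := 0x1274ac8ad78e0c5a92831e3670457) (by decide +kernel))
  have b4 : S.k 0x2d6d424807784cc5a928836f310dd1 * (S.k 0x8cc94b4ae6788ec5a9286c0150b865 *
      S.k 0x1274ac8ad78e0c5a92831e3670457) = 1 := by
    rw [S.k_mul (c := 0x2d6d424807784cc5a928836f310dd1) (by decide +kernel), S.k_mul (c := oneC) (by decide +kernel),
      St.k, perm_oneC, pel_one]
  have hM : T S t c1C * T S t c2C * t ∈ 𝐍(S.V) := by
    refine S.cent_duad (s := fs 0x600) (by rw [card_fs]; decide +kernel) (mem_cent1_iff.2 ?_)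
    change _ * S.v _ = S.v _ * _
    generalize S.k 0x2d6d424807784cc5a928836f310dd1 = qB at *
    generalize S.k 0x8cc94b4ae6788ec5a9286c0150b865 = qD at *
    generalize S.k 0x1274ac8ad78e0c5a92831e3670457 = qA at *
    change T S t c1C * _ = _ * T S t c1C at rB
    change T S t c2C * _ = _ * T S t c2C at rD
    generalize T S t c1C = B at *
    generalize T S t c2C = D at *
    generalize S.v 0x600 = d at *
    calc B * D * t * d = B * (D * d) * qA * t := by rw [mul_assoc, rA]; simp only [mul_assoc]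
      _ = B * d * qD * (D * qA) * t := by rw [rD]; simp only [mul_assoc]
      _ = d * qB * (B * qD) * qA * D * t := by rw [rB, b3]; simp only [mul_assoc]
      _ = d * qB * qD * (B * qA) * D * t := by rw [b2]; simp only [mul_assoc]
      _ = d * (qB * (qD * qA)) * (B * D * t) := by rw [b1]; simp only [mul_assoc]
      _ = _ := by rw [b4, mul_one]
  have ck : ∀ k, (cA c1C c2C k && cA c2C c1C k && inA k) = true → T S t c1C * T S t c2C * t ∈ 𝐂[S.k k] := fun k H => by
    rw [Bool.and_eq_true, Bool.and_eq_true] at H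
    exact mul_mem (mul_mem (h.T_comm H.1.1) (h.T_comm H.1.2)) (mem_cent1_comm.1 (h.A_mem H.2))
  have a1 := ck k1C (by decide +kernel)
  have a2 := ck k2C (by decide +kernel)
  obtain ⟨m, hm, g, hg, e⟩ := S.mm.dec hM
  rw [e, St.k, S.mm.vk_comm_k (S.mm.v_mem hm) hg (perm_mem_M24 (by decide +kernel))] at a1 a2
  rw [cent2 hg a1.2 a2.2, pel_one, mul_one] at e
  have hw : S.v m = 1 ∨ S.v m = S.v zS := by
    refine S.mm.forall_V (P := fun v => v ∈ 𝐂[S.k k1C] → v ∈ 𝐂[S.k k2C] → v = 1 ∨ v = S.v zS)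
      (p := fun m => !(fx k1C m) || !(fx k2C m) || isCode m || eqv m zS) (by decide +kernel)
      (fun m hm hp b1 b2 => ?_) (S.mm.v_mem hm) a1.1 a2.1
    rw [S.mm.v_comm_k hm (perm_mem_M24 (by decide +kernel)), code_perm' (by decide +kernel)] at b1 b2
    rw [S.mm.v_eq_one hm, S.mm.v_eq_iff hm (by decide +kernel)]
    simpa [fx, b1, b2] using hp
  refine e.trans (hw.resolve_right fun e1 => ?_)
  rw [show S.ν (fs m) = S.v zS from e1] at e
  have s1 : S.v zS * t = t * S.v zS := mem_cent1_iff.1 (h.cZ (S.memZ' (by decide +kernel)))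
  have s2 : S.v zS * S.v zS = 1 := S.mm.v_sq (by decide +kernel)
  have e2 : T S t c1C * T S t c2C = S.v zS * t := by rw [← e, mul_assoc _ t t, tt, mul_one]
  have cBD : T S t c1C * T S t c2C = T S t c2C * T S t c1C := by
    rw [← inv_inj, mul_inv_rev (T S t c2C), inv_eq_of_mul_eq_one_right (h.T_sq c1C),
      inv_eq_of_mul_eq_one_right (h.T_sq c2C), e2, mul_inv_rev, inv_eq_of_mul_eq_one_right tt,
      inv_eq_of_mul_eq_one_right s2, s1]
  have t1 : T S t oneC = t := by rw [T, St.k, perm_oneC, pel_one]; simp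
  have key : ∀ b c d d', (inM24 b && inM24 c && Nat.beq (mul b c) d) = true → ∀ c',
      (inM24 b && inM24 c' && Nat.beq (mul b c') d') = true → T S t c * T S t c' = T S t c' * T S t c →
      T S t d ∈ 𝐂[T S t d'] := fun b c d d' H c' H' e => by
    rw [← T_conj H, ← T_conj H', mem_cent1_iff, conj_mul, conj_mul, e]
  have cAB := mem_cent1_iff.1 (key c2C c1C oneC c1C (by decide +kernel) c2C (by decide +kernel) cBD)
  have k2 : ∀ b c a a', (inM24 b && (inM24 c && inA a && Nat.beq (mul c a) b) &&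
      (inM24 cpC && inA a' && Nat.beq (mul cpC a') (mul b c1C))) = true → T S t c ∈ 𝐂[T S t cpC] :=
    fun b c a a' H => by
      rw [Bool.and_eq_true, Bool.and_eq_true] at H
      rw [← h.T_eq H.1.2, ← h.T_eq H.2]
      exact key b oneC b _ (by rw [H.1.1, oneC_in, ← code_perm' H.1.1, ← code_one, ← code_mul, mul_one]; simp) c1C
        (by rw [H.1.1, show inM24 c1C = true by decide +kernel]; simp) cAB
  have hc : S.v zS ∈ 𝐂[T S t cpC] := by
    rw [← e]
    refine mul_mem (mul_mem (k2 0x10212bb027a0caa5bd2889acd9baa4 _ 0x68caa72e17a18297b248102d199ea4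
      0xa80492b0815ce287d24ab8cee858cd (by decide +kernel)) (k2 0xa88f432aee6146992de86c0018d893 _
      0xac5d41c8f77c00a4b168104c56d893 0x74ce86caf0484d463d6a2563619402 (by decide +kernel))) ?_
    have := k2 0x6862c1221749dcb549f4182a5b1893 oneC 0x6862c1221749dcb549f4182a5b1893 oneC (by decide +kernel)
    rwa [t1] at this
  have r3 := ((r0.cj' (h.A_mem (c := 0x934c5aba871a262b80318113663d4b) (by decide +kernel)) (m' := 0x200031)
    (a' := (0x200031, 0x8cc94b4ae6788ec5a9286c0150b865)) (by decide +kernel)).cj (c := cpC) (m' := zS)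
    (a' := (zS, 0x1274ac8ad78e0c5a92831e3670457)) (by decide +kernel))
  have r4 := rg_of_cent (h.T_sq cpC) hc
  have := (S.mm.el_eq_iff (by decide +kernel) (by decide +kernel)).1 (r3.symm.trans r4)
  revert this; decide +kernel

end TT
end UB

theorem St.exists_U {G : Type*} [Group G] [Finite G] (S : St G) : ∃ (S' : St G) (t : G), t * t = 1 ∧ t ∉ 𝐍(S'.V) ∧
    t * S'.k 0x6426ea85361d0970162231d4d7a24b = S'.k 0x6426ea85361d0970162231d4d7a24b * t ∧
    t * S'.k 0x12907618ab98244859b5a246f0ba37 = S'.k 0x12907618ab98244859b5a246f0ba37 * t ∧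
    t * S'.v 0x024006 * t = S'.v 0x024006 * S'.k 0xbc0ea332364b892451ebaccad18820 ∧
    (S'.k 0x3dab49a5a15dc4f6494870e04044a6 * t) ^ 3 = 1 := by
  obtain ⟨S', h⟩ : ∃ S' : St G, ¬ IsConj S'.z (S'.k sC) := by
    by_cases h : IsConj S.z (S.e (0, sC))
    swap
    · exact ⟨S, by rwa [St.e, S.mm.el_k] at h⟩
    have h5 := S.types.2.2.2.2
    rw [ind_eq_one.2 h, add_eq_left, ind_eq_zero] at h5
    have ev2 : ∀ x y : GolayPt, Even (symmDiff ({x} : Finset GolayPt) {y}).card := fun x y => by revert x y; decide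
    have e : ∀ g ∈ M24, pel S.κ' g = S.ν (symmDiff {pt 23} {g (pt 23)}) * pel S.κ g := fun g hg => by
      rw [pel_of_mem _ hg, pel_of_mem _ hg]; rfl
    refine ⟨⟨S.z, S.p, S.s, S.E, S.V, S.π, S.c, S.ν, S.κ', S.jh, ⟨S.mm.todd, S.mm.cent, S.mm.act, fun g => ?_⟩, S.z_eq,
      ?_, S.duad, S.two⟩, fun h1 => h5 ?_⟩
    · have := S.mm.acts_vk (S.mm.todd.nu_mem (ev2 (pt 23) ((g : Pm) (pt 23)))) g.2
      rwa [← e _ g.2, pel_of_mem _ g.2] at this
    · rw [e _ (perm_mem_M24 p0C_in), perm_pt (inM24_valid p0C_in) (by norm_num), show ap p0C 23 = 23 by decide +kernel,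
        symmDiff_self, Finset.bot_eq_empty, S.mm.todd.empty, one_mul, S.p_eq]
    · obtain ⟨v, -, e1⟩ := S.mm.conj_span (r := sC) (o := 0x44000) (m := DD) (Es := eS) sC_in (by decide +kernel)
      change IsConj S.z (pel S.κ' (perm sC)) at h1
      rw [e _ (perm_mem_M24 sC_in), show perm sC (pt 23) = pt 0 from s0_23,
        show symmDiff {pt 23} {pt 0} = fs DD by rw [fs_DD]; decide] at h1
      rw [St.e, ← e1]
      exact isConj_conj_iff.2 h1
  obtain ⟨t, T⟩ := UB.exists_TT S' h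
  exact ⟨S', t, T.sq, T.not_mem, (mem_cent1_iff.1 (T.A_mem (by decide +kernel))).symm,
    (mem_cent1_iff.1 (T.A_mem (by decide +kernel))).symm,
    T.base.cj' (T.A_mem (c := 0x2ca934b6ec3810481ab653c4b0c5c3) (by decide +kernel)) (m' := 0x024006)
      (a' := (0x024006, 0xbc0ea332364b892451ebaccad18820)) (by decide +kernel), T.cube⟩

end CA.J4
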