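import Cfsg.Agent.Lib.J4.DceL
import Cfsg.Agent.Lib.J4.UB
import Cfsg.Agent.Lib.J4.Rk3
import Cfsg.Agent.Lib.J4.Five
import Cfsg.Agent.Lib.J4.Order
import Cfsg.Prelude.Def_Spor_J4

/-!
A group of type `J4` is the group given by the presentation on `x, y, t`.
-/

set_option autoImplicit false
set_option linter.unusedSectionVars false
set_option linter.unusedVariables false

namespace CA.J4.Dce
open Cfsg CA.Gol CA.Ex2 CA.XS CA.J4 Subgroup MulAction

variable {Γ : Type*} [Group Γ]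

/-- the relators -/
structure Rel (x y t : Γ) : Prop where
  h1 : x ^ 2 = 1
  h2 : y ^ 3 = 1
  h3 : (x * y) ^ 23 = 1
  h4 : (x⁻¹ * y⁻¹ * x * y) ^ 12 = 1
  h5 : (x⁻¹ * (y * x * y)⁻¹ * x * (y * x * y)) ^ 5 = 1
  h6 : (x * y * ((x * y * x * y⁻¹) ^ 3)) ^ 4 = 1
  h7 : ((x * y * x * y * x * y⁻¹) ^ 3) * ((x * y * x * y⁻¹ * x * y⁻¹) ^ 3) = 1
  h8 : t ^ 2 = 1
  h9 : t⁻¹ * (y * x * y * ((x * y⁻¹) ^ 2) * ((x * y) ^ 3))⁻¹ * t * (y * x * y * ((x * y⁻¹) ^ 2) * ((x * y) ^ 3)) = 1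
  h10 : t⁻¹ * x⁻¹ * t * x = 1
  h11 : (y * ((y * x * y⁻¹ * x * y * x * y⁻¹ * x)⁻¹ * t * (y * x * y⁻¹ * x * y * x * y⁻¹ * x))) ^ 3 = 1
  h12 : (((y * x * y * x * y * x * y) ^ 3) * t *
    ((((x * y) ^ 3) * y * ((x * y) ^ 6) * y)⁻¹ * t * (((x * y) ^ 3) * y * ((x * y) ^ 6) * y))) ^ 2 = 1

theorem rel_iff (f : FreeGroup Spor.J4.Gen →* Γ) :
    (∀ r ∈ Spor.coxRelators Spor.J4.edges ∪ {r | r ∈ Spor.J4.extra}, f r = 1) ↔
      Rel (f Spor.J4.x) (f Spor.J4.y) (f Spor.J4.t) := by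
  have e : Spor.coxRelators Spor.J4.edges = ∅ := by
    ext r; simp [Spor.coxRelators, Spor.coxNodes, Spor.J4.edges]
  rw [e, Set.empty_union]
  simp only [Spor.J4.extra, Set.mem_ofPred_eq, List.mem_cons, List.not_mem_nil, or_false, forall_eq_or_imp, forall_eq, map_mul,
    map_pow, map_inv]
  exact ⟨fun ⟨a, b, c, d, e, f, g, h, i, j, k, l⟩ => ⟨a, b, c, d, e, f, g, h, i, j, k, l⟩,
    fun ⟨a, b, c, d, e, f, g, h, i, j, k, l⟩ => ⟨a, b, c, d, e, f, g, h, i, j, k, l⟩⟩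

theorem comm_iff {a t : Γ} : t⁻¹ * a⁻¹ * t * a = 1 ↔ a * t = t * a := by
  rw [mul_assoc, ← mul_inv_rev, inv_mul_eq_one]

theorem r1_iff {y g t : Γ} : (y * (g⁻¹ * t * g)) ^ 3 = 1 ↔ (g * y * g⁻¹ * t) ^ 3 = 1 := by
  rw [show g * y * g⁻¹ * t = g * (y * (g⁻¹ * t * g)) * g⁻¹ by group, conj_pow, conj_eq_one_iff]

theorem r2_iff {p h t : Γ} : (p * t * (h⁻¹ * t * h)) ^ 2 = 1 ↔ (t * h⁻¹ * t * (h * p)) ^ 2 = 1 := by
  rw [show p * t * (h⁻¹ * t * h) = p * (t * h⁻¹ * t * (h * p)) * p⁻¹ by group, conj_pow, conj_eq_one_iff]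

theorem words (κ : M24 →* Γ) {x y : Γ} (hx : kp κ XC = x) (hy : kp κ YC = y) :
    (x ^ 2 = 1 ∧ y ^ 3 = 1 ∧ (x * y) ^ 23 = 1 ∧ (x⁻¹ * y⁻¹ * x * y) ^ 12 = 1 ∧
      (x⁻¹ * (y * x * y)⁻¹ * x * (y * x * y)) ^ 5 = 1 ∧ (x * y * ((x * y * x * y⁻¹) ^ 3)) ^ 4 = 1 ∧
      ((x * y * x * y * x * y⁻¹) ^ 3) * ((x * y * x * y⁻¹ * x * y⁻¹) ^ 3) = 1) ∧
    y * x * y * ((x * y⁻¹) ^ 2) * ((x * y) ^ 3) = kp κ H1C ∧
    (y * x * y⁻¹ * x * y * x * y⁻¹ * x) * y * (y * x * y⁻¹ * x * y * x * y⁻¹ * x)⁻¹ = kp κ c1C ∧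
    (((x * y) ^ 3) * y * ((x * y) ^ 6) * y)⁻¹ = kp κ QA ∧
    (((x * y) ^ 3) * y * ((x * y) ^ 6) * y) * ((y * x * y * x * y * x * y) ^ 3) = kp κ QB := by
  let X : M24 := ⟨perm XC, perm_mem_M24 XC_in⟩
  let Y : M24 := ⟨perm YC, perm_mem_M24 YC_in⟩
  have eq : ∀ {a b : M24}, code a = code b → a = b := fun e => Subtype.ext (code_inj e)
  have cX : code X = XC := code_perm' XC_in
  have cY : code Y = YC := code_perm' YC_in
  have iX : X⁻¹ = X := inv_eq_of_mul_eq_one_right (eq (by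
    simp only [coe_mul, code_mul, cX, coe_one, code_one]; decide +kernel))
  have iY : Y⁻¹ = Y * Y := inv_eq_of_mul_eq_one_right (eq (by
    simp only [coe_mul, code_mul, cY, coe_one, code_one]; decide +kernel))
  have e1 : x = κ X := hx.symm.trans (pel_of_mem κ X.2)
  have e2 : y = κ Y := hy.symm.trans (pel_of_mem κ Y.2)
  have k1 : ∀ a : M24, code a = oneC → κ a = 1 := fun a e => by
    rw [show a = 1 from eq (by rw [e, coe_one, code_one]), map_one]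
  have k2 : ∀ (a : M24) (c : ℕ), code a = c → κ a = kp κ c := fun a c e => by
    rw [kp, ← eq_perm_of_code e, pel_coe]
  subst e1 e2
  simp only [← map_mul, ← map_pow, ← map_inv]
  refine ⟨⟨k1 _ ?_, k1 _ ?_, k1 _ ?_, k1 _ ?_, k1 _ ?_, k1 _ ?_, k1 _ ?_⟩, k2 _ _ ?_, k2 _ _ ?_, k2 _ _ ?_, k2 _ _ ?_⟩
  all_goals
    try simp only [mul_inv_rev, ← inv_pow, iX, iY]
    simp only [coe_mul, coe_pow, code_mul, code_pow, cX, cY]
    decide +kernel

theorem rel_iff' (κ : M24 →* Γ) {t : Γ} : Rel (kp κ XC) (kp κ YC) t ↔ t * t = 1 ∧ kp κ XC * t = t * kp κ XC ∧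
    kp κ H1C * t = t * kp κ H1C ∧ (kp κ c1C * t) ^ 3 = 1 ∧ (t * kp κ QA * t * kp κ QB) ^ 2 = 1 := by
  obtain ⟨⟨a, b, c, d, e, f, g⟩, w1, w2, w3, w4⟩ := words κ rfl rfl
  rw [← w1, ← w2, ← w3, ← w4, ← r1_iff, ← r2_iff, ← comm_iff, ← comm_iff, ← pow_two]
  exact ⟨fun h => ⟨h.h8, h.h10, h.h9, h.h11, h.h12⟩, fun ⟨h, i, j, k, l⟩ => ⟨a, b, c, d, e, f, g, h, j, i, k, l⟩⟩

theorem div_aux {d : ℕ} (h : d ∣ 173067389) (h1 : 1012 ∣ d - 1) (h2 : 1 < d) : False := by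
  have c : Nat.Coprime d 121 := by
    rw [show 121 = 11 ^ 2 by norm_num]
    exact Nat.Coprime.pow_right _ (Nat.Coprime.symm ((Nat.Prime.coprime_iff_not_dvd (by norm_num)).2 (by omega)))
  have h := c.dvd_of_dvd_mul_left (show d ∣ 121 * (29 * (31 * (37 * 43))) from h)
  obtain ⟨a, _, ha, h', rfl⟩ := Nat.dvd_mul.1 h
  obtain ⟨b, _, hb, h'', rfl⟩ := Nat.dvd_mul.1 h'
  obtain ⟨e, f, he, hf, rfl⟩ := Nat.dvd_mul.1 h''
  rcases (Nat.dvd_prime (by norm_num)).1 ha with rfl | rfl <;> rcases (Nat.dvd_prime (by norm_num)).1 hb with rfl | rfl <;>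
    rcases (Nat.dvd_prime (by norm_num)).1 he with rfl | rfl <;> rcases (Nat.dvd_prime (by norm_num)).1 hf with rfl | rfl <;>
    omega

section
variable {G : Type*} [Group G] [Finite G] {M : Subgroup G} (hi : M.index = 173067389) {c : Fin 7 → G ⧸ M}
  (c1 : ∀ i j : Fin 7, i ≠ j → orbit M (c i) ≠ orbit M (c j)) (c2 : ∀ q, ∃ i : Fin 7, q ∈ orbit M (c i))
  (c3 : (List.ofFn fun i => (orbit M (c i)).ncard) = [1, 15180, 28336, 3400320, 32643072, 54405120, 82575360])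
include hi c1 c2 c3

theorem maximal7 {H : Subgroup G} (hH : M ≤ H) {t : G} (ht : t ∈ H) (htM : t ∉ M) : H = ⊤ := by
  have sz : ∀ i, (orbit M (c i)).ncard = ![1, 15180, 28336, 3400320, 32643072, 54405120, 82575360] i := by
    have := List.ofFn_injective (c3.trans (show _ = List.ofFn ![1, 15180, 28336, 3400320, 32643072, 54405120, 82575360] by simp))
    exact congrFun this
  have o1 : orbit M ((1 : G) : G ⧸ M) = {((1 : G) : G ⧸ M)} := by
    ext q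
    refine ⟨fun h => ?_, fun h => h ▸ mem_orbit_self _⟩
    obtain ⟨x, hx, rfl⟩ := mem_orb.1 h
    exact smul_mk_eq.2 (by rwa [cj_one])
  set R := orbit H ((1 : G) : G ⧸ M) with hR
  have e1 := orb_card (M := M) H 1
  rw [cj_one, inf_eq_right.2 hH, ← card_mul_relIndex hH, mul_comm, mul_right_inj' Nat.card_pos.ne'] at e1
  have e2 := relIndex_mul_index hH
  rw [hi, ← e1] at e2
  by_contra hn
  have e3 : H.index ≠ 1 := fun e => hn (index_eq_one.1 e)
  have e4 : R.ncard < 82575360 := by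
    by_contra hl
    have : H.index = 0 ∨ H.index = 2 ∨ 3 ≤ H.index := by omega
    rcases this with a | a | a
    · rw [a] at e2; omega
    · rw [a] at e2; omega
    · have := Nat.mul_le_mul (not_lt.1 hl) a
      rw [e2] at this; omega
  have m1 : ((1 : G) : G ⧸ M) ∈ R := mem_orbit_self _
  have inv : ∀ x ∈ M, ∀ q ∈ R, x • q ∈ R := fun x hx q hq => by
    obtain ⟨y, hy, rfl⟩ := mem_orb.1 hq
    exact mem_orb.2 ⟨x * y, mul_mem (hH hx) hy, mul_smul _ _ _⟩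
  have := orb_ind (X := M) (p := fun n => 1012 ∣ n) (dvd_zero _) (fun _ _ => dvd_add) (R := R \ {((1 : G) : G ⧸ M)})
    (fun x hx q hq => ⟨inv x hx q hq.1, fun e => hq.2 (by
      rw [← o1] at e ⊢
      obtain ⟨y, hy, e⟩ := mem_orb.1 e
      exact mem_orb.2 ⟨x⁻¹ * y, mul_mem (inv_mem hx) hy, by rw [mul_smul, e, inv_smul_smul]⟩)⟩) (fun q hq => by
      obtain ⟨i, h⟩ := c2 q
      have a := orbit_eq_iff.2 h
      have b : (orbit M q).ncard ≤ R.ncard := Set.ncard_le_ncard fun r hr => by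
        obtain ⟨x, hx, rfl⟩ := mem_orb.1 hr
        exact inv x hx q hq.1
      have d : i ≠ 0 := fun e => hq.2 (by
        obtain ⟨j, h'⟩ := c2 ((1 : G) : G ⧸ M)
        have a' := orbit_eq_iff.2 h'
        have := sz j
        rw [← a', o1, Set.ncard_singleton] at this
        have : j = 0 := (show ∀ j : Fin 7, 1 = ![1, 15180, 28336, 3400320, 32643072, 54405120, 82575360] j → j = 0 by
          decide) j this
        rw [← o1, a', this, ← e]; exact h)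
      rw [a, sz] at b ⊢
      exact (show ∀ i : Fin 7, i ≠ 0 → ![1, 15180, 28336, 3400320, 32643072, 54405120, 82575360] i < 82575360 →
        1012 ∣ ![1, 15180, 28336, 3400320, 32643072, 54405120, 82575360] i by decide) i d (b.trans_lt e4))
  rw [Set.ncard_sdiff_singleton_of_mem m1] at this
  refine div_aux ⟨_, e2.symm⟩ this ?_
  rw [Set.one_lt_ncard]
  refine ⟨_, m1, t • ((1 : G) : G ⧸ M), mem_orb.2 ⟨t, ht, rfl⟩, fun e => htM ?_⟩
  have := smul_mk_eq.1 e.symm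
  rwa [cj_one] at this

theorem bij7 (φ : Γ →* G) (θ : M →* Γ) (hθ : ∀ m, φ (θ m) = m) {t : Γ} (ht : φ t ∉ M) {w : ℕ → Γ} (w0 : w 0 = 1)
    (H : ∀ γ, ∃ i < 7, ∃ a b : M, γ = θ a * w i * θ b) : Function.Bijective φ := by
  have s : Function.Surjective φ := MonoidHom.range_eq_top.1
    (maximal7 hi c1 c2 c3 (fun m hm => ⟨θ ⟨m, hm⟩, hθ _⟩) ⟨t, rfl⟩ ht)
  refine ⟨(injective_iff_map_eq_one φ).2 fun γ hγ => ?_, s⟩
  have : ∀ j, ∃ k : Fin 7, orbit M (c j) = orbit M (φ (w k) : G ⧸ M) := fun j => by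
    obtain ⟨g, e⟩ := QuotientGroup.mk_surjective (c j)
    obtain ⟨γ, rfl⟩ := s g
    obtain ⟨k, hk, a, b, rfl⟩ := H γ
    refine ⟨⟨k, hk⟩, orbit_eq_iff.2 (mem_orb.2 ⟨a, a.2, ?_⟩)⟩
    rw [← e, map_mul, map_mul, hθ, hθ, QuotientGroup.mk_mul_of_mem _ b.2]; rfl
  choose k hk using this
  have ks : Function.Surjective k := Finite.surjective_of_injective fun i j e => by
    by_contra hn
    exact c1 i j hn (by rw [hk, hk, e])
  obtain ⟨i, hi', a, b, rfl⟩ := H γ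
  rw [map_mul, map_mul, hθ, hθ] at hγ
  obtain ⟨j0, e0⟩ := ks 0
  obtain ⟨j1, e1⟩ := ks ⟨i, hi'⟩
  have : j0 = j1 := by
    by_contra hn
    refine c1 _ _ hn ?_
    rw [hk, hk, e0, e1]
    congr 1
    rw [QuotientGroup.eq]
    show (φ (w 0))⁻¹ * φ (w i) ∈ M
    rw [w0, map_one, inv_one, one_mul, eq_inv_mul_of_mul_eq (eq_inv_of_mul_eq_one_left hγ)]
    exact mul_mem (inv_mem a.2) (inv_mem b.2)
  have : i = 0 := congrArg Fin.val ((e1.symm.trans (this ▸ e0)))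
  rw [this, w0] at hγ ⊢
  rw [map_one, mul_one] at hγ
  rw [mul_one, ← map_mul, show a * b = 1 from Subtype.ext hγ, map_one]
end

theorem isoJ4 {G : Type*} [Group G] [Finite G] (S : St G) (h5 : S.Five) (hG : Nat.card G = 86775571046077562880) {t : G}
    (tt : t * t = 1) (tM : t ∉ 𝐍(S.V)) (h1 : t * S.k XC = S.k XC * t) (h2 : t * S.k H1C = S.k H1C * t)
    (hu : t * S.v uC * t = S.v uC * S.k q0C) (r1 : (S.k c1C * t) ^ 3 = 1) : Spor.IsoJ4 G := by
  have h := S.mm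
  have p0 : ∀ {n}, n ∈ 𝐍(S.V) → pel (𝐍(S.V)).subtype n = n := fun hn => pel_of_mem _ hn
  have kN : ∀ {c}, inM24 c = true → kp S.κ c ∈ 𝐍(S.V) := fun hc => h.k_mem (perm_mem_M24 hc)
  have vN : ∀ {m}, ev m = true → S.ν (fs m) ∈ 𝐍(S.V) := fun hm => h.V_le (h.v_mem hm)
  have eu : ev uC = true := by decide +kernel
  have iq : inM24 q0C = true := by decide +kernel
  have ic : inM24 cC = true := by decide +kernel
  obtain ⟨g1, g2, -⟩ := level3 h (θ := (𝐍(S.V)).subtype) tt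
    (fun c hc hT => by rw [p0 (kN hc)]; exact comm_trio S.κ h1.symm h2.symm c hc hT)
    (by rw [p0 (vN eu), p0 (mul_mem (vN eu) (kN iq))]; exact hu) (by rw [p0 (kN (by decide +kernel))]; exact r1)
  rw [p0 (kN (by decide +kernel)), p0 (kN (by decide +kernel))] at g1
  rw [p0 (kN ic), p0 (vN T0_ev)] at g2
  let f : Spor.J4.Gen → G := fun g => match g with | .x => S.k XC | .y => S.k YC | .t => t
  have hf := (rel_iff (FreeGroup.lift f)).2 (by
    rw [FreeGroup.lift_apply_of, FreeGroup.lift_apply_of, FreeGroup.lift_apply_of]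
    exact (rel_iff' S.κ).2 ⟨tt, h1.symm, h2.symm, r1, g1⟩)
  let φ : Spor.J4 →* G := PresentedGroup.toGroup hf
  have hJ := (rel_iff (PresentedGroup.mk _)).1 fun r hr => PresentedGroup.one_of_mem hr
  obtain ⟨κ, kx, ky⟩ := exists_psi0 hJ.h1 hJ.h2 hJ.h3 hJ.h4 hJ.h5 hJ.h6 hJ.h7
  set τ : Spor.J4 := PresentedGroup.mk _ Spor.J4.t with hτ
  have fx : φ (kp κ XC) = S.k XC := by rw [kp, kx]; exact PresentedGroup.toGroup.of hf
  have fy : φ (kp κ YC) = S.k YC := by rw [kp, ky]; exact PresentedGroup.toGroup.of hf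
  have ft : φ τ = t := PresentedGroup.toGroup.of hf
  rw [← kx, ← ky] at hJ
  obtain ⟨j1, j2, j3, j4, j5⟩ := (rel_iff' κ).1 hJ
  obtain ⟨z, hz⟩ : ∃ z, z = (τ * kp κ cC) ^ 3 := ⟨_, rfl⟩
  obtain ⟨l1, l2, l3, l4, l5⟩ := level1 κ j1 j2 j3 j4 j5 hz
  set K := closure {kp κ XC, kp κ YC, z} with hK
  have zK : z ∈ K := subset_closure (by simp)
  have fk : ∀ g ∈ M24, φ (pel κ g) = pel S.κ g ∧ pel κ g ∈ K := fun g hg => by
    suffices g ∈ M24 ∧ φ (pel κ g) = pel S.κ g ∧ pel κ g ∈ K from this.2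
    rw [M24_eq_closure] at hg
    induction hg using closure_induction with
    | mem x hx =>
      rcases hx with rfl | rfl
      exacts [⟨perm_mem_M24 XC_in, fx, subset_closure (by simp)⟩, ⟨perm_mem_M24 YC_in, fy, subset_closure (by simp)⟩]
    | one => exact ⟨one_mem _, by rw [pel_one, pel_one, map_one], by rw [pel_one]; exact one_mem _⟩
    | mul x y _ _ p q =>
      rw [pel_mul κ p.1 q.1, pel_mul S.κ p.1 q.1, map_mul, p.2.1, q.2.1]
      exact ⟨mul_mem p.1 q.1, rfl, mul_mem p.2.2 q.2.2⟩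
    | inv x _ p =>
      rw [pel_inv κ p.1, pel_inv S.κ p.1, map_inv, p.2.1]
      exact ⟨inv_mem p.1, rfl, inv_mem p.2.2⟩
  have fc : ∀ {c}, inM24 c = true → φ (kp κ c) = kp S.κ c := fun hc => (fk _ (perm_mem_M24 hc)).1
  have cK : ∀ {c}, inM24 c = true → kp κ c ∈ K := fun hc => (fk _ (perm_mem_M24 hc)).2
  have fz : φ z = S.ν (fs T0) := by rw [hz, map_pow, map_mul, ft, fc ic, g2]
  have KN : K ≤ (𝐍(S.V)).comap φ := (closure_le _).2 (by
    rintro _ (rfl | rfl | rfl)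
    · show φ _ ∈ 𝐍(S.V); rw [fx]; exact kN XC_in
    · show φ _ ∈ 𝐍(S.V); rw [fy]; exact kN YC_in
    · show φ _ ∈ 𝐍(S.V); rw [fz]; exact vN T0_ev)
  let ρ : K →* 𝐍(S.V) := (φ.comp K.subtype).codRestrict _ fun k => KN k.2
  have nv : ∀ {m} {g a b : Pm}, ev m = true → isCode m = false → g ∈ M24 → a ∈ M24 → b ∈ M24 →
      pel S.κ a * (S.ν (fs m) * pel S.κ g) * pel S.κ b ≠ 1 := fun {m g a b} hm hc hg ha hb e => by
    have e := eq_inv_mul_of_mul_eq (eq_inv_of_mul_eq_one_left e)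
    rw [← pel_inv _ ha, ← pel_inv _ hb, ← pel_mul _ (inv_mem ha) (inv_mem hb), ← one_mul (pel S.κ (_ * _)),
      h.vk_eq_iff (h.v_mem hm) (one_mem _) hg (mul_mem (inv_mem ha) (inv_mem hb)), h.v_eq_one hm, hc] at e
    exact Bool.false_ne_true e.1
  have bj : Function.Bijective ρ := by
    refine ⟨(injective_iff_map_eq_one ρ).2 fun k hk => ?_, fun n => ?_⟩
    · have e : φ k = 1 := congrArg Subtype.val hk
      obtain ⟨a, b, ha, hb, w, hw, e1⟩ := level2 κ l1 l2 l3 l4 k.2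
      rw [e1, map_mul, map_mul, fc ha, fc hb] at e
      have a24 := perm_mem_M24 ha
      have b24 := perm_mem_M24 hb
      rcases hw with rfl | rfl | rfl
      · rw [map_one, mul_one, ← pel_mul _ a24 b24, ← pel_one S.κ] at e
        apply Subtype.ext
        rw [e1, mul_one, ← pel_mul _ a24 b24, h.k_inj (mul_mem a24 b24) (one_mem _) e, pel_one]; rfl
      · refine absurd ?_ (nv (g := 1) T0_ev (by decide +kernel) (one_mem _) a24 b24)
        rwa [pel_one, mul_one, ← fz]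
      · have d := perm_mem_M24 (show inM24 d2C = true by decide +kernel)
        refine absurd ?_ (nv (g := perm d2C * 1) (ev_xor T0_ev (ev_apM (perm d2C) T0_ev)) (by
          rw [code_perm' (by decide +kernel)]; decide +kernel) (mul_mem d (one_mem _)) a24 b24)
        rw [← h.vk_mul T0_ev T0_ev d (one_mem _), pel_one, mul_one, ← e, map_mul, map_mul, fz, fc (by decide +kernel)]
    · have kA : ∀ g ∈ M24, pel S.κ g ∈ K.map φ := fun g hg => ⟨_, (fk g hg).2, (fk g hg).1⟩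
      have VA : S.V ⊓ K.map φ = S.V := by
        refine (h.todd.irred (M := S.κ.range) (fun g hg => ⟨_, ⟨⟨g, hg⟩, rfl⟩, h.acts _⟩) inf_le_left ?_).resolve_left ?_
        · rintro _ ⟨g, rfl⟩
          have a := h.k_mem g.2
          have b := le_normalizer (kA _ g.2)
          rw [pel_coe] at a b
          exact inf_normalizer_le_normalizer_inf ⟨a, b⟩
        · intro e
          have : S.ν (fs T0) ∈ S.V ⊓ K.map φ := ⟨h.v_mem T0_ev, z, zK, fz⟩
          rw [e, mem_bot, h.v_eq_one T0_ev] at this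
          exact absurd this (by decide +kernel)
      obtain ⟨m, hm, g, hg, e⟩ := h.dec n.2
      obtain ⟨k, hk, e'⟩ := mul_mem (VA.ge (h.v_mem hm)).2 (kA g hg)
      exact ⟨⟨k, hk⟩, Subtype.ext (e'.trans e.symm)⟩
  let ε := MulEquiv.ofBijective ρ bj
  let θ : ↥𝐍(S.V) →* Spor.J4 := K.subtype.comp ε.symm.toMonoidHom
  have t1 : ∀ m, φ (θ m) = m := fun m => congrArg Subtype.val (ε.apply_symm_apply m)
  have t2 : ∀ {k}, k ∈ K → pel θ (φ k) = k := fun {k} hk => by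
    rw [pel_of_mem θ (KN hk)]
    exact congrArg Subtype.val (ε.symm_apply_apply ⟨k, hk⟩)
  have t3 : ∀ {c}, inM24 c = true → pel θ (kp S.κ c) = kp κ c := fun hc => by rw [← fc hc, t2 (cK hc)]
  have ig : inM24 g3C = true := by decide +kernel
  have ie : inM24 e3C = true := by decide +kernel
  have jf : inM24 f3C = true := by decide +kernel
  obtain ⟨-, -, w, w0, hw⟩ := level3 h (θ := θ) j1 (fun c hc hT => by rw [t3 hc]; exact comm_trio κ j2 j3 c hc hT) (by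
    have a : S.ν (fs uC) = φ (kp κ g3C * z * (kp κ g3C)⁻¹) := by
      rw [map_mul, map_mul, map_inv, fc ig, fz]
      exact (S.k_conj_v (by decide +kernel)).symm
    have b : S.ν (fs uC) * kp S.κ q0C = φ ((kp κ e3C)⁻¹ * (z * kp κ f3C)) := by
      rw [map_mul, map_mul, map_inv, fc ie, fc jf, fz, eq_inv_mul_iff_mul_eq, show kp S.κ e3C = _ from (h.el_k e3C).symm]
      exact h.mul_eq (a := (0, e3C)) (b := (uC, q0C)) (c := (T0, f3C)) (by decide +kernel)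
    rw [b, a, t2 (mul_mem (mul_mem (cK ig) zK) (inv_mem (cK ig))), t2 (mul_mem (inv_mem (cK ie)) (mul_mem zK (cK jf))), ← l5,
      inv_mul_cancel_left]) (by rw [t3 (by decide +kernel)]; exact j4)
  obtain ⟨hi, c, c1, c2, c3⟩ := S.res5629 h5 hG S.V h.todd.elem h.card_V
  refine ⟨(MulEquiv.ofBijective φ (bij7 hi c1 c2 c3 φ θ t1 (t := τ) (by rwa [ft]) w0 fun γ => hw γ ?_)).symm⟩
  refine PresentedGroup.generated_by _ _ (fun j => subset_closure ?_) γ
  have rg : ∀ {c}, inM24 c = true → kp κ c ∈ θ.range := fun hc => ⟨⟨_, kN hc⟩, by rw [← t3 hc, pel_of_mem]⟩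
  cases j
  · exact Or.inr (by have := rg XC_in; rwa [kp, kx] at this)
  · exact Or.inr (by have := rg YC_in; rwa [kp, ky] at this)
  · exact Or.inl rfl

end CA.J4.Dce
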