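import Cfsg.Agent.Lib.J4.Mx29
import Cfsg.Agent.Lib.J4.Mx43
import Cfsg.Agent.Lib.J4.Mx37
import Cfsg.Agent.Lib.J4.Mx11
import Cfsg.Agent.Lib.J4.MxP
import Cfsg.Agent.Lib.J4.Pres

/-!
The normalisers of the Sylow `p`-subgroups, `p = 11, 29, 37, 43`, of a group of type `J4` are maximal.
-/

set_option autoImplicit false
set_option linter.unusedSectionVars false
set_option linter.unusedVariables false

namespace CA.J4
open Cfsg CA.BM Subgroup

variable {G : Type*} [Group G] [Finite G]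

theorem coatom_of {Y : Subgroup G} (h0 : Nat.card Y ≠ Nat.card G) (h : ∀ X, Y ≤ X → X = ⊤ ∨ X = Y) : IsCoatom Y :=
  ⟨fun e => h0 (by rw [e, card_top]), fun X hX => (h X hX.le).resolve_right hX.ne'⟩

namespace St
variable (S : St G) [IsSimpleGroup G]
include S

theorem exists_rho : ∃ ρ : G →* Mx, Function.Injective ρ ∧ AllK ρ ⊤ BM.T0 := by
  obtain ⟨T, t, h1, h2, h3, h4, h5, h6⟩ := S.exists_U
  exact BM.exists_rho (Dce.isoJ4 T T.five T.card_G h1 h2 h3 h4 h5 h6)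

theorem mx_n7 (s : G) (os : orderOf s = 7) : Nat.card 𝐍(zpowers s) ≤ 2520 :=
  (S.res5573 _ (by rw [Nat.card_zpowers, os])).2.2.2.le

theorem mx_n3 (s : G) (os : orderOf s = 3) : Nat.card 𝐍(zpowers s) ≤ 5322240 := by
  have h2 := card_quo_cent_dvd_card_aut (K := zpowers s) le_rfl
  rw [IsCyclic.card_mulAut, Nat.card_zpowers, os, Nat.totient_prime (by norm_num), cent_zpowers] at h2
  rw [← card_mul_relIndex (cent1_le_norm s), S.card_cent3 os]
  exact Nat.mul_le_mul_left 2661120 (Nat.le_of_dvd (by norm_num) h2)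

theorem coatom_big {x : ℕ × ℕ} (hx : x ∈ BL) [Fact x.1.Prime] {a : G} (oa : orderOf a = x.1)
    (h : ∀ X, 𝐍(zpowers a) ≤ X → X = ⊤ ∨ X = 𝐍(zpowers a)) (U : Sylow x.1 G) : IsCoatom 𝐍((U : Subgroup G)) := by
  obtain ⟨hq, hn⟩ := (by decide : ∀ x ∈ BL, x.1 ∈ [23, 29, 31, 37, 43] ∧ x.1 * x.2 ≠ 86775571046077562880) x hx
  obtain ⟨g, -, e⟩ := (sylow_zpowers Fact.out (mem_top a) oa (S.sq_big hq)).exists_cj (sylowIn_top U)
  rw [e, ← cj_normalizer]
  refine isCoatom_cj (coatom_of ?_ h) g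
  rwa [(S.big_mod (X := ⊤) hx oa).2.1, S.card_G]

theorem max29 [Fact (Nat.Prime 29)] (U : Sylow 29 G) : IsCoatom 𝐍((U : Subgroup G)) := by
  obtain ⟨ρ, hρ, h⟩ := S.exists_rho
  obtain ⟨a, s, oa, hs, os, H⟩ := C29.main hρ h S.mx_n7
  exact S.coatom_big (x := (29, 28)) (by decide) oa (fun X hX => (H X hX).imp
    (fun d => S.gen29 hX oa (d _ (by decide)) (d _ (by decide))) (S.loc29 hX oa hs os)) U

theorem max43 [Fact (Nat.Prime 43)] (U : Sylow 43 G) : IsCoatom 𝐍((U : Subgroup G)) := by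
  obtain ⟨ρ, hρ, h⟩ := S.exists_rho
  obtain ⟨a, s, oa, hs, os, H⟩ := C43.main hρ h S.mx_n7
  exact S.coatom_big (x := (43, 14)) (by decide) oa (fun X hX => (H X hX).imp
    (fun d => S.gen43 hX oa (d _ (by decide))) (S.loc43 hX oa hs os)) U

theorem max37 [Fact (Nat.Prime 37)] (U : Sylow 37 G) : IsCoatom 𝐍((U : Subgroup G)) := by
  obtain ⟨ρ, hρ, h⟩ := S.exists_rho
  obtain ⟨a, s, oa, hs, os, H⟩ := C37.main hρ h S.mx_n3
  exact S.coatom_big (x := (37, 12)) (by decide) oa (fun X hX => (H X hX).imp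
    (fun d => S.gen37 hX oa (d _ (by decide))) (S.loc37 hX oa hs os)) U

theorem max11 [Fact (Nat.Prime 11)] (U : Sylow 11 G) : IsCoatom 𝐍((U : Subgroup G)) := by
  obtain ⟨ρ, hρ, h⟩ := S.exists_rho
  obtain ⟨a, s, ⟨oa, h3⟩, hs, os, H⟩ := C11.main hρ h fun s os => (S.exists_F5 os).choose_spec.cN.le
  have ha : IsConj S.xa a := (S.cls11 oa).resolve_right fun c => by
    obtain ⟨g, rfl⟩ := isConj_iff.1 c
    rw [← cent_zpowers, ← cj_zpowers, ← cj_centralizer, card_cj, cent_zpowers, S.c242] at h3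
    exact absurd h3 (by decide)
  obtain ⟨g, -, e⟩ := S.Ua_syl.exists_cj (sylowIn_top U)
  obtain ⟨k, rfl⟩ := isConj_iff.1 ha
  have e2 : 𝐍(zpowers (k * S.xa * k⁻¹)) = cj k 𝐍(S.Ua) := by rw [S.norm_Ua, cj_normalizer, cj_zpowers]
  have : IsCoatom 𝐍(zpowers (k * S.xa * k⁻¹)) := coatom_of (by rw [e2, card_cj, S.card_NU, S.card_G]; decide)
    fun X hX => (H X hX).imp (fun d => S.gen11 hX ha (q := 37) (by decide) (d _ (by decide))) (S.loc11 hX ha hs os)
  have h2 := isCoatom_cj this (g * k⁻¹)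
  rwa [e2, cj_cj, inv_mul_cancel_right, cj_normalizer, ← e] at h2

end St
end CA.J4
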