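/-
The maximal 2-local subgroups of a group of type `J4`.
-/
import Cfsg.Agent.Lib.J4.Mx0
import Cfsg.Agent.Lib.J4.Five
import Cfsg.Agent.Lib.J4.Rk3

set_option autoImplicit false
set_option linter.unusedSectionVars false

namespace CA.J4

open Cfsg CA.Gol CA.Ex2 CA.XS Subgroup MulAction

namespace MQ

/-- Sylow's congruence for a normalizer of order `m` in a group of order `n` -/
def sy (q n m : ℕ) : Bool := Nat.beq (n % m) 0 && Nat.beq (n / m % q) 1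
/-- some divisor of `prd L` -/
def anyD (L : List (ℕ × ℕ)) (f : ℕ → Bool) : Bool := !(allD (fun a => !(f a)) L 1)
/-- two nested normalizers -/
def tw (q : ℕ) (L : List (ℕ × ℕ)) (c K : ℕ) (P : ℕ → Bool) (n : ℕ) : Bool :=
  anyD L fun a => Nat.beq (a % c) 0 && sy q K a && anyD L fun b => Nat.beq (b % a) 0 && sy q n b && P b
/-- the sieve -/
def sv (K : ℕ) (L : List (ℕ × ℕ)) (P : ℕ → Bool) : Bool := allL L (fun x => anyL PR (Nat.beq x.1)) &&
  Nat.beq (K * prd L) 86775571046077562880 &&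
  allD (fun n => Nat.beq n K || Nat.beq n 86775571046077562880 || !(bigOk n) || !(ok11 n) || !(P n)) L K
/-- the factorization of `2520` -/
def L7 : List (ℕ × ℕ) := [(2, 3), (3, 2), (5, 1), (7, 1)]

theorem anyD_of {L : List (ℕ × ℕ)} (hp : ∀ x ∈ L, x.1 ∈ PR) {f : ℕ → Bool} {n : ℕ} (h : n ∣ prd L) (hf : f n = true) :
    anyD L f = true := by
  rw [anyD, Bool.not_eq_true', ← Bool.not_eq_true]
  intro c
  have := allD_spec (PR_of hp) c h
  rw [one_mul, hf] at this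
  exact absurd this (by decide)

theorem svM : sv 501397585920 [(11, 2), (29, 1), (31, 1), (37, 1), (43, 1)]
  (tw 23 [(2, 1), (11, 1), (23, 1)] 1 501397585920 fun _ => true) = true := by decide +kernel
theorem svH : sv 21799895040 [(11, 2), (23, 1), (29, 1), (31, 1), (37, 1), (43, 1)]
  (fun n => tw 5 [(2, 8), (3, 1), (5, 1), (7, 1)] 960 21799895040 (fun _ => true) n &&
    tw 7 L7 84 21799895040 (fun _ => true) n) = true := by decide +kernel
theorem svL : sv 660602880 [(3, 1), (11, 3), (23, 1), (29, 1), (31, 1), (37, 1), (43, 1)] (fun n => sy 7 n 2520) = true := by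
  decide +kernel
theorem svA : sv 10239344640 [(2, 1), (3, 1), (11, 3), (23, 1), (29, 1), (37, 1), (43, 1)]
  (fun n => tw 31 [(2, 1), (5, 1), (31, 1)] 1 10239344640 (fun _ => true) n &&
    tw 7 L7 42 10239344640 (fun b => !(Nat.beq b 504) && !(Nat.beq b 1260)) n) = true := by decide +kernel

/-- a transposition -/
def t5 : S5 := Equiv.swap 3 4
/-- a `3`-cycle -/
def r5 : S5 := Equiv.swap 0 1 * Equiv.swap 0 2
theorem S5_conj : ∀ g : S5, g ^ 6 = 1 → g ^ 2 ≠ 1 → g ^ 3 ≠ 1 → ∃ c, c * g = r5 * t5 * c := by decide +kernel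
theorem S5_six : Equiv.Perm.sign (r5 * t5) ≠ 1 ∧ (r5 * t5) ^ 3 = t5 ∧ (r5 * t5) ^ 4 = r5 ∧
    (Finset.univ.filter fun y => y * t5 = t5 * y).card = 12 ∧ ∀ y, y * t5 = t5 * y ∨
      ((r5 * t5 * (y * t5 * y⁻¹)) ^ 5 = 1 ∧ r5 * t5 * (y * t5 * y⁻¹) ≠ 1) ∨
      (r5 * (y * r5 * y⁻¹)) ^ 5 = 1 ∧ r5 * (y * r5 * y⁻¹) ≠ 1 := by decide +kernel

theorem S5_sub {W : Subgroup S5} {g : S5} (hg : g ∈ W) (ho : orderOf g = 6) : Nat.card W ≠ 24 ∧ Nat.card W ≠ 60 := by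
  haveI : Fact (Nat.Prime 5) := ⟨by norm_num⟩
  obtain ⟨c, hc⟩ := S5_conj g (ho ▸ pow_orderOf_eq_one g) (pow_ne_one_of_lt_orderOf (by norm_num) (by omega))
    (pow_ne_one_of_lt_orderOf (by norm_num) (by omega))
  rw [← card_cj c W]
  replace hg : r5 * t5 ∈ cj c W := by rw [mem_cj, mul_assoc, ← hc]; simpa using hg
  generalize cj c W = W at hg
  obtain ⟨h1, a3, a4, h2, h3⟩ := S5_six
  refine ⟨fun e => ?_, fun e => h1 ?_⟩
  · have k : ∀ x ∈ W, x ^ 5 = 1 → x ≠ 1 → False := fun x hx a b => by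
      have := orderOf_dvd_card_of_mem hx
      rw [orderOf_eq_prime a b, e] at this; norm_num at this
    have : W ≤ 𝐂[t5] := fun y hy => by
      rcases h3 y with h | h | h
      · exact mem_centralizer_singleton_iff.2 h
      · exact (k _ (mul_mem hg (mul_mem (mul_mem hy (a3 ▸ pow_mem hg 3)) (inv_mem hy))) h.1 h.2).elim
      · exact (k _ (mul_mem (a4 ▸ pow_mem hg 4) (mul_mem (mul_mem hy (a4 ▸ pow_mem hg 4)) (inv_mem hy))) h.1 h.2).elim
    have c : Nat.card 𝐂[t5] = 12 := by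
      rw [← h2, ← Set.ncard_coe_finset]
      show (𝐂[t5] : Set S5).ncard = _
      congr 1; ext y; simpa using mem_cent1_iff
    have := card_dvd_of_le this
    rw [e, c] at this; norm_num at this
  · have := W.card_mul_index
    rw [e, card_S5] at this
    rwa [Equiv.Perm.eq_alternatingGroup_of_index_eq_two (G := W) (by omega), Equiv.Perm.mem_alternatingGroup] at hg

/-- an element of order 21 -/
def g21 : L5 := ⟨!![0, 0, 1, 0, 0; 1, 0, 1, 0, 0; 0, 1, 0, 0, 0; 0, 0, 0, 0, 1; 0, 0, 0, 1, 1], by decide +kernel⟩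
theorem g21_ord : orderOf g21 = 21 := by
  refine orderOf_eq_of_pow_and_pow_div_prime (by norm_num) (by decide +kernel) fun p hp h => ?_
  rcases (Nat.Prime.dvd_mul hp (m := 3) (n := 7)).1 h with h | h <;>
    obtain rfl := (Nat.prime_dvd_prime_iff_eq hp (by norm_num)).1 h <;> decide +kernel

variable {G : Type*} [Group G] [Finite G]

theorem sy_prime {q : ℕ} (hq : q.Prime) {x : G} (ho : orderOf x = q) (h : ¬ q * q ∣ Nat.card G) {X : Subgroup G}
    (hx : x ∈ X) : sy q (Nat.card X) (Nat.card ↥(X ⊓ 𝐍(zpowers x))) = true := by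
  have h := relIndex_norm_mod hq (sylow_zpowers hq hx ho fun c => h (c.trans (card_subgroup_dvd_card X)))
  have := card_mul_relIndex (inf_le_left : X ⊓ 𝐍(zpowers x) ≤ X)
  rw [inf_relIndex_left] at this
  rw [sy, Bool.and_eq_true, beq_iff, beq_iff, ← this, Nat.mul_div_cancel_left _ Nat.card_pos, Nat.mul_mod_right]
  exact ⟨rfl, h⟩

theorem tw_of {q c : ℕ} {L : List (ℕ × ℕ)} (hL : ∀ x ∈ L, x.1 ∈ PR) (hq : q.Prime) {x : G} (ho : orderOf x = q)
    (h : ¬ q * q ∣ Nat.card G) {K X : Subgroup G} (hx : x ∈ K) (hK : K ≤ X) {N : ℕ} (hN : Nat.card 𝐍(zpowers x) = N)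
    (hl : N = prd L)     (hc : c ∣ Nat.card ↥(K ⊓ 𝐍(zpowers x))) {P : ℕ → Bool} (hP : P (Nat.card ↥(X ⊓ 𝐍(zpowers x))) = true) :
    tw q L c (Nat.card K) P (Nat.card X) = true := by
  have k : ∀ Y : Subgroup G, Nat.card ↥(Y ⊓ 𝐍(zpowers x)) ∣ prd L := fun _ => hl ▸ hN ▸ card_dvd_of_le inf_le_right
  refine anyD_of hL (k K) ?_
  rw [Nat.mod_eq_zero_of_dvd hc, sy_prime hq ho h hx, anyD_of hL (k X) (by
    rw [Nat.mod_eq_zero_of_dvd (card_dvd_of_le (inf_le_inf_right _ hK)), sy_prime hq ho h (hK hx), hP]; rfl)]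
  rfl

end MQ

variable {G : Type*} [Group G] [Finite G]

namespace St
open MQ
variable (S : St G)

include S in
theorem q_max {K : Subgroup G} {k : ℕ} (hk : Nat.card K = k) {L : List (ℕ × ℕ)} {P : ℕ → Bool} (h : sv k L P = true)
    (h2 : k ≠ 86775571046077562880) (hP : ∀ X, K ≤ X → P (Nat.card X) = true) : IsCoatom K := by
  refine ⟨fun e => h2 (by rw [← hk, e, card_top, S.card_G]), fun X hX => ?_⟩
  simp only [sv, Bool.and_eq_true, allL_iff, anyL_iff, beq_iff] at h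
  have := S.sieve hX.le (fun x hx => by obtain ⟨a, ha, e⟩ := h.1.1 x hx; rwa [e]) hk h.1.2 h.2
  rw [S.big_ok, S.ok_11, hP X hX.le] at this
  simp only [Bool.not_true, Bool.or_false, Bool.or_eq_true, beq_iff] at this
  rcases this with h | h
  · exact absurd (eq_of_le_of_card_eq hX.le (by rw [h, hk])) hX.ne
  · exact eq_of_le_of_card_eq le_top (by rw [h, card_top, S.card_G])

theorem maxM : IsCoatom 𝐍(S.V) := S.q_max S.mm.card_M svM (by norm_num) fun X hX => by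
  obtain ⟨x, hx, ho⟩ := exists_orderOf_eq_prime (p := 23) (A := 𝐍(S.V)) (by norm_num) (by rw [S.mm.card_M]; norm_num)
  rw [← S.mm.card_M]
  exact tw_of (by decide) (by norm_num) ho (by rw [S.card_G]; norm_num) hx hX (S.big23 S.c5 S.c11 x ho).2 (by decide) (one_dvd _) rfl

include S in
theorem q_N7 {x : G} (ho : orderOf x = 7) : Nat.card 𝐍(zpowers x) = 2520 :=
  (S.res5573 _ (by rw [Nat.card_zpowers, ho])).2.2.2

theorem maxH : IsCoatom 𝐂[S.z] := S.q_max S.jh.card_H svH (by norm_num) fun X hX => by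
  obtain ⟨x, hx, ho⟩ := exists_orderOf_eq_prime (p := 5) (A := 𝐂[S.z]) (by norm_num) (by rw [S.jh.card_H]; norm_num)
  obtain ⟨y, hy, hp⟩ := exists_orderOf_eq_prime (p := 7) (A := 𝐂[S.z]) (by norm_num) (by rw [S.jh.card_H]; norm_num)
  obtain ⟨Z, hZ⟩ := S.exists_F5 ho
  rw [← S.jh.card_H, Bool.and_eq_true]
  exact ⟨tw_of (by decide) (by norm_num) ho S.not25 hx hX hZ.cN (by decide)
      (S.jh.card_CH5 hx ho ▸ card_dvd_of_le (inf_le_inf_left _ (cent1_le_norm x))) rfl,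
    tw_of (by decide) (by norm_num) hp S.not49 hy hX (S.q_N7 hp) (by decide)
      (S.jh.card_CH7 hy hp ▸ card_dvd_of_le (inf_le_inf_left _ (cent1_le_norm y))) rfl⟩

theorem maxL : IsCoatom 𝐍(S.L) := S.q_max (by rw [S.norm_L, S.card_N]) svL (by norm_num) fun X hX => by
  have := sy_prime (by norm_num) S.sg_ord S.not49 (hX S.sg_normL)
  rwa [inf_eq_right.2 (S.norm_sg.trans (S.norm_L ▸ hX)), S.q_N7 S.sg_ord] at this

include S in
theorem q_six {s h : G} (ho : orderOf s = 7) (oh : orderOf h = 6) (hc : h ∈ 𝐂[s]) {X : Subgroup G} (hs : s ∈ X)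
    (hh : h ∈ X) : Nat.card ↥(X ⊓ 𝐍(zpowers s)) ≠ 504 ∧ Nat.card ↥(X ⊓ 𝐍(zpowers s)) ≠ 1260 := by
  obtain ⟨I, h1, ⟨e⟩⟩ : ∃ I, DProd (zpowers s) I 𝐂[s] ∧ Nonempty (I ≃* S5) := by
    obtain ⟨g, e⟩ := exists_cj_prime (by norm_num) S.s7_ord S.not49 (Q := zpowers s) (by rw [Nat.card_zpowers, ho])
    obtain ⟨-, I, h2, ⟨f⟩⟩ := S.X7
    exact ⟨cj g I, by rw [← cent_zpowers, e, ← cj_centralizer, cent_zpowers]; exact h2.cj g, ⟨(cjEquiv g I).symm.trans f⟩⟩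
  have c7 : Nat.card (zpowers s) = 7 := by rw [Nat.card_zpowers, ho]
  have hI := dprod_mem_right h1 hc (by rw [c7, oh]; norm_num)
  have h2 := (h1.inf_of_left_le (zpowers_le.2 hs)).card_eq
  have h3 := S5_sub (W := ((I ⊓ X).subgroupOf I).map e.toMonoidHom) (g := e ⟨h, hI⟩) ⟨⟨h, hI⟩, ⟨hI, hh⟩, rfl⟩ (by
    rw [e.orderOf_eq, ← oh, orderOf_mk])
  rw [card_map_of_injective e.injective, card_subgroupOf_of_le inf_le_left] at h3
  have h4 := card_mul_relIndex (le_inf inf_le_right (inf_le_left.trans (cent1_le_norm s)) :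
    𝐂[s] ⊓ X ≤ X ⊓ 𝐍(zpowers s))
  have h5 := card_mul_relIndex (cent1_le_norm s)
  rw [S.card_cent7 ho, S.q_N7 ho] at h5
  have h6 : (𝐂[s] ⊓ X).relIndex (X ⊓ 𝐍(zpowers s)) ≤ (𝐂[s]).relIndex 𝐍(zpowers s) := by
    rw [← inf_relIndex_right, inf_assoc, ← inf_assoc X, inf_idem, inf_relIndex_right]
    exact relIndex_le_of_le_right inf_le_right (by omega)
  have h7 := card_dvd_of_le (inf_le_left : 𝐂[s] ⊓ X ≤ _)
  rw [S.card_cent7 ho, ← h2, c7] at h7
  rw [← h2, c7] at h4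
  generalize (𝐂[s] ⊓ X).relIndex (X ⊓ 𝐍(zpowers s)) = r at *
  generalize Nat.card ↥(I ⊓ X) = n at *
  have : r ≤ 3 := by omega
  have k : n = 72 ∨ n = 36 ∨ n = 180 ∨ n = 90 → False := by rintro (rfl | rfl | rfl | rfl) <;> norm_num at h7
  constructor <;> intro e <;> rw [e] at h4 <;> interval_cases r <;> exact k (by omega)

theorem maxA : IsCoatom 𝐍(S.A) := S.q_max S.card_NA svA (by norm_num) fun X hX => by
  haveI : Fact (Nat.Prime 7) := ⟨by norm_num⟩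
  obtain ⟨x, hx, ho⟩ := exists_orderOf_eq_prime (p := 31) (A := 𝐍(S.A)) (by norm_num) (by rw [S.card_NA]; norm_num)
  obtain ⟨K, hK, -, -, ⟨e⟩⟩ := S.exists_compl
  obtain ⟨g, hg, og⟩ : ∃ g ∈ 𝐍(S.A), orderOf g = 21 :=
    ⟨_, hK (e.symm g21).2, by rw [orderOf_coe, e.symm.orderOf_eq, g21_ord]⟩
  have os : orderOf (g ^ 3) = 7 := by rw [orderOf_pow, og]; norm_num
  have o3 : orderOf (g ^ 7) = 3 := by rw [orderOf_pow, og]; norm_num
  have c2 : Nat.card ↥(S.A ⊓ 𝐂[g ^ 3]) = 2 := by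
    have h1 := card_modEq_card_inf_cent (isPGroup_zpowers os) (zpowers_le.2 (pow_mem hg 3))
    have h2 := card_dvd_of_le (inf_le_left : S.A ⊓ 𝐂[g ^ 3] ≤ _)
    have h3 := card_dvd_of_le (inf_le_right : S.A ⊓ 𝐂[g ^ 3] ≤ _)
    rw [S.mm.card_A] at h1 h2
    rw [cent_zpowers] at h1
    rw [S.card_cent7 os] at h3
    have h4 : Nat.card ↥(S.A ⊓ 𝐂[g ^ 3]) ∣ 8 := Nat.dvd_gcd h2 h3
    have := Nat.le_of_dvd (by norm_num) h4
    unfold Nat.ModEq at h1
    interval_cases Nat.card ↥(S.A ⊓ 𝐂[g ^ 3]) <;> omega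
  obtain ⟨a, ha, oa⟩ := exists_orderOf_eq_prime (p := 2) (A := S.A ⊓ 𝐂[g ^ 3]) (by norm_num) (by rw [c2])
  have cg : g ^ 7 ∈ 𝐂[g ^ 3] := mem_centralizer_singleton_iff.2 (by group)
  have ca : Commute a (g ^ 7) := by
    have a1 := Inv.ne_one_of_orderOf oa
    have := ((Nat.card_eq_two_iff' (1 : ↥(S.A ⊓ 𝐂[g ^ 3]))).1 c2).unique (y₁ := ⟨g ^ 7 * a * (g ^ 7)⁻¹,
      conj_mem_of_mem_normalizer (pow_mem hg 7) ha.1, (𝐂[g ^ 3]).mul_mem (mul_mem cg ha.2) (inv_mem cg)⟩) (y₂ := ⟨a, ha⟩)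
      (fun e => a1 (conj_eq_one_iff.1 (congrArg Subtype.val e))) (by simpa using a1)
    exact (mul_inv_eq_iff_eq_mul.1 (congrArg Subtype.val this)).symm
  have o6 : orderOf (a * g ^ 7) = 6 := by rw [ca.orderOf_mul_eq_mul_orderOf_of_coprime (by rw [oa, o3]; norm_num), oa, o3]
  have m6 : a * g ^ 7 ∈ 𝐍(S.A) := mul_mem (le_normalizer ha.1) (pow_mem hg 7)
  have c6 : a * g ^ 7 ∈ 𝐂[g ^ 3] := mul_mem ha.2 cg
  rw [← S.card_NA, Bool.and_eq_true]
  refine ⟨tw_of (by decide) (by norm_num) ho (by rw [S.card_G]; norm_num) hx hX (S.big31 S.c5 S.c11 x ho).2 (by decide) (one_dvd _) rfl,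
    tw_of (by decide) (by norm_num) os S.not49 (pow_mem hg 3) hX (S.q_N7 os) (by decide) ?_
      (by simpa [← Bool.not_eq_true, beq_iff] using S.q_six os o6 c6 (hX (pow_mem hg 3)) (hX m6))⟩
  exact (show Nat.Coprime 6 7 by norm_num).mul_dvd_of_dvd_of_dvd
    (o6 ▸ orderOf_dvd_card_of_mem (show _ ∈ 𝐍(S.A) ⊓ 𝐍(zpowers (g ^ 3)) from ⟨m6, cent1_le_norm _ c6⟩))
    (os ▸ orderOf_dvd_card_of_mem (show _ ∈ 𝐍(S.A) ⊓ 𝐍(zpowers (g ^ 3)) from ⟨pow_mem hg 3, le_normalizer (mem_zpowers _)⟩))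

/-- the 2-local part of statement S5582 -/
theorem res5582two : IsCoatom 𝐂[S.z] ∧
    (∀ V : Subgroup G, IsElementaryAbelian 2 V → Nat.card V = 2 ^ 11 → IsCoatom 𝐍(V)) ∧
    (∀ A : Subgroup G, IsElementaryAbelian 2 A → Nat.card A = 2 ^ 10 → 𝐂(A) = A → IsCoatom 𝐍(A)) ∧
    ∃ L : Subgroup G, IsSpecial 2 L ∧ Nat.card L = 2 ^ 15 ∧ Nat.card (center L) = 8 ∧ IsCoatom 𝐍(L) := by
  refine ⟨S.maxH, fun V hV hc => ?_, fun A h1 h2 h3 => ?_, S.L, isSpecial_iff.2 S.special_L, S.card_L,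
    by rw [← card_map_subtype, center_eq_map, S.center_L, S.card_Z], S.maxL⟩
  · obtain ⟨a, rfl⟩ := S.exists_cjG (X := V) (fun x hx => pow_two x ▸ hV.2 x hx) (by rw [hc]; norm_num)
    rw [← cj_normalizer]; exact isCoatom_cj S.maxM a
  · obtain ⟨g, rfl⟩ := S.cls_elem h1 h2 h3
    rw [← cj_normalizer]; exact isCoatom_cj S.maxA g

end St
end CA.J4
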