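import Cfsg.Agent.Lib.J4.Walk

/-!
Generic certificates: upper and lower bounds for the order of a group given by coded generators
(Schreier tables along a subgroup chain), isomorphisms from paired generators.
-/

set_option autoImplicit false
set_option linter.unusedSectionVars false

namespace CA.Nl
open CA.Gol CA.J4 CA.BM Matrix Cfsg Subgroup

section cos
variable {G : Type*} [Group G] [Finite G]

theorem cosets {K Y : Subgroup G} (hY : Y ≤ K) {φ : G → ℕ} (hφ : ∀ y ∈ Y, ∀ g, φ (y * g) = φ g) {P : G → Prop}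
    {l : List ℕ} (nd : l.Nodup) (h : ∀ k ∈ l, ∃ g ∈ K, φ g = k ∧ P g) :
    l.length * Nat.card Y ≤ Nat.card K ∧
      (Nat.card K ≤ l.length * Nat.card Y → ∀ x ∈ K, ∃ y ∈ Y, ∃ g, P g ∧ x = y * g) := by
  have hs : {x | x ∈ K ∧ ∃ y ∈ Y, ∃ g, P g ∧ x = y * g} ⊆ (K : Set G) := fun _ h => h.1
  have h1 := le_ncard_fib φ (Nat.card Y) l nd {x | x ∈ K ∧ ∃ y ∈ Y, ∃ g, P g ∧ x = y * g} fun k hk => by
    obtain ⟨g, hg, e, p⟩ := h k hk
    rw [show Nat.card Y = ((fun y => y * g) '' (Y : Set G)).ncard from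
      (Set.ncard_image_of_injective _ (mul_left_injective g)).symm]
    refine Set.ncard_le_ncard ?_
    rintro _ ⟨y, hy, rfl⟩
    exact ⟨⟨mul_mem (hY hy) hg, y, hy, g, p, rfl⟩, (hφ y hy g).trans e⟩
  refine ⟨h1.trans (Set.ncard_le_ncard hs), fun hc x hx => ?_⟩
  have := Set.eq_of_subset_of_ncard_le hs (hc.trans h1)
  exact (this.ge hx).2

theorem card_step {S : Set G} {Y : Subgroup G} {F : ℕ → G} {a n : ℕ} (h0 : 0 < n) (h1 : F a = 1)
    (h : ∀ i < n, ∀ g ∈ S, ∃ y ∈ Y, ∃ j < n, F (a + i) * g = y * F (a + j)) :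
    Nat.card (closure S) ≤ n * Nat.card Y := by
  let f : Fin n × Y → G := fun p => p.2 * F (a + p.1)
  have s1 : ∀ g ∈ S, ∀ x ∈ Set.range f, x * g ∈ Set.range f := by
    rintro g hg _ ⟨⟨i, y⟩, rfl⟩
    obtain ⟨z, hz, j, hj, e⟩ := h i i.2 g hg
    exact ⟨(⟨j, hj⟩, ⟨y * z, mul_mem y.2 hz⟩), by simp only [f, mul_assoc, e]⟩
  have s2 : ∀ g ∈ S, ∀ m : ℕ, ∀ x ∈ Set.range f, x * g ^ m ∈ Set.range f := fun g hg m => by
    induction m with
    | zero => intro x hx; rwa [pow_zero, mul_one]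
    | succ m ih => intro x hx; rw [pow_succ, ← mul_assoc]; exact s1 g hg _ (ih x hx)
  have s3 : (closure S : Set G) ⊆ Set.range f := fun x hx => by
    induction hx using closure_induction_right with
    | one => exact ⟨(⟨0, h0⟩, 1), by simp [f, h1]⟩
    | mul_right x _ g hg ih => exact s1 g hg x ih
    | mul_inv_cancel x _ g hg ih =>
      rw [show g⁻¹ = g ^ (orderOf g - 1) from inv_eq_of_mul_eq_one_right (by
        rw [← pow_succ', Nat.sub_add_cancel (orderOf_pos g), pow_orderOf_eq_one])]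
      exact s2 g hg _ x ih
  refine (Set.ncard_le_ncard s3).trans ?_
  rw [← Set.image_univ]
  refine (Set.ncard_image_le).trans ?_
  rw [Set.ncard_univ, Nat.card_prod, Nat.card_fin]

theorem le_prod (ls : List (ℕ × ℕ)) : ∀ f : ℕ → ℕ, (∀ l < ls.length, f l ≤ (ls.getD l (0, 0)).2 * f (l + 1)) →
    f 0 ≤ (ls.map Prod.snd).prod * f ls.length := by
  induction ls with
  | nil => intro f _; simp
  | cons p ls ih =>
    intro f h
    have := ih (fun l => f (l + 1)) fun l hl => h (l + 1) (Nat.succ_lt_succ hl)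
    refine (h 0 (Nat.succ_pos _)).trans ?_
    rw [List.map_cons, List.prod_cons, mul_assoc]
    exact Nat.mul_le_mul_left _ this

theorem prod_le (ls : List (ℕ × ℕ)) : ∀ f : ℕ → ℕ, (∀ l < ls.length, (ls.getD l (0, 0)).2 * f (l + 1) ≤ f l) →
    (ls.map Prod.snd).prod * f ls.length ≤ f 0 := by
  induction ls with
  | nil => intro f _; simp
  | cons p ls ih =>
    intro f h
    have := ih (fun l => f (l + 1)) fun l hl => h (l + 1) (Nat.succ_lt_succ hl)
    refine le_trans ?_ (h 0 (Nat.succ_pos _))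
    rw [List.map_cons, List.prod_cons, mul_assoc]
    exact Nat.mul_le_mul_left _ this

end cos

/-- lookup with default -/
def lk {α : Type} (d : α) (l : List α) : ℕ → α :=
  List.rec (fun _ => d) (fun a _ r j => @Nat.rec (fun _ => α) a (fun j' _ => r j') j) l

theorem lk_eq {α : Type} (d : α) (l : List α) (j : ℕ) : lk d l j = l.getD j d := by
  induction l generalizing j with
  | nil => rfl
  | cons a l ih => cases j with
    | zero => rfl
    | succ j => exact ih j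

theorem lk_rel {α β : Type} {R : α → β → Prop} {d : α} {e : β} (h0 : R d e) {l : List α} {m : List β}
    (h : List.Forall₂ R l m) (j : ℕ) : R (lk d l j) (lk e m j) := by
  induction h generalizing j with
  | nil => exact h0
  | cons h _ ih => cases j with
    | zero => exact h
    | succ j => exact ih j

theorem lk_of {α : Type} {P : α → Prop} {d : α} (h0 : P d) {l : List α} (h : ∀ a ∈ l, P a) (j : ℕ) : P (lk d l j) := by
  induction l generalizing j with
  | nil => exact h0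
  | cons a l ih => cases j with
    | zero => exact h a List.mem_cons_self
    | succ j => exact ih (fun b hb => h b (List.mem_cons_of_mem _ hb)) j

section chk
variable (mul act : ℕ → ℕ → ℕ) (one : ℕ)

def evR (T w : List ℕ) : ℕ → ℕ := List.rec (fun B => B) (fun i _ ih B => force (mul B (lk one T i)) ih) w
/-- the value of a word -/
def evG (T w : List ℕ) : ℕ := List.rec one (fun i w _ => evR mul one T w (lk one T i)) w
/-- the table of registers with their levels -/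
def bld (df : List (ℕ × List ℕ)) : List ℕ → List ℕ → (List ℕ → List ℕ → Bool) → Bool :=
  List.rec (fun T V k => k T V) (fun d _ ih T V k => cn (allL d.2 fun i => Nat.ble d.1 (lk 99 V i))
    (force (evG mul one T d.2) fun x => ih (x :: T) (d.1 :: V) k) false) df
def tab (df : List (ℕ × List ℕ)) (T : List ℕ) : List ℕ := df.foldl (fun T d => evG mul one T d.2 :: T) T

abbrev Row : Type := List (List ℕ × ℕ)
def row (l a n : ℕ) (T V : List ℕ) (x : ℕ) (bc : List (ℕ × ℕ)) : Row → Bool :=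
  List.rec (fun _ => true) (fun c _ ih es => cn (Nat.ble l c.1) (List.rec false (fun e es _ =>
    cn (allL e.1 fun i => Nat.blt l (lk 99 V i)) (cn (Nat.blt e.2 n)
      (cn (Nat.beq (mul x c.2) (evG mul one T (List.append e.1 [Nat.add a e.2]))) (ih es) false) false) false) es) (ih es)) bc
def rows (l a n : ℕ) (T V : List ℕ) (bc : List (ℕ × ℕ)) (R : List Row) : ℕ → Bool :=
  List.rec (fun _ => true) (fun r _ ih i => cn (force (lk one T (Nat.add a i)) fun x => row mul one l a n T V x bc r)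
    (ih (Nat.succ i)) false) R
abbrev Chunk : Type := ℕ × ℕ × List Row
/-- the check of a chunk of Schreier relations -/
def ubC (bc : List (ℕ × ℕ)) (df : List (ℕ × List ℕ)) (ls : List (ℕ × ℕ)) (cs : List Chunk) : Bool :=
  bld mul one df (bc.map Prod.snd) (bc.map Prod.fst) fun T V => allL cs fun c =>
    cn (Nat.beq (lk one T (lk (0, 0) ls c.1).1) one)
      (rows mul one c.1 (lk (0, 0) ls c.1).1 (lk (0, 0) ls c.1).2 T V bc c.2.2 c.2.1) false
/-- the chunks cover all levels -/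
def ubS (bc : List (ℕ × ℕ)) (ls : List (ℕ × ℕ)) (cs : List Chunk) : Bool :=
  allL bc (fun c => Nat.blt c.1 ls.length) && allLt (fun l => Nat.blt 0 (lk (0, 0) ls l).2 && allLt (fun i => anyL cs fun c =>
    Nat.beq c.1 l && Nat.ble c.2.1 i && Nat.blt i (c.2.1 + c.2.2.length)) (lk (0, 0) ls l).2) ls.length

def kys (l a x : ℕ) (T V : List ℕ) (n : ℕ) : List ℕ → Bool :=
  Nat.rec (fun K => ndL K) (fun i ih K => cn (Nat.ble l (lk 99 V (Nat.add a i)))
    (force (act x (lk one T (Nat.add a i))) fun y => ih (y :: K)) false) n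
/-- the check of the orbits -/
def lbC (bc : List (ℕ × ℕ)) (df : List (ℕ × List ℕ)) (ls : List (ℕ × ℕ)) (xs : List ℕ) : Bool :=
  bld mul one df (bc.map Prod.snd) (bc.map Prod.fst) fun T V => allLt (fun l =>
    cn (allL bc fun c => cn (Nat.blt l c.1) (Nat.beq (act (lk 0 xs l) c.2) (lk 0 xs l)) true)
      (kys act one l (lk (0, 0) ls l).1 (lk 0 xs l) T V (lk (0, 0) ls l).2 []) false) ls.length

end chk

variable {Γ : Type*} [Group Γ]

/-- coded group elements -/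
structure IsEv (mul : ℕ → ℕ → ℕ) (one : ℕ) (sem : ℕ → Γ → Prop) : Prop where
  one : sem one 1
  mul : ∀ {a b α β}, sem a α → sem b β → sem (mul a b) (α * β)
  inj : ∀ {a α β}, sem a α → sem a β → α = β

/-- a coded right action -/
def IsAct (act : ℕ → ℕ → ℕ) (sem : ℕ → Γ → Prop) : Prop := ∃ key : ℕ → Γ → ℕ, (∀ x a α, sem a α → key x α = act x a) ∧
  ∀ x a α β, sem a α → act x a = x → key x (α * β) = key x β

/-- the group generated by the generators of level `≥ l` -/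
def HL (sem : ℕ → Γ → Prop) (bc : List (ℕ × ℕ)) (l : ℕ) : Subgroup Γ := closure {g | ∃ c ∈ bc, l ≤ c.1 ∧ sem c.2 g}

theorem HL_anti {sem : ℕ → Γ → Prop} {bc : List (ℕ × ℕ)} {l m : ℕ} (h : l ≤ m) : HL sem bc m ≤ HL sem bc l :=
  closure_mono fun _ ⟨c, h1, h2, h3⟩ => ⟨c, h1, h.trans h2, h3⟩

open Classical in
/-- the element with a given code -/
noncomputable def val (sem : ℕ → Γ → Prop) (a : ℕ) : Γ := if h : ∃ g, sem a g then h.choose else 1

def Gd (sem : ℕ → Γ → Prop) (bc : List (ℕ × ℕ)) (a l : ℕ) : Prop := ∃ g ∈ HL sem bc l, sem a g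

namespace IsEv
variable {mul act : ℕ → ℕ → ℕ} {one : ℕ} {sem : ℕ → Γ → Prop} (E : IsEv mul one sem)
include E

theorem val_eq {a : ℕ} {g : Γ} (h : sem a g) : val sem a = g := by
  rw [val, dif_pos ⟨g, h⟩]; exact E.inj (Exists.choose_spec (⟨g, h⟩ : ∃ g, sem a g)) h

theorem evR_mem {K : Subgroup Γ} {T : List ℕ} (w : List ℕ) (h : ∀ i ∈ w, ∃ g ∈ K, sem (lk one T i) g) :
    ∃ g ∈ K, ∀ B β, sem B β → sem (evR mul one T w B) (β * g) := by
  induction w with
  | nil => exact ⟨1, one_mem _, fun B β hB => by rwa [mul_one]⟩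
  | cons i w ih =>
    obtain ⟨g, hg, e⟩ := h i List.mem_cons_self
    obtain ⟨u, hu, e'⟩ := ih fun j hj => h j (List.mem_cons_of_mem _ hj)
    refine ⟨g * u, mul_mem hg hu, fun B β hB => ?_⟩
    rw [show evR mul one T (i :: w) B = evR mul one T w (mul B (lk one T i)) from force_eq _ _, ← mul_assoc]
    exact e' _ _ (E.mul hB e)

theorem evG_mem {K : Subgroup Γ} {T w : List ℕ} (h : ∀ i ∈ w, ∃ g ∈ K, sem (lk one T i) g) :
    ∃ g ∈ K, sem (evG mul one T w) g := by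
  cases w with
  | nil => exact ⟨1, one_mem _, E.one⟩
  | cons i w =>
    obtain ⟨g, hg, e⟩ := h i List.mem_cons_self
    obtain ⟨u, hu, e'⟩ := E.evR_mem w fun j hj => h j (List.mem_cons_of_mem _ hj)
    exact ⟨g * u, mul_mem hg hu, e' _ _ e⟩

theorem evR_app {T : List ℕ} (w : List ℕ) (j : ℕ) : ∀ B, evR mul one T (w ++ [j]) B = mul (evR mul one T w B) (lk one T j) := by
  induction w with
  | nil => intro B; exact force_eq _ _
  | cons i w ih =>
    intro B
    rw [show evR mul one T (i :: w) B = evR mul one T w (mul B (lk one T i)) from force_eq _ _, ← ih]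
    exact force_eq _ _

theorem evG_app {K : Subgroup Γ} {T w : List ℕ} {j : ℕ} {γ : Γ} (h : ∀ i ∈ w, ∃ g ∈ K, sem (lk one T i) g)
    (hj : sem (lk one T j) γ) : ∃ g ∈ K, sem (evG mul one T (w ++ [j])) (g * γ) := by
  cases w with
  | nil => exact ⟨1, one_mem _, by rw [one_mul]; exact hj⟩
  | cons i w =>
    obtain ⟨g, hg, e⟩ := E.evG_mem h
    refine ⟨g, hg, ?_⟩
    rw [show evG mul one T (i :: w ++ [j]) = evR mul one T (w ++ [j]) (lk one T i) from rfl, E.evR_app]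
    exact E.mul e hj

variable {bc : List (ℕ × ℕ)}

theorem gd_lk {T V : List ℕ} (h : List.Forall₂ (Gd sem bc) T V) (i : ℕ) : Gd sem bc (lk one T i) (lk 99 V i) :=
  lk_rel ⟨1, one_mem _, E.one⟩ h i

theorem gd_le {T V : List ℕ} (h : List.Forall₂ (Gd sem bc) T V) {i l : ℕ} (hl : l ≤ lk 99 V i) :
    ∃ g ∈ HL sem bc l, sem (lk one T i) g :=
  let ⟨g, hg, e⟩ := E.gd_lk h i; ⟨g, HL_anti hl hg, e⟩

theorem bld_spec {k : List ℕ → List ℕ → Bool} (df : List (ℕ × List ℕ)) : ∀ T V, List.Forall₂ (Gd sem bc) T V →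
    bld mul one df T V k = true → ∃ V', List.Forall₂ (Gd sem bc) (tab mul one df T) V' ∧ k (tab mul one df T) V' = true := by
  induction df with
  | nil => exact fun T V h H => ⟨V, h, H⟩
  | cons d df ih =>
    intro T V h H
    obtain ⟨h1, h2⟩ := cn_iff.1 H
    rw [force_eq] at h2
    exact ih _ _ (List.Forall₂.cons (E.evG_mem fun i hi => E.gd_le h (ble_iff.1 (allL_iff.1 h1 i hi))) h) h2

omit E in
theorem gd_base (hb : ∀ c ∈ bc, ∃ g, sem c.2 g) : List.Forall₂ (Gd sem bc) (bc.map Prod.snd) (bc.map Prod.fst) := by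
  rw [List.forall₂_map_left_iff, List.forall₂_map_right_iff, List.forall₂_same]
  intro c hc
  obtain ⟨g, e⟩ := hb c hc
  exact ⟨g, subset_closure ⟨c, hc, le_rfl, e⟩, e⟩

theorem row_spec {l a n x : ℕ} {T V : List ℕ} (h : List.Forall₂ (Gd sem bc) T V) {ξ : Γ} (hx : sem x ξ)
    (b : List (ℕ × ℕ)) : ∀ es, row mul one l a n T V x b es = true → ∀ c ∈ b, l ≤ c.1 → ∀ g, sem c.2 g →
      ∃ y ∈ HL sem bc (l + 1), ∃ j < n, ξ * g = y * val sem (lk one T (a + j)) := by
  induction b with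
  | nil => intro _ _ c hc; cases hc
  | cons c b ih =>
    intro es H c' hc hl g hg
    change cn (Nat.ble l c.1) _ (row mul one l a n T V x b es) = true at H
    cases hb : Nat.ble l c.1
    · rw [hb, cn_false] at H
      rcases List.mem_cons.1 hc with rfl | hc
      · exact absurd hl (not_le.2 (ble_false_iff.1 hb))
      · exact ih es H c' hc hl g hg
    · rw [hb, cn_true] at H
      cases es with
      | nil => cases H
      | cons e es =>
        obtain ⟨h1, H⟩ := cn_iff.1 H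
        obtain ⟨h2, H⟩ := cn_iff.1 H
        obtain ⟨h3, H⟩ := cn_iff.1 H
        rcases List.mem_cons.1 hc with rfl | hc
        · obtain ⟨γ, -, hγ⟩ := E.gd_lk h (a + e.2)
          obtain ⟨y, hy, ey⟩ := E.evG_app (K := HL sem bc (l + 1))
            (fun i hi => E.gd_le h (blt_iff.1 (allL_iff.1 h1 i hi))) hγ
          refine ⟨y, hy, e.2, blt_iff.1 h2, ?_⟩
          rw [E.val_eq hγ]
          exact E.inj (E.mul hx hg) (beq_iff.1 h3 ▸ ey)
        · exact ih es H c' hc hl g hg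

theorem rows_spec {l a n : ℕ} {T V : List ℕ} (h : List.Forall₂ (Gd sem bc) T V) (R : List Row) :
    ∀ t, rows mul one l a n T V bc R t = true → ∀ i, t ≤ i → i < t + R.length → ∀ c ∈ bc, l ≤ c.1 → ∀ g, sem c.2 g →
      ∃ y ∈ HL sem bc (l + 1), ∃ j < n, val sem (lk one T (a + i)) * g = y * val sem (lk one T (a + j)) := by
  induction R with
  | nil => intro t _ i h1 h2; exact absurd h2 (not_lt.2 h1)
  | cons r R ih =>
    intro t H i h1 h2
    obtain ⟨h3, H⟩ := cn_iff.1 H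
    rw [force_eq] at h3
    rcases h1.eq_or_lt with rfl | h1
    · obtain ⟨γ, -, hγ⟩ := E.gd_lk h (a + t)
      rw [E.val_eq hγ]
      exact E.row_spec h hγ bc r h3
    · exact ih _ H i h1 (by rw [List.length_cons] at h2; omega)

/-- upper bound -/
theorem ub [Finite Γ] (hb : ∀ c ∈ bc, ∃ g, sem c.2 g) {df : List (ℕ × List ℕ)} {ls : List (ℕ × ℕ)}
    {css : List (List Chunk)} (h1 : ∀ cs ∈ css, ubC mul one bc df ls cs = true) (h2 : ubS bc ls css.flatten = true) :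
    Nat.card (HL sem bc 0) ≤ (ls.map Prod.snd).prod := by
  rw [ubS, Bool.and_eq_true, allL_iff, allLt_iff] at h2
  have := le_prod ls (fun l => Nat.card (HL sem bc l)) fun l hl => by
    have h3 := h2.2 l hl
    rw [Bool.and_eq_true, blt_iff, allLt_iff] at h3
    have h4 : ∀ i < (lk (0, 0) ls l).2, val sem (lk one (tab mul one df (bc.map Prod.snd)) (lk (0, 0) ls l).1) = 1 ∧
        ∀ c ∈ bc, l ≤ c.1 → ∀ g, sem c.2 g → ∃ y ∈ HL sem bc (l + 1), ∃ j < (lk (0, 0) ls l).2,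
          val sem (lk one (tab mul one df (bc.map Prod.snd)) ((lk (0, 0) ls l).1 + i)) * g =
            y * val sem (lk one (tab mul one df (bc.map Prod.snd)) ((lk (0, 0) ls l).1 + j)) := fun i hi => by
      obtain ⟨c, hc, e⟩ := anyL_iff.1 (h3.2 i hi)
      simp only [Bool.and_eq_true, beq_iff, ble_iff, blt_iff] at e
      obtain ⟨⟨rfl, e1⟩, e2⟩ := e
      obtain ⟨cs, hcs, hc⟩ := List.mem_flatten.1 hc
      obtain ⟨V, hV, H⟩ := E.bld_spec df _ _ (gd_base hb) (h1 cs hcs)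
      obtain ⟨H1, H2⟩ := cn_iff.1 (allL_iff.1 H c hc)
      exact ⟨E.val_eq (by rw [beq_iff.1 H1]; exact E.one), E.rows_spec hV _ _ H2 i e1 e2⟩
    rw [← lk_eq]
    exact card_step (F := fun t => val sem (lk one (tab mul one df (bc.map Prod.snd)) t)) h3.1 (h4 0 h3.1).1
      fun i hi g ⟨c, hc, hl, e⟩ => (h4 i hi).2 c hc hl g e
  rwa [show HL sem bc ls.length = ⊥ from (closure_eq_bot_iff).2 fun g ⟨c, hc, hl, _⟩ =>
    absurd (blt_iff.1 (h2.1 c hc)) (not_lt.2 hl), card_bot, mul_one] at this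

theorem kys_spec {l a x : ℕ} {T V : List ℕ} (h : List.Forall₂ (Gd sem bc) T V) (n : ℕ) :
    ∀ K, kys act one l a x T V n K = true → ∃ K' : List ℕ, K'.length = n ∧ (K' ++ K).Nodup ∧
      ∀ k ∈ K', ∃ b, ∃ g ∈ HL sem bc l, sem b g ∧ act x b = k := by
  induction n with
  | zero => exact fun K H => ⟨[], rfl, nodup_of_ndL H, nofun⟩
  | succ n ih =>
    intro K H
    obtain ⟨h1, H⟩ := cn_iff.1 H
    rw [force_eq] at H
    obtain ⟨K', e, nd, hK⟩ := ih _ H
    obtain ⟨g, hg, eg⟩ := E.gd_le h (ble_iff.1 h1)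
    refine ⟨K' ++ [_], by rw [List.length_append, e]; rfl, by rwa [List.append_assoc], fun k hk => ?_⟩
    rcases List.mem_append.1 hk with hk | hk
    · exact hK k hk
    · exact ⟨_, g, hg, eg, (List.mem_singleton.1 hk).symm⟩

/-- lower bound -/
theorem lb [Finite Γ] (A : IsAct act sem) (hb : ∀ c ∈ bc, ∃ g, sem c.2 g) {df : List (ℕ × List ℕ)} {ls : List (ℕ × ℕ)}
    {xs : List ℕ} (h : lbC mul act one bc df ls xs = true) : (ls.map Prod.snd).prod ≤ Nat.card (HL sem bc 0) := by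
  obtain ⟨key, k1, k2⟩ := A
  obtain ⟨V, hV, H⟩ := E.bld_spec df _ _ (gd_base hb) h
  refine le_trans (Nat.le_mul_of_pos_right _ Nat.card_pos) (prod_le ls (fun l => Nat.card (HL sem bc l)) fun l hl => ?_)
  obtain ⟨H1, H2⟩ := cn_iff.1 (allLt_iff.1 H l hl)
  obtain ⟨K, e, nd, hK⟩ := E.kys_spec hV _ _ H2
  rw [List.append_nil] at nd
  rw [← lk_eq, ← e]
  refine (cosets (P := fun _ => True) (φ := key (lk 0 xs l)) (HL_anti (Nat.le_succ l)) (fun y hy => ?_) nd fun k hk => ?_).1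
  · induction hy using closure_induction with
    | mem y hy =>
      obtain ⟨c, hc, h1, h2⟩ := hy
      have := allL_iff.1 H1 c hc
      rw [blt_iff.2 h1, cn_true, beq_iff] at this
      exact fun g => k2 _ _ _ _ h2 this
    | one => intro g; rw [one_mul]
    | mul y z _ _ h1 h2 => intro g; rw [mul_assoc, h1, h2]
    | inv y _ h1 => intro g; rw [← h1, mul_inv_cancel_left]
  · obtain ⟨b, g, hg, eg, e⟩ := hK k hk
    exact ⟨g, hg, (k1 _ _ _ eg).trans e, trivial⟩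

end IsEv

/-- products of paired codes -/
def pmul (W : ℕ) (m1 m2 : ℕ → ℕ → ℕ) (x y : ℕ) : ℕ :=
  force (Nat.shiftRight x W) fun a => force (Nat.shiftRight y W) fun b => force (Nat.mod x (Nat.pow 2 W)) fun c =>
    force (Nat.mod y (Nat.pow 2 W)) fun d => Nat.add (Nat.shiftLeft (m1 a b) W) (m2 c d)
def pr (W a b : ℕ) : ℕ := Nat.add (Nat.shiftLeft a W) b

theorem pr_spec {W a b : ℕ} (h : b < 2 ^ W) : pr W a b >>> W = a ∧ pr W a b % 2 ^ W = b := by
  show (a <<< W + b) >>> W = a ∧ (a <<< W + b) % 2 ^ W = b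
  rw [Nat.shiftLeft_eq, Nat.shiftRight_eq_div_pow, add_comm, Nat.add_mul_div_right _ _ (by positivity), Nat.div_eq_of_lt h,
    Nat.add_mul_mod_self_right, Nat.mod_eq_of_lt h, zero_add]
  exact ⟨rfl, rfl⟩

variable {P : Type*} [Group P]

theorem IsEv.prod {m1 m2 : ℕ → ℕ → ℕ} {o1 o2 W : ℕ} {s1 : ℕ → Γ → Prop} {s2 : ℕ → P → Prop} (E1 : IsEv m1 o1 s1)
    (E2 : IsEv m2 o2 s2) (hW : ∀ a α, s2 a α → a < 2 ^ W) :
    IsEv (pmul W m1 m2) (pr W o1 o2) fun x (p : Γ × P) => s1 (x >>> W) p.1 ∧ s2 (x % 2 ^ W) p.2 where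
  one := by rw [(pr_spec (hW _ _ E2.one)).1, (pr_spec (hW _ _ E2.one)).2]; exact ⟨E1.one, E2.one⟩
  mul := fun {a b α β} h1 h2 => by
    have e : pmul W m1 m2 a b = pr W (m1 (a >>> W) (b >>> W)) (m2 (a % 2 ^ W) (b % 2 ^ W)) := by
      rw [pmul, force_eq, force_eq, force_eq, force_eq]; rfl
    have h := E2.mul h1.2 h2.2
    rw [e, (pr_spec (hW _ _ h)).1, (pr_spec (hW _ _ h)).2]
    exact ⟨E1.mul h1.1 h2.1, h⟩
  inj := fun h1 h2 => Prod.ext (E1.inj h1.1 h2.1) (E2.inj h1.2 h2.2)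

theorem iso_of_card {D : Type*} [Group D] [Finite Γ] {Δ : Subgroup D} [Finite Δ] {K : Subgroup Γ} (f : D →* Γ)
    (h : K ≤ Δ.map f) (h' : Δ.map f ≤ K) (hc : Nat.card Δ ≤ Nat.card K) : Nonempty (Δ ≃* K) := by
  obtain rfl : K = Δ.map f := le_antisymm h h'
  exact ⟨MulEquiv.ofBijective (f.subgroupMap Δ) ((f.subgroupMap_surjective Δ).bijective_of_nat_card_le hc)⟩

/-- generators: level, first code, second code -/
abbrev Gn : Type := List (ℕ × ℕ × ℕ)
def g1 (b : Gn) : List (ℕ × ℕ) := b.map fun c => (c.1, c.2.1)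
def g2 (b : Gn) : List (ℕ × ℕ) := b.map fun c => (c.1, c.2.2)
def g12 (W : ℕ) (b : Gn) : List (ℕ × ℕ) := b.map fun c => (c.1, pr W c.2.1 c.2.2)

/-- isomorphism from paired generators -/
theorem iso_pair0 [Finite Γ] [Finite P] {m1 m2 : ℕ → ℕ → ℕ} {o1 o2 W : ℕ} {s1 : ℕ → Γ → Prop} {s2 : ℕ → P → Prop}
    (E1 : IsEv m1 o1 s1) (E2 : IsEv m2 o2 s2) (hW : ∀ a α, s2 a α → a < 2 ^ W)
    {b : Gn} (b1 : ∀ c ∈ b, ∃ g, s1 c.2.1 g) (b2 : ∀ c ∈ b, ∃ g, s2 c.2.2 g) {df : List (ℕ × List ℕ)}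
    {ls : List (ℕ × ℕ)} {css : List (List Chunk)}
    (h1 : ∀ cs ∈ css, ubC (pmul W m1 m2) (pr W o1 o2) (g12 W b) df ls cs = true) (h2 : ubS (g12 W b) ls css.flatten = true)
    (l1 : (ls.map Prod.snd).prod ≤ Nat.card (HL s1 (g1 b) 0)) (l2 : (ls.map Prod.snd).prod ≤ Nat.card (HL s2 (g2 b) 0)) :
    Nonempty (HL s1 (g1 b) 0 ≃* HL s2 (g2 b) 0) ∧ Nat.card (HL s1 (g1 b) 0) = (ls.map Prod.snd).prod := by
  have p : ∀ c ∈ b, pr W c.2.1 c.2.2 >>> W = c.2.1 ∧ pr W c.2.1 c.2.2 % 2 ^ W = c.2.2 := fun c hc =>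
    let ⟨_, e⟩ := b2 c hc; pr_spec (hW _ _ e)
  have u := (E1.prod E2 hW).ub (bc := g12 W b) (fun c' hc' => by
    obtain ⟨c, hc, rfl⟩ := List.mem_map.1 hc'
    obtain ⟨g, e⟩ := b1 c hc
    obtain ⟨g', e'⟩ := b2 c hc
    exact ⟨(g, g'), (p c hc).1.symm ▸ e, (p c hc).2.symm ▸ e'⟩) h1 h2
  obtain ⟨e1⟩ := iso_of_card (K := HL s1 (g1 b) 0) (MonoidHom.fst Γ P) ((closure_le _).2 fun g hg => by
      obtain ⟨c', hc', -, e⟩ := hg
      obtain ⟨c, hc, rfl⟩ := List.mem_map.1 hc'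
      obtain ⟨g', e'⟩ := b2 c hc
      exact ⟨(g, g'), subset_closure ⟨_, List.mem_map_of_mem hc, Nat.zero_le _, (p c hc).1.symm ▸ e,
        (p c hc).2.symm ▸ e'⟩, rfl⟩)
    (map_le_iff_le_comap.2 ((closure_le _).2 fun g hg => by
      obtain ⟨c', hc', -, e⟩ := hg
      obtain ⟨c, hc, rfl⟩ := List.mem_map.1 hc'
      exact subset_closure ⟨_, List.mem_map_of_mem hc, Nat.zero_le _, (p c hc).1 ▸ e.1⟩)) (u.trans l1)
  obtain ⟨e2⟩ := iso_of_card (K := HL s2 (g2 b) 0) (MonoidHom.snd Γ P) ((closure_le _).2 fun g hg => by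
      obtain ⟨c', hc', -, e⟩ := hg
      obtain ⟨c, hc, rfl⟩ := List.mem_map.1 hc'
      obtain ⟨g', e'⟩ := b1 c hc
      exact ⟨(g', g), subset_closure ⟨_, List.mem_map_of_mem hc, Nat.zero_le _, (p c hc).1.symm ▸ e',
        (p c hc).2.symm ▸ e⟩, rfl⟩)
    (map_le_iff_le_comap.2 ((closure_le _).2 fun g hg => by
      obtain ⟨c', hc', -, e⟩ := hg
      obtain ⟨c, hc, rfl⟩ := List.mem_map.1 hc'
      exact subset_closure ⟨_, List.mem_map_of_mem hc, Nat.zero_le _, (p c hc).2 ▸ e.2⟩)) (u.trans l2)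
  exact ⟨⟨e1.symm.trans e2⟩, le_antisymm ((Nat.card_congr e1.toEquiv).ge.trans u) l1⟩

theorem iso_pair [Finite Γ] [Finite P] {m1 m2 a1 a2 : ℕ → ℕ → ℕ} {o1 o2 W : ℕ} {s1 : ℕ → Γ → Prop} {s2 : ℕ → P → Prop}
    (E1 : IsEv m1 o1 s1) (E2 : IsEv m2 o2 s2) (A1 : IsAct a1 s1) (A2 : IsAct a2 s2) (hW : ∀ a α, s2 a α → a < 2 ^ W)
    {b : Gn} (b1 : ∀ c ∈ b, ∃ g, s1 c.2.1 g) (b2 : ∀ c ∈ b, ∃ g, s2 c.2.2 g) {df : List (ℕ × List ℕ)}
    {ls : List (ℕ × ℕ)} {css : List (List Chunk)} {x1 x2 : List ℕ}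
    (h1 : ∀ cs ∈ css, ubC (pmul W m1 m2) (pr W o1 o2) (g12 W b) df ls cs = true) (h2 : ubS (g12 W b) ls css.flatten = true)
    (h3 : lbC m1 a1 o1 (g1 b) df ls x1 = true) (h4 : lbC m2 a2 o2 (g2 b) df ls x2 = true) :
    Nonempty (HL s1 (g1 b) 0 ≃* HL s2 (g2 b) 0) ∧ Nat.card (HL s1 (g1 b) 0) = (ls.map Prod.snd).prod :=
  iso_pair0 E1 E2 hW b1 b2 h1 h2
    (E1.lb A1 (bc := g1 b) (fun c' hc' => by obtain ⟨c, hc, rfl⟩ := List.mem_map.1 hc'; exact b1 c hc) h3)
    (E2.lb A2 (bc := g2 b) (fun c' hc' => by obtain ⟨c, hc, rfl⟩ := List.mem_map.1 hc'; exact b2 c hc) h4)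

theorem HL_sub {s : ℕ → Γ → Prop} {b b' : List (ℕ × ℕ)} (h : b.map Prod.snd = b'.map Prod.snd) : HL s b 0 ≤ HL s b' 0 :=
  closure_mono fun _ ⟨c, hc, _, e⟩ => by
    obtain ⟨c', hc', e'⟩ := List.mem_map.1 (h ▸ List.mem_map_of_mem (f := Prod.snd) hc)
    exact ⟨c', hc', Nat.zero_le _, e' ▸ e⟩

section inst
variable {G : Type*} [Group G] {ρ : G →* Mx}

theorem evM (hρ : Function.Injective ρ) : IsEv BM.mm I1 fun A (g : G) => ρ g = mt A where
  one := by rw [map_one, mt_I1]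
  mul := fun h1 h2 => by rw [map_mul, mt_mm, h1, h2]
  inj := fun h1 h2 => hρ (h1.trans h2.symm)

theorem actM (ρ : G →* Mx) : IsAct vm fun A (g : G) => ρ g = mt A :=
  ⟨fun x g => nv (vt x ᵥ* ρ g), fun x a α h => by simp only [h, nv_vm], fun x a α β h e => by
    simp only [map_mul, ← vecMul_vecMul, h, ← vt_vm, e]⟩

/-- reversed product of coded permutations -/
def rmul (a b : ℕ) : ℕ := Gol.mul b a
def ract (x a : ℕ) : ℕ := ap a (Nat.mod x 24)

theorem evP : IsEv rmul oneC fun a (g : Equiv.Perm GolayPt) => code g⁻¹ = a where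
  one := code_one
  mul := fun h1 h2 => by rw [_root_.mul_inv_rev, code_mul, h1, h2]; rfl
  inj := fun h1 h2 => inv_injective (code_inj (h1.trans h2.symm))

theorem actP : IsAct ract fun a (g : Equiv.Perm GolayPt) => code g⁻¹ = a :=
  ⟨fun x g => ap (code g⁻¹) (x % 24), fun x a α h => by simp only [h]; rfl, fun x a α β h e => by
    have h24 : x % 24 < 24 := Nat.mod_lt _ (by norm_num)
    have e' : ap (code α⁻¹) (x % 24) = x := h.symm ▸ e
    show ap (code (α * β)⁻¹) (x % 24) = ap (code β⁻¹) (x % 24)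
    rw [_root_.mul_inv_rev, ap_mul_code _ _ h24, e', Nat.mod_eq_of_lt (e' ▸ ap_code_lt _ h24)]⟩

theorem ltP (a : ℕ) (g : Equiv.Perm GolayPt) (h : code g⁻¹ = a) : a < 2 ^ 120 := h ▸ (code_lt _).trans_eq (by norm_num)

end inst

end CA.Nl
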