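import Cfsg.Agent.Lib.J4.Ifc2

/-!
A subgroup `PGL₂(23)` in a group of type `J4`.
-/

set_option autoImplicit false
set_option linter.unusedSectionVars false

namespace CA.J4
open Cfsg CA.Gol CA.Ex2 CA.XS Subgroup

/-- extension of an embedding to an overgroup of index two -/
theorem ext_two {X G : Type*} [Group X] [Group G] {A : Subgroup X} {δ : X} {f : X → G} {i : G} (d2 : δ * δ = 1)
    (i2 : i * i = 1) (hδ : δ ∉ A) (hn : ∀ a ∈ A, δ * a * δ ∈ A) (fm : ∀ a ∈ A, ∀ b ∈ A, f (a * b) = f a * f b)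
    (fi : ∀ a ∈ A, f a = 1 → a = 1) (fc : ∀ a ∈ A, f (δ * a * δ) = i * f a * i) (hi : ∀ a ∈ A, f a ≠ i)
    {P : Subgroup X} (hP : ∀ x, x ∈ P ↔ x ∈ A ∨ x * δ ∈ A) : ∃ K : Subgroup G, Nonempty (K ≃* P) := by
  classical
  have f1 : f 1 = 1 := left_eq_mul.1 (by rw [← fm _ (one_mem _) _ (one_mem _), mul_one])
  have c1 : ∀ x y : X, x * δ * (δ * y) = x * y := fun x y => by rw [mul_assoc, ← mul_assoc δ, d2, one_mul]
  have no : ∀ x ∈ A, x * δ ∉ A := fun x hx e => hδ ((Subgroup.mul_mem_cancel_left _ hx).1 e)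
  let F : P →* G := MonoidHom.mk' (fun x => if (x : X) ∈ A then f x else f (x * δ) * i) fun ⟨x, hx⟩ ⟨y, hy⟩ => by
    show (if x * y ∈ A then f (x * y) else f (x * y * δ) * i) = _
    by_cases a : x ∈ A <;> by_cases b : y ∈ A <;> simp only [a, b, if_true, if_false]
    · rw [if_pos (mul_mem a b), fm _ a _ b]
    · rw [if_neg fun e => b ((Subgroup.mul_mem_cancel_left _ a).1 e), mul_assoc, fm _ a _ (((hP y).1 hy).resolve_left b),
        mul_assoc]
    · have a' := ((hP x).1 hx).resolve_left a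
      rw [if_neg fun e => a ((Subgroup.mul_mem_cancel_right _ b).1 e), ← c1 x y, mul_assoc _ _ δ, fm _ a' _ (hn y b),
        fc y b, mul_assoc, mul_assoc, mul_assoc, i2, mul_one, mul_assoc]
    · have a' := ((hP x).1 hx).resolve_left a
      have b' := ((hP y).1 hy).resolve_left b
      have e : x * y = x * δ * (δ * (y * δ) * δ) := by rw [mul_assoc δ, mul_assoc y, d2, mul_one, c1]
      rw [e, if_pos (mul_mem a' (hn _ b')), fm _ a' _ (hn _ b'), fc _ b']; group
  refine ⟨F.range, ⟨(MonoidHom.ofInjective ((injective_iff_map_eq_one F).2 fun ⟨x, hx⟩ e => ?_)).symm⟩⟩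
  change (if x ∈ A then f x else f (x * δ) * i) = 1 at e
  split_ifs at e with a
  · exact Subtype.ext (fi x a e)
  · exact absurd ((eq_inv_of_mul_eq_one_left e).trans (inv_eq_of_mul_eq_one_right i2))
      (hi _ (((hP x).1 hx).resolve_left a))

instance fact23 : Fact (Nat.Prime 23) := ⟨by norm_num⟩

/-- the action on the projective line -/
noncomputable def phi23 : GL (Fin 2) (ZMod 23) →* Pm := MulAction.toPermHom (GL (Fin 2) (ZMod 23)) (OnePoint (ZMod 23))

theorem phi_none (g : GL (Fin 2) (ZMod 23)) : phi23 g none = if g 1 0 = 0 then none else some (g 0 0 / g 1 0) :=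
  OnePoint.smul_infty_eq_ite g
theorem phi_some (g : GL (Fin 2) (ZMod 23)) (k : ZMod 23) : phi23 g (some k) =
    if g 1 0 * k + g 1 1 = 0 then none else some ((g 0 0 * k + g 0 1) / (g 1 0 * k + g 1 1)) :=
  OnePoint.smul_some_eq_ite

def hv1 : GolayPt → ZMod 23
  | none => 1
  | some x => x
def hv2 : GolayPt → ZMod 23
  | none => 0
  | some _ => 1

theorem phi_of (g : GL (Fin 2) (ZMod 23)) {p q : GolayPt}
    (h : (g 0 0 * hv1 p + g 0 1 * hv2 p) * hv2 q = (g 1 0 * hv1 p + g 1 1 * hv2 p) * hv1 q) : phi23 g p = q := by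
  have hd := g.det_ne_zero
  rw [Matrix.det_fin_two] at hd
  rcases p with _ | x <;> rcases q with _ | y <;> simp only [hv1, hv2, mul_one, mul_zero, add_zero] at h
  · rw [phi_none, if_pos h.symm]
  · have : g 1 0 ≠ 0 := fun e => hd (by
      rw [e, zero_mul] at h
      show g 0 0 * g 1 1 - g 0 1 * g 1 0 = 0
      rw [h, e]; ring)
    rw [phi_none, if_neg this, h, mul_div_cancel_left₀ _ this]
  · rw [phi_some, if_pos h.symm]
  · have : g 1 0 * x + g 1 1 ≠ 0 := fun e => hd (by
      rw [e, zero_mul] at h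
      show g 0 0 * g 1 1 - g 0 1 * g 1 0 = 0
      linear_combination g 0 0 * e - g 1 0 * h)
    rw [phi_some, if_neg this, h, mul_div_cancel_left₀ _ this]

theorem phi_range {a b c d : ZMod 23} {n : ℕ} (hd : a * d - b * c ≠ 0) (hv : valid n = true)
    (h : ∀ p, (a * hv1 p + b * hv2 p) * hv2 (pt (ap n (ix p))) = (c * hv1 p + d * hv2 p) * hv1 (pt (ap n (ix p)))) :
    perm n ∈ phi23.range :=
  ⟨Matrix.GeneralLinearGroup.mkOfDetNeZero !![a, b; c, d] (by rwa [Matrix.det_fin_two_of]), Equiv.ext fun p => by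
    rw [phi_of _ (h p), ← perm_pt hv (ix_lt p), pt_ix]⟩

theorem phi_center {g : GL (Fin 2) (ZMod 23)} (h1 : phi23 g none = none) (h2 : phi23 g (some 0) = some 0)
    (h3 : phi23 g (some 1) = some 1) : g ∈ center (GL (Fin 2) (ZMod 23)) := by
  rw [phi_none] at h1
  rw [phi_some] at h2 h3
  split_ifs at h1 h2 h3 with a b c
  rw [a, zero_mul, zero_add] at b h2 h3
  simp only [mul_zero, zero_add, Option.some.injEq, div_eq_zero_iff, b, or_false] at h2
  rw [h2, mul_one, add_zero, Option.some.injEq, div_eq_one_iff_eq b] at h3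
  refine Matrix.GeneralLinearGroup.mem_center_iff_val_mem_range_scalar.2 ⟨g 0 0, ?_⟩
  ext i j
  fin_cases i <;> fin_cases j <;> simp [a, h2, h3]

theorem ker_phi : phi23.ker = center (GL (Fin 2) (ZMod 23)) := by
  ext g
  refine ⟨fun h => phi_center (by rw [h]; rfl) (by rw [h]; rfl) (by rw [h]; rfl), fun h => Equiv.ext fun p => phi_of g ?_⟩
  obtain ⟨a, ha⟩ := Matrix.GeneralLinearGroup.mem_center_iff_val_mem_range_scalar.1 h
  have e : ∀ i j, g i j = Matrix.scalar (Fin 2) a i j := fun i j => by rw [ha]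
  simp only [e, Matrix.scalar_apply, Matrix.diagonal_apply_eq, Equiv.Perm.one_apply]
  rw [Matrix.diagonal_apply_ne _ (by decide), Matrix.diagonal_apply_ne _ (by decide)]
  ring

def al23C : ℕ := 0xb82d5a4e5183dcd62d4941cc520c41
def aiC : ℕ := 0xbd6939460f7358b525073148310416
def deC : ℕ := 0xb8443214c74254b635cf84653a56c0
/-- the subgroup `L₂(23)` of `M24` -/
def L23 : Subgroup Pm := closure {perm al23C, x0, s0}

theorem al23C_in : inM24 al23C = true := by decide +kernel
theorem al_L : perm al23C ∈ L23 := subset_closure (Or.inl rfl)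
theorem x0_L : x0 ∈ L23 := subset_closure (Or.inr (Or.inl rfl))
theorem s0_L : s0 ∈ L23 := subset_closure (Or.inr (Or.inr rfl))
theorem L23_le : L23 ≤ M24 := (closure_le _).2 (by
  rintro _ (rfl | rfl | rfl)
  exacts [perm_mem_M24 al23C_in, M22_le x0_mem, s0_mem24])
theorem code_de : code (perm deC) = deC := code_perm (by decide +kernel)
theorem code_al : code (perm al23C) = al23C := code_perm' al23C_in
theorem de_sq : perm deC * perm deC = 1 := code_inj (by rw [code_mul, code_de, code_one]; decide +kernel)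
theorem de_al : perm deC * perm al23C * perm deC = (perm al23C)⁻¹ :=
  eq_inv_of_mul_eq_one_left (code_inj (by simp only [code_mul, code_de, code_al, code_one]; decide +kernel))
theorem de_x : perm deC * x0 * perm deC = x0 := code_inj (by simp only [code_mul, code_de, cx]; decide +kernel)
theorem de_s : perm deC * s0 * perm deC = s0 := code_inj (by simp only [code_mul, code_de, cs]; decide +kernel)
theorem de_not : perm deC ∉ M24 := fun h => absurd (mem_M24_iff_code.1 h) (by rw [code_de]; decide +kernel)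

theorem L23_ind {P : Pm → Prop} (h1 : P (perm al23C)) (h2 : P x0) (h3 : P s0)
    (hm : ∀ a ∈ L23, ∀ b ∈ L23, P a → P b → P (a * b)) (h0 : P 1) {a : Pm} (ha : a ∈ L23) : P a := by
  have le : ∀ x ∈ Submonoid.closure {perm al23C, x0, s0}, x ∈ L23 := fun x hx => le_closure_toSubmonoid _ hx
  rw [L23, ← mem_toSubmonoid, closure_toSubmonoid_of_finite] at ha
  induction ha using Submonoid.closure_induction with
  | mem x hx => rcases hx with rfl | rfl | rfl; exacts [h1, h2, h3]
  | one => exact h0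
  | mul x y hx hy a b => exact hm x (le x hx) y (le y hy) a b

theorem de_mul (a b : Pm) : perm deC * (a * b) * perm deC = perm deC * a * perm deC * (perm deC * b * perm deC) := by
  rw [show perm deC * a * perm deC * (perm deC * b * perm deC) = perm deC * a * (perm deC * perm deC) * b * perm deC by
    group, de_sq]; group

theorem de_norm {a : Pm} (ha : a ∈ L23) : perm deC * a * perm deC ∈ L23 :=
  L23_ind (P := fun a => perm deC * a * perm deC ∈ L23) (de_al ▸ inv_mem al_L) (de_x.symm ▸ x0_L) (de_s.symm ▸ s0_L)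
    (fun a _ b _ h1 h2 => by rw [de_mul]; exact mul_mem h1 h2) (by rw [mul_one, de_sq]; exact one_mem _) ha

theorem mem_range_phi {x : Pm} : x ∈ phi23.range ↔ x ∈ L23 ∨ x * perm deC ∈ L23 := by
  have le : L23 ≤ phi23.range := (closure_le _).2 (by
    rintro _ (rfl | rfl | rfl)
    · exact phi_range (a := 1) (b := 1) (c := 0) (d := 1) (by decide) (by decide +kernel) (by decide +kernel)
    · exact phi_range (a := 2) (b := 0) (c := 0) (d := 1) (by decide) (by decide +kernel) (by decide +kernel)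
    · exact phi_range (a := 0) (b := -1) (c := 1) (d := 0) (by decide) (by decide +kernel) (by decide +kernel))
  have de : perm deC ∈ phi23.range :=
    phi_range (a := -1) (b := 0) (c := 0) (d := 1) (by decide) (by decide +kernel) (by decide +kernel)
  refine ⟨fun hx => ?_, fun hx => hx.elim (le ·) fun h => (Subgroup.mul_mem_cancel_right _ de).1 (le h)⟩
  have ap' : ∀ (g : Pm) (i : ℕ) (p : GolayPt), ap (code g) (ix p) = i → g p = pt i := fun g i p e => by
    rw [← e, ap_code_ix, pt_ix]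
  obtain ⟨a, ha, e1⟩ : ∃ a ∈ L23, (a * x) none = none := by
    have : allLt (fun i => Nat.beq i 23 || anyLt (fun k => Nat.beq (ap (mul sC (powC al23C k)) i) 23) 23) 24 = true := by
      decide +kernel
    have := allLt_iff.1 this _ (ix_lt (x none))
    rw [Bool.or_eq_true, beq_iff, anyLt_iff] at this
    rcases this with e | ⟨k, -, e⟩
    · exact ⟨1, one_mem _, ix_inj e⟩
    · exact ⟨s0 * perm al23C ^ k, mul_mem s0_L (pow_mem al_L k), ap' (s0 * perm al23C ^ k) 23 (x none) (by
        rw [code_mul, code_pow, cs, code_al]; exact beq_iff.1 e)⟩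
  obtain ⟨b, hb, e2, e3⟩ : ∃ b ∈ L23, (b * (a * x)) none = none ∧ (b * (a * x)) (some 0) = some 0 := by
    have : allLt (fun i => Nat.beq i 23 || anyLt (fun k => force (powC al23C k) fun g =>
      Nat.beq (ap g i) 0 && Nat.beq (ap g 23) 23) 23) 24 = true := by decide +kernel
    have := allLt_iff.1 this _ (ix_lt ((a * x) (some 0)))
    rw [Bool.or_eq_true, beq_iff, anyLt_iff] at this
    rcases this with e | ⟨k, -, e⟩
    · exact absurd ((a * x).injective ((ix_inj (q := none) e).trans e1.symm)) (by decide)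
    · rw [force_eq, Bool.and_eq_true, beq_iff, beq_iff, ← code_al, ← code_pow] at e
      exact ⟨_, pow_mem al_L k, by rw [Equiv.Perm.mul_apply, e1]; exact ap' _ 23 none e.2,
        ap' (perm al23C ^ k) 0 ((a * x) (some 0)) e.1⟩
  have fin : ∀ c ∈ phi23.range, c none = none → c (some 0) = some 0 → c ((b * (a * x)) (some 1)) = some 1 →
      x = (c * b * a)⁻¹ := fun c hc f1 f2 f3 => by
    obtain ⟨g, hg⟩ := mul_mem hc (mul_mem (le hb) (mul_mem (le ha) hx))
    have : g ∈ phi23.ker := ker_phi ▸ phi_center (by rw [hg, Equiv.Perm.mul_apply, e2, f1])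
      (by rw [hg, Equiv.Perm.mul_apply, e3, f2]) (by rw [hg, Equiv.Perm.mul_apply, f3])
    rw [MonoidHom.mem_ker, hg] at this
    exact eq_inv_of_mul_eq_one_right (by rw [← this]; group)
  have : allLt (fun i => Nat.beq i 23 || Nat.beq i 0 || anyLt (fun k => force (powC xC k) fun g =>
    Nat.beq (ap g 0) 0 && Nat.beq (ap g 23) 23 && (Nat.beq (ap g i) 1 || Nat.beq (ap (mul g deC) i) 1)) 11) 24 = true := by
    decide +kernel
  have := allLt_iff.1 this _ (ix_lt ((b * (a * x)) (some 1)))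
  rw [Bool.or_eq_true, Bool.or_eq_true, beq_iff, beq_iff, anyLt_iff] at this
  rcases this with (e | e) | ⟨k, -, e⟩
  · exact absurd ((b * (a * x)).injective ((ix_inj (q := none) e).trans e2.symm)) (by decide)
  · exact absurd ((b * (a * x)).injective ((ix_inj (q := some 0) e).trans e3.symm)) (by decide)
  rw [force_eq, Bool.and_eq_true, Bool.and_eq_true, Bool.or_eq_true, beq_iff, beq_iff, beq_iff, beq_iff, ← cx,
    ← code_pow] at e
  have f1 : (x0 ^ k) none = none := ap' _ 23 none e.1.2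
  have f2 : (x0 ^ k) (some 0) = some 0 := ap' _ 0 (some 0) e.1.1
  rcases e.2 with e | e
  · left
    rw [fin _ (le (pow_mem x0_L k)) f1 f2 (ap' _ 1 _ e)]
    exact inv_mem (mul_mem (mul_mem (pow_mem x0_L k) hb) ha)
  · right
    rw [← code_de, ← code_mul] at e
    rw [fin _ (mul_mem (le (pow_mem x0_L k)) de) (by
      rw [Equiv.Perm.mul_apply, ap' (perm deC) 23 none (by rw [code_de]; decide +kernel)]; exact f1) (by
      rw [Equiv.Perm.mul_apply, ap' (perm deC) 0 (some 0) (by rw [code_de]; decide +kernel)]; exact f2) (ap' _ 1 _ e)]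
    have := inv_mem (mul_mem (de_norm (pow_mem x0_L k)) (mul_mem hb ha))
    convert this using 1
    rw [← inv_eq_of_mul_eq_one_right de_sq]
    simp only [mul_inv_rev, inv_inv, mul_assoc, inv_eq_of_mul_eq_one_right de_sq]

variable {G : Type*} [Group G] [Finite G]

theorem St.res5578 (S : St G) (hB : S.Big 23 22) (hE : ∀ S' : St G, S'.ElevComm) :
    ∃ K : Subgroup G, Nonempty (↥K ≃* GL (Fin 2) (ZMod 23) ⧸ center (GL (Fin 2) (ZMod 23))) := by
  obtain ⟨S, -, -, hw⟩ := S.exists_swap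
  have M := S.mm
  have aM := L23_le al_L
  have xM := L23_le x0_L
  have ou : orderOf (pel S.κ (perm al23C)) = 23 := by rw [M.orderOf_k aM]; exact order_perm al23C_in (by norm_num) (by decide +kernel)
  obtain ⟨c1, c2⟩ := hB _ ou
  have bu : pel S.κ x0 * pel S.κ (perm al23C) * (pel S.κ x0)⁻¹ = pel S.κ (perm al23C) ^ 2 := by
    rw [← pel_conj _ xM aM, ← pel_pow _ aM]
    exact congrArg _ (mul_inv_eq_iff_eq_mul.2 (code_inj (by simp only [code_mul, code_pow, cx, code_al]; decide +kernel)))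
  have nr : ∀ a ∈ M24, a * perm al23C ≠ (perm al23C)⁻¹ * a := fun a ha e => by
    have i : (perm al23C)⁻¹ = perm aiC := inv_eq_of_mul_eq_one_right (by
      rw [perm_mul' al23C_in (by decide +kernel), ← perm_oneC]; exact congrArg _ (by decide +kernel))
    rw [i] at e
    exact absurd (all24_sound (P := pCj al23C aiC) (leaf := fun _ => false) (k := 0xbdab49ca307b9ac5a928398a418820)
      (ki := 0xbdab49ca307b9ac5a928398a418820) (by decide +kernel) ha (sat_cj' al23C_in (by decide +kernel) e)) (by decide)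
  have ob : orderOf (pel S.κ x0) = 11 := by rw [M.orderOf_k xM, x0_ord]
  generalize hu : pel S.κ (perm al23C) = u at ou c1 c2 bu
  generalize hb : pel S.κ x0 = b at bu ob
  obtain ⟨i, i2, iu, ib⟩ : ∃ i, i * i = 1 ∧ i * u * i⁻¹ = u⁻¹ ∧ i * b * i⁻¹ = b := by
    obtain ⟨⟨j, hj⟩, oj⟩ := exists_prime_orderOf_dvd_card' (G := 𝐍(zpowers u)) 2 (by rw [c2]; norm_num)
    rw [orderOf_mk] at oj
    have j2 : j * j = 1 := by rw [← pow_two, ← oj, pow_orderOf_eq_one]
    obtain ⟨k, hk, e⟩ := exists_pow_lt (conj_mem_of_mem_normalizer hj (mem_zpowers u))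
    rw [ou] at hk
    have ju : j * u * j⁻¹ = u⁻¹ := by
      have e2 : u ^ (k * k) = u ^ 1 := by
        rw [pow_mul, ← e, conj_pow, ← e, show j * (j * u * j⁻¹) * j⁻¹ = j * j * u * (j * j)⁻¹ by group, j2]; simp
      rw [pow_eq_pow_iff_modEq, ou] at e2
      obtain rfl | rfl : k = 1 ∨ k = 22 := by
        unfold Nat.ModEq at e2
        interval_cases k <;> simp_all
      · have : j ∈ zpowers u := c1 ▸ conj_eq_iff_mem_cent1.1 (e.trans (pow_one u))
        have := orderOf_dvd_of_mem_zpowers this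
        rw [oj, ou] at this
        exact absurd this (by norm_num)
      · rw [e, eq_inv_iff_mul_eq_one, ← pow_succ]; exact orderOf_dvd_iff_pow_eq_one.1 (by rw [ou])
    have ji : j⁻¹ = j := inv_eq_of_mul_eq_one_right j2
    have bi : b * u⁻¹ * b⁻¹ = (u ^ 2)⁻¹ := by rw [← bu]; group
    have m : b⁻¹ * (j * b * j⁻¹) ∈ zpowers u := c1 ▸ conj_eq_iff_mem_cent1.1 (by
      have e1 : j⁻¹ * u * j = u⁻¹ := by rw [← ju, ji]
      have e2 : j * (u ^ 2)⁻¹ * j⁻¹ = u ^ 2 := by rw [← conj_inv, ← conj_pow, ju]; simp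
      rw [show b⁻¹ * (j * b * j⁻¹) * u * (b⁻¹ * (j * b * j⁻¹))⁻¹ = b⁻¹ * (j * (b * (j⁻¹ * u * j) * b⁻¹) * j⁻¹) * b by
        group, e1, bi, e2, ← bu]; group)
    obtain ⟨n, hn⟩ := mem_zpowers_iff.1 m
    have bn : ∀ n : ℤ, b * u ^ n * b⁻¹ = u ^ (2 * n) := fun n => by rw [← conj_zpow, bu, ← zpow_natCast, ← zpow_mul]; rfl
    have jn : ∀ n : ℤ, j * u ^ n * j⁻¹ = u ^ (-n) := fun n => by rw [← conj_zpow, ju]; simp
    refine ⟨u ^ (2 * n) * j, ?_, ?_, ?_⟩
    · rw [show u ^ (2 * n) * j * (u ^ (2 * n) * j) = u ^ (2 * n) * (j * u ^ (2 * n) * j⁻¹) * (j * j) by group, jn, j2]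
      group
    · rw [show u ^ (2 * n) * j * u * (u ^ (2 * n) * j)⁻¹ = u ^ (2 * n) * (j * u * j⁻¹) * (u ^ (2 * n))⁻¹ by group, ju]
      group
    · rw [show u ^ (2 * n) * j * b * (u ^ (2 * n) * j)⁻¹ = u ^ (2 * n) * (b * (b⁻¹ * (j * b * j⁻¹)) * (u ^ (2 * n))⁻¹ * b⁻¹) * b
        by group, ← hn, mul_assoc b, ← zpow_neg, ← zpow_add, bn]
      group
  have ii : i⁻¹ = i := inv_eq_of_mul_eq_one_right i2
  have tb : S.t ∈ 𝐂[b] := by
    have := M.acts' xM _ (ev_even DD_ev)
    rw [(memD2.1 (M22_le_D2 x0_mem)).2, hb] at this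
    exact mem_cent1_comm.1 (conj_eq_iff_mem_cent1.1 this)
  have wi := hE S b S.t (pel S.κ s0) i ob tb (IsConj.refl _) (by rwa [St.e, M.el_k] at hw) (by
    rw [← hb, ← pel_conj _ s0_mem24 xM, ← pel_inv _ xM, sx, mul_inv_cancel_right]
    exact congrArg _ (eq_inv_of_mul_eq_one_left x0_pow)) (conj_eq_iff_mem_cent1.1 ib) i2
  obtain ⟨K, ⟨e⟩⟩ := ext_two (A := L23) (f := pel S.κ) (i := i) de_sq i2 (fun h => de_not (L23_le h))
    (fun _ => de_norm) (fun a ha b hb => pel_mul _ (L23_le ha) (L23_le hb))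
    (fun a ha e => M.k_inj (L23_le ha) (one_mem _) (e.trans (pel_one _).symm))
    (fun a ha => L23_ind (P := fun a => pel S.κ (perm deC * a * perm deC) = i * pel S.κ a * i)
      (by rw [de_al, pel_inv _ aM, hu, ← iu, ii]) (by rw [de_x, hb]; rw [ii] at ib; exact ib.symm) (by
        rw [de_s, ← wi, mul_assoc, i2, mul_one]) (fun a ha b hb h1 h2 => by
        rw [de_mul, pel_mul _ (L23_le (de_norm ha)) (L23_le (de_norm hb)), h1, h2, pel_mul _ (L23_le ha) (L23_le hb),
          show i * pel S.κ a * i * (i * pel S.κ b * i) = i * pel S.κ a * (i * i) * pel S.κ b * i by group, i2]; group)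
      (by rw [mul_one, de_sq, pel_one, mul_one, i2]) ha)
    (fun a ha e => nr a (L23_le ha) (M.k_inj (mul_mem (L23_le ha) aM) (mul_mem (inv_mem aM) (L23_le ha)) (by
      rw [pel_mul _ (L23_le ha) aM, pel_mul _ (inv_mem aM) (L23_le ha), pel_inv _ aM, e, hu, ← iu]; group)))
    (P := phi23.range) fun _ => mem_range_phi
  exact ⟨K, ⟨e.trans ((QuotientGroup.quotientKerEquivRange phi23).symm.trans
    (QuotientGroup.quotientMulEquivOfEq ker_phi))⟩⟩

end CA.J4
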