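import Cfsg.Agent.Lib.J4.Nl0
import Cfsg.Agent.Lib.J4.MxP
import Cfsg.Agent.Lib.J4.Pgl
import Cfsg.Agent.Lib.J4.Five
import Cfsg.Agent.Lib.J4.RepT

/-!
Certificates for maximality in `J4`: coset lists in local subgroups, orbit bounds, the final sieve.
-/

set_option autoImplicit false
set_option linter.unusedSectionVars false

namespace CA.Nl
open CA.Gol CA.J4 CA.BM Matrix Cfsg Subgroup

/-- strictly increasing, bounded below -/
def inc (l : List ℕ) : ℕ → Bool := List.rec (fun _ => true) (fun a _ ih p => cn (Nat.ble p a) (ih (Nat.succ a)) false) l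

theorem inc_spec (l : List ℕ) : ∀ p, inc l p = true → (∀ a ∈ l, p ≤ a) ∧ l.Nodup := by
  induction l with
  | nil => exact fun _ _ => ⟨nofun, List.nodup_nil⟩
  | cons a l ih =>
    intro p H
    obtain ⟨h1, h2⟩ := cn_iff.1 H
    obtain ⟨h3, h4⟩ := ih _ h2
    rw [ble_iff] at h1
    exact ⟨fun b hb => (List.mem_cons.1 hb).elim (fun e => e ▸ h1) fun hb => h1.trans (Nat.le_of_succ_le (h3 b hb)),
      List.nodup_cons.2 ⟨fun hb => Nat.not_succ_le_self a (h3 a hb), h4⟩⟩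

abbrev Item : Type := ℕ × List ℕ × List (List ℕ)
def ky1 (v B : ℕ) : ℕ := Nat.mod (vm v B) 1000000007
/-- each listed coset representative generates a big group together with `TK` -/
def crt (TN TK PL : List ℕ) (v : ℕ) (l : List Item) : Bool := allL l fun it => force (ev1 TN it.2.1) fun B =>
  cn (Nat.beq (ky1 v B) it.1) (cn (Nat.beq B I1) true (gd (B :: TK) PL it.2.2)) false
/-- the list is complete -/
def cvS (n v : ℕ) (bc : List (ℕ × ℕ)) (df : List (ℕ × List ℕ)) (ls : List (ℕ × ℕ)) (xs : List ℕ) (l : List Item) : Bool :=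
  allL bc (fun c => Nat.beq (vm v c.2) v) && lbC BM.mm vm I1 bc df ls xs && inc (l.map (·.1)) 0 &&
    Nat.ble n (l.length * (ls.map Prod.snd).prod)

def bldP (df : List (ℕ × ℕ)) : List (ℕ × ℕ) → (List (ℕ × ℕ) → Bool) → Bool :=
  List.rec (fun T k => k T) (fun d _ ih T k => force (BM.mm (lk (I1, I1) T d.1).1 (lk (I1, I1) T d.2).1) fun A =>
    force (BM.mm (lk (I1, I1) T d.2).2 (lk (I1, I1) T d.1).2) fun B => ih ((A, B) :: T) k) df
def trp (M v : ℕ) (T : List (ℕ × ℕ)) : List (ℕ × ℕ × ℕ) → (List (ℕ × ℕ × ℕ) → Bool) → Bool :=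
  List.rec (fun Q k => k Q) (fun p _ ih Q k => force (BM.mm p.2 M) fun D => force (BM.mm D p.1) fun C =>
    force (vm v p.2) fun w => ih ((p.1, C, w) :: Q) k) T
def orbK (d : ℕ × ℕ × ℕ) (Q : List (ℕ × ℕ × ℕ)) (ps : List (ℕ × ℕ)) : ℕ → Bool :=
  List.rec (fun _ => true) (fun p _ ih b => force (vm (vm (lk d Q p.2).2.2 (lk d Q p.1).2.1) (lk d Q p.2).1) fun k =>
    cn (Nat.ble b k) (ih (Nat.succ k)) false) ps
/-- the conjugates of the matrix `M` -/
def orbC (M v : ℕ) (T df ps : List (ℕ × ℕ)) : Bool :=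
  allL T (fun p => Nat.beq (BM.mm p.1 p.2) I1) && bldP df T fun T' => trp M v T' [] fun Q => orbK (I1, M, v) Q ps 0

def cmB (M A : ℕ) : Bool := Nat.beq (BM.mm A M) (BM.mm M A)
def nrL (A : ℕ) (T : List ℕ) : List ℕ → Bool :=
  List.rec (fun _ => true) (fun B _ ih ks => List.rec false (fun k ks _ => cn (Nat.blt k 128)
    (cn (Nat.beq (BM.mm B A) (BM.mm (BM.pw A k) B)) (ih ks) false) false) ks) T

variable {G : Type*} [Group G] [Finite G] {ρ : G →* Mx}

theorem HL_le (hρ : Function.Injective ρ) {K : Subgroup G} {bc : List (ℕ × ℕ)} (h : AllK ρ K (bc.map Prod.snd)) (l : ℕ) :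
    HL (fun A (g : G) => ρ g = mt A) bc l ≤ K := (closure_le _).2 fun _ ⟨_, hc, _, e⟩ =>
  let ⟨_, hg, e'⟩ := h _ (List.mem_map_of_mem hc); hρ (e'.trans e.symm) ▸ hg

theorem allK_HL {bc : List (ℕ × ℕ)} (h : AllK ρ ⊤ (bc.map Prod.snd)) :
    AllK ρ (HL (fun A (g : G) => ρ g = mt A) bc 0) (bc.map Prod.snd) := fun A hA => by
  obtain ⟨g, -, e⟩ := h A hA
  obtain ⟨c, hc, rfl⟩ := List.mem_map.1 hA
  exact ⟨g, subset_closure ⟨c, hc, Nat.zero_le _, e⟩, e⟩

theorem ex_of_allK {K : Subgroup G} {bc : List (ℕ × ℕ)} (h : AllK ρ K (bc.map Prod.snd)) : ∀ c ∈ bc, ∃ g, ρ g = mt c.2 :=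
  fun _ hc => let ⟨g, _, e⟩ := h _ (List.mem_map_of_mem hc); ⟨g, e⟩

theorem lbK (hρ : Function.Injective ρ) {K : Subgroup G} {bc ls : List (ℕ × ℕ)} {df : List (ℕ × List ℕ)} {xs : List ℕ}
    (h : AllK ρ K (bc.map Prod.snd)) (H : lbC BM.mm vm I1 bc df ls xs = true) : (ls.map Prod.snd).prod ≤ Nat.card K :=
  ((evM hρ).lb (actM ρ) (ex_of_allK h) H).trans (card_le_of_le (HL_le hρ h 0))

theorem allK_inf (hρ : Function.Injective ρ) {K L : Subgroup G} {T : List ℕ} (h : AllK ρ K T) (h' : AllK ρ L T) :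
    AllK ρ (K ⊓ L) T := fun A hA =>
  let ⟨g, hg, e⟩ := h A hA; let ⟨_, hg', e'⟩ := h' A hA; ⟨g, ⟨hg, hρ (e'.trans e.symm) ▸ hg'⟩, e⟩

theorem allK_mono {K L : Subgroup G} {T : List ℕ} (h : AllK ρ K T) (h' : K ≤ L) : AllK ρ L T := fun A hA => (h A hA).mono h'

theorem allK_sub {K : Subgroup G} {T U : List ℕ} (h : AllK ρ K T) (h' : allL U (memL · T) = true) : AllK ρ K U :=
  fun A hA => h A (memL_iff.1 (allL_iff.1 h' A hA))

theorem cover (hρ : Function.Injective ρ) {N K : Subgroup G} {TN TK PL xs : List ℕ} {n v : ℕ} {bc ls : List (ℕ × ℕ)}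
    {df : List (ℕ × List ℕ)} {Cs : List (List Item)} (hn : Nat.card N ≤ n) (hN : AllK ρ N TN) (hK : AllK ρ K TK)
    (h0 : AllK ρ (K ⊓ N) (bc.map Prod.snd)) (hP : ∀ p ∈ PL, p.Prime ∧ p < 128) (h1 : ∀ c ∈ Cs, crt TN TK PL v c = true)
    (h2 : cvS n v bc df ls xs Cs.flatten = true) {X : Subgroup G} (hX : K ≤ X) (hPX : ¬ ∀ p ∈ PL, p ∣ Nat.card X) :
    X ⊓ N ≤ K := by
  simp only [cvS, Bool.and_eq_true, ble_iff, allL_iff, beq_iff] at h2
  obtain ⟨⟨⟨a1, a2⟩, a3⟩, a4⟩ := h2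
  have l := (evM hρ).lb (actM ρ) (ex_of_allK h0) a2
  have hY := HL_le hρ h0 0
  intro x hx
  have hφ : ∀ y ∈ HL (fun A (g : G) => ρ g = mt A) bc 0, vt v ᵥ* ρ y = vt v := fun y hy => by
    induction hy using closure_induction with
    | mem y hy => obtain ⟨c, hc, -, e⟩ := hy; rw [e, ← vt_vm, a1 c hc]
    | one => rw [map_one, vecMul_one]
    | mul y z _ _ h1 h2 => rw [map_mul, ← vecMul_vecMul, h1, h2]
    | inv y _ h1 => rw [← h1, vecMul_vecMul, ← map_mul, mul_inv_cancel, map_one, vecMul_one, h1]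
  obtain ⟨y, hy, g, pg, rfl⟩ := (cosets (K := N) (φ := fun g => nv (vt v ᵥ* ρ g) % 1000000007)
    (P := fun g => g ∈ X → g ∈ K) (hY.trans inf_le_right)
    (fun y hy g => by simp only [map_mul, ← vecMul_vecMul, hφ y hy]) (inc_spec _ _ a3).2 fun k hk => by
      obtain ⟨it, hi, rfl⟩ := List.mem_map.1 hk
      obtain ⟨c, hc, hi⟩ := List.mem_flatten.1 hi
      have := allL_iff.1 (h1 c hc) it hi
      rw [force_eq] at this
      obtain ⟨b1, b2⟩ := cn_iff.1 this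
      obtain ⟨g, hg, e⟩ := hN.ev1 it.2.1
      refine ⟨g, hg, by simp only [e, nv_vm]; exact beq_iff.1 b1, fun gx => ?_⟩
      cases b : Nat.beq (ev1 TN it.2.1) I1
      · rw [b, cn_false] at b2
        exact absurd (gd_spec hρ (AllK.cons ⟨g, gx, e⟩ (allK_mono hK hX)) hP _ b2) hPX
      · rw [eq_of_beq hρ e ((map_one ρ).trans mt_I1.symm) b]; exact one_mem _).2
    (by rw [List.length_map]; exact hn.trans (a4.trans (Nat.mul_le_mul_left _ l))) x hx.2
  exact mul_mem (hY hy).1 (pg ((Subgroup.mul_mem_cancel_left _ (hX (hY hy).1)).1 hx.1))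

variable (ρ) in
/-- the elements commuting with a matrix -/
def Cm (M : ℕ) : Subgroup G where
  carrier := {g | ρ g * mt M = mt M * ρ g}
  one_mem' := by simp
  mul_mem' := fun {a b} (ha : _ = _) (hb : _ = _) => show _ = _ by
    rw [map_mul, mul_assoc, hb, ← mul_assoc, ha, mul_assoc]
  inv_mem' := fun {a} (ha : _ = _) => show _ = _ by
    rw [← mul_one (ρ a⁻¹ * mt M), ← map_one ρ, ← mul_inv_cancel a, map_mul, ← mul_assoc, mul_assoc _ (mt M), ← ha,
      ← mul_assoc, ← map_mul, inv_mul_cancel, map_one, one_mul]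

theorem allK_Cm {K : Subgroup G} {T : List ℕ} {M : ℕ} (h : AllK ρ K T) (H : allL T (cmB M) = true) :
    AllK ρ (K ⊓ Cm ρ M) T := fun A hA =>
  let ⟨g, hg, e⟩ := h A hA
  ⟨g, ⟨hg, show _ = _ by rw [e, ← mt_mm, ← mt_mm, beq_iff.1 (allL_iff.1 H A hA)]⟩, e⟩

theorem Cm_eq (hρ : Function.Injective ρ) {a : G} {A : ℕ} (e : ρ a = mt A) : Cm ρ A = 𝐂[a] := by
  ext g
  rw [mem_cent1_iff]
  show ρ g * mt A = mt A * ρ g ↔ _
  rw [← e, ← map_mul, ← map_mul, hρ.eq_iff]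

theorem allK_norm (hρ : Function.Injective ρ) {a : G} {A : ℕ} (e : ρ a = mt A) {K : Subgroup G} (T : List ℕ) :
    ∀ ks, AllK ρ K T → nrL A T ks = true → AllK ρ 𝐍(zpowers a) T := by
  induction T with
  | nil => exact fun _ _ _ => AllK.nil _
  | cons B T ih =>
    intro ks h H
    cases ks with
    | nil => cases H
    | cons k ks =>
      obtain ⟨h1, H⟩ := cn_iff.1 H
      obtain ⟨h2, H⟩ := cn_iff.1 H
      obtain ⟨g, -, eg⟩ := h B List.mem_cons_self
      exact AllK.cons ⟨g, mem_norm_zpowers (k := k) (hρ (by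
        rw [map_mul, map_mul, map_pow, eg, e, ← mt_pw _ (blt_iff.1 h1), ← mt_mm, ← mt_mm, beq_iff.1 h2])), eg⟩
        (ih ks (fun C hC => h C (List.mem_cons_of_mem _ hC)) H)

variable (ρ) in
def InP (K : Subgroup G) (p : ℕ × ℕ) : Prop := ∃ g ∈ K, ρ g = mt p.1 ∧ ρ g⁻¹ = mt p.2
variable (ρ) in
def InQ (K : Subgroup G) (M v : ℕ) (q : ℕ × ℕ × ℕ) : Prop :=
  ∃ g ∈ K, ρ g = mt q.1 ∧ ρ g⁻¹ * mt M * ρ g = mt q.2.1 ∧ vt v ᵥ* ρ g⁻¹ = vt q.2.2

theorem bldP_spec {K : Subgroup G} {k : List (ℕ × ℕ) → Bool} (df : List (ℕ × ℕ)) :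
    ∀ T, (∀ p ∈ T, InP ρ K p) → bldP df T k = true → ∃ T', (∀ p ∈ T', InP ρ K p) ∧ k T' = true := by
  induction df with
  | nil => exact fun T h H => ⟨T, h, H⟩
  | cons d df ih =>
    intro T h H
    rw [show bldP (d :: df) T k = force (BM.mm (lk (I1, I1) T d.1).1 (lk (I1, I1) T d.2).1) fun A =>
      force (BM.mm (lk (I1, I1) T d.2).2 (lk (I1, I1) T d.1).2) fun B => bldP df ((A, B) :: T) k from rfl,
      force_eq, force_eq] at H
    have h1 : InP ρ K (I1, I1) := ⟨1, one_mem _, by rw [map_one, mt_I1], by rw [inv_one, map_one, mt_I1]⟩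
    obtain ⟨a, ha, a1, a2⟩ := lk_of h1 h d.1
    obtain ⟨b, hb, b1, b2⟩ := lk_of h1 h d.2
    exact ih _ (List.forall_mem_cons.2 ⟨⟨a * b, mul_mem ha hb, by rw [map_mul, mt_mm, a1, b1], by
      rw [_root_.mul_inv_rev, map_mul, mt_mm, a2, b2]⟩, h⟩) H

theorem trp_spec {K : Subgroup G} {M v : ℕ} {k : List (ℕ × ℕ × ℕ) → Bool} (T : List (ℕ × ℕ)) :
    ∀ Q, (∀ p ∈ T, InP ρ K p) → (∀ q ∈ Q, InQ ρ K M v q) → trp M v T Q k = true →
      ∃ Q', (∀ q ∈ Q', InQ ρ K M v q) ∧ k Q' = true := by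
  induction T with
  | nil => exact fun Q _ h H => ⟨Q, h, H⟩
  | cons p T ih =>
    intro Q h h' H
    rw [show trp M v (p :: T) Q k = force (BM.mm p.2 M) fun D => force (BM.mm D p.1) fun C =>
      force (vm v p.2) fun w => trp M v T ((p.1, C, w) :: Q) k from rfl, force_eq, force_eq, force_eq] at H
    obtain ⟨g, hg, e1, e2⟩ := h p List.mem_cons_self
    exact ih _ (fun q hq => h q (List.mem_cons_of_mem _ hq)) (List.forall_mem_cons.2
      ⟨⟨g, hg, e1, by rw [mt_mm, mt_mm, e1, e2], by rw [vt_vm, e2]⟩, h'⟩) H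

theorem orbK_spec {K : Subgroup G} {M v : ℕ} {Q : List (ℕ × ℕ × ℕ)} (h : ∀ q ∈ Q, InQ ρ K M v q) (ps : List (ℕ × ℕ)) :
    ∀ b, orbK (I1, M, v) Q ps b = true → ∃ l : List ℕ, l.length = ps.length ∧ inc l b = true ∧
      ∀ k ∈ l, ∃ g ∈ K, nv (vt v ᵥ* (ρ g⁻¹ * mt M * ρ g)) = k ∧ True := by
  induction ps with
  | nil => exact fun _ _ => ⟨[], rfl, rfl, nofun⟩
  | cons p ps ih =>
    intro b H
    generalize hd : (I1, M, v) = d at H ih
    rw [show orbK d Q (p :: ps) b = force (vm (vm (lk d Q p.2).2.2 (lk d Q p.1).2.1) (lk d Q p.2).1) fun k =>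
      cn (Nat.ble b k) (orbK d Q ps (Nat.succ k)) false from rfl, force_eq] at H
    obtain ⟨h1, H⟩ := cn_iff.1 H
    obtain ⟨l, e, hl, hk⟩ := ih _ H
    have h0 : InQ ρ K M v d := hd ▸ ⟨1, one_mem _, by rw [map_one, mt_I1], by simp, by simp⟩
    obtain ⟨a, ha, -, a2, -⟩ := lk_of h0 h p.1
    obtain ⟨c, hc, c1, -, c3⟩ := lk_of h0 h p.2
    refine ⟨_ :: l, congrArg _ e, cn_iff.2 ⟨h1, hl⟩, List.forall_mem_cons.2 ⟨⟨a * c, mul_mem ha hc, ?_, trivial⟩, hk⟩⟩
    rw [← nv_vm, vt_vm, ← a2, ← c3, ← c1, vecMul_vecMul, vecMul_vecMul, _root_.mul_inv_rev, map_mul, map_mul]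
    simp only [mul_assoc]

/-- bound for the centraliser of a matrix -/
theorem orb {K : Subgroup G} {M v : ℕ} {T df ps : List (ℕ × ℕ)} (h : AllK ρ K (T.map Prod.fst))
    (H : orbC M v T df ps = true) : ps.length * Nat.card ↥(K ⊓ Cm ρ M) ≤ Nat.card K := by
  rw [orbC, Bool.and_eq_true, allL_iff] at H
  obtain ⟨T', h1, H1⟩ := bldP_spec (ρ := ρ) (K := K) df T (fun p hp =>
    let ⟨g, hg, e⟩ := h _ (List.mem_map_of_mem hp); ⟨g, hg, e, rho_inv e (H.1 p hp)⟩) H.2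
  obtain ⟨Q, h2, H2⟩ := trp_spec T' [] h1 nofun H1
  obtain ⟨l, e, hl, hk⟩ := orbK_spec h2 ps 0 H2
  rw [← e]
  refine (cosets (φ := fun g => nv (vt v ᵥ* (ρ g⁻¹ * mt M * ρ g))) inf_le_left (fun y hy g => ?_) (inc_spec _ _ hl).2 hk).1
  have : ρ y⁻¹ * (mt M * ρ y) = mt M := by
    rw [← show ρ y * mt M = mt M * ρ y from hy.2, ← mul_assoc, ← map_mul, inv_mul_cancel, map_one, one_mul]
  simp only [_root_.mul_inv_rev, map_mul]
  rw [show ρ g⁻¹ * ρ y⁻¹ * mt M * (ρ y * ρ g) = ρ g⁻¹ * (ρ y⁻¹ * (mt M * ρ y)) * ρ g by simp only [mul_assoc], this]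

theorem relIndex_mod {q : ℕ} (hq : q.Prime) {P K X : Subgroup G} (s1 : SylowIn q P K) (h1 : K ≤ X) (h2 : X ⊓ 𝐍(P) ≤ K) :
    K.relIndex X % q = 1 := by
  have s2 := s1.of_norm_le h1 h2
  have e := relIndex_mul_relIndex (𝐍(P) ⊓ K) _ X inf_le_right h1
  have e1 := relIndex_norm_mod hq s1
  have e2 := relIndex_norm_mod hq s2
  rw [inf_relIndex_right, show 𝐍(P) ⊓ K = 𝐍(P) ⊓ X from
    le_antisymm (inf_le_inf_left _ h1) (le_inf inf_le_left (inf_comm X _ ▸ h2)), inf_relIndex_right] at e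
  rwa [← e, Nat.mul_mod, e1, one_mul, Nat.mod_mod] at e2

def fN (PL : List ℕ) (n : ℕ) : Bool := !(allL PL fun q => Nat.beq (n % q) 0) || !(bigOk n) || !(ok11 n) ||
  Nat.beq n 86775571046077562880 || Nat.beq n 43387785523038781440
/-- the arithmetic of the maximality proof -/
def svC (y p : ℕ) (PL : List ℕ) (L : List (ℕ × ℕ)) : Bool :=
  allL L (fun x => anyL PR (Nat.beq x.1)) && Nat.beq (y * prd L) 86775571046077562880 &&
    allD (fY y p fun n => Nat.beq n y || Nat.beq n 86775571046077562880) L y && allD (fN PL) L y &&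
    !(Nat.beq y 86775571046077562880)

variable (S : St G)
include S

theorem coatom [IsSimpleGroup G] {K : Subgroup G} {y p : ℕ} {PL : List ℕ} {L : List (ℕ × ℕ)} (hy : Nat.card K = y)
    (H : svC y p PL L = true) (h : ∀ X, K ≤ X → (¬ ∀ q ∈ PL, q ∣ Nat.card X) → K.relIndex X % p = 1) : IsCoatom K := by
  rw [svC, Bool.and_eq_true, Bool.and_eq_true] at H
  obtain ⟨⟨H1, H2⟩, H3⟩ := H
  refine ⟨fun e => ?_, fun X hX => ?_⟩
  · rw [← hy, e, card_top, S.card_G] at H3; cases H3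
  by_cases c : ∀ q ∈ PL, q ∣ Nat.card X
  · simp only [Bool.and_eq_true, allL_iff, anyL_iff, beq_iff] at H1
    have := S.sieve hX.le (fun x hx => let ⟨_, h, e⟩ := H1.1.1 x hx; e ▸ h) hy H1.1.2 H2
    rw [fN, allL_iff.2 fun q hq => beq_iff.2 (Nat.mod_eq_zero_of_dvd (c q hq)), S.big_ok, S.ok_11] at this
    simp only [Bool.not_true, Bool.false_or, Bool.or_eq_true] at this
    rcases this with e | e
    · exact S.eq_top' e
    · have i : X.index = 2 := by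
        have := X.card_mul_index
        rw [beq_iff.1 e, S.card_G] at this
        omega
      rcases (normal_of_index_eq_two i).eq_bot_or_eq_top with r | r
      · rw [r, card_bot] at e; cases e
      · exact r
  · rcases Bool.or_eq_true_iff.1 (S.sieveY hX.le hy (h X hX.le c) H1) with e | e
    · exact absurd (eq_of_le_of_card_ge hX.le (hy ▸ (beq_iff.1 e).le)) hX.ne
    · exact S.eq_top' e

theorem n7 {s : G} (h : orderOf s = 7) : Nat.card 𝐍(zpowers s) ≤ 2520 :=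
  (S.res5573 _ ((Nat.card_zpowers s).trans h)).2.2.2.le

theorem n5 {s : G} (h : orderOf s = 5) : Nat.card 𝐍(zpowers s) ≤ 26880 :=
  (S.res5572 _ ((Nat.card_zpowers s).trans h)).2.2.2.le

theorem n23 {s : G} (h : orderOf s = 23) : Nat.card 𝐍(zpowers s) ≤ 506 := (S.big23 S.c5 S.c11 s h).2.le

theorem n27 {P : Subgroup G} (h : Nat.card P = 27) : Nat.card 𝐍(P) ≤ 864 := by
  obtain ⟨g, -, rfl⟩ := S.R0_syl_top.exists_cj (sylowIn_of_card (k := 3) Nat.prime_three le_top h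
    (by rw [card_top, S.card_G]; norm_num))
  rw [← cj_normalizer, card_cj, S.card_norm_R0]

theorem c2 {i : G} (h : orderOf i = 2) : Nat.card 𝐂[i] ≤ 21799895040 := by
  rcases S.two' h with c | c <;> rw [card_cent_conj c]
  · exact S.jh.card_H.le
  · rw [S.card_Ct]; norm_num

theorem n11 {x a : G} (ox : orderOf x = 11) (oa : orderOf a = 23) (h : x ∈ 𝐍(zpowers a)) :
    Nat.card 𝐍(zpowers x) ≤ 2420 := by
  have M := S.mm
  have aM := L23_le al_L
  have xM := L23_le x0_L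
  have ou : orderOf (pel S.κ (perm al23C)) = 23 := by
    rw [M.orderOf_k aM]; exact order_perm al23C_in (by norm_num) (by decide +kernel)
  have bu : pel S.κ x0 * pel S.κ (perm al23C) = pel S.κ (perm al23C) ^ 2 * pel S.κ x0 := by
    rw [← pel_pow _ aM, ← pel_mul _ xM aM, ← pel_mul _ (pow_mem aM _) xM]
    exact congrArg _ (code_inj (by simp only [code_mul, code_pow, cx, code_al]; decide +kernel))
  have ob : orderOf (pel S.κ x0) = 11 := by rw [M.orderOf_k xM, x0_ord]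
  obtain ⟨g, e⟩ := St.exists_cj_prime (by norm_num) ou (by rw [S.card_G]; norm_num) ((Nat.card_zpowers a).trans oa)
  have hb : g * pel S.κ x0 * g⁻¹ ∈ 𝐍(zpowers a) := by
    rw [e, ← cj_normalizer]; exact mem_cj'.2 ⟨_, mem_norm_zpowers bu, rfl⟩
  have n : ¬ 11 * 11 ∣ Nat.card 𝐍(zpowers a) := by rw [(S.big23 S.c5 S.c11 a oa).2]; norm_num
  obtain ⟨d, -, e'⟩ := (sylow_zpowers (by norm_num) hb (by rw [CA.orderOf_conj', ob]) n).exists_cj
    (sylow_zpowers (by norm_num) h ox n)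
  obtain ⟨k, hk⟩ := S.cent_xb (M.k_mem xM) ob
  obtain ⟨f, f1, f2⟩ := St.norm_cyc11 ox
  have : Nat.card 𝐂[x] = 242 := by
    rw [← cent_zpowers, e', cj_zpowers, cent_zpowers, ← cj_centralizer_singleton, card_cj, ← cj_centralizer_singleton,
      card_cj, ← card_cj k, hk, S.c242]
  rw [f2, this]
  exact Nat.mul_le_mul_left 242 (Nat.le_of_dvd (by norm_num) f1)

end CA.Nl
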