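import Cfsg.Agent.Lib.J4.Nl1
import Cfsg.Agent.Lib.Classical.UnitaryModel

/-!
Coded matrices for `SU₃(3)`, normalisers of coded subgroups, and the wreath product `4 ≀ 2`.
-/

set_option autoImplicit false
set_option linter.unusedSectionVars false

namespace CA.Nl
open CA.Gol CA.J4 CA.BM Matrix Cfsg Subgroup

namespace F9

def cM (a b : ℕ × ℕ) : ℕ × ℕ :=
  (Nat.add (Nat.mul a.1 b.1) (Nat.mul 2 (Nat.mul a.2 b.2)), Nat.add (Nat.mul a.1 b.2) (Nat.mul a.2 b.1))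
def cA (a b : ℕ × ℕ) : ℕ × ℕ := (Nat.add a.1 b.1, Nat.add a.2 b.2)
def p1 (a : ℕ × ℕ) : ℕ := Nat.add (Nat.mod a.1 3) (Nat.mul 4 (Nat.mod a.2 3))
/-- packing of field elements -/
def pk (l : List (ℕ × ℕ)) : ℕ := List.rec 0 (fun a _ r => Nat.add (p1 a) (Nat.mul 16 r)) l
/-- the entries -/
def en (A m : ℕ) : ℕ × ℕ :=
  (Nat.mod (Nat.shiftRight A (Nat.mul 4 m)) 4, Nat.mod (Nat.div (Nat.shiftRight A (Nat.mul 4 m)) 4) 4)
def mk9 (f : ℕ → ℕ → ℕ × ℕ) : ℕ := pk [f 0 0, f 0 1, f 0 2, f 1 0, f 1 1, f 1 2, f 2 0, f 2 1, f 2 2]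
def e2 (A i j : ℕ) : ℕ × ℕ := en A (Nat.add (Nat.mul 3 i) j)
def s3 (f g : ℕ → ℕ × ℕ) : ℕ × ℕ := cA (cA (cM (f 0) (g 0)) (cM (f 1) (g 1))) (cM (f 2) (g 2))
/-- the product -/
def mC (A B : ℕ) : ℕ := force A fun A => force B fun B => mk9 fun i k => s3 (e2 A i) fun j => e2 B j k
def aC (x A : ℕ) : ℕ := pk [s3 (en x) fun j => e2 A j 0, s3 (en x) fun j => e2 A j 1, s3 (en x) fun j => e2 A j 2]
def oC : ℕ := nat_lit 0x100010001
def dC (A : ℕ) : ℕ × ℕ := cA (cA (cA (cM (cM (e2 A 0 0) (e2 A 1 1)) (e2 A 2 2)) (cM (cM (e2 A 0 1) (e2 A 1 2)) (e2 A 2 0)))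
  (cM (cM (e2 A 0 2) (e2 A 1 0)) (e2 A 2 1))) (cM (2, 0) (cA (cA (cM (cM (e2 A 0 0) (e2 A 1 2)) (e2 A 2 1))
  (cM (cM (e2 A 0 1) (e2 A 1 0)) (e2 A 2 2))) (cM (cM (e2 A 0 2) (e2 A 1 1)) (e2 A 2 0))))
/-- special unitary matrices -/
def suC (A : ℕ) : Bool := Nat.beq (mC (mk9 fun i j => e2 A j i) (mk9 fun i j => ((e2 A i j).1, 2 * (e2 A i j).2))) oC &&
  Nat.beq (pk [dC A]) 1 && Nat.blt A 0x1000000000

theorem pk_cons (a : ℕ × ℕ) (l : List (ℕ × ℕ)) : pk (a :: l) = a.1 % 3 + 4 * (a.2 % 3) + 16 * pk l := rfl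

theorem pk_lt (l : List (ℕ × ℕ)) : pk l < 16 ^ l.length := by
  induction l with
  | nil => exact Nat.one_pos
  | cons a l ih => rw [pk_cons, List.length_cons, pow_succ]; omega

theorem en_pk (l : List (ℕ × ℕ)) : ∀ m, en (pk l) m = ((l.getD m (0, 0)).1 % 3, (l.getD m (0, 0)).2 % 3) := by
  induction l with
  | nil => intro m; simp [en, pk]
  | cons a l ih =>
    intro m
    rcases m with _ | m
    · show (pk (a :: l) % 4, pk (a :: l) / 4 % 4) = (a.1 % 3, a.2 % 3)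
      rw [pk_cons, Prod.mk.injEq]; omega
    · rw [List.getD_cons_succ, ← ih]
      show ((pk (a :: l) >>> (4 * (m + 1))) % 4, (pk (a :: l) >>> (4 * (m + 1))) / 4 % 4) =
        ((pk l >>> (4 * m)) % 4, (pk l >>> (4 * m)) / 4 % 4)
      rw [show 4 * (m + 1) = 4 + 4 * m by ring, Nat.shiftRight_add, Nat.shiftRight_eq_div_pow _ 4,
        show pk (a :: l) / 2 ^ 4 = pk l by rw [pk_cons]; omega]

variable {F : Type*} [Field F] [CharP F 3] (ι : F)

/-- the coded field element -/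
def vl (a : ℕ × ℕ) : F := a.1 + a.2 * ι
/-- the coded matrix -/
def mu (A : ℕ) : Matrix (Fin 3) (Fin 3) F := Matrix.of fun i j => vl ι (e2 A i j)
def vc (x : ℕ) : Fin 3 → F := fun i => vl ι (en x i)
open Classical in
noncomputable def cd (x : F) : ℕ := if h : ∃ a, vl ι a = x then p1 h.choose else 0

theorem vl_mod (a : ℕ × ℕ) : vl ι (a.1 % 3, a.2 % 3) = vl ι a := by
  simp only [vl, ← CharP.cast_eq_mod F 3]
theorem vl_cA (a b : ℕ × ℕ) : vl ι (cA a b) = vl ι a + vl ι b := by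
  show ((a.1 + b.1 : ℕ) : F) + ((a.2 + b.2 : ℕ) : F) * ι = _
  simp only [vl]; push_cast; ring
theorem mu_mk9 (f : ℕ → ℕ → ℕ × ℕ) : mu ι (mk9 f) = Matrix.of fun i j : Fin 3 => vl ι (f i j) := by
  ext i j
  rw [mu, of_apply, of_apply, e2, mk9, en_pk, vl_mod]
  fin_cases i <;> fin_cases j <;> rfl
theorem mu_oC : mu ι oC = 1 := by
  rw [show oC = mk9 fun i j => (cn (Nat.beq i j) 1 0, 0) by decide +kernel, mu_mk9]
  ext i j
  fin_cases i <;> fin_cases j <;> simp [vl, cn, Nat.beq]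

/-- the matrix of an element of `SU₃` -/
def toM (F : Type*) [Field F] : Cfsg.SU 3 F 3 →* Matrix (Fin 3) (Fin 3) F := (slToMat 3 F).comp (Cfsg.SU 3 F 3).subtype
def sm (A : ℕ) (g : Cfsg.SU 3 F 3) : Prop := toM F g = mu ι A ∧ A < 2 ^ 36

variable {ι} (hι : ι * ι = -1)
include hι

theorem vl_cM (a b : ℕ × ℕ) : vl ι (cM a b) = vl ι a * vl ι b := by
  show ((a.1 * b.1 + 2 * (a.2 * b.2) : ℕ) : F) + ((a.1 * b.2 + a.2 * b.1 : ℕ) : F) * ι = _
  have h : (3 : F) = 0 := by exact_mod_cast CharP.cast_eq_zero F 3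
  simp only [vl]; push_cast
  linear_combination (a.2 * b.2 : F) * h - (a.2 * b.2 : F) * hι

theorem vl_s3 (f g : ℕ → ℕ × ℕ) : vl ι (s3 f g) = ∑ j : Fin 3, vl ι (f j) * vl ι (g j) := by
  rw [s3, vl_cA, vl_cA, vl_cM hι, vl_cM hι, vl_cM hι, Fin.sum_univ_three]; rfl

theorem mu_mC (A B : ℕ) : mu ι (mC A B) = mu ι A * mu ι B := by
  rw [mC, force_eq, force_eq, mu_mk9]
  ext i k
  exact vl_s3 hι _ _

theorem cd_vl (a : ℕ × ℕ) : cd ι (vl ι a) = p1 a := by
  have k : ∀ x y : ZMod 3, x * x + y * y = 0 → x = 0 ∧ y = 0 := by decide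
  rw [cd, dif_pos ⟨a, rfl⟩]
  generalize_proofs h
  obtain ⟨b, hb, e⟩ : ∃ b, b = h.choose ∧ vl ι b = vl ι a := ⟨_, rfl, h.choose_spec⟩
  have := k (b.1 - a.1) (b.2 - a.2) ((ZMod.castHom (dvd_refl 3) F).injective (by
    simp only [vl] at e
    rw [map_add, map_mul, map_mul, map_sub, map_sub, map_natCast, map_natCast, map_natCast, map_natCast, map_zero]
    linear_combination ((b.1 : F) - a.1 - (b.2 - a.2) * ι) * e + ((b.2 : F) - a.2) ^ 2 * hι))
  simp only [sub_eq_zero, ZMod.natCast_eq_natCast_iff'] at this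
  show h.choose.1 % 3 + 4 * (h.choose.2 % 3) = a.1 % 3 + 4 * (a.2 % 3)
  rw [← hb, this.1, this.2]

theorem evU : IsEv mC oC (sm ι) where
  one := ⟨by rw [map_one, mu_oC], by decide⟩
  mul := fun h1 h2 => ⟨by rw [map_mul, mu_mC hι, h1.1, h2.1], by
    rw [mC, force_eq, force_eq]; exact (pk_lt _).trans_eq (by norm_num)⟩
  inj := fun h1 h2 => Subtype.ext (Subtype.ext (h1.1.trans h2.1.symm))

theorem actU : IsAct aC (sm ι) := by
  have e : ∀ x A (k : Fin 3), (vc ι x ᵥ* mu ι A) k = vl ι (s3 (en x) fun j => e2 A j k) := fun x A k =>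
    (vl_s3 hι (en x) fun j => e2 A j k).symm
  refine ⟨fun x g => cd ι ((vc ι x ᵥ* toM F g) 0) + 16 * (cd ι ((vc ι x ᵥ* toM F g) 1) + 16 *
    (cd ι ((vc ι x ᵥ* toM F g) 2) + 16 * 0)), fun x a α h => ?_, fun x a α β h h' => ?_⟩
  · simp only [h.1, e, cd_vl hι]; rfl
  · have : vc ι x ᵥ* toM F α = vc ι x := funext fun k => by
      rw [h.1, e]
      conv_rhs => rw [← h', vc, aC, en_pk, vl_mod]
      fin_cases k <;> rfl
    simp only [map_mul, ← vecMul_vecMul, this]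

theorem exists_su {A : ℕ} (h : suC A = true) : ∃ g, sm ι A g := by
  have h3 : (3 : F) = 0 := by exact_mod_cast CharP.cast_eq_zero F 3
  rw [suC, Bool.and_eq_true, Bool.and_eq_true, beq_iff, beq_iff, blt_iff] at h
  have d : (mu ι A).det = 1 := by
    have := vl_mod ι (dC A)
    rw [show ((dC A).1 % 3, (dC A).2 % 3) = (1, 0) from (en_pk [dC A] 0).symm.trans (by rw [h.1.2]; rfl), dC] at this
    simp only [vl_cA, vl_cM hι] at this
    rw [det_fin_three]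
    simp only [mu, of_apply, Fin.val_zero, Fin.val_one, Fin.val_two]
    rw [show vl ι (2, 0) = -1 by simp only [vl]; push_cast; linear_combination h3, show vl ι (1, 0) = 1 by simp [vl]] at this
    linear_combination -this
  have u : (mu ι A)ᵀ * (mu ι A).map (frobenius F 3) = 1 := by
    rw [← mu_oC ι, ← h.1.1, mu_mC hι, mu_mk9, mu_mk9]
    congr 1
    ext i j
    simp only [mu, vl, map_apply, of_apply, map_add, map_mul, map_natCast]
    rw [frobenius_def]; push_cast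
    linear_combination ((e2 A i j).2 * ι : F) * hι - ((e2 A i j).2 * ι : F) * h3
  refine ⟨⟨⟨mu ι A, d⟩, fun x y => ?_⟩, rfl, h.2⟩
  show (mu ι A *ᵥ x) ⬝ᵥ (frobenius F 3 ∘ (mu ι A *ᵥ y)) = x ⬝ᵥ (frobenius F 3 ∘ y)
  rw [show frobenius F 3 ∘ (mu ι A *ᵥ y) = _ from funext (RingHom.map_mulVec (frobenius F 3) (mu ι A) y),
    dotProduct_mulVec, ← vecMul_transpose, vecMul_vecMul, u, vecMul_one]

omit hι

theorem su_iso [Fintype F] (hF : Fintype.card F = 3 ^ 2) :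
    Nat.card (Cfsg.SU 3 F 3) = 6048 ∧ Nonempty (Cfsg.SU 3 F 3 ≃* PSU 3 F 3) := by
  let _ := Cl.starRingOfCard hF
  have h1 := Unit.card_psu (Cl.isFq2_starRingOfCard hF) (n := 3) (by norm_num)
  have h2 := Unit.card_center_su (Cl.isFq2_starRingOfCard hF) (n := 3) (by norm_num)
  have e := ((QuotientGroup.quotientMulEquivOfEq (card_eq_one.1 h2)).trans QuotientGroup.quotientBot).symm
  simp only [Finset.prod_range_succ, Finset.range_zero, Finset.prod_empty] at h1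
  norm_num at h1
  exact ⟨(Nat.card_congr e.toEquiv).trans (Nat.eq_of_mul_eq_mul_left (by norm_num) h1), ⟨e⟩⟩

theorem model : ∃ (F : Type) (_ : Field F) (_ : Fintype F) (_ : CharP F 3) (ι : F), Fintype.card F = 3 ^ 2 ∧ ι * ι = -1 := by
  let _ : Fintype (GaloisField 3 2) := Fintype.ofFinite _
  have hF : Fintype.card (GaloisField 3 2) = 3 ^ 2 := by
    rw [← Nat.card_eq_fintype_card]; exact GaloisField.card 3 2 (by norm_num)
  obtain ⟨ι, hι⟩ := Cl.exists_isPrimitiveRoot_of_dvd (K := GaloisField 3 2) (d := 4) (by rw [hF]; norm_num)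
  exact ⟨_, inferInstance, inferInstance, inferInstance, ι, hF, by
    rw [← pow_two]; exact (hι.pow (by norm_num) (show 4 = 2 * 2 from rfl)).eq_neg_one_of_two_right⟩

end F9

variable {G : Type*} [Group G] [Finite G] {ρ : G →* Mx}

theorem mt_xor (A B : ℕ) : mt (A ^^^ B) = mt A + mt B := by
  ext i j; exact bt_xor _ _ _

def nrW (T : List ℕ) (L : List (ℕ × List (List ℕ))) : Bool :=
  allL L fun p => allL T fun A => force (BM.mm p.1 A) fun C => anyL p.2 fun w => Nat.beq C (BM.mm (ev1 T w) p.1)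

theorem allK_nrW (hρ : Function.Injective ρ) {bc : List (ℕ × ℕ)} {L : List (ℕ × List (List ℕ))}
    (h : AllK ρ ⊤ (bc.map Prod.snd)) (hL : AllK ρ ⊤ (L.map Prod.fst)) (H : nrW (bc.map Prod.snd) L = true) :
    AllK ρ 𝐍(HL (fun A (g : G) => ρ g = mt A) bc 0) (L.map Prod.fst) := fun A hA => by
  obtain ⟨g, -, e⟩ := hL A hA
  obtain ⟨p, hp, rfl⟩ := List.mem_map.1 hA
  have k : ∀ x ∈ {g | ∃ c ∈ bc, 0 ≤ c.1 ∧ ρ g = mt c.2},
      (MulAut.conj g).toMonoidHom x ∈ HL (fun A (g : G) => ρ g = mt A) bc 0 := fun x ⟨c, hc, _, ex⟩ => by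
    have := allL_iff.1 (allL_iff.1 H p hp) _ (List.mem_map_of_mem hc)
    rw [force_eq] at this
    obtain ⟨w, -, hw⟩ := anyL_iff.1 this
    obtain ⟨y, hy, ey⟩ := (allK_HL h).ev1 w
    have : g * x = y * g := hρ (by rw [map_mul, map_mul, e, ex, ey, ← mt_mm, ← mt_mm, beq_iff.1 hw])
    rwa [← mul_inv_eq_iff_eq_mul.2 this] at hy
  exact ⟨g, mem_normalizer_of_cj_le (map_le_iff_le_comap.2 ((closure_le _).2 k)), e⟩

theorem pow_mod4 {a : G} (h : a ^ 4 = 1) (k : ℕ) : a ^ k = 1 ∨ a ^ k = a ∨ a ^ k = a ^ 2 ∨ a ^ k = a ^ 3 := by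
  rw [pow_eq_pow_mod k h]
  have := Nat.mod_lt k (show 0 < 4 by norm_num)
  generalize k % 4 = r at this
  interval_cases r <;> simp

/-- the wreath product `4 ≀ 2` -/
theorem wreath {b c w : G} (hb : b ^ 4 = 1) (hw : w * w = 1) (h1 : w * b = c * w) (h2 : Commute b c) (hi : (b * c) ^ 2 ≠ 1) :
    IsPGroup 2 ↥(closure ({b, w} : Set G)) ∧ w * (b * c) = b * c * w ∧ ∀ u ∈ 𝐍(closure ({b, w} : Set G)),
      (u * (b * c) = b * c * u ∨ u * (b * c) = (b * c) ^ 3 * u) ∧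
        (u * b ^ 2 = b ^ 2 * u ∨ w * u * b ^ 2 = b ^ 2 * (w * u)) := by
  have s1 : SemiconjBy w b c := h1
  have s2 : SemiconjBy w c b := by
    show w * c = b * w
    rw [← mul_one (w * c), ← hw, ← mul_assoc, mul_assoc w c, ← h1, ← mul_assoc, hw, one_mul]
  have hc : c ^ 4 = 1 := by
    have := (s1.pow_right 4).eq
    rwa [hb, mul_one, right_eq_mul] at this
  have ha : (b * c) ^ 4 = 1 := by rw [h2.mul_pow, hb, hc, one_mul]
  have k : ∀ g ∈ closure ({b, w} : Set G), ∃ m n : ℕ, g = b ^ m * c ^ n ∨ g = b ^ m * c ^ n * w := fun g hg => by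
    rw [← mem_toSubmonoid, closure_toSubmonoid_of_finite] at hg
    induction hg using Submonoid.closure_induction_left with
    | one => exact ⟨0, 0, Or.inl (by simp)⟩
    | mul_left x hx y _ ih =>
      obtain ⟨m, n, e⟩ := ih
      have e' : w * (b ^ m * c ^ n) = b ^ n * c ^ m * w := by
        rw [((s1.pow_right m).mul_right (s2.pow_right n)).eq, (h2.pow_pow n m).eq]
      rcases hx with rfl | rfl
      · exact ⟨m + 1, n, e.imp (fun e => by rw [e, pow_succ', mul_assoc]) fun e => by rw [e, pow_succ']; simp only [mul_assoc]⟩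
      · exact ⟨n, m, e.symm.imp (fun e => by rw [e, ← mul_assoc, e', mul_assoc, hw, mul_one]) fun e => by rw [e, e']⟩
  have q : ∀ g ∈ closure ({b, w} : Set G), (∃ m n : ℕ, g ^ 2 = (b ^ 2) ^ m * (c ^ 2) ^ n) ∨ ∃ k : ℕ, g ^ 2 = (b * c) ^ k := fun g hg => by
    obtain ⟨m, n, rfl | rfl⟩ := k g hg
    · exact Or.inl ⟨m, n, by rw [(h2.pow_pow m n).mul_pow, pow_right_comm b, pow_right_comm c]⟩
    · refine Or.inr ⟨m + n, ?_⟩
      rw [pow_two, mul_assoc, ← mul_assoc w, ((s1.pow_right m).mul_right (s2.pow_right n)).eq, mul_assoc _ w, hw, mul_one,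
        h2.mul_pow, pow_add, pow_add, mul_assoc, mul_assoc, ← mul_assoc (c ^ n), ← pow_add, ← pow_add, add_comm,
        (h2.pow_pow n _).eq]
  have q2 : ∀ m n : ℕ, ((b ^ 2) ^ m * (c ^ 2) ^ n) ^ 2 = 1 := fun m n => by
    rw [((h2.pow_pow 2 2).pow_pow m n).mul_pow, pow_right_comm, pow_right_comm (c ^ 2), ← pow_mul b, ← pow_mul c, hb, hc]
    simp
  have mb : b ∈ closure ({b, w} : Set G) := subset_closure (Or.inl rfl)
  have mw : w ∈ closure ({b, w} : Set G) := subset_closure (Or.inr rfl)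
  refine ⟨fun g => ⟨3, Subtype.ext ?_⟩, by rw [(s1.mul_right s2).eq, h2.eq], fun u hu => ?_⟩
  · show g.1 ^ (2 * 4) = 1
    rw [pow_mul]
    rcases q g.1 g.2 with ⟨m, n, e⟩ | ⟨k, e⟩ <;> rw [e]
    · rw [show 4 = 2 * 2 from rfl, pow_mul, q2, one_pow]
    · rw [pow_right_comm, ha, one_pow]
  have cj : ∀ {x y : G}, u * x * u⁻¹ = y → (x ^ 2 = 1 ↔ y ^ 2 = 1) := fun e => by rw [← e, conj_pow, conj_eq_one_iff]
  have t1 : u * (b * c) * u⁻¹ = b * c ∨ u * (b * c) * u⁻¹ = (b * c) ^ 3 := by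
    have := q _ ((mem_normalizer_iff.1 hu _).1 (mul_mem mb mw))
    rw [conj_pow, show (b * w) ^ 2 = b * c by rw [pow_two, mul_assoc, ← mul_assoc w, h1, mul_assoc, hw, mul_one]] at this
    rcases this with ⟨m, n, e⟩ | ⟨k, e⟩
    · exact absurd ((cj e).2 (q2 m n)) hi
    · rcases pow_mod4 ha k with f | f | f | f <;> rw [f] at e
      · exact absurd ((cj e).2 (one_pow 2)) hi
      · exact Or.inl e
      · exact absurd ((cj e).2 (by rw [← pow_mul, ha])) hi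
      · exact Or.inr e
  refine ⟨t1.imp mul_inv_eq_iff_eq_mul.1 mul_inv_eq_iff_eq_mul.1, ?_⟩
  have t2 : u * (b * c) ^ 2 * u⁻¹ = (b * c) ^ 2 := by
    rw [← conj_pow]
    rcases t1 with e | e <;> rw [e]
    rw [← pow_mul, show 3 * 2 = 4 + 2 from rfl, pow_add, ha, one_mul]
  have n1 : b ^ 2 ≠ 1 := fun e => hi (by
    have := (s1.pow_right 2).eq
    rw [e, mul_one, right_eq_mul] at this
    rw [h2.mul_pow, e, this, one_mul])
  have n2 : u * b ^ 2 * u⁻¹ ≠ 1 := fun e => n1 (conj_eq_one_iff.1 e)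
  have n3 : u * b ^ 2 * u⁻¹ ≠ (b * c) ^ 2 := fun e => n1 (by
    rw [← t2, mul_left_inj, mul_right_inj, h2.mul_pow, left_eq_mul] at e
    have := (s2.pow_right 2).eq
    rwa [e, mul_one, right_eq_mul] at this)
  have b4 : (b ^ 2) ^ 2 = 1 := by rw [← pow_mul, hb]
  have := q _ ((mem_normalizer_iff.1 hu _).1 mb)
  rw [conj_pow] at this
  rcases this with ⟨m, n, e⟩ | ⟨k, e⟩
  · rw [pow_eq_pow_mod m b4, pow_eq_pow_mod n (show (c ^ 2) ^ 2 = 1 by rw [← pow_mul, hc])] at e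
    rcases Nat.mod_two_eq_zero_or_one m with f | f <;> rcases Nat.mod_two_eq_zero_or_one n with f' | f' <;>
      simp only [f, f', pow_zero, pow_one, mul_one, one_mul] at e
    · exact absurd e n2
    · exact Or.inr (by rw [mul_assoc, mul_inv_eq_iff_eq_mul.1 e, ← mul_assoc, (s2.pow_right 2).eq, mul_assoc])
    · exact Or.inl (mul_inv_eq_iff_eq_mul.1 e)
    · exact absurd (e.trans (h2.mul_pow 2).symm) n3
  · rcases pow_mod4 ha k with f | f | f | f <;> rw [f] at e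
    · exact absurd e n2
    · exact absurd ((cj e).1 b4) hi
    · exact absurd e n3
    · exact absurd ((cj e).1 b4) fun f => hi (by rwa [← pow_mul, show 3 * 2 = 4 + 2 from rfl, pow_add, ha, one_mul] at f)

end CA.Nl
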