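import Cfsg.Agent.Lib.TC.M24a
import Cfsg.Agent.Lib.TC.M24b
import Cfsg.Agent.Lib.Golay.M24
import Cfsg.Agent.Lib.G.Pmap

/-!
A presentation of `M24` on an involution and an element of order three.
-/

set_option autoImplicit false

namespace CA.J4
open Cfsg CA.Gol CA.TC CA.Fi Subgroup

section bound
variable {Γ : Type*} [Group Γ]

/-- letters `x, y, y⁻¹` -/
def lt3 (x y : Γ) (i : ℕ) : Γ := [x, y, y⁻¹].getD i 1
/-- letters `a, a⁻¹, b, b⁻¹` -/
def lt4 (a b : Γ) (i : ℕ) : Γ := [a, a⁻¹, b, b⁻¹].getD i 1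

theorem lt3_inv {x : Γ} (y : Γ) (h : x⁻¹ = x) (i : ℕ) : lt3 x y (nthL 3 [0, 2, 1] i) = (lt3 x y i)⁻¹ := by
  rcases i with _ | _ | _ | i
  exacts [h.symm, rfl, (inv_inv y).symm, inv_one.symm]

theorem lt4_inv (a b : Γ) (i : ℕ) : lt4 a b (nthL 4 [1, 0, 3, 2] i) = (lt4 a b i)⁻¹ := by
  rcases i with _ | _ | _ | _ | i
  exacts [rfl, (inv_inv a).symm, rfl, (inv_inv b).symm, inv_one.symm]

theorem cl_lt3 (x y : Γ) : closure {x, y} ≤ closure (lt3 x y '' Set.Iio 3) :=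
  closure_mono (Set.pair_subset ⟨0, by decide, rfl⟩ ⟨1, by decide, rfl⟩)

theorem cl_lt4 (a b : Γ) : closure {a, b} ≤ closure (lt4 a b '' Set.Iio 4) :=
  closure_mono (Set.pair_subset ⟨0, by decide, rfl⟩ ⟨2, by decide, rfl⟩)

theorem card_zp {a : Γ} (h : a ^ 3 = 1) : Finite (zpowers a) ∧ Nat.card (zpowers a) ≤ 3 :=
  ⟨finite_zpowers.2 (isOfFinOrder_iff_pow_eq_one.2 ⟨3, by norm_num, h⟩),
    by rw [Nat.card_zpowers]; exact orderOf_le_of_pow_eq_one (by norm_num) h⟩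

theorem m24_bound {x y : Γ} (h1 : x ^ 2 = 1) (h2 : y ^ 3 = 1) (h3 : (x * y) ^ 23 = 1)
    (h4 : (x⁻¹ * y⁻¹ * x * y) ^ 12 = 1) (h5 : (x⁻¹ * (y * x * y)⁻¹ * x * (y * x * y)) ^ 5 = 1)
    (h6 : (x * y * ((x * y * x * y⁻¹) ^ 3)) ^ 4 = 1)
    (h7 : ((x * y * x * y * x * y⁻¹) ^ 3) * ((x * y * x * y⁻¹ * x * y⁻¹) ^ 3) = 1) :
    Finite (closure ({x, y} : Set Γ)) ∧ Nat.card (closure ({x, y} : Set Γ)) ≤ 244823040 := by
  have hx : x⁻¹ = x := inv_eq_of_mul_eq_one_right (by rw [← sq, h1])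
  have hg := lt3_inv y hx
  have hR : ∀ w ∈ m24a_rels, ev (lt3 x y) w = 1 := by
    have e : m24a_rels = [pw [1] 3, pw [0, 1] 23, pw [0, 2, 0, 1] 12, pw [0, 2, 0, 2, 0, 1, 0, 1] 5,
      pw ([0, 1] ++ pw [0, 1, 0, 2] 3) 4, pw [0, 1, 0, 1, 0, 2] 3 ++ pw [0, 1, 0, 2, 0, 2] 3] := by decide +kernel
    simp only [mul_inv_rev, hx, mul_assoc] at h4 h5 h6 h7
    simp only [e, List.forall_mem_cons, ev_pw, ev_append, ev_cons, ev_nil, mul_one, mul_assoc]
    exact ⟨h2, h3, h4, h5, h6, h7, fun _ h => absurd h List.not_mem_nil⟩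
  set b : Γ := x * (y * (x * (y * (x * (y⁻¹ * x))))) with hb
  have sb : ∀ w, ev (lt4 y b) w =
      ev (lt3 x y) (w.flatMap ([[1], [2], [0, 1, 0, 1, 0, 2, 0], [0, 1, 0, 2, 0, 2, 0]].getD · [])) := fun w => by
    rw [← ev_flatMap]
    congr 1
    funext i
    rcases i with _ | _ | _ | _ | i
    · exact (mul_one y).symm
    · exact (mul_one y⁻¹).symm
    · simp [lt3, lt4, hb]
    · simp [lt3, lt4, hb, hx, mul_assoc]
    · rfl
  have bot : ∀ {g : ℕ → Γ}, ∀ w ∈ ([] : List (List ℕ)), ev g w ∈ (⊥ : Subgroup Γ) :=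
    fun _ h => absurd h List.not_mem_nil
  have r1 : ∀ w ∈ m24e1_rels, ev (lt4 y b) w = 1 := by
    simp only [m24e1_rels, List.forall_mem_cons]
    refine ⟨hR [1, 1, 1] (by decide +kernel), ?_, ?_, ?_, fun _ h => absurd h List.not_mem_nil⟩ <;>
      exact (sb _).trans (mem_bot.1 (m24e0_mem hg rfl hR bot (by decide +kernel)))
  set h : Γ := b * (y⁻¹ * (b⁻¹ * (y⁻¹ * b⁻¹))) with hh
  have sh : ∀ w, ev (lt4 y h) w =
      ev (lt4 y b) (w.flatMap ([[0], [1], [2, 1, 3, 1, 3], [2, 0, 2, 0, 3]].getD · [])) := fun w => by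
    rw [← ev_flatMap]
    congr 1
    funext i
    rcases i with _ | _ | _ | _ | i
    · exact (mul_one y).symm
    · exact (mul_one y⁻¹).symm
    · simp [lt4, hh]
    · simp [lt4, hh, mul_assoc]
    · rfl
  have r2 : ∀ w ∈ m24e2_rels, ev (lt4 y h) w = 1 := by
    simp only [m24e2_rels, List.forall_mem_cons]
    refine ⟨hR [1, 1, 1] (by decide +kernel), ?_, ?_, fun _ h => absurd h List.not_mem_nil⟩ <;>
      exact (sh _).trans (mem_bot.1 (m24e1_mem (lt4_inv y b) rfl r1 bot (by decide +kernel)))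
  have c1 := m24e2_card (lt4_inv y h) rfl r2 (H := zpowers y) (by simp [m24e2_sws, lt4]) (cl_lt4 y h) (card_zp h2)
  have m1 : y ∈ closure {y, h} := subset_closure (by simp)
  have m2 : h ∈ closure {y, h} := subset_closure (by simp)
  have m3 : ev (lt4 y b) [2, 1, 3, 1, 3] = h := by simp [lt4, hh]
  have m4 : ev (lt4 y b) (pw [0, 2] 8) ∈ closure {y, h} := by
    rw [sb]
    refine m24d_mem hg rfl hR ?_ (by decide +kernel)
    simp only [m24d_sws, List.forall_mem_cons]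
    refine ⟨by simpa [lt3] using m1, ?_, fun _ h => absurd h List.not_mem_nil⟩
    exact (congrArg (· ∈ closure {y, h}) ((sb _).symm.trans m3)).mpr m2
  have c2 := m24e3_card (lt4_inv y b) rfl r1 (H := closure {y, h}) (by
    simp only [m24e3_sws, List.forall_mem_cons]
    exact ⟨by simpa [lt4] using m1, m3 ▸ m2, m4, fun _ h => absurd h List.not_mem_nil⟩) (cl_lt4 y b) c1
  exact m24a_card hg rfl hR (H := closure {y, b}) (by
    simp only [m24a_sws, List.forall_mem_cons]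
    exact ⟨subset_closure (by simp [lt3]), subset_closure (by simp [lt3, hb]),
      fun _ h => absurd h List.not_mem_nil⟩) (cl_lt3 x y) c2

end bound

/-- an involution without fixed points -/
def XC : ℕ := 0x6426ea85361d0970162231d4d7a24b
/-- an element of order three -/
def YC : ℕ := 0xbaaa5a20301486f5812e89a6d230f6

theorem XC_in : inM24 XC = true := by decide +kernel
theorem YC_in : inM24 YC = true := by decide +kernel

theorem M24_eq_closure : M24 = closure {perm XC, perm YC} := by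
  refine le_antisymm (M24_le_closure.trans ((closure_le _).2 (Set.pair_subset ?_ ?_)))
    ((closure_le _).2 (Set.pair_subset (perm_mem_M24 XC_in) (perm_mem_M24 YC_in)))
  all_goals
    have w := fun w => word2_mem (K := closure {perm XC, perm YC}) (a := perm XC) (b := perm YC)
      (subset_closure (by simp)) (subset_closure (by simp)) 64 w (one_mem _)
    simp only [code_perm' XC_in, code_perm' YC_in, code_one] at w
  · obtain ⟨k, hk, e⟩ := w 0xead6d56d55ab5ad6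
    rwa [show perm genA = k from code_inj (by rw [e, code_perm' genA_in]; decide +kernel)]
  · obtain ⟨k, hk, e⟩ := w 0x3aab6b5aadab6d6a
    rwa [show perm genB = k from code_inj (by rw [e, code_perm' genB_in]; decide +kernel)]

theorem exists_psi0 {Γ : Type*} [Group Γ] {x y : Γ} (h1 : x^2=1) (h2 : y^3=1) (h3 : (x*y)^23=1)
    (h4 : (x⁻¹*y⁻¹*x*y)^12=1) (h5 : (x⁻¹*(y*x*y)⁻¹*x*(y*x*y))^5=1) (h6 : (x*y*((x*y*x*y⁻¹)^3))^4=1)
    (h7 : ((x*y*x*y*x*y⁻¹)^3)*((x*y*x*y⁻¹*x*y⁻¹)^3)=1) :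
    ∃ κ : M24 →* Γ, pel κ (perm XC) = x ∧ pel κ (perm YC) = y := by
  let X : M24 := ⟨perm XC, perm_mem_M24 XC_in⟩
  let Y : M24 := ⟨perm YC, perm_mem_M24 YC_in⟩
  have eq : ∀ {a b : M24}, code a = code b → a = b := fun e => Subtype.ext (code_inj e)
  have cX : code X = XC := code_perm' XC_in
  have cY : code Y = YC := code_perm' YC_in
  have iX : X⁻¹ = X := inv_eq_of_mul_eq_one_right (eq (by
    simp only [coe_mul, code_mul, cX, coe_one, code_one]; decide +kernel))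
  have iY : Y⁻¹ = Y * Y := inv_eq_of_mul_eq_one_right (eq (by
    simp only [coe_mul, code_mul, cY, coe_one, code_one]; decide +kernel))
  have bd : Finite (closure ({(X, x), (Y, y)} : Set (M24 × Γ))) ∧
      Nat.card (closure ({(X, x), (Y, y)} : Set (M24 × Γ))) ≤ 244823040 := by
    refine m24_bound (Prod.ext ?_ h1) (Prod.ext ?_ h2)
      (Prod.ext ?_ h3) (Prod.ext ?_ h4) (Prod.ext ?_ h5) (Prod.ext ?_ h6) (Prod.ext ?_ h7)
    all_goals
      simp only [Prod.pow_fst, Prod.fst_mul, Prod.fst_inv, Prod.fst_one, mul_inv_rev, iX, iY]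
      refine eq ?_
      simp only [coe_mul, coe_pow, code_mul, code_pow, cX, cY, coe_one, code_one]
      decide +kernel
  obtain ⟨f1, f2⟩ := bd
  set P := closure ({(X, x), (Y, y)} : Set (M24 × Γ))
  let π : P →* M24 := (MonoidHom.fst _ _).comp P.subtype
  have mX : (X, x) ∈ P := subset_closure (by simp)
  have mY : (Y, y) ∈ P := subset_closure (by simp)
  have s : Function.Surjective π := by
    rintro ⟨g, hg⟩
    have : g ∈ π.range.map M24.subtype := by
      rw [M24_eq_closure] at hg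
      exact (closure_le (π.range.map M24.subtype)).2
        (Set.pair_subset ⟨X, ⟨⟨_, mX⟩, rfl⟩, rfl⟩ ⟨Y, ⟨⟨_, mY⟩, rfl⟩, rfl⟩) hg
    obtain ⟨k, ⟨p, rfl⟩, e⟩ := this
    exact ⟨p, Subtype.ext e⟩
  have bj : Function.Bijective π := s.bijective_of_nat_card_le (by rw [card_M24]; exact f2)
  let ε := MulEquiv.ofBijective π bj
  refine ⟨((MonoidHom.snd _ _).comp P.subtype).comp ε.symm.toMonoidHom, ?_, ?_⟩
  · rw [pel_of_mem _ X.2]
    exact congrArg (fun p : P => p.1.2) (ε.symm_apply_apply ⟨_, mX⟩)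
  · rw [pel_of_mem _ Y.2]
    exact congrArg (fun p : P => p.1.2) (ε.symm_apply_apply ⟨_, mY⟩)

end CA.J4
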