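import Cfsg.Agent.Lib.J4.Fus
import Cfsg.Agent.Lib.J4.RecT

/-!
`N(V)/V = M24` acting on the even cocode.
-/

set_option autoImplicit false
set_option linter.unusedSectionVars false

namespace CA.J4
open Cfsg CA.Gol CA.Ex2 CA.Core CA.XS Subgroup
open scoped Pointwise

variable {G : Type*} [Group G] {E : Subgroup G} {z p s : G} {c : ℕ → G}

theorem isv_eq {τ : ℕ → G} {e a n : ℕ} (h : isv e a n = true) : n < 2048 ∧ c e * τ a = vv c τ n := by
  simp only [isv, Bool.and_eq_true, blt_iff, beq_iff] at h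
  exact ⟨h.1.1, by rw [vv, h.1.2, h.2]⟩

theorem lin_I4 {a : ℕ} (ha : a < 16) : lin I13 a = a := by interval_cases a <;> decide +kernel

theorem exists_S (b : ℕ → Bool) (h0 : b 0 = true) (h1 : b 1 = true) (h2 : b 2 = true) (h3 : b 3 = false)
    (h4 : b 4 = false) (h11 : b 11 = false) : ∃ i < 64, ∀ o < 12, tb (7 + 32 * i) o = b o := by
  refine ⟨(b 5).toNat + 2 * (b 6).toNat + 4 * (b 7).toNat + 8 * (b 8).toNat + 16 * (b 9).toNat + 32 * (b 10).toNat,
    by cases b 5 <;> cases b 6 <;> cases b 7 <;> cases b 8 <;> cases b 9 <;> cases b 10 <;> decide, fun o ho => ?_⟩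
  interval_cases o <;> (try simp only [h0, h1, h2, h3, h4, h11]) <;>
    cases b 5 <;> cases b 6 <;> cases b 7 <;> cases b 8 <;> cases b 9 <;> cases b 10 <;> decide +kernel

theorem ite2_true (x y : ℕ) : ite2 true x y = x := rfl
theorem ite2_false (x y : ℕ) : ite2 false x y = y := rfl
theorem geE_lt {j : ℕ} (hj : j < 6) (n : ℕ) : geE j n = eE (Nat.shiftLeft 64 j) n := by
  rw [geE, blt_iff.2 hj, ite2_true]
theorem geE_ge {j M e : ℕ} (hj : (!(Nat.blt j 6) && Nat.beq (nth [OM, YN, SF] (Nat.sub j 6)) M &&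
    Nat.beq (nth [0, 0, 1] (Nat.sub j 6)) e) = true) (n : ℕ) : geE j n = hact M e (uc n) := by
  simp only [Bool.and_eq_true, Bool.not_eq_true', beq_iff] at hj
  rw [geE, hj.1.1, ite2_false, hj.1.2, hj.2]
theorem geA_eq {j A : ℕ} (hj : Nat.beq (nth [I13, I13, I13, I13, I13, I13, I13, Y4, M4] j) A = true) (n : ℕ) :
    geA j n = lin A (al n) := by rw [geA, beq_iff.1 hj]

theorem dic_lt {m : ℕ} (hm : m < 2 ^ 24) : dic m < 2048 :=
  xor11 (lin_lt_of_cols (n := 12) (m := 11) (by norm_num) (by decide +kernel)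
    (lt_of_le_of_lt Nat.and_le_right (by norm_num)))
    (lin_lt_of_cols (n := 12) (m := 11) (by norm_num) (by decide +kernel) (by
      show m >>> 12 < _
      rw [Nat.shiftRight_eq_div_pow]; omega))

theorem dic_xor {a b : ℕ} (ha : a < 2 ^ 24) (hb : b < 2 ^ 24) : dic (Nat.xor a b) = dic a ^^^ dic b := by
  show lin DL ((a ^^^ b) &&& 4095) ^^^ lin DH ((a ^^^ b) >>> 12) =
    (lin DL (a &&& 4095) ^^^ lin DH (a >>> 12)) ^^^ (lin DL (b &&& 4095) ^^^ lin DH (b >>> 12))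
  rw [Nat.and_xor_distrib_right, Nat.shiftRight_xor_distrib,
    lin_xor _ (lt_of_le_of_lt Nat.and_le_right (by norm_num)) (lt_of_le_of_lt Nat.and_le_right (by norm_num)),
    lin_xor _ (by rw [Nat.shiftRight_eq_div_pow]; omega) (by rw [Nat.shiftRight_eq_div_pow]; omega)]
  ac_rfl

theorem dic_CW {s : Finset GolayPt} (hs : s ∈ CW) : dic (mask s) = 0 := by
  obtain ⟨i, hi, rfl⟩ := exists_enc hs
  rw [mask_fs (enc_lt hi)]; exact beq_iff.1 (allLt_iff.1 dic_enc i hi)

theorem mask_pair {a b : GolayPt} (h : a ≠ b) : mask {a, b} = du (ix a) (ix b) := by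
  have e : fs (du (ix a) (ix b)) = {a, b} := by
    rw [du, fs_xor, fs_two_pow (ix_lt a), fs_two_pow (ix_lt b), pt_ix, pt_ix]
    ext x; simp only [Finset.mem_symmDiff, Finset.mem_singleton, Finset.mem_insert]
    constructor
    · rintro (⟨h, -⟩ | ⟨h, -⟩)
      exacts [Or.inl h, Or.inr h]
    · rintro (rfl | rfl)
      exacts [Or.inl ⟨rfl, h⟩, Or.inr ⟨rfl, h.symm⟩]
  rw [← e, mask_fs (m := du _ _)
    (xor_lt (Nat.pow_lt_pow_right (by norm_num) (ix_lt a)) (Nat.pow_lt_pow_right (by norm_num) (ix_lt b)))]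

/-- the dictionary -/
def nuV (c τ : ℕ → G) (s : Finset GolayPt) : G := vv c τ (dic (mask s))

theorem ncard_val {V : Subgroup G} {n : G} (hn : n ∈ 𝐍(V)) (v : G) :
    {e | e ∈ (V : Set G) ∧ (IsConj z e ∧ IsConj z (v * e))}.ncard =
      {e | e ∈ (V : Set G) ∧ (IsConj z e ∧ IsConj z (n * v * n⁻¹ * e))}.ncard :=
  Set.ncard_congr (fun e _ => n * e * n⁻¹)
    (fun e he => ⟨conj_mem_of_mem_normalizer hn he.1, isConj_cj n he.2.1, by rw [conj_mul]; exact isConj_cj n he.2.2⟩)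
    (fun a b _ _ e => by simpa using e)
    (fun e he => ⟨n⁻¹ * e * n⁻¹⁻¹, ⟨conj_mem_of_mem_normalizer (inv_mem hn) he.1, isConj_cj _ he.2.1, by
      have := isConj_cj n⁻¹ he.2.2
      convert this using 1; group⟩, by group⟩)

namespace JH
variable [Finite G] {π : ↥𝐂[z] →* Pm} (h : JH z p s E π c) {y m : G} {τ : ℕ → G} (d : TD p s π c y m τ)
include h d

theorem cjE_vv {w : ℕ} (hw : w < 8192) {n : ℕ} (hn : n < 2048) :
    c w * vv c τ n * (c w)⁻¹ = c (eE w n) * τ (al n) := by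
  obtain ⟨i1, i2⟩ := h.c_inv hw
  obtain ⟨a1, a2⟩ := d.act _ (al_lt n) _ i1
  rw [hact_zero] at a1 a2
  rw [eE, h.c_mul _ (hmul_lt hw (uc_lt hn).1) _ a1, h.c_mul _ hw _ (uc_lt hn).1, ← a2, i2, vv]; group

omit h d in
theorem cjK_vv {k : G} {M e A : ℕ} (a : Act c k M e) (t : ∀ a < 16, k * τ a * k⁻¹ = τ (lin A a)) {n : ℕ} (hn : n < 2048) :
    k * vv c τ n * k⁻¹ = c (hact M e (uc n)) * τ (lin A (al n)) := by
  rw [← (a _ (uc_lt hn).1).2, ← t _ (al_lt n), conj_mul, vv]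

theorem p_t {a : ℕ} (ha : a < 16) : p * τ a * p⁻¹ = τ (lin I13 a) := by
  rw [lin_I4 ha, conj_eq_iff_mem_cent1.2 (mem_cent1_comm.1 (d.mem a).2)]

theorem conj_ge {j : ℕ} (hj : j < 9) {n : ℕ} (hn : n < 2048) : IsConj (vv c τ n) (c (geE j n) * τ (geA j n)) := by
  by_cases h6 : j < 6
  · rw [geE_lt h6, geA_eq (A := I13) (by interval_cases j <;> decide +kernel), lin_I4 (al_lt n)]
    exact isConj_iff.2 ⟨_, h.cjE_vv d (by interval_cases j <;> decide) hn⟩
  · obtain rfl | rfl | rfl : j = 6 ∨ j = 7 ∨ j = 8 := by omega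
    · rw [geE_ge (M := OM) (e := 0) (by decide +kernel), geA_eq (A := I13) (by decide +kernel)]
      exact isConj_iff.2 ⟨_, cjK_vv h.p_act (fun _ => h.p_t d) hn⟩
    · rw [geE_ge (M := YN) (e := 0) (by decide +kernel), geA_eq (A := Y4) (by decide +kernel)]
      exact isConj_iff.2 ⟨_, cjK_vv d.y_act d.y_conj hn⟩
    · rw [geE_ge (M := SF) (e := 1) (by decide +kernel), geA_eq (A := M4) (by decide +kernel)]
      exact isConj_iff.2 ⟨_, cjK_vv d.m_act d.m_conj hn⟩

theorem conj_rep {n : ℕ} (hn : n < 2048) : orb n < 12 ∧ IsConj (vv c τ n) (vv c τ (nth RP (orb n))) := by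
  induction hr : Nat.shiftRight (fld2 8 TGv n) 4 using Nat.strong_induction_on generalizing n with
  | _ r ih =>
    have := allLt_iff.1 orb_chk n hn
    simp only [force_eq, Bool.and_eq_true, Bool.or_eq_true, blt_iff, beq_iff] at this
    refine ⟨this.1, ?_⟩
    rcases this.2 with e | ⟨hj, ⟨e1, e2⟩, e3⟩
    · rw [← e]
    · obtain ⟨l, e⟩ := isv_eq (c := c) (τ := τ) e1
      have := (ih _ (hr ▸ e3) l rfl).2
      rw [e2, ← e] at this
      exact (h.conj_ge d hj hn).trans this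

theorem vv_lt {n : ℕ} (hn : n < 64) : vv c τ n = c n := by
  have : allLt (fun n => Nat.beq (uc n) n && Nat.beq (al n) 0) 64 = true := by decide +kernel
  have := allLt_iff.1 this n hn
  rw [Bool.and_eq_true, beq_iff, beq_iff] at this
  rw [vv, this.1, this.2, h.t_zero d, mul_one]

theorem merge : IsConj (vv c τ 1) (vv c τ 16) ∧ IsConj (vv c τ 21) (vv c τ 23) := by
  obtain ⟨k, -, -, a⟩ := h.lift _ (perm_mem22 (c := 0xbb2aa24a164466e10c29a3ceb2b4c0) (by decide +kernel))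
  rw [code_perm22 (by decide +kernel)] at a
  have a1 := (a 1 (by norm_num)).2
  have a2 := (a 21 (by norm_num)).2
  rw [show hact (matOf 0xbb2aa24a164466e10c29a3ceb2b4c0) 0 1 = 48 by decide +kernel, ← h.vv_lt d (by norm_num),
    ← h.vv_lt d (by norm_num)] at a1
  rw [show hact (matOf 0xbb2aa24a164466e10c29a3ceb2b4c0) 0 21 = 41 by decide +kernel, ← h.vv_lt d (by norm_num),
    ← h.vv_lt d (by norm_num)] at a2
  have b1 := (h.conj_rep d (n := 48) (by norm_num)).2
  have b2 := (h.conj_rep d (n := 41) (by norm_num)).2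
  rw [show nth RP (orb 48) = 16 by decide +kernel] at b1
  rw [show nth RP (orb 41) = 23 by decide +kernel] at b2
  exact ⟨(isConj_iff.2 ⟨k, a1⟩).trans b1, (isConj_iff.2 ⟨k, a2⟩).trans b2⟩

variable (hO : ∃ g, g * z * g⁻¹ ∈ 𝐂[z] ∧ g * z * g⁻¹ ≠ z)
include hO

theorem typ {n : ℕ} (hn : n < 2048) : IsConj z (vv c τ n) ↔ tb 967 (orb n) = true := by
  classical
  have n21 : ¬ IsConj z (vv c τ 21) := by rw [h.vv_lt d (by norm_num)]; exact h.not21 d
  have n0 : ¬ IsConj z (vv c τ 0) := by rw [h.vv_zero d, isConj_one_left]; exact h.ez.ne_one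
  obtain ⟨m1, m2⟩ := h.merge d
  have y1 : IsConj z (vv c τ 1) := by
    obtain ⟨g, hg, hne⟩ := h.exists_E_conj d hO
    obtain ⟨k, hk, hU⟩ := h.exists_U hg (by rw [conj_mul, h.zz]; simp)
    obtain ⟨l, e⟩ := h.vv_cmb (τ := τ) hU (a := 0) (by norm_num)
    have a0 := (cmb_spec (cd_lt (c := c) _) hU.2 (a := 0) (by norm_num)).2.2.1
    rw [h.t_zero d, mul_one] at e
    generalize cmb (cd c (k * (g * z * g⁻¹) * k⁻¹)) 0 = n at l e a0
    have zn : IsConj z (vv c τ n) := e ▸ isConj_cj k (isConj_cj g (IsConj.refl z))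
    have zr := zn.trans (h.conj_rep d l).2
    have : allLt (fun n => !(Nat.beq (al n) 0) || Nat.beq n 1024 || memL (nth RP (orb n)) [1, 16, 21, 23, 0]) 2048
      = true := by decide +kernel
    have := allLt_iff.1 this n l
    rw [beq_iff.2 a0, Bool.not_true, Bool.false_or, Bool.or_eq_true, beq_iff, memL_iff] at this
    rcases this with rfl | this
    · rw [h.vv_z d] at e
      exact absurd (by simpa using ((h.conj_z hk).trans e).symm) hne
    · simp only [List.mem_cons, List.not_mem_nil, or_false] at this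
      rcases this with e | e | e | e | e <;> rw [e] at zr
      exacts [zr, zr.trans m1.symm, absurd zr n21, absurd (zr.trans m2.symm) n21, absurd zr n0]
  obtain ⟨i, hi, H⟩ := exists_S (fun o => decide (IsConj z (vv c τ (nth RP o))))
    (decide_eq_true (by rw [show nth RP 0 = 1024 from rfl, h.vv_z d])) (decide_eq_true y1) (decide_eq_true (y1.trans m1))
    (decide_eq_false n21) (decide_eq_false fun e => n21 (e.trans m2.symm)) (decide_eq_false n0)
  have T : ∀ n < 2048, IsConj z (vv c τ n) ↔ tb (7 + 32 * i) (orb n) = true := fun n hn => by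
    obtain ⟨l, e⟩ := h.conj_rep d hn
    rw [H _ l, decide_eq_true_iff]
    exact ⟨fun a => a.trans e, fun a => a.trans e.symm⟩
  have V : ∀ a < 2048, {e | e ∈ (h.VV d : Set G) ∧ (IsConj z e ∧ IsConj z (vv c τ a * e))}.ncard =
      valS (7 + 32 * i) a := fun a ha => (h.famV d).ncard fun e he _ => by
    rw [← h.vv_xor d ha he, T e he, T _ (xor11 ha he), Bool.and_eq_true]; rfl
  have chk := allLt_iff.1 val_chk i hi
  rw [force_eq, force_eq, Bool.or_eq_true, beq_iff, anyL_iff] at chk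
  rcases chk with e | ⟨o, ho, e⟩
  · rw [← e]; exact T n hn
  · exfalso
    have l : o < 12 := by
      simp only [List.mem_cons, List.not_mem_nil, or_false] at ho; omega
    have l2 : nth RP o < 2048 := by interval_cases o <;> decide
    rw [Bool.and_eq_true, Bool.not_eq_true', ← Bool.not_eq_true, beq_iff] at e
    obtain ⟨g, hg⟩ := isConj_iff.1 (of_decide_eq_true ((H o l).symm.trans e.1))
    obtain ⟨k, hk, e1⟩ := h.fusion d (h.z_V d) (hg ▸ h.vv_mem d l2)
    apply e.2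
    have := ncard_val (z := z) hk z
    have V0 := V 1024 (by norm_num)
    rw [h.vv_z d] at V0
    rw [e1, hg, V _ l2, V0] at this
    exact this.symm

omit hO in
theorem todd : Todd (h.VV d) (nuV c τ) where
  mul s t _ _ := by
    rw [nuV, mask_symmDiff, dic_xor (mask_lt s) (mask_lt t), h.vv_xor d (dic_lt (mask_lt s)) (dic_lt (mask_lt t))]; rfl
  ker s hs := by
    rw [nuV, ← h.vv_zero d]
    refine ⟨fun e => ?_, fun e => by rw [dic_CW e]⟩
    have e0 := h.vv_inj d (dic_lt (mask_lt s)) (by norm_num) e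
    obtain ⟨j, hj, e1⟩ := exists_high_rep s
    have hl : hi j < 2 ^ 24 := by show j * 4096 < _; omega
    have he : Even (fs (hi j)).card := by
      have := even_symmDiff hs (even_of_CW e1)
      rwa [symmDiff_symmDiff_cancel_left] at this
    have e2 := dic_CW e1
    rw [mask_symmDiff, dic_xor (mask_lt _) (mask_lt _), e0, Nat.zero_xor, mask_fs (m := Nat.mul j 4096) hl] at e2
    have := allLt_iff.1 dic_hi j hj
    rw [(ev_iff hl).2 he, (beq_iff (a := dic (hi j))).2 e2, Bool.not_true, Bool.false_or, Bool.false_or, beq_iff] at this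
    subst this
    rwa [show Nat.mul 0 4096 = 0 from rfl, fs_zero, ← Finset.bot_eq_empty, symmDiff_bot] at e1
  mem v := by
    refine ⟨fun ⟨n, hn, e⟩ => ?_, fun ⟨s, _, e⟩ => e ▸ h.vv_mem d (dic_lt (mask_lt s))⟩
    have := allLt_iff.1 dic_inv n hn
    rw [force_eq, Bool.and_eq_true, beq_iff] at this
    exact ⟨_, ev_even this.1, by rw [nuV, mask_fs (ev_lt this.1), this.2, e]⟩

theorem duad_typ {a b : GolayPt} (hab : a ≠ b) : ¬ IsConj z (nuV c τ {a, b}) := by
  have := allLt_iff.1 (allLt_iff.1 dic_du _ (ix_lt a)) _ (ix_lt b)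
  rw [Bool.or_eq_true, beq_iff, force_eq, Bool.and_eq_true, Bool.not_eq_true', ← Bool.not_eq_true] at this
  rw [nuV, h.typ d hO (dic_lt (mask_lt _)), mask_pair hab]
  exact (this.resolve_left fun e => hab (ix_inj e)).1

theorem duad_of {v : G} (hv : v ∈ h.VV d) (h1 : v ≠ 1) (hz : ¬ IsConj z v) : ∃ a b, a ≠ b ∧ nuV c τ {a, b} = v := by
  have c1 := (h.famV d).ncard (P := fun v => ¬ IsConj z v ∧ v ≠ 1)
    (p := fun n => !(tb 967 (orb n)) && !(Nat.beq n 0)) fun n hn _ => by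
      rw [h.typ d hO hn, Bool.and_eq_true, Bool.not_eq_true', Bool.not_eq_true', ← Bool.not_eq_true (Nat.beq _ _),
        beq_iff, Bool.not_eq_true, ← h.vv_zero d]
      exact and_congr_right fun _ => ⟨fun e e' => e (by rw [e']), fun e e' => e (h.vv_inj d hn (by norm_num) e')⟩
  rw [cnt_du, ← (h.todd d).ncard_duads] at c1
  have := Set.eq_of_subset_of_ncard_le (s := {v | ∃ s, s.card = 2 ∧ nuV c τ s = v}) (fun v ⟨s, hs, e⟩ => by
    obtain ⟨a, b, hab, rfl⟩ := Finset.card_eq_two.1 hs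
    subst e
    exact ⟨(h.todd d).nu_mem (even_pair hab), h.duad_typ d hO hab,
      (h.todd d).ne_one (even_pair hab) (by omega) (by omega)⟩) c1.le (Set.toFinite _)
  obtain ⟨s, hs, e⟩ : v ∈ {v | ∃ s, s.card = 2 ∧ nuV c τ s = v} := this ▸ ⟨hv, hz, h1⟩
  obtain ⟨a, b, hab, rfl⟩ := Finset.card_eq_two.1 hs
  exact ⟨a, b, hab, e⟩

theorem tetrad_typ {s : Finset GolayPt} (hs : s.card = 4) : IsConj z (nuV c τ s) := by
  by_contra e
  have ev : Even s.card := by rw [hs]; decide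
  obtain ⟨a, b, hab, e⟩ := h.duad_of d hO ((h.todd d).nu_mem ev) ((h.todd d).ne_one ev (by omega) (by omega)) e
  exact (h.todd d).duad_ne_tetrad (Finset.card_pair hab) hs e

theorem exists_tetrad {v : G} (hv : v ∈ h.VV d) (hz : IsConj z v) : ∃ s, s.card = 4 ∧ nuV c τ s = v := by
  rcases (h.todd d).small_rep hv with rfl | ⟨s, hs, rfl⟩ | e
  · exact absurd (isConj_one_left.1 hz) h.ez.ne_one
  · obtain ⟨a, b, hab, rfl⟩ := Finset.card_eq_two.1 hs
    exact absurd hz (h.duad_typ d hO hab)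
  · exact e

theorem act_norm {n : G} (hn : n ∈ 𝐍(h.VV d)) : ∃ g, Acts (nuV c τ) n g :=
  (h.todd d).exists_acts fun a b hab => by
    obtain ⟨a', b', h1, e⟩ := h.duad_of d hO (conj_mem_of_mem_normalizer hn ((h.todd d).nu_mem (even_pair hab)))
      (fun e => (h.todd d).ne_one (even_pair hab) (by rw [Finset.card_pair hab]; omega) (by
        rw [Finset.card_pair hab]; omega) (by simpa using e)) fun e => h.duad_typ d hO hab (isConj_of_cj n e)
    exact ⟨a', b', h1, e.symm⟩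

theorem card_N : Nat.card 𝐍(h.VV d) = 501397585920 := by
  have e := card_inf_mul_relIndex 𝐂[z] 𝐍(h.VV d)
  rw [h.card_NH d, relIndex_cent1_eq_ncard, show {y | ∃ k ∈ 𝐍(h.VV d), k * z * k⁻¹ = y} =
    {v | ∃ s, s.card = 4 ∧ nuV c τ s = v} from Set.ext fun v => ⟨fun ⟨k, hk, e⟩ => h.exists_tetrad d hO
      (e ▸ conj_mem_of_mem_normalizer hk (h.z_V d)) (isConj_iff.2 ⟨k, e⟩), fun ⟨s, hs, e⟩ => by
      obtain ⟨g, hg⟩ := isConj_iff.1 (h.tetrad_typ d hO hs)
      obtain ⟨k, hk, e1⟩ := h.fusion d (h.z_V d) (hg ▸ (h.todd d).nu_mem (by rw [hs]; decide))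
      exact ⟨k, hk, by rw [e1, hg, e]⟩⟩, (h.todd d).ncard_tetrads] at e
  exact e.symm

theorem onto {g : Pm} (hg : g ∈ M24) : ∃ n ∈ 𝐍(h.VV d), Acts (nuV c τ) n g := by
  obtain ⟨μ, h1, h2, h3⟩ := (h.todd d).exists_mu' (M := 𝐍(h.VV d)) fun n hn => h.act_norm d hO hn
  have e := card_pmap_mul μ le_rfl
  have k : pker μ ⊓ 𝐍(h.VV d) = h.VV d := by
    ext x
    refine ⟨fun hx => h.cent_V d ((h3 ⟨x, hx.2⟩).1 ((pel_of_mem μ hx.2).symm.trans (mem_pker.1 hx.1).2)), fun hx =>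
      ⟨mem_pker.2 ⟨le_normalizer hx, (pel_of_mem μ (le_normalizer hx)).trans ((h3 _).2 (h.V_ab d hx))⟩, le_normalizer hx⟩⟩
  rw [k, h.card_V d, h.card_N d hO] at e
  have : pmap μ 𝐍(h.VV d) = M24 := eq_of_le_of_card_eq (fun g hg => by
    obtain ⟨x, hx, rfl⟩ := (mem_pmap_of_le le_rfl).1 hg
    rw [pel_of_mem μ hx]; exact h1 _) (by rw [card_M24]; omega)
  obtain ⟨x, hx, rfl⟩ := (mem_pmap_of_le le_rfl).1 (this ▸ hg)
  exact ⟨x, hx, fun s hs => by rw [pel_of_mem μ hx]; exact h2 ⟨x, hx⟩ s hs⟩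

omit hO in
theorem acts_of {k : G} {fe fa : ℕ → ℕ} {g : ℕ} (H : ∀ n < 2048, k * vv c τ n * k⁻¹ = c (fe n) * τ (fa n))
    (ok : actOK fe fa g = true) : Acts (nuV c τ) k (perm g) := by
  rw [actOK, Bool.and_eq_true] at ok
  refine (h.todd d).acts_of_pairs fun a b hab => ?_
  have := allLt_iff.1 (allLt_iff.1 ok.2 _ (ix_lt a)) _ (ix_lt b)
  rw [Bool.or_eq_true, beq_iff, force_eq] at this
  have := (isv_eq (c := c) (τ := τ) (this.resolve_left fun e => hab (ix_inj e))).2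
  rw [nuV, H _ (dic_lt (mask_lt _)), mask_pair hab, this, nuV, mask_pair ((perm g).injective.ne hab), ← ap_code_ix,
    ← ap_code_ix, code_perm' ok.1]

/-- centralizers of a tetrad and a duad -/
theorem cent_pair {a b : GolayPt} (hab : a ≠ b) : 𝐂[z] ⊓ 𝐂[nuV c τ {a, b}] ≤ 𝐍(h.VV d) := by
  intro x ⟨hx, hc⟩
  have l := dic_lt (mask_lt {a, b})
  have t := h.duad_typ d hO hab
  have t1 := (h.todd d).ne_one (even_pair hab) (by rw [Finset.card_pair hab]; omega) (by rw [Finset.card_pair hab]; omega)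
  unfold nuV at hc t t1
  generalize dic (mask {a, b}) = n at l hc t t1
  rw [h.mem_norm_iff d hx]
  by_cases a0 : al n = 0
  · obtain ⟨i, hi, e⟩ := exists_hr (h.pi_mem hx)
    obtain ⟨k, hk, e1, a⟩ := h.lift _ (hr_mem hi)
    have m := (h.mem_norm_iff d (mul_mem hk.1 hx)).2 (by rw [pel_mul _ hk.1 hx, e1]; exact e)
    have m1 := conj_mem_of_mem_normalizer m (h.vv_mem d l)
    have uE := (h.uc_mem d l).1
    rw [show k * x * vv c τ n * (k * x)⁻¹ = k * (x * vv c τ n * x⁻¹) * k⁻¹ by group, conj_eq_iff_mem_cent1.2 hc, vv, a0,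
      h.t_zero d, mul_one] at m1
    have m2 := (h.memUH_of d m1 (h.cjE hk.1 uE)).2
    rw [h.wm_act hk.1 a (fun _ => matOf_lt _) _ uE, code_hr hi, eq12_lin (allLt_iff.1 HM_chk i hi) (wv_lt _),
      h.wv_c (uc_lt l).1] at m2
    have := allLt_iff.1 duad_chk n l
    rw [Bool.eq_false_iff.2 fun e => t ((h.typ d hO l).2 e), Bool.false_or, Bool.eq_false_iff.2 fun e : Nat.beq n 0 = true =>
      t1 (by rw [beq_iff.1 e, h.vv_zero d]), Bool.false_or, beq_iff.2 a0, Bool.not_true, Bool.false_or] at this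
    have := allLt_iff.1 this i hi
    rw [(blt_iff (a := lin (nth HM i) (Nat.mod (uc n) 4096))).2 m2, Bool.not_true, Bool.false_or, ← code_hr hi,
      st_iff OH_lt] at this
    exact (Subgroup.mul_mem_cancel_left _ (memSO.2 ⟨M22_le_D2 (hr_mem hi), this⟩)).1 e
  · refine cent_SO (h.pi_mem hx) (al_lt n) a0 ?_
    rw [← h.pi_vv d l, ← pel_mul _ hx (h.vv_H d l), ← pel_mul _ (h.vv_H d l) hx, mem_cent1_iff.1 hc]

theorem cent_pair' {s : Finset GolayPt} (hs : s.card = 4) {a b : GolayPt} (hab : a ≠ b) :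
    𝐂[nuV c τ s] ⊓ 𝐂[nuV c τ {a, b}] ≤ 𝐍(h.VV d) := by
  obtain ⟨g, hg⟩ := isConj_iff.1 (h.tetrad_typ d hO hs)
  obtain ⟨k, hk, e⟩ := h.fusion d (h.z_V d) (hg ▸ (h.todd d).nu_mem (by rw [hs]; decide))
  obtain ⟨u, hu⟩ := h.act_norm d hO (inv_mem hk)
  have e1 := hu _ (even_pair hab)
  rw [smul_pair] at e1
  intro x ⟨h1, h2⟩
  have : k⁻¹ * x * k ∈ 𝐍(h.VV d) := h.cent_pair d hO (u.injective.ne hab) (mem_inf.2 ⟨by
    rw [← mem_cj, cj_centralizer_singleton, e, hg]; exact h1, by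
    rw [← e1, ← cj_centralizer_singleton, mem_cj]; simpa [mul_assoc] using h2⟩)
  rwa [Subgroup.mul_mem_cancel_right _ hk, Subgroup.mul_mem_cancel_left _ (inv_mem hk)] at this

end JH

end CA.J4
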