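import Cfsg.Agent.Lib.J4.Rec
import Cfsg.Agent.Lib.J4.MFus
import Cfsg.Agent.Lib.XS.Gasch

/-!
`N(V)` splits over `V`; two classes of involutions.
-/

set_option autoImplicit false
set_option linter.unusedSectionVars false

namespace CA.J4
open Cfsg CA.Gol CA.Ex2 CA.Core CA.XS Subgroup
open scoped Pointwise

variable {G : Type*} [Group G] {E : Subgroup G} {z p s : G} {c : ℕ → G}

/-- words in four involutions -/
def fD {G : Type*} [Group G] (a a' b c : G) (i : ℕ) : G := a ^ (i % 2) * a' ^ (i / 2 % 2) * b ^ (i / 4 % 2) * c ^ (i / 8 % 2)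

theorem mem_fD [Finite G] {a b c : G} (ha : a * a = 1) (hb : b * b = 1) (hc : c * c = 1) (ab : a * b = b * a)
    (bc : b * c = c * b) (aa : a * (c * a * c⁻¹) = c * a * c⁻¹ * a) {x : G}
    (hx : x ∈ zpowers a ⊔ zpowers (c * a * c⁻¹) ⊔ zpowers b ⊔ zpowers c) : ∃ i < 16, fD a (c * a * c⁻¹) b c i = x := by
  have cb : c * b * c⁻¹ = b := by rw [← bc, mul_inv_cancel_right]
  have ca : c * (c * a * c⁻¹) * c⁻¹ = a := by
    rw [show c * (c * a * c⁻¹) * c⁻¹ = c * c * a * (c * c)⁻¹ by group, hc]; simp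
  have n1 : zpowers (c * a * c⁻¹) ≤ 𝐍(zpowers a) := norms_zpowers_of_cent1 (zpowers_le.2 (mem_cent1_iff.2 aa.symm))
  have n2 : zpowers b ≤ 𝐍(zpowers a ⊔ zpowers (c * a * c⁻¹)) := zpowers_le.2 (mem_normalizer_iff_cj.2 (by
    rw [cj_sup, cj_zpowers, cj_zpowers, ← ab, mul_inv_cancel_right, show b * (c * a * c⁻¹) * b⁻¹ =
      b * c * a * (b * c)⁻¹ by group, bc, show c * b * a * (c * b)⁻¹ = c * (b * a * b⁻¹) * c⁻¹ by group, ← ab,
      mul_inv_cancel_right]))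
  have n3 : zpowers c ≤ 𝐍(zpowers a ⊔ zpowers (c * a * c⁻¹) ⊔ zpowers b) := zpowers_le.2 (mem_normalizer_iff_cj.2 (by
    rw [cj_sup, cj_sup, cj_zpowers, cj_zpowers, cj_zpowers, ca, cb, sup_comm (zpowers a)]))
  obtain ⟨x1, hx1, u, hu, rfl⟩ := (mem_sup_of_norm_right n3).1 hx
  obtain ⟨x2, hx2, v, hv, rfl⟩ := (mem_sup_of_norm_right n2).1 hx1
  obtain ⟨x3, hx3, w, hw, rfl⟩ := (mem_sup_of_norm_right n1).1 hx2
  have pw : ∀ {g x : G}, g * g = 1 → x ∈ zpowers g → ∃ i < 2, g ^ i = x := fun h hx => by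
    rcases (mem_zp2 h).1 hx with rfl | rfl
    exacts [⟨0, by norm_num, pow_zero _⟩, ⟨1, by norm_num, pow_one _⟩]
  obtain ⟨i, hi, rfl⟩ := pw ha hx3
  obtain ⟨j, hj, rfl⟩ := pw (by rw [conj_mul, ha]; simp) hw
  obtain ⟨k, hk, rfl⟩ := pw hb hv
  obtain ⟨l, hl, rfl⟩ := pw hc hu
  refine ⟨i + 2 * j + 4 * k + 8 * l, by omega, ?_⟩
  rw [fD, show (i + 2 * j + 4 * k + 8 * l) % 2 = i by omega, show (i + 2 * j + 4 * k + 8 * l) / 2 % 2 = j by omega,
    show (i + 2 * j + 4 * k + 8 * l) / 4 % 2 = k by omega, show (i + 2 * j + 4 * k + 8 * l) / 8 % 2 = l by omega]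

def spT1 : ℕ := 0x2eb4312284b98db29f03cc7228837
def spT2 : ℕ := 0x5a9594c286b9e95a990390a618a37
def spT3 : ℕ := 0x3a959ca306d9ec11528191463ac37
def spT4 : ℕ := 0x5ab421a286092f59db0548b31b837
def spA : ℕ := 0x10000a400f8009800ec006800bc0000c00040030001000020003
def spB : ℕ := 0x100008000c0008400c8005000a00002000300004000800020003
def spC : ℕ := 0x100008000c000200030000c00040000e000700040008002c0034
def spD : ℕ := 0x10000a400f800bc00d4007400980002200330007000900020003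
def cDw (i : ℕ) : ℕ := mul (mul (mul (powC spT1 (i % 2)) (powC spT4 (i / 2 % 2))) (powC spT2 (i / 4 % 2))) (powC spT3 (i / 8 % 2))
def okS (M e : ℕ) : Bool := eq13 (mm M M) I13 &&
  allLt (fun n => force (uc n) fun a => !(Nat.beq (Nat.xor a (hact M e a)) 4096)) 2048
def okH (M : ℕ) : Bool := allLt (fun i => force (hact M 1 (Nat.mul 64 i)) fun w => Nat.blt w 4096 && Nat.beq (Nat.mod w 64) 0) 64

theorem cDw_chk : allLt (fun i => force (cDw i) fun g => (Nat.beq i 0 || !(inA g)) &&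
    allLt (fun j => Nat.beq i j || !(Nat.beq g (cDw j))) 16) 16 = true := by decide +kernel

theorem exists_mm' {V K : Subgroup G} {ν : Finset GolayPt → G} (todd : Todd V ν) (cent : 𝐂(V) ≤ V)
    (act : ∀ n ∈ 𝐍(V), ∃ g, Acts ν n g) (K_inf : K ⊓ V = ⊥) (onto : ∀ g ∈ M24, ∃ k ∈ K, Acts ν k g) :
    ∃ κ : M24 →* G, MM V ν κ := by
  choose k hk ha using onto
  have uq : ∀ {a b : G} {g : Pm}, a ∈ K → b ∈ K → Acts ν a g → Acts ν b g → a = b := fun {a b g} h1 h2 h3 h4 => by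
    have := h3.inv.mul h4
    rw [inv_mul_cancel, todd.acts_one_iff] at this
    have : a⁻¹ * b ∈ K ⊓ V := ⟨K.mul_mem (K.inv_mem h1) h2, cent this⟩
    rw [K_inf, mem_bot, inv_mul_eq_one] at this
    exact this
  exact ⟨MonoidHom.mk' (fun g => k g g.2) fun a b => uq (hk _ _) (K.mul_mem (hk _ _) (hk _ _)) (ha _ _)
    ((ha _ _).mul (ha _ _)), todd, cent, act, fun g => ha g g.2⟩

theorem comm_eq {a b g : ℕ} (H : (inM24 a && inM24 b && inM24 g && Nat.beq (mul a b) (mul (mul g b) a)) = true) :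
    perm a * perm b * (perm a)⁻¹ * (perm b)⁻¹ = perm g := by
  simp only [Bool.and_eq_true, beq_iff] at H
  rw [mul_inv_eq_iff_eq_mul, mul_inv_eq_iff_eq_mul, perm_mul' H.1.1.1 H.1.1.2, perm_mul' H.1.2 H.1.1.2,
    perm_mul' (inM24_mul H.1.2 H.1.1.2) H.1.1.1, H.2]

namespace JH
variable [Finite G] {π : ↥𝐂[z] →* Pm} (h : JH z p s E π c)
include h

theorem exists_out {t M A : ℕ} (H : (inM24 t && in22 (mul sC t) && (eq13 (matOf (mul sC t)) M ||
    eq13 (mm OM (matOf (mul sC t))) M || eq13 (mm OM (mm OM (matOf (mul sC t)))) M) && eq13 (mm SN M) A) = true) :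
    ∃ k ∈ 𝐂[z] ⊓ 𝐍(zpowers p), pel π k = perm t ∧ Act c k A 1 := by
  simp only [Bool.and_eq_true] at H
  obtain ⟨k, hk, e, a⟩ := h.exists_lift (perm_mem22 H.1.1.2) (M := M) (by rw [code_perm22 H.1.1.2]; exact H.1.2)
  refine ⟨s * k, mul_mem h.s_K (h.j0.C_le hk), ?_, (h.act_mul h.s_mem h.s_act a).congr H.2⟩
  rw [pel_mul _ h.s_mem hk.1, h.s_pi, e, ← perm_mul' sC_in H.1.1.1, ← mul_assoc, ← eq_perm_of_code cs, s0_sq, one_mul]

/-- the complement of `U` -/
def Sg : Subgroup G where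
  carrier := {x | ∃ i < 64, c (64 * i) = x}
  mul_mem' := by
    rintro _ _ ⟨a, ha, rfl⟩ ⟨b, hb, rfl⟩
    have : allLt (fun a => allLt (fun b => Nat.beq (hmul (Nat.mul 64 a) (Nat.mul 64 b)) (Nat.mul 64 (Nat.xor a b))) 64) 64
      = true := by decide +kernel
    exact ⟨_, xor_lt' (n := 6) ha hb, by
      rw [← h.c_mul _ (by omega) _ (by omega)]
      exact congrArg c (beq_iff.1 (allLt_iff.1 (allLt_iff.1 this a ha) b hb)).symm⟩
  one_mem' := ⟨0, by norm_num, h.c_zero⟩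
  inv_mem' := by
    rintro _ ⟨a, ha, rfl⟩
    have : allLt (fun a => Nat.beq (hinv (Nat.mul 64 a)) (Nat.mul 64 a)) 64 = true := by decide +kernel
    exact ⟨a, ha, by rw [(h.c_inv (by omega)).2]; exact congrArg c (beq_iff.1 (allLt_iff.1 this a ha)).symm⟩

theorem Sg_le : h.Sg ≤ E := by rintro _ ⟨i, hi, rfl⟩; exact h.c_mem (by omega)

theorem card_Sg : Nat.card h.Sg = 64 := by
  have F : Fam (h.Sg : Set G) (fun i => c (64 * i)) (fun _ => true) 64 := ⟨fun i hi _ => ⟨i, hi, rfl⟩,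
    fun _ ⟨i, hi, e⟩ => ⟨i, hi, rfl, e⟩, fun i hi j hj _ _ e => by
      have := h.c_inj _ (by omega) _ (by omega) e; omega⟩
  have := F.ncard (P := fun _ => True) (p := fun _ => true) (fun _ _ _ => by simp)
  simp only [and_true] at this
  exact this.trans (by decide +kernel)

theorem Sg_norm {k : G} {M : ℕ} (a : Act c k M 1) (ok : okH M = true) : k ∈ 𝐍(h.Sg) :=
  mem_normalizer_of_cj_le (cj_le_iff'.2 fun x ⟨i, hi, e⟩ => by
    have := allLt_iff.1 ok i hi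
    rw [force_eq, Bool.and_eq_true, blt_iff, beq_iff] at this
    rw [← e, (a _ (by omega)).2]
    change hact M 1 (64 * i) < _ ∧ hact M 1 (64 * i) % 64 = 0 at this
    exact ⟨hact M 1 (64 * i) / 64, by omega, by rw [Nat.mul_div_cancel' (Nat.dvd_of_mod_eq_zero this.2)]⟩)

variable {y m : G} {τ : ℕ → G} (d : TD p s π c y m τ)
include d

theorem acts_p : Acts (nuV c τ) p (perm pM) := h.acts_of d (fun _ hn => cjK_vv h.p_act (fun _ => h.p_t d) hn) pM_chk
theorem acts_A : Acts (nuV c τ) (c 64) (perm eA) := h.acts_of d (fun _ hn => h.cjE_vv d (by norm_num) hn) eA_chk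
theorem acts_B : Acts (nuV c τ) (c 1344) (perm eB) := h.acts_of d (fun _ hn => h.cjE_vv d (by norm_num) hn) eB_chk

omit d in
theorem comm_sq {w : ℕ} (hw : w < 4096) (q : qf (om w ^^^ w) = 0) :
    p * c w * p⁻¹ * (c w)⁻¹ * (p * c w * p⁻¹ * (c w)⁻¹) = 1 := by
  have m := h.c_mem (a := w) (by omega)
  rw [h.sq_iff (mul_mem (h.cjE h.p_mem m) (inv_mem m)), h.wv_mul (h.cjE h.p_mem m) (inv_mem m), h.wv_inv m, h.wm_p _ m,
    h.wv_c' hw, q]

variable (hO : ∃ g, g * z * g⁻¹ ∈ 𝐂[z] ∧ g * z * g⁻¹ ≠ z)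
include hO

theorem invol_lift {g : Pm} (hg : g ∈ M24) (o : orderOf g = 2) : ∃ x, x * x = 1 ∧ Acts (nuV c τ) x g := by
  have key : ∀ {x : G} {k r u : Pm} {l : Pm}, x * x = 1 → Acts (nuV c τ) x u → k ∈ M24 → l ∈ M24 → k * g * k⁻¹ = r →
      l * r * l⁻¹ = u → ∃ x, x * x = 1 ∧ Acts (nuV c τ) x g := fun {x k r u l} x2 a hk hl e1 e2 => by
    obtain ⟨n, -, an⟩ := h.onto d hO (mul_mem hl hk)
    refine ⟨n⁻¹ * x * n⁻¹⁻¹, by rw [conj_mul, x2]; simp, ?_⟩
    have := (an.inv.mul a).mul an.inv.inv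
    rwa [← e2, ← e1, show (l * k)⁻¹ * (l * (k * g * k⁻¹) * l⁻¹) * (l * k)⁻¹⁻¹ = g by group] at this
  obtain ⟨k, hk, e | e⟩ := class_two hg o
  · refine key (h.comm_sq (w := 64) (by norm_num) (by decide +kernel)) ((((h.acts_p d).mul (h.acts_A d)).mul
      (h.acts_p d).inv).mul (h.acts_A d).inv) hk (perm_mem_M24 (c := kA) (by decide +kernel)) e ?_
    rw [comm_eq (g := gA) (by decide +kernel)]; exact perm_conj (by decide +kernel)
  · refine key (h.comm_sq (w := 1344) (by norm_num) (by decide +kernel)) ((((h.acts_p d).mul (h.acts_B d)).mul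
      (h.acts_p d).inv).mul (h.acts_B d).inv) hk (perm_mem_M24 (c := kB) (by decide +kernel)) e ?_
    rw [comm_eq (g := gB) (by decide +kernel)]; exact perm_conj (by decide +kernel)

theorem sq_one' {k : G} (hk : k ∈ 𝐂[z] ⊓ 𝐍(zpowers p)) (hS : pel π k ∈ SO) {M e : ℕ} (a : Act c k M e)
    (ok : okS M e = true) : k * k = 1 := by
  rw [okS, Bool.and_eq_true] at ok
  have a2 := h.act_mul hk.1 a a
  rw [Nat.xor_self] at a2
  refine (h.ez.mem_zp.1 (h.act_triv (a2.congr ok.1))).resolve_right fun kz => ?_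
  have T := h.todd d
  have hn := (h.mem_norm_iff d hk.1).2 hS
  obtain ⟨g, ag⟩ := h.act_norm d hO hn
  have g2 : g * g = 1 := (T.acts_eq_one_iff (ag.mul ag)).2 (by rw [kz]; exact h.V_ab d (h.z_V d))
  have g1 : g ≠ 1 := fun e => h.ez.ne_one (by rw [← kz]; exact h.V_sq d _ (h.cent_V d ((T.acts_eq_one_iff ag).1 e)))
  obtain ⟨x, x2, ax⟩ := h.invol_lift d hO (T.acts_mem_M24 ag) (orderOf_eq_prime (by rw [pow_two, g2]) g1)
  obtain ⟨n, hn', e0⟩ := h.cent_V d ((T.acts_eq_one_iff (ax.mul ag.inv)).1 (mul_inv_cancel g))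
  obtain rfl : x = vv c τ n * k := by rw [e0]; simp
  have u1 := h.uc_mem d hn'
  have u2 : k * c (uc n) * k⁻¹ ∈ h.UH :=
    h.memUH_of d (conj_mem_of_mem_normalizer hn (h.UH_le d u1)) (h.cjE hk.1 u1.1)
  have t1 := h.t_ah d (al_lt n)
  have t2 := h.ah_conj hk hS t1
  have e1 : c (uc n) * (k * c (uc n) * k⁻¹) * (τ (al n) * (k * τ (al n) * k⁻¹)) = z := by
    have : vv c τ n * (k * vv c τ n * k⁻¹) * (k * k) = 1 := by rw [← x2]; group
    rw [kz, mul_eq_one_iff_eq_inv, h.ez.inv, vv, ← conj_mul, mul_assoc, ← mul_assoc (τ _), h.t_comm_U d (al_lt n) u2] at this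
    rw [← this]; group
  have e2 : pel π (k * τ (al n) * k⁻¹) = pel π (τ (al n)) := by
    have := congrArg (pel π) e1
    rw [h.pi_z, pel_mul _ (h.E_le (mul_mem u1.1 u2.1)) (mul_mem t1.1.1 t2.1.1), h.pi_E (mul_mem u1.1 u2.1), one_mul,
      pel_mul _ t1.1.1 t2.1.1, d.pi _ (al_lt n)] at this
    rw [← inv_eq_of_mul_eq_one_right this, inv_eq_of_mul_eq_one_right (ta_sq (al_lt n)), d.pi _ (al_lt n)]
  rcases h.ah_eq t2 t1 e2 with e3 | e3
  · obtain ⟨b1, b2⟩ := a _ (uc_lt hn').1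
    rw [e3, h.t_sq d, mul_one] at e1
    have w2 := u2.2
    rw [b2] at e1 w2
    rw [h.wv_c b1] at w2
    rw [← h.c_xor_U (uc_lt hn').1 b1 (uc_lt hn').2.1 w2, ← h.c_z] at e1
    have := allLt_iff.1 ok.2 n hn'
    rw [force_eq, (beq_iff (a := Nat.xor (uc n) (hact M e (uc n)))).2
      (h.c_inj _ (xor13 (uc_lt hn').1 b1) _ (by norm_num) e1)] at this
    exact absurd this (by decide)
  · have : allLt (fun a => Nat.beq a 0 || isv 0 a (Nat.mul 64 a) && isv 4096 a (Nat.add (Nat.mul 64 a) 1024) &&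
      !(beqB (tb 967 (orb (Nat.mul 64 a))) (tb 967 (orb (Nat.add (Nat.mul 64 a) 1024))))) 16 = true := by decide +kernel
    have := allLt_iff.1 this _ (al_lt n)
    rw [Bool.or_eq_true, beq_iff, Bool.and_eq_true, Bool.and_eq_true, Bool.not_eq_true', ← Bool.not_eq_true, beqB_iff]
      at this
    rcases this with e4 | ⟨⟨e4, e5⟩, e6⟩
    · rw [e4, h.t_zero d] at e3
      exact h.ez.ne_one (by simpa using e3.symm)
    · obtain ⟨l1, e4⟩ := isv_eq (c := c) (τ := τ) e4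
      obtain ⟨l2, e5⟩ := isv_eq (c := c) (τ := τ) e5
      rw [h.c_zero, one_mul] at e4
      rw [h.c_z, ← mem_cent1_iff.1 (d.mem _).1, ← e3] at e5
      apply e6
      rw [Bool.eq_iff_iff, ← h.typ d hO l1, ← h.typ d hO l2, ← e4, ← e5]
      exact ⟨isConj_cj k, isConj_of_cj k⟩

theorem exists_K : ∃ K ≤ 𝐍(h.VV d), K ⊓ h.VV d = ⊥ ∧ K ⊔ h.VV d = 𝐍(h.VV d) := by
  obtain ⟨a, ha, pa, aa⟩ := h.exists_out (t := spT1) (M := 0x10000004000c001800340007000e0f800a4004800c4004400cc0)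
    (A := spA) (by decide +kernel)
  obtain ⟨b, hb, pb, ab⟩ := h.exists_out (t := spT2) (M := 0x10000012003100330022003a002508c004800a4005c004400cc0)
    (A := spB) (by decide +kernel)
  obtain ⟨e, he, pe, ae⟩ := h.exists_out (t := spT3) (M := 0x1000001200310037002e003200210bc006800a4005c007400ec0)
    (A := spC) (by decide +kernel)
  have so : ∀ {t : ℕ}, (inM24 t && st t DD && st t OH) = true → perm t ∈ SO := fun {t} H => by
    simp only [Bool.and_eq_true] at H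
    have e := code_perm' H.1.1
    exact memSO.2 ⟨memD2.2 ⟨perm_mem_M24 H.1.1, (st_iff DD_lt).1 (by rw [e]; exact H.1.2)⟩,
      (st_iff OH_lt).1 (by rw [e]; exact H.2)⟩
  have sa : pel π a ∈ SO := pa ▸ so (by decide +kernel)
  have sb : pel π b ∈ SO := pb ▸ so (by decide +kernel)
  have se : pel π e ∈ SO := pe ▸ so (by decide +kernel)
  have a2 := h.sq_one' d hO ha sa aa (by decide +kernel)
  have b2 := h.sq_one' d hO hb sb ab (by decide +kernel)
  have e2 := h.sq_one' d hO he se ae (by decide +kernel)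
  have ha' := mul_mem (mul_mem he ha) (inv_mem he)
  have pa' : pel π (e * a * e⁻¹) = perm spT4 := by rw [pel_conj _ he.1 ha.1, pa, pe]; exact perm_conj (by decide +kernel)
  have aa' : Act c (e * a * e⁻¹) spD 1 := by
    rw [inv_eq_of_mul_eq_one_right e2]
    exact (h.act_mul (mul_mem he.1 ha.1) (h.act_mul he.1 ae aa) ae).congr (by decide +kernel)
  have cm : ∀ {x y : G} {M N : ℕ}, x ∈ 𝐂[z] ⊓ 𝐍(zpowers p) → y ∈ 𝐂[z] ⊓ 𝐍(zpowers p) → pel π x ∈ SO → pel π y ∈ SO →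
      Act c x M 1 → Act c y N 1 → x * x = 1 → y * y = 1 → okS (mm M N) (1 ^^^ 1) = true → x * y = y * x :=
    fun {x y M N} hx hy sx sy ax ay x2 y2 ok => by
      have := h.sq_one' d hO (mul_mem hx hy) (by rw [pel_mul _ hx.1 hy.1]; exact mul_mem sx sy) (h.act_mul hx.1 ax ay) ok
      rw [← inv_eq_of_mul_eq_one_right this, mul_inv_rev, inv_eq_of_mul_eq_one_right x2, inv_eq_of_mul_eq_one_right y2]
  have mD := @mem_fD G _ _ a b e a2 b2 e2 (cm ha hb sa sb aa ab a2 b2 (by decide +kernel))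
    (cm hb he sb se ab ae b2 e2 (by decide +kernel))
    (cm ha ha' sa (pa' ▸ so (by decide +kernel)) aa aa' a2 (by rw [conj_mul, a2]; simp) (by decide +kernel))
  have nS : zpowers a ⊔ zpowers (e * a * e⁻¹) ⊔ zpowers b ⊔ zpowers e ≤ 𝐍(h.Sg) := by
    simp only [sup_le_iff, zpowers_le]
    exact ⟨⟨⟨h.Sg_norm aa (by decide +kernel), h.Sg_norm aa' (by decide +kernel)⟩, h.Sg_norm ab (by decide +kernel)⟩,
      h.Sg_norm ae (by decide +kernel)⟩
  have nV : zpowers a ⊔ zpowers (e * a * e⁻¹) ⊔ zpowers b ⊔ zpowers e ≤ 𝐂[z] ⊓ 𝐍(h.VV d) := by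
    simp only [sup_le_iff, zpowers_le]
    exact ⟨⟨⟨⟨ha.1, (h.mem_norm_iff d ha.1).2 sa⟩, ha'.1, (h.mem_norm_iff d ha'.1).2 (pa' ▸ so (by decide +kernel))⟩,
      hb.1, (h.mem_norm_iff d hb.1).2 sb⟩, he.1, (h.mem_norm_iff d he.1).2 se⟩
  have pD : ∀ i, code (pel π (fD a (e * a * e⁻¹) b e i)) = cDw i := fun i => by
    rw [fD, pel_mul _ (mul_mem (mul_mem (pow_mem ha.1 _) (pow_mem ha'.1 _)) (pow_mem hb.1 _)) (pow_mem he.1 _),
      pel_mul _ (mul_mem (pow_mem ha.1 _) (pow_mem ha'.1 _)) (pow_mem hb.1 _), pel_mul _ (pow_mem ha.1 _) (pow_mem ha'.1 _),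
      pel_pow _ ha.1, pel_pow _ ha'.1, pel_pow _ hb.1, pel_pow _ he.1, pa, pa', pb, pe, code_mul, code_mul, code_mul,
      code_pow, code_pow, code_pow, code_pow, code_perm' (c := spT1) (by decide +kernel),
      code_perm' (c := spT2) (by decide +kernel), code_perm' (c := spT3) (by decide +kernel),
      code_perm' (c := spT4) (by decide +kernel), cDw]
  have F : Fam ((zpowers a ⊔ zpowers (e * a * e⁻¹) ⊔ zpowers b ⊔ zpowers e : Subgroup G) : Set G)
      (fD a (e * a * e⁻¹) b e) (fun _ => true) 16 := ⟨fun i _ _ => mul_mem (mul_mem (mul_mem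
        (pow_mem (mem_sup_left (mem_sup_left (mem_sup_left (mem_zpowers _)))) _)
        (pow_mem (mem_sup_left (mem_sup_left (mem_sup_right (mem_zpowers _)))) _))
        (pow_mem (mem_sup_left (mem_sup_right (mem_zpowers _))) _)) (pow_mem (mem_sup_right (mem_zpowers _)) _),
      fun x hx => by obtain ⟨i, hi, e⟩ := mD hx; exact ⟨i, hi, rfl, e⟩, fun i hi j hj _ _ e => by
        have := allLt_iff.1 cDw_chk i hi
        rw [force_eq, Bool.and_eq_true] at this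
        have := allLt_iff.1 this.2 j hj
        rw [← pD, ← pD, e, beq_iff.2 rfl, Bool.not_true, Bool.or_false, beq_iff] at this
        exact this⟩
  have tr : ∀ x ∈ zpowers a ⊔ zpowers (e * a * e⁻¹) ⊔ zpowers b ⊔ zpowers e, pel π x ∈ AH → x = 1 := fun x hx hA => by
    obtain ⟨i, hi, rfl⟩ := mD hx
    have := allLt_iff.1 cDw_chk i hi
    rw [force_eq, Bool.and_eq_true, ← pD, inA_iff.2 hA, Bool.not_true, Bool.or_false, beq_iff] at this
    rw [this.1]; simp [fD]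
  have cD := F.ncard (P := fun _ => True) (p := fun _ => true) (fun _ _ _ => by simp)
  simp only [and_true] at cD
  replace cD := cD.trans (show _ = 16 by decide +kernel)
  generalize zpowers a ⊔ zpowers (e * a * e⁻¹) ⊔ zpowers b ⊔ zpowers e = D at nS nV tr cD
  change Nat.card D = 16 at cD
  have i1 : h.Sg ⊓ D = ⊥ := eq_bot_iff.2 fun x hx => tr x hx.2 (by rw [h.pi_E (h.Sg_le hx.1)]; exact one_mem _)
  have i2 : (h.Sg ⊔ D) ⊓ h.VV d = ⊥ := eq_bot_iff.2 fun x hx => by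
    obtain ⟨u, hu, v, hv, rfl⟩ := (mem_sup_of_norm_right nS).1 hx.1
    have := h.V_pi d hx.2
    rw [pel_mul _ (h.E_le (h.Sg_le hu)) (nV hv).1, h.pi_E (h.Sg_le hu), one_mul] at this
    obtain rfl := tr v hv this
    rw [mul_one] at hx ⊢
    have := (h.memUH_of d hx.2 (h.Sg_le hu)).2
    obtain ⟨i, hi, rfl⟩ := hu
    rw [h.wv_c' (by omega)] at this
    obtain rfl : i = 0 := by omega
    exact h.c_zero
  have le : h.Sg ⊔ D ≤ 𝐍(h.VV d) := sup_le (h.Sg_le.trans (h.E_norm d)) (nV.trans inf_le_right)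
  refine gaschutz (abelian_of_sq (h.V_sq d)) le_sup_right (sup_le le le_normalizer) le_rfl ?_ le_sup_left i2 rfl
  have := card_mul_relIndex (sup_le le le_normalizer)
  rw [card_sup_of_disjoint (Or.inr le) i2, card_sup_of_disjoint (Or.inl nS) i1, h.card_Sg, cD, h.card_V d,
    h.card_N d hO] at this
  rw [h.card_V d, show (h.Sg ⊔ D ⊔ h.VV d).relIndex 𝐍(h.VV d) = 239085 by omega]
  norm_num

theorem onto_K {K : Subgroup G} (hK : K ⊔ h.VV d = 𝐍(h.VV d)) {g : Pm} (hg : g ∈ M24) :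
    ∃ k ∈ K, Acts (nuV c τ) k g := by
  obtain ⟨n, hn, a⟩ := h.onto d hO hg
  obtain ⟨k, hk, v, hv, rfl⟩ := (mem_sup_of_norm_left (hK ▸ le_sup_left)).1 (hK ▸ hn : n ∈ K ⊔ h.VV d)
  have := a.mul ((h.todd d).acts_one_iff.2 (h.V_ab d hv)).inv
  exact ⟨k, hk, by simpa using this⟩

theorem two_of {κ : M24 →* G} (M : MM (h.VV d) (nuV c τ) κ) {x : G} (hx : orderOf x = 2) :
    ∃ g, g * x * g⁻¹ ∈ h.VV d := by
  have x2 : x * x = 1 := by rw [← pow_two, ← hx, pow_orderOf_eq_one]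
  have pk : ∀ {k : G} {g : ℕ}, k ∈ 𝐂[z] → pel π k = 1 → Acts (nuV c τ) k (perm g) →
      pel κ (perm g) ∈ 𝐂[z] ∧ pel π (pel κ (perm g)) ∈ AH := fun {k g} hk e a => by
    have hg := M.todd.acts_mem_M24 a
    have v := M.cent ((M.todd.acts_eq_one_iff ((M.acts' hg).mul a.inv)).1 (mul_inv_cancel _))
    rw [show pel κ (perm g) = pel κ (perm g) * k⁻¹ * k by group]
    exact ⟨mul_mem (h.V_le d v) hk, by rw [pel_mul _ (h.V_le d v) hk, e, mul_one]; exact h.V_pi d v⟩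
  have kE : ∀ {w u g : ℕ}, w < 8192 → Acts (nuV c τ) (c w) (perm u) → (inM24 pM && inM24 u && inM24 g &&
      Nat.beq (mul pM u) (mul (mul g u) pM)) = true → Nat.beq (mul g g) oneC = true → pel κ (perm g) ∈ E :=
    fun {w u g} hw a H g2 => by
      have e := comm_eq H
      simp only [Bool.and_eq_true] at H
      obtain ⟨a1, a2⟩ := pk h.p_mem h.pi_p (h.acts_p d)
      obtain ⟨b1, b2⟩ := pk (h.E_le (h.c_mem hw)) (h.pi_E (h.c_mem hw)) a
      have m1 : perm pM ∈ M24 := perm_mem_M24 H.1.1.1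
      have m2 : perm u ∈ M24 := perm_mem_M24 H.1.1.2
      have m3 : perm g ∈ M24 := perm_mem_M24 H.1.2
      have e1 : pel κ (perm g) = pel κ (perm pM) * pel κ (perm u) * (pel κ (perm pM))⁻¹ * (pel κ (perm u))⁻¹ := by
        rw [← e, pel_mul _ (mul_mem (mul_mem m1 m2) (inv_mem m1)) (inv_mem m2), pel_conj _ m1 m2, pel_inv _ m2]
      refine h.mem_E_of_sq (e1 ▸ mul_mem (mul_mem (mul_mem a1 b1) (inv_mem a1)) (inv_mem b1)) ?_ ?_
      · obtain ⟨α, hα, e2⟩ := memAH.1 a2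
        obtain ⟨β, hβ, e3⟩ := memAH.1 b2
        rw [e1, pel_mul _ (mul_mem (mul_mem a1 b1) (inv_mem a1)) (inv_mem b1), pel_conj _ a1 b1, pel_inv _ b1, e2, e3,
          ta_mul hα hβ, Nat.xor_comm, ← ta_mul hβ hα]
        simp
      · rw [← pel_mul _ m3 m3, perm_mul' H.1.2 H.1.2, beq_iff.1 g2, ← code_one, perm_code, pel_one]; exact one_mem _
  have fin : ∀ {x : G} {k r g u : ℕ}, x * x = 1 → pel κ (perm g) ∈ E →
      (ev u && (inM24 k && inM24 r && inM24 g && iw k r g) && ev (apM k u) && Nat.beq (al (dic (apM k u))) 0) = true →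
      (∃ n ∈ 𝐍(h.VV d), n * x * n⁻¹ = el (nuV c τ) κ (u, r)) → ∃ g, g * x * g⁻¹ ∈ h.VV d :=
    fun {x k r g u} x2 hg H ⟨n, _, e⟩ => by
      rw [Bool.and_eq_true, Bool.and_eq_true, Bool.and_eq_true, beq_iff] at H
      have e1 := M.el_conj_k H.1.1.1 H.1.1.2
      have m : el (nuV c τ) κ (apM k u, g) ∈ E := by
        refine mul_mem ?_ hg
        show vv c τ (dic (mask (fs (apM k u)))) ∈ E
        rw [mask_fs (ev_lt H.1.2), vv, H.2, h.t_zero d, mul_one]
        exact (h.uc_mem d (dic_lt (ev_lt H.1.2))).1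
      rw [← e1, ← e] at m
      obtain ⟨l, -, hl⟩ := h.exists_U m (by rw [conj_mul, conj_mul, x2]; simp)
      exact ⟨l * (pel κ (perm k) * n), by convert h.UH_le d hl using 1; group⟩
  have kA' := kE (by norm_num) (h.acts_A d) (g := gA) (by decide +kernel) (by decide +kernel)
  have kB' := kE (by norm_num) (h.acts_B d) (g := gB) (by decide +kernel) (by decide +kernel)
  obtain ⟨T, hT, h1, -⟩ := h.exists_sylow d
  obtain ⟨g, -, e⟩ := hT.exists_cj_le (piGrp_of_sq (X := zpowers x) fun y hy => by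
    rcases (mem_zp2 x2).1 hy with rfl | rfl
    exacts [mul_one _, x2]) le_top
  have m := (h1 (e (conj_mem_cj.2 (mem_zpowers x)))).2
  suffices ∃ k, k * (g * x * g⁻¹) * k⁻¹ ∈ h.VV d by
    obtain ⟨k, hk⟩ := this
    exact ⟨k * g, by convert hk using 1; group⟩
  replace x2 : g * x * g⁻¹ * (g * x * g⁻¹) = 1 := by rw [conj_mul, x2]; simp
  generalize g * x * g⁻¹ = x at m x2
  by_cases g1 : pel M.mu x = 1
  · exact ⟨1, by simpa using M.ker_mu ▸ mem_pker.2 ⟨m, g1⟩⟩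
  obtain ⟨k, hk, e⟩ := class_two (M.mu_mem m) (orderOf_eq_prime (by rw [pow_two, ← pel_mul _ m m, x2, pel_one]) g1)
  have m' := mul_mem (mul_mem (M.k_mem hk) m) (inv_mem (M.k_mem hk))
  rw [← M.mu_k hk, ← pel_conj _ (M.k_mem hk) m] at e
  suffices ∃ l, l * (pel κ k * x * (pel κ k)⁻¹) * l⁻¹ ∈ h.VV d by
    obtain ⟨l, hl⟩ := this
    exact ⟨l * pel κ k, by convert hl using 1; group⟩
  replace x2 : pel κ k * x * (pel κ k)⁻¹ * (pel κ k * x * (pel κ k)⁻¹) = 1 := by rw [conj_mul, x2]; simp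
  generalize pel κ k * x * (pel κ k)⁻¹ = x at m' x2 e
  rcases e with e | e <;> obtain ⟨u, hu, rfl⟩ := M.exists_el' m' e
  · cases hp : memL (red u) LA
    · exact fin (k := kA) (r := r2A) (u := uA) x2 kA' (by decide +kernel) (M.clsA1 hu ((M.el_sq hu r2A_in).1 x2).1 hp)
    · exact fin (k := kA) (r := r2A) (u := 0) x2 kA' (by decide +kernel) (M.clsA0 hu hp)
  · cases hp : memL (red u) LB
    · exact fin (k := kB) (r := r2B) (u := uB) x2 kB' (by decide +kernel) (M.clsB1 hu ((M.el_sq hu r2B_in).1 x2).1 hp)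
    · exact fin (k := kB) (r := r2B) (u := 0) x2 kB' (by decide +kernel) (M.clsB0 hu hp)

end JH

end CA.J4
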