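import Cfsg.Agent.Lib.J4.Bits

/-!
A generic pruned search through `M24` with a change of base.
-/

set_option autoImplicit false

namespace CA.J4
open Cfsg CA.Gol
open scoped Pointwise

/-- a pairwise constraint `P i (g i) j (g j)` -/
abbrev PC : Type := ℕ → ℕ → ℕ → ℕ → Bool

/-- `g` satisfies the pairwise constraint -/
def Sat (P : PC) (c : ℕ) : Prop := ∀ i < 24, ∀ j < 24, P i (ap c i) j (ap c j) = true

/-- length of a list -/
def lenL (l : List ℕ) : ℕ := List.rec 0 (fun _ _ ih => Nat.succ ih) l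

/-- check the newest pair against the older ones -/
def chkP (P : PC) (B b x : ℕ) (l : List ℕ) : Bool :=
  List.rec true (fun y r ih => Bool.rec false ih (force (ap B (lenL r)) fun b' => P b x b' y)) l

/-- the pruning test -/
def okP (P : PC) (B : ℕ) (im : List ℕ) : Bool :=
  List.rec true (fun x r _ => force (ap B (lenL r)) fun b => chkP P B b x (x :: r)) im

/-- the base points after the change of base -/
def baseOf (ki : ℕ) : ℕ := Nat.add (ap ki 23) (Nat.mul 32 ki)

theorem ap_baseOf_zero (ki : ℕ) : ap (baseOf ki) 0 = ap ki 23 := by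
  have := ap_lt ki 23
  rw [ap_eq]; show (ap ki 23 + 32 * ki) / 32 ^ 0 % 32 = _; omega

theorem ap_baseOf_succ (ki i : ℕ) : ap (baseOf ki) (i + 1) = ap ki i := by
  have := ap_lt ki 23
  rw [ap_eq, ap_eq ki i, pow_succ', ← Nat.div_div_eq_div_mul]
  show (ap ki 23 + 32 * ki) / 32 / _ % 32 = _
  rw [show (ap ki 23 + 32 * ki) / 32 = ki by omega]

theorem pass_okP {P : PC} {g k : Equiv.Perm GolayPt} (h : Sat P (code g)) :
    Pass (okP P (baseOf (code k))) Ls24 (code (g * k)) [] := by
  have e : ∀ i < 24, ap (code (g * k)) i = ap (code g) (ap (code k) i) := fun i hi => ap_mul_code g k hi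
  have l : ∀ i < 24, ap (code k) i < 24 := fun i hi => ap_code_lt k hi
  have h' : ∀ i < 24, ∀ j < 24, P (ap (code k) i) (ap (code g) (ap (code k) i)) (ap (code k) j)
      (ap (code g) (ap (code k) j)) = true := fun i hi j hj => h _ (l i hi) _ (l j hj)
  rw [pass24, e 23 (by norm_num), e 0 (by norm_num), e 1 (by norm_num), e 2 (by norm_num), e 3 (by norm_num),
    e 4 (by norm_num), e 5 (by norm_num)]
  have b0 := ap_baseOf_zero (code k)
  have b1 := ap_baseOf_succ (code k) 0
  have b2 := ap_baseOf_succ (code k) 1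
  have b3 := ap_baseOf_succ (code k) 2
  have b4 := ap_baseOf_succ (code k) 3
  have b5 := ap_baseOf_succ (code k) 4
  have b6 := ap_baseOf_succ (code k) 5
  simp only [okP, chkP, lenL, force_eq, Nat.succ_eq_add_one, zero_add, Nat.reduceAdd] at *
  simp only [b0, b1, b2, b3, b4, b5, b6]
  simp [h']

/-- every element of `M24` satisfying `P` satisfies `leaf` -/
def all24 (P : PC) (k ki : ℕ) (leaf : ℕ → Bool) : Bool :=
  inM24 k && valid ki && Nat.beq (mul k ki) oneC &&
    force (baseOf ki) fun B => searchAll (okP P B) (fun c => force (mul c k) leaf) Ls24 ki []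

/-- number of elements of `M24` passing the pruning by `P` and satisfying `leaf` -/
def count24 (P : PC) (k ki : ℕ) (leaf : ℕ → Bool) : ℕ :=
  force (baseOf ki) fun B => searchCount (okP P B) (fun c => force (mul c k) leaf) Ls24 ki []

theorem rebase_aux {k ki : ℕ} (h1 : inM24 k = true) (h2 : valid ki = true) (h3 : mul k ki = oneC) :
    perm k ∈ M24 ∧ code (perm k) = k ∧ code (perm k)⁻¹ = ki := by
  refine ⟨perm_mem_M24 h1, code_perm' h1, ?_⟩
  have : perm k * perm ki = 1 := by rw [← perm_mul (inM24_valid h1) h2, h3, perm_oneC]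
  rw [inv_eq_of_mul_eq_one_right this, code_perm h2]

theorem all24_sound {P : PC} {k ki : ℕ} {leaf : ℕ → Bool} (h : all24 P k ki leaf = true)
    {g : Equiv.Perm GolayPt} (hg : g ∈ M24) (hP : Sat P (code g)) : leaf (code g) = true := by
  simp only [all24, Bool.and_eq_true, beq_iff, force_eq] at h
  obtain ⟨⟨⟨h1, h2⟩, h3⟩, h4⟩ := h
  obtain ⟨hk, e1, e2⟩ := rebase_aux h1 h2 h3
  set κ := perm k
  rw [searchAll_eq, List.all_eq_true, ← e2] at h4
  have := h4 (code (g * κ⁻¹)) ((mem_search _ chain0 κ⁻¹ [] _).2 ⟨κ * g * κ⁻¹,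
    M24.mul_mem (M24.mul_mem hk hg) (M24.inv_mem hk), fixes_nil _, by congr 1; group, pass_okP hP⟩)
  rwa [← e1, ← code_mul, inv_mul_cancel_right] at this

theorem count24_sound {P : PC} {k ki : ℕ} {leaf : ℕ → Bool}
    (h : (inM24 k && valid ki && Nat.beq (mul k ki) oneC) = true) (S : Set (Equiv.Perm GolayPt))
    (h1 : ∀ g ∈ S, g ∈ M24 ∧ Sat P (code g) ∧ leaf (code g) = true)
    (h2 : ∀ g ∈ M24, leaf (code g) = true → g ∈ S) : S.ncard = count24 P k ki leaf := by
  simp only [Bool.and_eq_true, beq_iff] at h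
  obtain ⟨hk, e1, e2⟩ := rebase_aux h.1.1 h.1.2 h.2
  set κ := perm k
  have hinj : Function.Injective fun g : Equiv.Perm GolayPt => code (g * κ⁻¹) :=
    fun a b e => mul_right_cancel (code_injective e)
  simp only [count24, force_eq]
  rw [searchCount_eq, List.countP_eq_length_filter, ← e2,
    ← List.toFinset_card_of_nodup ((nodup_search _ chain0 κ⁻¹ []).filter _), ← Set.ncard_coe_finset,
    ← Set.ncard_image_of_injective S hinj]
  congr 1
  ext c
  simp only [Set.mem_image, List.coe_toFinset, List.mem_filter, Set.mem_setOf_eq, mem_search _ chain0]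
  constructor
  · rintro ⟨g, hg, rfl⟩
    obtain ⟨a, b, c⟩ := h1 g hg
    refine ⟨⟨κ * g * κ⁻¹, M24.mul_mem (M24.mul_mem hk a) (M24.inv_mem hk), fixes_nil _, by congr 1; group,
      pass_okP b⟩, ?_⟩
    rwa [← e1, ← code_mul, inv_mul_cancel_right]
  · rintro ⟨⟨s, hs, _, rfl, _⟩, hl⟩
    rw [← e1, ← code_mul] at hl
    exact ⟨_, h2 _ (M24.mul_mem (M24.mul_mem (M24.inv_mem hk) hs) hk) hl, by congr 1; group⟩

/-- Boolean equality -/
def beqB (a b : Bool) : Bool := Bool.rec (Bool.rec true false b) b a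

theorem beqB_iff {a b : Bool} : beqB a b = true ↔ a = b := by cases a <;> cases b <;> simp [beqB]

/-- conjunction of constraints -/
def pAnd (P Q : PC) : PC := fun i x j y => Bool.rec false (Q i x j y) (P i x j y)

theorem Sat.and {P Q : PC} {c : ℕ} (h1 : Sat P c) (h2 : Sat Q c) : Sat (pAnd P Q) c := by
  intro i hi j hj
  simp only [pAnd, h1 i hi j hj, h2 i hi j hj]

/-- no constraint -/
def pTrue : PC := fun _ _ _ _ => true

theorem sat_true (c : ℕ) : Sat pTrue c := fun _ _ _ _ => rfl

/-- `g` maps the set `m` to the set `m'` -/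
def pSet (m m' : ℕ) : PC := fun i x _ _ => beqB (tb m i) (tb m' x)

theorem sat_set {g : Equiv.Perm GolayPt} {m m' : ℕ} (h : g • fs m = fs m') : Sat (pSet m m') (code g) := by
  intro i hi j hj
  rw [pSet, beqB_iff, Bool.eq_iff_iff, ← pt_mem_fs hi, ← pt_mem_fs (ap_code_lt g hi), ← apply_pt g hi, ← h,
    apply_mem_smul]

/-- `g` fixes the points of `F` -/
def pFix (F : ℕ) : PC := fun i x _ _ => Bool.rec true (Nat.beq x i) (tb F i)

theorem sat_fix {g : Equiv.Perm GolayPt} {F : ℕ} (h : ∀ p ∈ fs F, g p = p) : Sat (pFix F) (code g) := by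
  intro i hi j hj
  rw [pFix]
  cases e : tb F i
  · rfl
  · exact beq_iff.2 ((apply_pt_eq_iff hi hi).1 (h _ ((pt_mem_fs hi).2 e)))

/-- `g a = a' g` -/
def pCj (a a' : ℕ) : PC := fun i x j y =>
  Bool.rec false (beqB (Nat.beq (ap a i) j) (Nat.beq (ap a' x) y)) (beqB (Nat.beq (ap a j) i) (Nat.beq (ap a' y) x))

theorem sat_cj {g a a' : Equiv.Perm GolayPt} (h : g * a = a' * g) : Sat (pCj (code a) (code a')) (code g) := by
  have key : ∀ i < 24, ∀ j < 24, beqB (Nat.beq (ap (code a) j) i)
      (Nat.beq (ap (code a') (ap (code g) j)) (ap (code g) i)) = true := by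
    intro i hi j hj
    rw [beqB_iff, Bool.eq_iff_iff, beq_iff, beq_iff, ← ap_comm h hj, ← apply_pt_eq_iff hj hi, ap_code g hi,
      ap_code a hj, ap_code_ix]
    exact ⟨fun e => by rw [e], fun e => g.injective (ix_inj e)⟩
  intro i hi j hj
  simp only [pCj, key i hi j hj, key j hj i hi]

/-- `g` maps the partition with block function `t` (5-bit table) to the one with block function `t'` -/
def pPart (t t' : ℕ) : PC := fun i x j y => beqB (Nat.beq (ap t i) (ap t j)) (Nat.beq (ap t' x) (ap t' y))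

end CA.J4
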