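import Cfsg.Agent.Lib.J4.HBasic

/-!
The standard configuration in a group of type `J4`: `H = C(z)`, `M = N(V)`, with `z` the sextet vector of
the tetrad `T0` and `p` the element `p0` of the complement.
-/

set_option autoImplicit false
set_option linter.unusedSectionVars false
set_option linter.unusedVariables false

namespace CA.J4
open Cfsg CA.Gol CA.Ex2 CA.XS Subgroup
open scoped Pointwise

/-- the standard tetrad `{∞, 0, 1, 2}` -/
def T0 : ℕ := 0x800007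
/-- the element of order three fixing the columns -/
def p0C : ℕ := 0xbb66f320b64c60c92a8b3d5c418041

theorem p0C_in : inM24 p0C = true := by decide +kernel
theorem T0_ev : ev T0 = true := by decide +kernel
theorem DD_ev : ev DD = true := by decide +kernel
theorem T0_card : (fs T0).card = 4 := by rw [card_fs]; decide +kernel
theorem DD_card : (fs DD).card = 2 := by rw [card_fs]; decide +kernel
theorem card_C24_p0 : Nat.card ↥(M24 ⊓ 𝐂[perm p0C]) = 1080 :=
  card_cent24 (k := 0xab2f300d667d92e149a5884e452290) (ki := 0xabae1a28e07b13688da22c10492cd3) p0C_in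
    (by decide +kernel)
theorem card_C24_3B : Nat.card ↥(M24 ⊓ 𝐂[perm r3B]) = 504 :=
  card_cent24 (k := 0x6d9d22246fab28b381420de1141a65) (ki := 0x359ed0d085856ee62643588138a0ea) r3B_in
    (by decide +kernel)
theorem conj_3A_p0 {g : Pm} (hg : g ∈ M24) (h : ∃ k ∈ M24, k * g * k⁻¹ = perm r3A) :
    ∃ k ∈ M24, k * g * k⁻¹ = perm p0C := by
  obtain ⟨k, hk, e⟩ := h
  refine ⟨perm 0x5d5cd9c682bb2d0014c7205434bd12 * k, mul_mem (perm_mem_M24 (by decide +kernel)) hk, ?_⟩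
  rw [← perm_conj (k := 0x5d5cd9c682bb2d0014c7205434bd12) (a := r3A) (b := p0C) (by decide +kernel), ← e]; group

variable {G : Type*} [Group G]

namespace MM
variable {V : Subgroup G} {ν : Finset GolayPt → G} {κ : M24 →* G} (h : MM V ν κ)
include h

theorem conj_mem_V {n v : G} (hn : n ∈ 𝐍(V)) (hv : v ∈ V) : n * v * n⁻¹ ∈ V := conj_mem_of_mem_normalizer hn hv

theorem comm_V {v w : G} (hv : v ∈ V) (hw : w ∈ V) : v * w = w * v := h.todd.comm' hv hw

theorem card_V : Nat.card V = 2048 := h.todd.card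

theorem orderOf_mu {n : G} (hn : n ∈ 𝐍(V)) {q : ℕ} (hq : q.Prime) (h2 : q ≠ 2) (ho : orderOf n = q) :
    orderOf (pel h.mu n) = q := by
  have : Fact q.Prime := ⟨hq⟩
  refine orderOf_eq_prime (by rw [← pel_pow _ hn, ← ho, pow_orderOf_eq_one, pel_one]) fun e => ?_
  have h1 : n ∈ V := h.ker_mu ▸ mem_pker.2 ⟨hn, e⟩
  have := orderOf_dvd_of_pow_eq_one (show n ^ 2 = 1 by rw [pow_two]; exact h.todd.mul_self h1)
  rw [ho] at this
  exact h2 ((Nat.prime_dvd_prime_iff_eq hq Nat.prime_two).1 this)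

/-- an element of odd order is conjugate into the complement -/
theorem exists_conj_k [Finite G] {n : G} (hn : n ∈ 𝐍(V)) (ho : Odd (orderOf n)) :
    ∃ v ∈ V, v * pel κ (pel h.mu n) * v⁻¹ = n := by
  obtain ⟨m, hm, e⟩ := h.dec' hn
  have hg := h.mu_mem hn
  set g := pel h.mu n
  have hk := h.k_mem hg
  have ok : Odd (orderOf (pel κ g)) := by
    rw [h.orderOf_k hg]; exact Odd.of_dvd_nat ho (orderOf_pel_dvd _ hn)
  have cop : ∀ x : G, Odd (orderOf x) → (Nat.card V).Coprime (orderOf x) := fun x hx => by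
    rw [h.todd.card]; exact Nat.Coprime.pow_left _ (Nat.coprime_two_left.2 hx)
  obtain ⟨v, hv, e1⟩ := (copAct_zpowers hk (cop _ ok)).le_cj (B := zpowers n) (zpowers_le.2 (by
    rw [e]; exact mul_mem (mem_sup_left (h.v_mem hm)) (mem_sup_right (mem_zpowers _))))
    (by rw [Nat.card_zpowers]; exact cop _ ho)
  obtain ⟨y, hy, e2⟩ := mem_cj'.1 (e1 (mem_zpowers n))
  obtain ⟨i, rfl⟩ := mem_zpowers_iff.1 hy
  refine ⟨v, hv, ?_⟩
  have e3 : g = g ^ i := by
    conv_lhs => rw [show g = pel h.mu n from rfl, e2, pel_conj _ (h.V_le hv) (zpow_mem hk i), h.mu_v hv,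
      pel_zpow _ hk, h.mu_k hg]
    simp
  rw [e2, ← pel_zpow _ hg, ← e3]

theorem isConj_k [Finite G] {n : G} (hn : n ∈ 𝐍(V)) (ho : Odd (orderOf n)) {k g : Pm} (hk : k ∈ M24)
    (e : k * pel h.mu n * k⁻¹ = g) : ∃ x ∈ 𝐍(V), x * n * x⁻¹ = pel κ g := by
  obtain ⟨v, hv, e1⟩ := h.exists_conj_k hn ho
  refine ⟨pel κ k * v⁻¹, mul_mem (h.k_mem hk) (inv_mem (h.V_le hv)), ?_⟩
  rw [← e, pel_conj _ hk (h.mu_mem hn)]
  conv_lhs => rw [← e1]
  group

theorem exists_conj_v {s t : Finset GolayPt} (hs : Even s.card) (h5 : s.card ≤ 5) (e : s.card = t.card) :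
    ∃ g ∈ M24, pel κ g * ν s * (pel κ g)⁻¹ = ν t := by
  obtain ⟨g, hg, rfl⟩ := exists_smul_eq h5 e
  exact ⟨g, hg, h.acts' hg s hs⟩

theorem k_comm' {a b : Pm} (ha : a ∈ M24) (hb : b ∈ M24) (e : a * b = b * a) : pel κ a ∈ 𝐂[pel κ b] := by
  rw [mem_cent1_iff, ← pel_mul _ ha hb, ← pel_mul _ hb ha, e]

theorem k_comm {a b : ℕ} (H : (inM24 a && inM24 b && cmC a b) = true) : pel κ (perm a) ∈ 𝐂[pel κ (perm b)] := by
  simp only [Bool.and_eq_true] at H
  exact h.k_comm' (perm_mem_M24 H.1.1) (perm_mem_M24 H.1.2) ((cmC_iff' H.1.2).1 (by rw [code_perm' H.1.1, H.2]))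

theorem orderOf_v {m : ℕ} (hm : (ev m && !(isCode m)) = true) : orderOf (ν (fs m)) = 2 := by
  simp only [Bool.and_eq_true, Bool.not_eq_true'] at hm
  exact orderOf_eq_prime (by rw [pow_two, h.v_sq hm.1]) (by rw [Ne, h.v_eq_one hm.1, hm.2]; simp)

end MM

/-- the standard configuration -/
structure St (G : Type*) [Group G] where
  (z p s : G)
  (E V : Subgroup G)
  π : ↥𝐂[z] →* Pm
  c : ℕ → G
  ν : Finset GolayPt → G
  κ : M24 →* G
  jh : JX z p s E π c
  mm : MM V ν κ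
  z_eq : z = ν (fs T0)
  p_eq : p = pel κ (perm p0C)
  duad : ∀ a b, a ≠ b → ¬ IsConj z (ν {a, b}) ∧ 𝐂[ν {a, b}] ≤ 𝐍(V)
  two : ∀ i : G, orderOf i = 2 → IsConj z i ∨ ∃ a b, a ≠ b ∧ IsConj (ν {a, b}) i

variable [Finite G]

section
variable {z p s : G} {E V : Subgroup G} {π : ↥𝐂[z] →* Pm} {c : ℕ → G} {ν : Finset GolayPt → G} {κ : M24 →* G}

theorem relIndex_HM (h : JX z p s E π c) (hc : Nat.card ↥(𝐂[z] ⊓ 𝐍(V)) = 283115520) :
    (𝐂[z] ⊓ 𝐍(V)).relIndex 𝐂[z] = 77 := by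
  have := card_mul_relIndex (inf_le_left (a := 𝐂[z]) (b := 𝐍(V)))
  rw [hc, h.card_H] at this; omega

theorem ker_le_M (h : JX z p s E π c) (hc : Nat.card ↥(𝐂[z] ⊓ 𝐍(V)) = 283115520) : pker π ≤ 𝐍(V) :=
  (le_of_coprime_relIndex inf_le_left (pker_normalIn π) (by rw [relIndex_HM h hc, h.card_ker]; norm_num)).trans
    inf_le_right

theorem card_LM_ge (h : JX z p s E π c) (hc : Nat.card ↥(𝐂[z] ⊓ 𝐍(V)) = 283115520) :
    34560 ≤ Nat.card ↥(𝐂[z] ⊓ (𝐍(V) ⊓ 𝐂[p])) := by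
  have := card_mul_card_le (A := 𝐂[z] ⊓ 𝐂[p]) (B := 𝐂[z] ⊓ 𝐍(V)) inf_le_left inf_le_left
  rw [hc, h.card_H, h.card_L, ← inf_inf_distrib_left, inf_comm 𝐂[p]] at this
  omega

theorem exists_st {K : Subgroup G} (h : JX z p s E π c) (T : Two z V K ν) : ∃ S : St G, S.z = z ∧ S.p = p := by
  obtain ⟨κ, m⟩ := T.exists_mm
  obtain ⟨t, ht, et⟩ := T.zV
  have hc : Nat.card ↥(𝐂[z] ⊓ 𝐍(V)) = 283115520 := et ▸ m.card_cent_tetrad ht
  have hp : p ∈ 𝐍(V) := ker_le_M h hc h.p_ker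
  have ge := (card_LM_ge h hc).trans (card_le_of_le' inf_le_right)
  obtain ⟨v, hv, e⟩ := m.exists_conj_k hp (by rw [h.p_ord]; decide)
  have hg := m.mu_mem hp
  have o3 := m.orderOf_mu hp (by norm_num) (by norm_num) h.p_ord
  set g := pel m.mu p
  have key : ∀ k (hk : k ∈ M24) r, r ∈ M24 → k * g * k⁻¹ = r →
      pel (((MulAut.conj v).toMonoidHom.comp κ).comp (MulAut.conj (⟨k⁻¹, inv_mem hk⟩ : M24)).toMonoidHom) r = p := by
    intro k hk r hr e1
    rw [pel_of_mem _ hr, ← e, pel_of_mem _ hg]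
    show v * κ _ * v⁻¹ = _
    congr 3; apply Subtype.ext; simp [← e1, mul_assoc]
  obtain ⟨k, hk, e1 | e1⟩ := class_three hg o3
  · obtain ⟨k, hk, e1⟩ := conj_3A_p0 hg ⟨k, hk, e1⟩
    have m' := (m.conj hv).smul (inv_mem hk)
    have e2 := key k hk _ (perm_mem_M24 p0C_in) e1
    have c1 := m'.card_cent_k p0C_in
    rw [card_C24_p0, e2, show countLt _ 4096 = 32 by decide +kernel] at c1
    have le : 𝐍(V) ⊓ 𝐂[p] ≤ 𝐂[z] :=
      (eq_of_le_of_card_le inf_le_right (c1 ▸ card_LM_ge h hc)).ge.trans inf_le_left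
    refine ⟨⟨z, p, s, E, V, π, c, _, _, h, m', ?_, e2.symm, fun a b hab => ?_, fun i hi => ?_⟩, rfl, rfl⟩
    · have zV : z ∈ V := et ▸ m.todd.nu_mem (by rw [ht]; decide)
      have cz : ∀ a, (inM24 a && inM24 p0C && cmC a p0C) = true → z ∈ 𝐂[pel (((MulAut.conj v).toMonoidHom.comp κ).comp
          (MulAut.conj (⟨k⁻¹, inv_mem hk⟩ : M24)).toMonoidHom) (perm a)] := fun a ha => by
        have := m'.k_comm ha
        simp only [Bool.and_eq_true] at ha
        rw [mem_cent1_comm]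
        exact le ⟨m'.k_mem (perm_mem_M24 ha.1.1), e2 ▸ this⟩
      have c1 := cz 0x3b5c8885365be17032421968454ea6 (by decide +kernel)
      have c2 := cz 0x1d8130a65032daa79eb4b8904638b1 (by decide +kernel)
      have z1 := h.ez.ne_one
      revert z1 c1 c2
      refine m'.forall_V (P := fun z => z ∈ _ → z ∈ _ → z ≠ 1 → z = _) (p := fun m => isCode m ||
        !(eqv (apM 0x3b5c8885365be17032421968454ea6 m) m) || !(eqv (apM 0x1d8130a65032daa79eb4b8904638b1 m) m) ||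
        eqv m T0) (by decide +kernel) (fun m hm hp c1 c2 z1 => ?_) zV
      rw [m'.v_comm_k hm (perm_mem_M24 (by decide +kernel)), code_perm' (by decide +kernel)] at c1 c2
      rw [Ne, m'.v_eq_one hm] at z1
      rw [m'.v_eq_iff hm T0_ev]
      simpa [c1, c2, z1] using hp
    · simp only [smul_pair]; exact T.duad _ _ (k⁻¹.injective.ne hab)
    · refine (T.two i hi).imp_right fun ⟨a, b, hab, e⟩ => ⟨k a, k b, k.injective.ne hab, ?_⟩
      simpa [smul_pair] using e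
  · have m' := (m.conj hv).smul (inv_mem hk)
    have c1 := m'.card_cent_k r3B_in
    rw [card_C24_3B, key k hk _ (perm_mem_M24 r3B_in) e1, show countLt _ 4096 = 8 by decide +kernel] at c1
    omega

end

namespace St
variable (S : St G)

/-- the element of `M` with a given code -/
noncomputable abbrev e (a : ℕ × ℕ) : G := el S.ν S.κ a
/-- the vector with a given code -/
noncomputable abbrev v (m : ℕ) : G := S.ν (fs m)
/-- the element of the complement with a given code -/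
noncomputable abbrev k (c : ℕ) : G := pel S.κ (perm c)
/-- the duad involution -/
noncomputable abbrev t : G := S.ν (fs DD)
/-- the map to `M24` -/
noncomputable abbrev μ : ↥𝐍(S.V) →* Pm := S.mm.mu

theorem z_mem_V : S.z ∈ S.V := S.z_eq ▸ S.mm.v_mem T0_ev
theorem V_le_H : S.V ≤ 𝐂[S.z] := fun _ hv => mem_cent1_iff.2 (S.mm.comm_V hv S.z_mem_V)
theorem z_ord : orderOf S.z = 2 := S.jh.z_ord
theorem t_ord : orderOf S.t = 2 := S.mm.orderOf_v (by decide +kernel)
theorem not_conj : ¬ IsConj S.z S.t := by rw [t, fs_DD]; exact (S.duad _ _ pt0_ne).1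
theorem cent_t : 𝐂[S.t] ≤ 𝐍(S.V) := by rw [t, fs_DD]; exact (S.duad _ _ pt0_ne).2
theorem conj_duad {s : Finset GolayPt} (hs : s.card = 2) : IsConj S.t (S.ν s) := by
  obtain ⟨g, _, e⟩ := S.mm.exists_conj_v (s := fs DD) (t := s) (ev_even DD_ev) (by rw [DD_card]; norm_num)
    (by rw [DD_card, hs])
  exact isConj_iff.2 ⟨_, e⟩
theorem conj_tetrad {s : Finset GolayPt} (hs : s.card = 4) : IsConj S.z (S.ν s) := by
  obtain ⟨g, _, e⟩ := S.mm.exists_conj_v (s := fs T0) (t := s) (ev_even T0_ev) (by rw [T0_card]; norm_num)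
    (by rw [T0_card, hs])
  exact isConj_iff.2 ⟨_, S.z_eq ▸ e⟩
theorem two' {i : G} (hi : orderOf i = 2) : IsConj S.z i ∨ IsConj S.t i :=
  (S.two i hi).imp_right fun ⟨a, b, hab, e⟩ => (S.conj_duad (Finset.card_pair hab)).trans e
theorem cent_duad {s : Finset GolayPt} (hs : s.card = 2) : 𝐂[S.ν s] ≤ 𝐍(S.V) := by
  obtain ⟨a, b, hab, rfl⟩ := Finset.card_eq_two.1 hs
  exact (S.duad a b hab).2
theorem card_HM : Nat.card ↥(𝐂[S.z] ⊓ 𝐍(S.V)) = 283115520 := S.z_eq ▸ S.mm.card_cent_tetrad T0_card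
theorem card_Ct : Nat.card 𝐂[S.t] = 1816657920 := by
  rw [← S.mm.card_cent_duad DD_card, inf_eq_left.2 S.cent_t]
theorem ker_le_M : pker S.π ≤ 𝐍(S.V) := J4.ker_le_M S.jh S.card_HM
theorem E_le_M : S.E ≤ 𝐍(S.V) := S.jh.E_le_ker.trans S.ker_le_M
theorem card_CMp : Nat.card ↥(𝐍(S.V) ⊓ 𝐂[S.p]) = 34560 := by
  rw [S.p_eq, S.mm.card_cent_k p0C_in, card_C24_p0]; decide +kernel
theorem CMp_le : 𝐍(S.V) ⊓ 𝐂[S.p] ≤ 𝐂[S.z] :=
  (eq_of_le_of_card_le inf_le_right (S.card_CMp ▸ card_LM_ge S.jh S.card_HM)).ge.trans inf_le_left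
theorem not_zt {i : G} (h1 : IsConj S.z i) (h2 : IsConj S.t i) : False := S.not_conj (h1.trans h2.symm)
theorem card_cent_z {i : G} (h : IsConj S.z i) : Nat.card 𝐂[i] = 21799895040 := by
  obtain ⟨g, rfl⟩ := isConj_iff.1 h
  rw [← cj_centralizer_singleton, card_cj, S.jh.card_H]
theorem card_cent_t {i : G} (h : IsConj S.t i) : Nat.card 𝐂[i] = 1816657920 := by
  obtain ⟨g, rfl⟩ := isConj_iff.1 h
  rw [← cj_centralizer_singleton, card_cj, S.card_Ct]

end St

end CA.J4
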