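import Cfsg.Agent.Lib.J4.Cal

/-!
The lift of the hexad group and the subgroup `V = 2^11`.
-/

set_option autoImplicit false
set_option linter.unusedSectionVars false

namespace CA.J4
open Cfsg CA.Gol CA.Ex2 CA.Core Subgroup

variable {G : Type*} [Group G] {E : Subgroup G} {z p s : G} {c : ℕ → G}

/-- matrices of the involutory lifts of the hexad group -/
def TM : List ℕ := [
  0x1000080004000200010000800040002000100008000400020001, 0x1000081b0436020c010800ad005b002000100008000400020001, 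
  0x1000083b04260226011d00b80064002000100008000400020001, 0x100008200410022a01150095007f002000100008000400020001, 
  0x10000835042f0217013e00800040002000100008000400020001, 0x1000082e0419021b013600ad005b002000100008000400020001, 
  0x1000080e04090231012300b80064002000100008000400020001, 0x10000815043f023d012b0095007f002000100008000400020001, 
  0x1000081b0436021b013600b30062002000100008000400020001, 0x1000080004000217013e009e0079002000100008000400020001, 
  0x100008200410023d012b008b0046002000100008000400020001, 0x1000083b04260231012300a6005d002000100008000400020001, 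
  0x1000082e0419020c010800b30062002000100008000400020001, 0x10000835042f02000100009e0079002000100008000400020001, 
  0x10000815043f022a0115008b0046002000100008000400020001, 0x1000080e04090226011d00a6005d002000100008000400020001]

def SF : ℕ := 0x1000008000c0028003c00c40048000330011000e000700020003
def Y4 : ℕ := 0xf000800040002
def M4 : ℕ := 0xd000b00050009

theorem TM_chk : allLt (fun a => force (nth TM a) fun M => (force (matOf (nth TA a)) fun N =>
    eq13 N M || eq13 (mm OM N) M || eq13 (mm OM (mm OM N)) M) && colsLt M 12 4096 &&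
    allLt (fun b => eq13 (mm M (nth TM b)) (nth TM (Nat.xor a b))) 16) 16 = true := by decide +kernel

theorem TM_lt {a : ℕ} (ha : a < 16) {w : ℕ} (hw : w < 4096) : lin (nth TM a) w < 4096 := by
  have := allLt_iff.1 TM_chk a ha
  simp only [force_eq, Bool.and_eq_true] at this
  exact lin_lt12 this.1.2 hw

theorem TM_mul {a b : ℕ} (ha : a < 16) (hb : b < 16) : eq13 (mm (nth TM a) (nth TM b)) (nth TM (a ^^^ b)) = true := by
  have := allLt_iff.1 TM_chk a ha
  simp only [force_eq, Bool.and_eq_true] at this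
  exact allLt_iff.1 this.2 b hb

theorem ext_mul {n : ℕ} {f g : ℕ → G} (hf : ∀ a < 2 ^ n, ∀ b < 2 ^ n, f (a ^^^ b) = f a * f b)
    (hg : ∀ a < 2 ^ n, ∀ b < 2 ^ n, g (a ^^^ b) = g a * g b) (h : ∀ j < n, f (2 ^ j) = g (2 ^ j)) :
    ∀ w < 2 ^ n, f w = g w := by
  have z0 : 0 < 2 ^ n := Nat.two_pow_pos n
  refine xor_induction ?_ h fun a ha b hb e1 e2 => by rw [hf a ha b hb, hg a ha b hb, e1, e2]
  rw [left_eq_mul.1 (hf 0 z0 0 z0), left_eq_mul.1 (hg 0 z0 0 z0)]

/-- product of the generators selected by the bits of `a` -/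
def wd (g : ℕ → G) : ℕ → ℕ → G
  | 0, _ => 1
  | k + 1, a => wd g k a * if a.testBit k then g k else 1

theorem wd_ind {g : ℕ → G} {P : G → Prop} (h1 : P 1) (hm : ∀ x y, P x → P y → P (x * y)) {k : ℕ}
    (h : ∀ i < k, P (g i)) (a : ℕ) : P (wd g k a) := by
  induction k with
  | zero => exact h1
  | succ k ih =>
    refine hm _ _ (ih fun i hi => h i (by omega)) ?_
    split_ifs
    exacts [h k (by omega), h1]

theorem wd_xor {g : ℕ → G} {k : ℕ} (hc : ∀ i < k, ∀ j < k, Commute (g i) (g j)) (h2 : ∀ i < k, g i * g i = 1)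
    (a b : ℕ) : wd g k (a ^^^ b) = wd g k a * wd g k b := by
  induction k with
  | zero => simp [wd]
  | succ k ih =>
    have c : Commute (g k) (wd g k b) := wd_ind (P := fun x => Commute (g k) x) (Commute.one_right _)
      (fun _ _ a b => a.mul_right b) (fun i hi => hc k (by omega) i (by omega)) b
    simp only [wd]
    rw [ih (fun i hi j hj => hc i (by omega) j (by omega)) fun i hi => h2 i (by omega), Nat.testBit_xor]
    cases a.testBit k <;> cases b.testBit k <;> simp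
    · rw [mul_assoc]
    · rw [mul_assoc, mul_assoc, c.eq]
    · rw [mul_assoc, ← mul_assoc (g k), c.eq, mul_assoc, h2 k (by omega), mul_one]

theorem cube_sq {a b d : G} (hz : z * z = 1) (ca : a * z = z * a) (cb : b * z = z * b) (cd : d * z = z * d)
    (ha : a * a = z) (hb : b * b = z) (hd : d * d = z) (ab : a * b * (a * b) = z) (ad : a * d * (a * d) = z)
    (bd : b * d * (b * d) = z) : a * b * d * (a * b * d) = 1 := by
  have key : ∀ {x y : G}, x * z = z * x → y * z = z * y → x * x = z → y * y = z → x * y * (x * y) = z →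
      y * x = x * y * z := by
    intro x y cx cy hx hy e
    have e1 : y * x * y = x := mul_left_cancel (a := x) (by rw [hx, ← e]; group)
    calc y * x = y * x * (z * z) := by rw [hz, mul_one]
      _ = y * x * y * y * z := by nth_rewrite 1 [← hy]; group
      _ = _ := by rw [e1]
  calc a * b * d * (a * b * d) = a * b * (d * a) * b * d := by group
    _ = a * b * a * (d * (z * b)) * d := by rw [key ca cd ha hd ad]; group
    _ = a * b * a * (d * b) * (z * d) := by rw [← cb]; group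
    _ = a * b * (a * b) * (d * (z * z) * d) := by rw [key cb cd hb hd bd]; group
    _ = 1 := by rw [ab, hz, mul_one, hd, hz]

/-- the involutory lifts of the hexad group -/
def Ah (p : G) (π : ↥𝐂[z] →* Pm) (c : ℕ → G) (x : G) : Prop :=
  x ∈ 𝐂[z] ⊓ 𝐂[p] ∧ ∃ a < 16, pel π x = ta a ∧ Act c x (nth TM a) 0

/-- data for the coordinates on `V` -/
structure TD (p s : G) (π : ↥𝐂[z] →* Pm) (c : ℕ → G) (y m : G) (τ : ℕ → G) : Prop where
  y_mem : y ∈ 𝐂[z] ⊓ 𝐂[p]
  y_pi : pel π y = y0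
  y_act : Act c y YN 0
  y_pow : y ^ 5 = 1
  m_mem : m ∈ 𝐂[z]
  m_pi : pel π m = s0 * f0
  m_act : Act c m SF 1
  mem : ∀ a, τ a ∈ 𝐂[z] ⊓ 𝐂[p]
  pi : ∀ a < 16, pel π (τ a) = ta a
  act : ∀ a < 16, Act c (τ a) (nth TM a) 0
  mul : ∀ a b, τ (a ^^^ b) = τ a * τ b
  y_conj : ∀ a < 16, y * τ a * y⁻¹ = τ (lin Y4 a)
  m_conj : ∀ a < 16, m * τ a * m⁻¹ = τ (lin M4 a)

namespace JH
variable [Finite G] {π : ↥𝐂[z] →* Pm} (h : JH z p s E π c)
include h

theorem exists_ah {a : ℕ} (ha : a < 16) : ∃ k ∈ 𝐂[z] ⊓ 𝐂[p], pel π k = ta a ∧ Act c k (nth TM a) 0 := by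
  have := allLt_iff.1 TM_chk a ha
  simp only [force_eq, Bool.and_eq_true] at this
  exact h.exists_lift (ta_mem ha) (by rw [code_ta ha]; exact this.1.1)

theorem ah_mul {x y : G} (hx : Ah p π c x) (hy : Ah p π c y) : Ah p π c (x * y) := by
  obtain ⟨h1, a, ha, e1, a1⟩ := hx
  obtain ⟨h2, b, hb, e2, a2⟩ := hy
  exact ⟨mul_mem h1 h2, _, xor16 ha hb, by rw [pel_mul _ h1.1 h2.1, e1, e2, ta_mul ha hb],
    h.act_mul0 h1.1 a1 a2 (TM_mul ha hb)⟩

theorem ah_triv {x : G} (a : Act c x (nth TM 0) 0) : x ∈ zpowers z := h.act_triv (a.congr (by decide +kernel))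

theorem ah_sq' {x : G} (hx : Ah p π c x) : x * x ∈ zpowers z := by
  obtain ⟨h1, a, ha, e1, a1⟩ := hx
  have := h.act_mul0 h1.1 a1 a1 (TM_mul ha ha)
  rw [Nat.xor_self] at this
  exact h.ah_triv this

theorem sq_const {x k : G} (hx : x ∈ 𝐂[z] ⊓ 𝐂[p]) (o : orderOf (pel π x) = 2) (hg : pel π x ∈ Spor.M22)
    (h2 : x * x ∈ zpowers z) (hk : k ∈ 𝐂[z] ⊓ 𝐂[p]) (e : pel π k = ta 1) (k2 : k * k ∈ zpowers z) : x * x = k * k := by
  obtain ⟨d, hd, e1⟩ := inv_inner hg o
  obtain ⟨d, hd', rfl, -⟩ := h.lift d hd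
  have c : d * (x * x) * d⁻¹ = x * x := by
    rcases h.ez.mem_zp.1 h2 with e | e <;> rw [e]
    exacts [by simp, h.conj_z hd'.1]
  have := h.lift_unique (mul_mem (mul_mem hd' hx) (inv_mem hd')) hk (by rw [pel_conj _ hd'.1 hx.1, e1, e])
    (by rw [conj_mul, c]; exact h2) k2
  rw [← c, ← conj_mul]
  rcases this with e | e <;> rw [e]
  rw [show k * z * (k * z) = k * (z * k) * z by group, ← mem_cent1_iff.1 hk.1, mul_assoc, mul_assoc, h.zz, mul_one]

theorem sq_one {x : G} (hx : x ∈ 𝐂[z] ⊓ 𝐂[p]) (o : orderOf (pel π x) = 2) (hg : pel π x ∈ Spor.M22)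
    (h2 : x * x ∈ zpowers z) : x * x = 1 := by
  obtain ⟨k, hk, ek, ak⟩ := h.exists_ah (a := 1) (by norm_num)
  obtain ⟨l, hl, el, al⟩ := h.exists_ah (a := 2) (by norm_num)
  obtain ⟨n, hn, en, an⟩ := h.exists_ah (a := 4) (by norm_num)
  have A1 : Ah p π c k := ⟨hk, 1, by norm_num, ek, ak⟩
  have A2 : Ah p π c l := ⟨hl, 2, by norm_num, el, al⟩
  have A4 : Ah p π c n := ⟨hn, 4, by norm_num, en, an⟩
  have k2 := h.ah_sq' A1
  rw [h.sq_const hx o hg h2 hk ek k2]
  refine (h.ez.mem_zp.1 k2).resolve_right fun e => h.ez.ne_one ?_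
  have key : ∀ {u : G} {a : ℕ}, Ah p π c u → a < 16 → a ≠ 0 → pel π u = ta a → u * u = z := fun hu ha a0 eu => by
    rw [h.sq_const hu.1 (eu ▸ ta_ord ha a0) (eu ▸ ta_mem ha) (h.ah_sq' hu) hk ek k2, e]
  have pm : ∀ {u v : G} {a b : ℕ}, Ah p π c u → Ah p π c v → a < 16 → b < 16 → pel π u = ta a → pel π v = ta b →
      pel π (u * v) = ta (a ^^^ b) := fun hu hv ha hb eu ev => by
    rw [pel_mul _ hu.1.1 hv.1.1, eu, ev, ta_mul ha hb]
  have e12 := pm A1 A2 (by norm_num) (by norm_num) ek el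
  rw [← key (h.ah_mul (h.ah_mul A1 A2) A4) (by decide) (by decide)
    (pm (h.ah_mul A1 A2) A4 (by decide) (by norm_num) e12 en)]
  exact cube_sq h.zz (mem_cent1_iff.1 hk.1) (mem_cent1_iff.1 hl.1) (mem_cent1_iff.1 hn.1) e
    (key A2 (by norm_num) (by norm_num) el) (key A4 (by norm_num) (by norm_num) en)
    (key (h.ah_mul A1 A2) (by decide) (by decide) e12)
    (key (h.ah_mul A1 A4) (by decide) (by decide) (pm A1 A4 (by norm_num) (by norm_num) ek en))
    (key (h.ah_mul A2 A4) (by decide) (by decide) (pm A2 A4 (by norm_num) (by norm_num) el en))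

theorem ah_sq {x : G} (hx : Ah p π c x) : x * x = 1 := by
  have h2 := h.ah_sq' hx
  obtain ⟨h1, a, ha, e1, a1⟩ := hx
  rcases eq_or_ne a 0 with rfl | a0
  · rcases h.ez.mem_zp.1 (h.ah_triv a1) with e | e <;> rw [e]
    exacts [mul_one _, h.zz]
  · exact h.sq_one h1 (e1 ▸ ta_ord ha a0) (e1 ▸ ta_mem ha) h2

theorem ah_comm {x y : G} (hx : Ah p π c x) (hy : Ah p π c y) : Commute x y := by
  have := h.ah_sq (h.ah_mul hx hy)
  rw [← inv_eq_iff_mul_eq_one, mul_inv_rev, inv_eq_of_mul_eq_one_right (h.ah_sq hx),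
    inv_eq_of_mul_eq_one_right (h.ah_sq hy)] at this
  exact this.symm

theorem ah_of {x : G} (hx : x ∈ 𝐂[z] ⊓ 𝐂[p]) (hA : pel π x ∈ AH) (h2 : x * x ∈ zpowers z) : Ah p π c x := by
  obtain ⟨a, ha, e⟩ := memAH.1 hA
  obtain ⟨k, hk, ek, ak⟩ := h.exists_ah ha
  refine ⟨hx, a, ha, e, ?_⟩
  rcases h.lift_unique hx hk (e.trans ek.symm) h2 (h.ah_sq' ⟨hk, a, ha, ek, ak⟩) with rfl | rfl
  exacts [ak, h.act_mul_z ak]

theorem ah_one : Ah p π c 1 := h.ah_of (one_mem _) (by rw [pel_one]; exact one_mem _) (by simp)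
theorem ah_z : Ah p π c z := h.ah_of h.z_C (by rw [h.pi_z]; exact one_mem _) (by rw [h.zz]; exact one_mem _)

theorem ah_pi {x : G} (hx : Ah p π c x) : pel π x ∈ AH := by
  obtain ⟨_, a, ha, e, _⟩ := hx
  exact e ▸ ta_memA ha

theorem ah_conj {k x : G} (hk : k ∈ 𝐂[z] ⊓ 𝐍(zpowers p)) (hS : pel π k ∈ SO) (hx : Ah p π c x) :
    Ah p π c (k * x * k⁻¹) := by
  have m : pel π (k * x * k⁻¹) ∈ AH := by rw [pel_conj _ hk.1 hx.1.1]; exact SO_conj hS (h.ah_pi hx)
  exact h.ah_of (h.j0.mem_C_of_pi (mul_mem (mul_mem hk (h.j0.C_le hx.1)) (inv_mem hk)) (AH_le m)) m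
    (by rw [conj_mul, h.ah_sq hx]; simp)

theorem ah_eq {x y : G} (hx : Ah p π c x) (hy : Ah p π c y) (e : pel π x = pel π y) : x = y ∨ x = y * z :=
  h.lift_unique hx.1 hy.1 e (h.ah_sq' hx) (h.ah_sq' hy)

theorem s_K : s ∈ 𝐂[z] ⊓ 𝐍(zpowers p) :=
  ⟨h.s_mem, mem_normalizer_iff_cj.2 (by rw [cj_zpowers, h.s_p, zpowers_inv])⟩

omit h in
theorem conj_ta {g a b : ℕ} (H : (inM24 g && Nat.blt a 16 && Nat.blt b 16 && iw g (nth TA a) (nth TA b)) = true) :
    perm g * ta a * (perm g)⁻¹ = ta b := by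
  simp only [Bool.and_eq_true, blt_iff] at H
  exact perm_conj (by simp only [Bool.and_eq_true]; exact ⟨⟨⟨H.1.1.1, in22_24 (TA_in H.1.1.2)⟩,
    in22_24 (TA_in H.1.2)⟩, H.2⟩)

theorem exists_TD : ∃ y m τ, TD p s π c y m τ := by
  obtain ⟨y, hy, ey, ay, y5⟩ : ∃ y ∈ 𝐂[z] ⊓ 𝐂[p], pel π y = y0 ∧ Act c y YN 0 ∧ y ^ 5 = 1 := by
    obtain ⟨y, hy, ey, ay⟩ := h.exists_lift y0_mem (M := YN) (by rw [cy]; decide +kernel)
    have a2 := h.act_mul0 hy.1 ay ay (eq13_refl _)
    have a5 := h.act_triv (h.act_mul0 (mul_mem hy.1 hy.1) a2 (h.act_mul0 (mul_mem hy.1 hy.1) a2 ay (eq13_refl _))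
      (by decide +kernel))
    rw [show y * y * (y * y * y) = y ^ 5 by simp only [pow_succ, pow_zero, one_mul, mul_assoc]] at a5
    rcases h.ez.mem_zp.1 a5 with e | e
    · exact ⟨y, hy, ey, ay, e⟩
    · refine ⟨y * z, mul_mem hy h.z_C, by rw [pel_mul _ hy.1 h.z_C.1, h.pi_z, mul_one, ey], h.act_mul_z ay, ?_⟩
      rw [(show Commute y z from mem_cent1_iff.1 hy.1).mul_pow, e, ← pow_succ', show 5 + 1 = 2 * 3 from rfl, pow_mul,
        pow_two, h.zz, one_pow]
  obtain ⟨f, hf, ef, af⟩ := h.exists_lift f0_mem (M := FN) (by rw [cf]; decide +kernel)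
  have hm := mul_mem h.s_K (h.j0.C_le hf)
  have em : pel π (s * f) = perm 0x4a8732c2c78a082552d54cb61c5d7 := by
    rw [pel_mul _ h.s_mem hf.1, h.s_pi, ef]
    apply eq_perm_of_code; rw [code_mul, cs, cf]; decide +kernel
  have yS : pel π y ∈ SO := ey ▸ ⟨M22_le_D2 y0_mem, (st_iff OH_lt).1 (by rw [cy]; decide +kernel)⟩
  have mS : pel π (s * f) ∈ SO := ⟨h.pi_mem hm.1, (st_iff OH_lt).1 (by
    rw [em, code_perm' (by decide +kernel)]; decide +kernel)⟩
  have cy' : ∀ {x : G} {a b : ℕ}, Ah p π c x → pel π x = ta a →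
      (inM24 yC && Nat.blt a 16 && Nat.blt b 16 && iw yC (nth TA a) (nth TA b)) = true →
      Ah p π c (y * x * y⁻¹) ∧ pel π (y * x * y⁻¹) = ta b := fun hx e H =>
    ⟨h.ah_conj (h.j0.C_le hy) yS hx, by rw [pel_conj _ hy.1 hx.1.1, ey, e]; exact conj_ta H⟩
  -- normalised generator
  obtain ⟨g0, g1, g2, g3, A0, e0, d1, d2, d3, d4⟩ : ∃ g0 g1 g2 g3 : G, Ah p π c g0 ∧ pel π g0 = ta 1 ∧
      y * g0 * y⁻¹ = g1 ∧ y * g1 * y⁻¹ = g2 ∧ y * g2 * y⁻¹ = g3 ∧ y * g3 * y⁻¹ = g0 * g1 * g2 * g3 := by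
    obtain ⟨k, hk, ek, ak⟩ := h.exists_ah (a := 1) (by norm_num)
    have A0 : Ah p π c k := ⟨hk, 1, by norm_num, ek, ak⟩
    obtain ⟨A1, e1⟩ := cy' (b := 2) A0 ek (by decide +kernel)
    obtain ⟨A2, e2⟩ := cy' (b := 4) A1 e1 (by decide +kernel)
    obtain ⟨A3, e3⟩ := cy' (b := 8) A2 e2 (by decide +kernel)
    obtain ⟨A4, e4⟩ := cy' (b := 15) A3 e3 (by decide +kernel)
    have B1 := h.ah_mul A0 A1
    have B2 := h.ah_mul B1 A2
    rcases h.ah_eq A4 (h.ah_mul B2 A3) (by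
      rw [pel_mul _ B2.1.1 A3.1.1, pel_mul _ B1.1.1 A2.1.1, pel_mul _ A0.1.1 A1.1.1, ek, e1, e2, e3, e4,
        ta_mul (by norm_num) (by norm_num), ta_mul (by decide) (by norm_num), ta_mul (by decide) (by norm_num)]
      rfl) with e | e
    · exact ⟨_, _, _, _, A0, ek, rfl, rfl, rfl, e⟩
    · have cz : ∀ x, y * (x * z) * y⁻¹ = y * x * y⁻¹ * z := fun x => by rw [← conj_mul, h.conj_z hy.1]
      refine ⟨_, _, _, _, h.ah_mul A0 h.ah_z, by rw [pel_mul _ hk.1 h.z_C.1, h.pi_z, mul_one, ek], cz _, cz _, cz _, ?_⟩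
      rw [cz, e]
      generalize y * (y * (y * k * y⁻¹) * y⁻¹) * y⁻¹ = k3 at *
      generalize y * (y * k * y⁻¹) * y⁻¹ = k2 at *
      generalize y * k * y⁻¹ = k1 at *
      have c1 : z * k1 = k1 * z := (mem_cent1_iff.1 A1.1.1).symm
      have c2 : z * k2 = k2 * z := (mem_cent1_iff.1 A2.1.1).symm
      have c3 : z * k3 = k3 * z := (mem_cent1_iff.1 A3.1.1).symm
      calc _ = k * k1 * (z * z) * k2 * k3 * z * z := by rw [h.zz, mul_one]
        _ = k * (k1 * z) * z * (k2 * (k3 * z)) * z := by group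
        _ = k * (z * k1) * z * (k2 * (z * k3)) * z := by rw [c1, c3]
        _ = _ := by group
  obtain ⟨A1, e1⟩ := cy' (b := 2) A0 e0 (by decide +kernel)
  rw [d1] at A1 e1
  obtain ⟨A2, e2⟩ := cy' (b := 4) A1 e1 (by decide +kernel)
  rw [d2] at A2 e2
  obtain ⟨A3, e3⟩ := cy' (b := 8) A2 e2 (by decide +kernel)
  rw [d3] at A3 e3
  let g : ℕ → G := fun i => match i with | 0 => g0 | 1 => g1 | 2 => g2 | _ => g3
  have hg : ∀ i < 4, Ah p π c (g i) := fun i hi => by interval_cases i <;> assumption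
  have hτ : ∀ a, Ah p π c (wd g 4 a) := wd_ind h.ah_one (fun _ _ => h.ah_mul) hg
  have tm := wd_xor (fun i hi j hj => h.ah_comm (hg i hi) (hg j hj)) fun i hi => h.ah_sq (hg i hi)
  have t1 : wd g 4 1 = g0 := by simp [wd, g, Nat.testBit]
  have t2 : wd g 4 2 = g1 := by simp [wd, g, Nat.testBit]
  have t4 : wd g 4 4 = g2 := by simp [wd, g, Nat.testBit]
  have t8 : wd g 4 8 = g3 := by simp [wd, g, Nat.testBit]
  have t15 : wd g 4 15 = g0 * g1 * g2 * g3 := by simp [wd, g, Nat.testBit]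
  generalize wd g 4 = τ at *
  have tp : ∀ a < 16, pel π (τ a) = ta a :=
    ext_mul (n := 4) (f := fun a => pel π (τ a)) (fun a _ b _ => by
      show pel π (τ _) = _
      rw [tm, pel_mul _ (hτ a).1.1 (hτ b).1.1]) (fun a ha b hb => (ta_mul ha hb).symm) fun j hj => by
      interval_cases j
      exacts [t1 ▸ e0, t2 ▸ e1, t4 ▸ e2, t8 ▸ e3]
  have lx : ∀ (M : ℕ), ∀ a < 2 ^ 4, ∀ b < 2 ^ 4, τ (lin M (a ^^^ b)) = τ (lin M a) * τ (lin M b) :=
    fun M a ha b hb => by rw [lin_xor M (by omega) (by omega), tm]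
  have cx : ∀ (k : G), ∀ a < 2 ^ 4, ∀ b < 2 ^ 4, k * τ (a ^^^ b) * k⁻¹ = k * τ a * k⁻¹ * (k * τ b * k⁻¹) :=
    fun k a _ b _ => by rw [tm, conj_mul]
  have yc : ∀ a < 16, y * τ a * y⁻¹ = τ (lin Y4 a) :=
    ext_mul (n := 4) (f := fun a => y * τ a * y⁻¹) (g := fun a => τ (lin Y4 a)) (cx y) (lx Y4) fun j hj => by
      interval_cases j
      · show y * τ 1 * y⁻¹ = τ (lin Y4 1); rw [show lin Y4 1 = 2 by decide +kernel, t1, t2, d1]
      · show y * τ 2 * y⁻¹ = τ (lin Y4 2); rw [show lin Y4 2 = 4 by decide +kernel, t2, t4, d2]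
      · show y * τ 4 * y⁻¹ = τ (lin Y4 4); rw [show lin Y4 4 = 8 by decide +kernel, t4, t8, d3]
      · show y * τ 8 * y⁻¹ = τ (lin Y4 8); rw [show lin Y4 8 = 15 by decide +kernel, t8, t15, d4]
  have am := (h.act_mul h.s_mem h.s_act af).congr (M' := SF) (by decide +kernel)
  have em' : pel π (s * f) = s0 * f0 := by rw [pel_mul _ h.s_mem hf.1, h.s_pi, ef]
  generalize s * f = m at *
  have my : m * y * m⁻¹ = y * y := by
    obtain ⟨a, e⟩ := h.j0.rel hy hm (n := 5) (r := 2) (y5 ▸ one_mem _) (by norm_num) (by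
      rw [em, ey]; apply code_injective
      rw [code_mul, code_mul, code_pow, cy, code_perm' (by decide +kernel)]; decide +kernel)
    have e1 : m * y * m⁻¹ = z ^ a * y ^ 2 := by rw [e]; group
    have e2 : (m * y * m⁻¹) ^ 5 = 1 := by rw [conj_pow, y5]; simp
    rw [e1, (((show Commute y z from mem_cent1_iff.1 hy.1).symm.pow_pow a 2)).mul_pow, ← pow_mul y, mul_comm 2,
      pow_mul y, y5, one_pow, mul_one, ← pow_mul, show a * 5 = 2 * (2 * a) + a by ring, pow_add, pow_mul, pow_two z,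
      h.zz, one_pow, one_mul] at e2
    rw [e1, e2, one_mul, pow_two]
  have st : ∀ a < 16, ∀ b < 16, ∀ u ∈ zpowers z, m * τ a * m⁻¹ = τ b * u →
      m * τ (lin Y4 a) * m⁻¹ = τ (lin Y4 (lin Y4 b)) * u := by
    intro a ha b hb u hu e
    have cu : y * u * y⁻¹ = u := by
      rcases h.ez.mem_zp.1 hu with rfl | rfl
      exacts [by simp, h.conj_z hy.1]
    rw [← yc a ha, ← yc _ (lin_lt_of_cols (n := 4) (m := 4) (by norm_num) (by decide +kernel) hb), ← yc b hb,
      show m * (y * τ a * y⁻¹) * m⁻¹ = (m * y * m⁻¹) * (m * τ a * m⁻¹) * (m * y * m⁻¹)⁻¹ by group, my, e]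
    conv_rhs => rw [← cu, ← cu, conj_mul, conj_mul]
    group
  obtain ⟨u, hu, f1⟩ : ∃ u ∈ zpowers z, m * τ 1 * m⁻¹ = τ 9 * u := by
    rcases h.ah_eq (h.ah_conj hm mS (hτ 1)) (hτ 9) (by
      rw [pel_conj _ hm.1 (hτ 1).1.1, em, tp 1 (by norm_num), tp 9 (by norm_num)]
      exact conj_ta (by decide +kernel)) with e | e
    exacts [⟨1, one_mem _, by rw [e, mul_one]⟩, ⟨z, mem_zpowers z, e⟩]
  have f2 := st 1 (by norm_num) 9 (by norm_num) u hu f1
  rw [show lin Y4 1 = 2 by decide +kernel, show lin Y4 (lin Y4 9) = 5 by decide +kernel] at f2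
  have f4 := st 2 (by norm_num) 5 (by norm_num) u hu f2
  rw [show lin Y4 2 = 4 by decide +kernel, show lin Y4 (lin Y4 5) = 11 by decide +kernel] at f4
  have f8 := st 4 (by norm_num) 11 (by norm_num) u hu f4
  rw [show lin Y4 4 = 8 by decide +kernel, show lin Y4 (lin Y4 11) = 13 by decide +kernel] at f8
  have f15 := st 8 (by norm_num) 13 (by norm_num) u hu f8
  rw [show lin Y4 8 = 15 by decide +kernel, show lin Y4 (lin Y4 13) = 9 ^^^ 5 ^^^ 11 ^^^ 13 by decide +kernel,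
    show (15 : ℕ) = 1 ^^^ 2 ^^^ 4 ^^^ 8 from rfl, tm, tm, tm, tm, tm, tm, ← conj_mul, ← conj_mul, ← conj_mul,
    f1, f2, f4, f8] at f15
  have u1 : u = 1 := by
    rcases h.ez.mem_zp.1 hu with e | rfl
    · exact e
    · have c5 : u * τ 5 = τ 5 * u := (mem_cent1_iff.1 (hτ 5).1.1).symm
      have c13 : u * τ 13 = τ 13 * u := (mem_cent1_iff.1 (hτ 13).1.1).symm
      have c5' : τ 5 * u = u * τ 5 := c5.symm
      have : τ 9 * u * (τ 5 * u) * (τ 11 * u) * (τ 13 * u) = τ 9 * τ 5 * τ 11 * τ 13 := by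
        rw [c5', ← c13, show τ 9 * u * (u * τ 5) * (τ 11 * u) * (u * τ 13) =
          τ 9 * (u * u) * τ 5 * τ 11 * (u * u) * τ 13 by group, h.zz, mul_one, mul_one]
      rw [this, left_eq_mul] at f15
      exact f15
  subst u1
  rw [mul_one] at f1 f2 f4 f8
  refine ⟨y, m, τ, hy, ey, ay, y5, hm.1, em', am, fun a => (hτ a).1, tp, fun a ha => ?_, tm, yc,
    ext_mul (n := 4) (f := fun a => m * τ a * m⁻¹) (g := fun a => τ (lin M4 a)) (cx m) (lx M4) fun j hj => ?_⟩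
  · obtain ⟨_, b, hb, e, a1⟩ := hτ a
    obtain rfl := ta_inj ha hb ((tp a ha).symm.trans e)
    exact a1
  · interval_cases j
    · show m * τ 1 * m⁻¹ = τ (lin M4 1); rw [show lin M4 1 = 9 by decide +kernel, f1]
    · show m * τ 2 * m⁻¹ = τ (lin M4 2); rw [show lin M4 2 = 5 by decide +kernel, f2]
    · show m * τ 4 * m⁻¹ = τ (lin M4 4); rw [show lin M4 4 = 11 by decide +kernel, f4]
    · show m * τ 8 * m⁻¹ = τ (lin M4 8); rw [show lin M4 8 = 13 by decide +kernel, f8]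

end JH

end CA.J4
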