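import Cfsg.Agent.Lib.J4.MFus
import Cfsg.Agent.Lib.J4.Inv

/-!
Elementary abelian subgroups of `M24` meeting the octad group `AH`.
-/

set_option autoImplicit false
set_option linter.unusedSectionVars false
set_option linter.unusedVariables false

namespace CA.J4
open Cfsg CA.Gol CA.Ex2 CA.XS Subgroup
open scoped Pointwise

/-- conjugators taking the involutions of the octad group to `r2A` -/
def tenK : List ℕ := [
  0xbdab49ca307b9ac5a928398a418820, 0x5010c69893184b672eb0a5e424c4ef, 0x55a899b4c4adcb172c434059079c12,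
  0x4416a29c36718408c9a3491f5a5e6c, 0x90d7400837712c66b275441454c4ef, 0x585921c66680085125c7a35567dea8,
  0x93a8a1c5a4b0a6102ee779930416ac, 0x5b5129ba27b14613249055582a5c0f, 0x9598880e77088803aeae796864c5aa,
  0x495f2104171d4cd9aa04a1d0e646cb, 0x659eb83ab70b4041aa26a4e4741449, 0x9552c2ba661d85782024a017151daf,
  0x491746c4f70d850730a694df550c08, 0x94d8a00ae13c08eb2ca34353579a34, 0x9014c30ac5844ed23c754850ea4eeb,
  0x7d53414ee7035c58ca03459665048c]
/-- the even subsets of the octad modulo the octad -/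
def tenU : List ℕ := [
  0x0, 0x800008, 0x800020, 0x28, 0x800080, 0x88, 0xa0, 0x8000a8, 0x800400, 0x408,
  0x420, 0x800428, 0x480, 0x800488, 0x8004a0, 0x4a8, 0x900000, 0x100008, 0x100020, 0x900028,
  0x100080, 0x900088, 0x9000a0, 0x1000a8, 0x100400, 0x900408, 0x900420, 0x100428, 0x900480, 0x100488,
  0x1004a0, 0x9004a8, 0xa00000, 0x200008, 0x200020, 0xa00028, 0x200080, 0xa00088, 0xa000a0, 0x2000a8,
  0x200400, 0xa00408, 0xa00420, 0x200428, 0xa00480, 0x200488, 0x2004a0, 0xa004a8, 0x300000, 0xb00008,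
  0xb00020, 0x300028, 0xb00080, 0x300088, 0x3000a0, 0xb000a8, 0xb00400, 0x300408, 0x300420, 0xb00428,
  0x300480, 0xb00488, 0xb004a0, 0x3004a8]
/-- involutions on the octad by their fixed vectors -/
def tenT : List (ℕ × ℕ) := [
  (0x96966969, 0x5401458636411ac9dccf3a4ae18a55), (0xaaaa5555, 0xbcc03b062b4b84c829e63a0a4a3655),
  (0xc3c3c3c3, 0xbac1480593339b1b29092bce418a55), (0xa55a00005aa5, 0x29aa098564625af8a9c83daf018a54),
  (0xaaaa00005555, 0xbd860985cf844444a968398acab654), (0xf00f0000f00f, 0xbdaa04052c22db071e33518af18a54),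
  (0x3c3c00c30000c3, 0x1980a48588588917d2702d8edbba55), (0x5aa5005a0000a5, 0x299406858e5c2717d4821dae93a254),
  (0x96006900960069, 0xaa6f4984467918d582c83c0ae1c64a), (0x99009900990099, 0xbb2b4984c25b936781a83c4642c24a),
  (0x99660066000099, 0x39a957058d5ce1178044bd8682a64a), (0xf0000f00f0000f, 0xbb6a7406117bac958193a08a419a4a),
  (0x330c00c0cc03003, 0x188a040611590c979d93536aebda54), (0x3c0300c0c30c003, 0x198a74052c73c5020233a5aabbb64a),
  (0x50aa05050a00a05, 0x298e0105e98910b60e0dadaee54e54), (0x5500aa0a00a5005, 0x2a003305c95c44479e1654eeca3655),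
  (0x550a00a0aa05005, 0x29860406307b84c59d3355ae4ab654), (0x5a0500a0a50a005, 0x288674058922cd170213a36efada4a),
  (0x606606090900909, 0x51807784499918d45e0ba586e2c655), (0x660900906609009, 0xab6e04058973ed121e135086b29a54),
  (0x690069060096009, 0xa44f7206c95a0467820eab0732b64a), (0x690600906906009, 0xadae740630591ac78133a186e28a4a),
  (0x960600909606009, 0xa9aea4061122c49751930586f2b647), (0x990900909909009, 0xa8af44052c7b8d05aa333b4642da40),
  (0xa50500a05a0a005, 0x2b46a4052c592d07d23300aeea9a47), (0xaa0a00a05505005, 0x2d8744061173da92299339aeba8a40),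
  (0xc03030c030c0c03, 0x1bab4986291596c6aa08010a6bbe47), (0xc0330c030c00c03, 0x19a9560509691f3116110594ebae47),
  (0xc0c0c0c03030303, 0xbbcb498590b08913292802ead1ba47), (0xc3003c0300cc003, 0x1914588669598487d60c03a96bb647),
  (0xc30300c03c0c003, 0x1d8aa405897b9b15d21301aa4b8a47), (0xcc0c00c03303003, 0x1b4b44063022ecc7293338aafb9a40),
  (0xf00000f0f00000f, 0xb8aaa4063073ccc25133034ab1da47), (0x1144228888224411, 0x398034048f8304e49573bd951a3655),
  (0x1144882222884411, 0x3a0603058b49051815f6bcd4eab654), (0x1212484884842121, 0x52405405a6592227ded31c28e3b255),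
  (0x1284482112844821, 0xac2e57859699051400cb1a68e3b64a), (0x1414282882824141, 0x5580398590790515dd28298eea3655),
  (0x1414828228284141, 0x54c60b04895b04e7de062a0f1ab654), (0x1428142882418241, 0xa3c1740589b35d130e132ace251255),
  (0x1482284114822841, 0xa9ae3585a9412229820f2d8eea324a), (0x1818242442428181, 0x518a3805935b5d17dd0905aa2a1247),
  (0x1824182442814281, 0xa2cb74858831051b0e7003eae53647), (0x2112211212211221, 0xa1ab71062e7c10c5a88d3d8091ce45),
  (0x2148214848214821, 0xa1957405e48a44b655d31d8103b645), (0x2211221122112211, 0xbdab42062d5a20c78c4e3981352645),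
  (0x2211448844882211, 0x3c695406c25912678db3bb00e54245), (0x2418241842814281, 0xa18f7985905b9b178d28ad80450a45),
  (0x2418428124184281, 0xab2e7704c95cc5678e04a440853645), (0x2424181842428181, 0x52ce34058930891b5e13abc0da3a45),
  (0x2442244218811881, 0xa1877685696126f89e025580eaa245), (0x2814281482418241, 0xa5ab7805937889158d09398ad53a40),
  (0x2828141482824141, 0x53ea348588b39b135e703aca4a0a40), (0x300c0c3003c0c003, 0x1bcea80593b105135109aac0ebb645),
  (0x3030303003030303, 0xbd8f4485887b5d15aa70a980219245), (0x3c00003cc30000c3, 0x1aeaa98590335d1b51283bca2b9240),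
  (0x4141282828284141, 0x51a95405cb4c44485df32d8ec03643), (0x4141828282824141, 0x522b43062f8384c4dd762cce41b640),
  (0x4218248142182481, 0xa9ae7205825a131795aea595304243), (0x4218421824812481, 0xa30f7404cd5921679453ac54e02643),
  (0x4411114411444411, 0x392b460509799b35aa11bb8b600a43), (0x4411228822884411, 0x3da95986295b84c79608b994403643),
  (0x4411441144114411, 0xbc6b4706d05cda6795243b14800a43), (0x4411882288224411, 0x3ceb4b05d07c44459526ba14c1b640),
  (0x4422118822448811, 0x3b945405896d9f115613b928602e43), (0x4422224411888811, 0x398aa88669111686d20cbdaae03e43),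
  (0x50050aa00aa05005, 0x2ce95b058f8105149d66522ee03643), (0x5005a00aa00a5005, 0x2dab49848b4b04e81de851af11b640),
  (0x5555000000005555, 0xba295304907b04e5a9363ccb103643), (0x6090060960900609, 0xac6e7986cd5ba067a848a30a41a640),
  (0x6090609006090609, 0xa58f7706225cd2c7a9a4a98a81c240), (0x6699000000006699, 0x3b295204d05a1b67a92ebc4b318a40),
  (0x8118244242241881, 0x1865105845a51179dcd55a90ace57), (0x8142241818244281, 0x18e54056e6404f88c93ada8953657),
  (0x8214412814822841, 0x4143404565918d7d4d32a4eea4657), (0x8282414182824141, 0xba6a378626991ac42acb2c0eea0a40),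
  (0x8412128421484821, 0x38aa605095d8537d211192a63b657), (0x8412214812844821, 0x194598629791ac5d6081da8e38a57),
  (0x8421124812488421, 0x12954058911971696131b9563be57), (0x8421218421848421, 0x5ab4886696b9e812a0c198a43ae57),
  (0x8448211248841221, 0x1aa5685f08ba6b629223da841a257), (0x8484212184842121, 0xbdaa5584504118d9a92f19a8e3c640),
  (0x9006096006906009, 0x254758586410519d6cfa406e2b657), (0x9090090990900909, 0xbc2a7985b6792225a8c8a246e2b240),
  (0x9600690000960069, 0x5954785b0992224552b398ae1b257), (0xa00aa00a50055005, 0xb9874985ee8c1ab61c88558a9a8a40),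
  (0xa050a0500a050a05, 0xb98f4686247a66c58dc2ad8b052240), (0xa500a50000a500a5, 0xb9954105706390f8d52d1d8a43ce40),
  (0xcc0000cc33000033, 0xb90aa98629699ec152083bab61ae40), (0xcc00330000cc0033, 0xbd94560509139736d61139a841be40),
  (0xcc3300000000cc33, 0xbba95886697d9a85960c3914618a40)]

theorem TA_24 {a : ℕ} (ha : a < 16) : inM24 (nth TA a) = true := in22_24 (TA_in ha)
theorem ta_24 {a : ℕ} (ha : a < 16) : ta a ∈ M24 := M22_le (ta_mem ha)
theorem AH_24 : AH ≤ M24 := fun _ h => h.1

theorem comm_of_sq {G : Type*} [Group G] {X : Subgroup G} (h2 : ∀ x ∈ X, x * x = 1) {x y : G} (hx : x ∈ X)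
    (hy : y ∈ X) : x * y = y * x := by
  rw [← inv_eq_of_mul_eq_one_right (h2 _ (mul_mem hx hy)), mul_inv_rev, inv_eq_of_mul_eq_one_right (h2 x hx),
    inv_eq_of_mul_eq_one_right (h2 y hy)]

/-- the octad stabilizer -/
def KO : Subgroup Pm := M24 ⊓ MulAction.stabilizer Pm (fs OH)

theorem memKO {g : Pm} : g ∈ KO ↔ g ∈ M24 ∧ g • fs OH = fs OH := Iff.rfl
theorem KO_24 : KO ≤ M24 := inf_le_left

theorem card_KO : Nat.card KO = 322560 := by
  have h := card_inf_stab_mul M24 (fs OH)
  have e : MulAction.orbit M24 (fs OH) = octads := by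
    ext o
    refine ⟨fun ⟨g, e⟩ => e ▸ smul_mem_octads g.2 OH_oct, fun ho => ?_⟩
    obtain ⟨g, hg, e⟩ := octad_trans OH_oct ho
    exact ⟨⟨g, hg⟩, e⟩
  have c := famOct.ncard (P := fun _ => True) (p := fun _ => true) fun _ _ _ => by simp
  simp only [and_true, Set.ofPred_mem_eq] at c
  rw [e, c, card_M24, show countLt _ 4096 = 759 by decide +kernel] at h
  exact Nat.eq_of_mul_eq_mul_right (show 0 < 759 by norm_num) (h.trans (by norm_num))

theorem KO_conj {g a : Pm} (hg : g ∈ KO) (ha : a ∈ AH) : g * a * g⁻¹ ∈ AH :=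
  ⟨mul_mem (mul_mem hg.1 ha.1) (inv_mem hg.1), fun p hp => by
    have : g⁻¹ p ∈ fs OH := by rw [← mem_smul_iff, hg.2]; exact hp
    rw [Equiv.Perm.mul_apply, Equiv.Perm.mul_apply, ha.2 _ this]; simp⟩

theorem AH_le_KO : AH ≤ KO := fun _ h => ⟨h.1, smul_eq_of_fix h.2⟩

theorem KO_of_comm {g : Pm} (hg : g ∈ M24) (e : g * ta 1 = ta 1 * g) : g ∈ KO :=
  ⟨hg, by have := smul_fixS_of_commute e; rwa [fixS_ta (by norm_num) (by norm_num)] at this⟩

/-- involution constraint -/
def pInv : PC := fun i x j y => beqB (Nat.beq x j) (Nat.beq y i)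

theorem sat_inv {g : Pm} (h : g * g = 1) : Sat pInv (code g) := by
  intro i hi j hj
  rw [pInv, beqB_iff, Bool.eq_iff_iff, beq_iff, beq_iff, ← apply_pt_eq_iff hi hj, ← apply_pt_eq_iff hj hi]
  have : ∀ p, g (g p) = p := fun p => by rw [← Equiv.Perm.mul_apply, h]; rfl
  exact ⟨fun e => by rw [← e, this], fun e => by rw [← e, this]⟩

/-- the fixed vectors in `U` -/
def tenF (c : ℕ) : ℕ := horner 2 (fun i => Bool.rec 0 1 (fx c (nth tenU i))) 64 0
/-- table lookup -/
def look (T : List (ℕ × ℕ)) (m : ℕ) : ℕ := List.rec oneC (fun e _ r => Bool.rec r e.2 (Nat.beq e.1 m)) T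

theorem ten_key {g : Pm} (hg : g ∈ M24) (e : g * ta 1 = ta 1 * g) (h2 : g * g = 1) (hn : g ∉ AH) :
    countLt (fun i => true && fx (code g) (nth tenU i)) 64 = 16 ∧ g * perm (look tenT (tenF (code g))) ∈ AH ∧
      ¬ ∀ a ∈ AH, g * a = a * g := by
  have := all24_sound (P := pAnd (pCj (nth TA 1) (nth TA 1)) pInv)
    (leaf := fun c => !(Nat.beq (mul c c) oneC) || !(cmC c (nth TA 1)) || inA c ||
      (Nat.beq (countLt (fun i => true && fx c (nth tenU i)) 64) 16 &&
        force (look tenT (tenF c)) (fun r => valid r && inA (mul c r)) &&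
        !(cmC c (nth TA 2) && cmC c (nth TA 4) && cmC c (nth TA 8))))
    (k := 0x3aaaf202818a0537586b4998d816f2) (ki := 0xaab1601e3a2c85458eeb98534b612) (by decide +kernel) hg
    ((sat_cj' (TA_24 (by norm_num)) (TA_24 (by norm_num)) e).and (sat_inv h2))
  rw [← code_mul, h2, code_one, beq_iff.2 rfl, (cmC_iff' (TA_24 (by norm_num))).2 e,
    Bool.eq_false_iff.2 (mt inA_iff.1 hn)] at this
  simp only [Bool.not_true, Bool.false_or, Bool.and_eq_true, beq_iff, force_eq, Bool.not_eq_true'] at this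
  refine ⟨this.1.1, inA_iff.1 (by rw [code_mul, code_perm this.1.2.1]; exact this.1.2.2), fun H => ?_⟩
  have k : ∀ a < 16, cmC (code g) (nth TA a) = true := fun a ha => (cmC_iff' (TA_24 ha)).2 (H _ (ta_memA ha))
  have := this.2
  rw [k 2 (by norm_num), k 4 (by norm_num), k 8 (by norm_num)] at this
  exact absurd this (by decide)

theorem ten_same {g k : Pm} (hg : g ∈ M24) (e : g * ta 1 = ta 1 * g) (h2 : g * g = 1) (hn : g ∉ AH)
    (hk : k ∈ M24) (e' : k * ta 1 = ta 1 * k) (k2 : k * k = 1) (kn : k ∉ AH)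
    (H : ∀ i < 64, fx (code g) (nth tenU i) = fx (code k) (nth tenU i)) : g * k⁻¹ ∈ AH := by
  have h1 := (ten_key hg e h2 hn).2.1
  have h3 := (ten_key hk e' k2 kn).2.1
  rw [show tenF (code g) = tenF (code k) from horner_congr fun i hi => by rw [zero_add, H i hi]] at h1
  simpa using mul_mem h1 (inv_mem h3)

theorem card_lt128 {X : Subgroup Pm} (hX : X ≤ M24) (h2 : ∀ x ∈ X, x * x = 1) (h1 : ta 1 ∈ X) : Nat.card X < 128 := by
  by_cases hA : X ≤ AH
  · exact (card_le_of_le' hA).trans_lt (by rw [card_AH]; norm_num)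
  obtain ⟨x, hx, hn⟩ := SetLike.not_le_iff_exists.1 hA
  obtain ⟨p, hp, hq⟩ : ∃ p ∈ fs OH, x p ≠ p := by
    by_contra H; push Not at H; exact hn ⟨hX hx, H⟩
  have h := card_inf_stab_mul X p
  have sub : MulAction.orbit X p ⊆ (fs OH : Set GolayPt) := by
    rintro _ ⟨y, rfl⟩
    have := (KO_of_comm (hX y.2) (comm_of_sq h2 y.2 h1)).2
    show (y : Pm) p ∈ fs OH
    rw [← this]; exact apply_mem_smul.2 hp
  have c8 : (fs OH : Set GolayPt).ncard = 8 := by rw [Set.ncard_coe_finset, card_fs]; decide +kernel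
  have fixo : ∀ y ∈ X ⊓ MulAction.stabilizer Pm p, ∀ u ∈ X, y (u p) = u p := fun y hy u hu => by
    rw [← Equiv.Perm.mul_apply, comm_of_sq h2 hy.1 hu, Equiv.Perm.mul_apply, show y p = p from hy.2]
  obtain ⟨k, hk, e1, e2⟩ := trans2 hq.symm
  have c16 : Nat.card ↥(X ⊓ MulAction.stabilizer Pm p) ≤ 16 := by
    rw [← card_cj k]
    refine card_le16 (cj_le_iff'.2 fun y hy => mem22.2 ⟨conj_H hk (hX hy.1), ?_, ?_⟩) fun y hy => ?_
    · rw [← e2, Gol.conj_apply, fixo y hy x hx]
    · rw [← e1, Gol.conj_apply, show y p = p from hy.2]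
    · obtain ⟨y, hy', rfl⟩ := mem_cj'.1 hy
      rw [conj_mul, h2 y hy'.1]; simp
  have o8 := (Set.ncard_le_ncard sub).trans c8.le
  by_contra H
  have a1 : Nat.card ↥(X ⊓ MulAction.stabilizer Pm p) = 16 := by nlinarith
  have a2 : (MulAction.orbit X p).ncard = 8 := by nlinarith
  have a3 := Set.eq_of_subset_of_ncard_le sub (by omega)
  have a4 : X ⊓ MulAction.stabilizer Pm p = AH := eq_of_le_of_card_eq (fun y hy => ⟨hX hy.1, fun q hq => by
    obtain ⟨u, rfl⟩ : q ∈ MulAction.orbit X p := a3 ▸ hq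
    exact fixo y hy u u.2⟩) (by rw [a1, card_AH])
  exact (ten_key (hX hx) (comm_of_sq h2 hx h1) (h2 x hx) hn).2.2 fun a ha => comm_of_sq h2 hx (a4.ge ha).1

theorem card_dvd24 {X : Subgroup Pm} (h : ∀ x ∈ X, x ≠ 1 → (fixS x).card = 0) : Nat.card X ∣ 24 := by
  have e := MulAction.selfEquivOrbitsQuotientProd (G := X) (X := GolayPt) fun b => by
    rw [eq_bot_iff]
    intro y hy
    by_contra h1
    exact card_fixS_eq_zero.1 (h y y.2 fun e => h1 (Subtype.ext e)) b hy
  have := Nat.card_congr e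
  rw [Nat.card_prod, Nat.card_eq_fintype_card, card_golayPt] at this
  exact Dvd.intro_left _ this.symm

theorem conj_ta1 {g : Pm} (hg : g ∈ M24) (h2 : g * g = 1) (h1 : g ≠ 1) (hf : (fixS g).card ≠ 0) :
    ∃ k ∈ M24, k * g * k⁻¹ = ta 1 := by
  obtain ⟨k, hk, e⟩ := class_2A hg (orderOf_eq_prime (by rw [pow_two, h2]) h1) hf
  have := perm_conj (k := nth tenK 1) (a := nth TA 1) (b := r2A) (by decide +kernel)
  exact ⟨(perm (nth tenK 1))⁻¹ * k, mul_mem (inv_mem (perm_mem_M24 (by decide +kernel))) hk, conj_of_conj e this⟩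

end CA.J4
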