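import Cfsg.Agent.Lib.J4.Ten1

/-!
The self-centralizing `2^10` inside `M = 2^11 : M24`.
-/

set_option autoImplicit false
set_option linter.unusedSectionVars false
set_option linter.unusedVariables false

namespace CA.J4
open Cfsg CA.Gol CA.Ex2 CA.XS Subgroup
open scoped Pointwise

variable {G : Type*} [Group G]

/-- the vectors inside the octad -/
def tenUU (V : Subgroup G) (κ : M24 →* G) : Subgroup G := V ⊓ (𝐂[pel κ (ta 1)] ⊓ 𝐂[pel κ (ta 2)])
/-- the group `A = 2^10` -/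
def tenA (V : Subgroup G) (κ : M24 →* G) : Subgroup G := tenUU V κ ⊔ pmap κ AH
/-- membership test for the vectors inside the octad -/
def inUo (m : ℕ) : Bool := fx (nth TA 1) m && fx (nth TA 2) m
/-- the commutator of a vector with an element of the octad group -/
def dj (j m : ℕ) : ℕ := Nat.xor m (apM (nth TA j) m)

theorem tenU_chk : allLt (fun i => ev (nth tenU i) && allLt (fun j => fx (nth TA j) (nth tenU i)) 16 &&
    allLt (fun j => Nat.beq i j || !(eqv (nth tenU i) (nth tenU j))) 64) 64 = true := by decide +kernel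

theorem tenU_ev {i : ℕ} (hi : i < 64) : ev (nth tenU i) = true := by
  have := allLt_iff.1 tenU_chk i hi
  simp only [Bool.and_eq_true] at this; exact this.1.1

theorem tenU_fx {i j : ℕ} (hi : i < 64) (hj : j < 16) : fx (nth TA j) (nth tenU i) = true := by
  have := allLt_iff.1 tenU_chk i hi
  simp only [Bool.and_eq_true, allLt_iff] at this; exact this.1.2 j hj

theorem dj_ev {j m : ℕ} (hj : j < 16) (hm : ev m = true) : ev (dj j m) = true :=
  ev_xor hm (by rw [← code_ta hj]; exact ev_apM _ hm)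

theorem le_two_mul {H : Type*} [Group H] [Finite H] {A X : Subgroup H} {b : H} (hb : b ∈ X)
    (h : ∀ c ∈ X, c ∉ A → c * b⁻¹ ∈ A) : Nat.card X ≤ 2 * Nat.card ↥(A ⊓ X) := by
  have h1 := Set.ncard_le_ncard (s := (X : Set H))
    (t := ((A ⊓ X : Subgroup H) : Set H) ∪ (· * b) '' ((A ⊓ X : Subgroup H) : Set H)) fun c hc => by
      by_cases e : c ∈ A
      · exact Or.inl ⟨e, hc⟩
      · exact Or.inr ⟨c * b⁻¹, ⟨h c hc e, X.mul_mem hc (X.inv_mem hb)⟩, by simp⟩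
  have h2 := h1.trans (Set.ncard_union_le _ _)
  rw [Set.ncard_image_of_injective _ (mul_left_injective b), ← two_mul] at h2
  exact h2

variable [Finite G]

namespace MM
variable {V : Subgroup G} {ν : Finset GolayPt → G} {κ : M24 →* G} (h : MM V ν κ)
include h

theorem v_comm_ta {m j : ℕ} (hm : ev m = true) (hj : j < 16) : ν (fs m) ∈ 𝐂[pel κ (ta j)] ↔ fx (nth TA j) m = true := by
  rw [h.v_comm_k hm (ta_24 hj), code_ta hj, fx]

theorem v_memU {m : ℕ} (hm : ev m = true) : ν (fs m) ∈ tenUU V κ ↔ inUo m = true := by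
  rw [inUo, Bool.and_eq_true, ← h.v_comm_ta hm (by norm_num), ← h.v_comm_ta hm (by norm_num)]
  exact and_iff_right (h.v_mem hm)

theorem famU : Fam (tenUU V κ : Set G) (fun i => ν (fs (nth tenU i))) (fun _ => true) 64 := by
  refine ⟨fun i hi _ => (h.v_memU (tenU_ev hi)).2 (by
    rw [inUo, tenU_fx hi (by norm_num), tenU_fx hi (by norm_num)]; rfl), fun x hx => ?_, fun i hi j hj _ _ e => ?_⟩
  · refine h.forall_V (P := fun x => x ∈ tenUU V κ → ∃ i < 64, true = true ∧ ν (fs (nth tenU i)) = x)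
      (p := fun m => !(inUo m) || anyLt (fun i => eqv (nth tenU i) m) 64) (by decide +kernel) (fun m hm hp hx => ?_) hx.1 hx
    rw [(h.v_memU hm).1 hx] at hp
    obtain ⟨i, hi, e⟩ := anyLt_iff.1 (by simpa using hp)
    exact ⟨i, hi, rfl, (h.v_eq_iff (tenU_ev hi) hm).2 e⟩
  · have := allLt_iff.1 tenU_chk i hi
    simp only [Bool.and_eq_true, allLt_iff] at this
    have := this.2 j hj
    rw [(h.v_eq_iff (tenU_ev hi) (tenU_ev hj)).1 e] at this
    simpa [beq_iff] using this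

theorem card_U_inf {A : Subgroup G} {p : ℕ → Bool} (H : ∀ i < 64, (ν (fs (nth tenU i)) ∈ A ↔ p i = true)) :
    Nat.card ↥(tenUU V κ ⊓ A) = countLt (fun i => true && p i) 64 :=
  h.famU.ncard (P := (· ∈ A)) fun i hi _ => H i hi

theorem card_UU : Nat.card (tenUU V κ) = 64 := by
  rw [← inf_top_eq (tenUU V κ), h.card_U_inf (p := fun _ => true) fun _ _ => by simp]; decide +kernel

theorem U_comm {u : G} (hu : u ∈ tenUU V κ) {f : Pm} (hf : f ∈ AH) : u ∈ 𝐂[pel κ f] := by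
  obtain ⟨i, hi, -, rfl⟩ := h.famU.surj u hu
  obtain ⟨j, hj, rfl⟩ := memAH.1 hf
  exact (h.v_comm_ta (tenU_ev hi) hj).2 (tenU_fx hi hj)

theorem memA {x : G} : x ∈ tenA V κ ↔ ∃ u ∈ tenUU V κ, ∃ f ∈ AH, x = u * pel κ f := by
  rw [tenA, mem_sup_of_norm_right (norms_of_cents fun y hy => by
    obtain ⟨f, hf, rfl⟩ := (mem_pmap_of_le AH_24).1 hy
    exact mem_cent_iff.2 fun u hu => mem_cent1_iff.1 (h.U_comm hu hf))]
  exact ⟨fun ⟨u, hu, y, hy, e⟩ => by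
    obtain ⟨f, hf, rfl⟩ := (mem_pmap_of_le AH_24).1 hy
    exact ⟨u, hu, f, hf, e.symm⟩, fun ⟨u, hu, f, hf, e⟩ => ⟨u, hu, _, pel_mem_pmap _ hf, e.symm⟩⟩

theorem vk_memA {v : G} (hv : v ∈ V) {g : Pm} (hg : g ∈ M24) : v * pel κ g ∈ tenA V κ ↔ v ∈ tenUU V κ ∧ g ∈ AH := by
  rw [h.memA]
  refine ⟨fun ⟨u, hu, f, hf, e⟩ => ?_, fun ⟨a, b⟩ => ⟨v, a, g, b, rfl⟩⟩
  obtain ⟨rfl, rfl⟩ := (h.vk_eq_iff hv hu.1 hg hf.1).1 e
  exact ⟨hu, hf⟩

theorem el_memA {m c : ℕ} (hm : ev m = true) (hc : inM24 c = true) :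
    el ν κ (m, c) ∈ tenA V κ ↔ inUo m = true ∧ inA c = true := by
  rw [el, h.vk_memA (h.v_mem hm) (perm_mem_M24 hc), h.v_memU hm, ← inA_iff, code_perm' hc]

theorem exists_elA {x : G} (hx : x ∈ tenA V κ) : ∃ i < 64, ∃ j < 16, x = el ν κ (nth tenU i, nth TA j) := by
  obtain ⟨u, hu, f, hf, rfl⟩ := h.memA.1 hx
  obtain ⟨i, hi, -, rfl⟩ := h.famU.surj u hu
  obtain ⟨j, hj, rfl⟩ := memAH.1 hf
  exact ⟨i, hi, j, hj, rfl⟩

theorem k_memA {f : Pm} (hf : f ∈ AH) : pel κ f ∈ tenA V κ := mem_sup_right (pel_mem_pmap _ hf)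
theorem U_leA : tenUU V κ ≤ tenA V κ := le_sup_left

theorem A_le_M : tenA V κ ≤ 𝐍(V) := fun x hx => by
  obtain ⟨u, hu, f, hf, rfl⟩ := h.memA.1 hx
  exact mul_mem (h.V_le hu.1) (h.k_mem hf.1)

theorem V_inf_A : V ⊓ tenA V κ = tenUU V κ := le_antisymm (fun x hx => by
  have := (h.vk_memA hx.1 (one_mem _)).1 (by simpa [pel_one] using hx.2)
  exact this.1) (le_inf inf_le_left h.U_leA)

theorem mu_A : pmap h.mu (tenA V κ) = AH := h.pmap_eq h.A_le_M (fun x hx => by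
  obtain ⟨u, hu, f, hf, rfl⟩ := h.memA.1 hx
  rwa [h.mu_vk hu.1 hf.1]) fun g hg => ⟨_, h.k_memA hg, h.mu_k hg.1⟩

theorem card_A : Nat.card (tenA V κ) = 1024 := by rw [h.card_eq h.A_le_M, h.V_inf_A, h.mu_A, h.card_UU, card_AH]

theorem A_sq {x : G} (hx : x ∈ tenA V κ) : x * x = 1 := by
  obtain ⟨u, hu, f, hf, rfl⟩ := h.memA.1 hx
  obtain ⟨j, hj, rfl⟩ := memAH.1 hf
  rw [mul_assoc, ← mul_assoc (pel κ _), ← mem_cent1_iff.1 (h.U_comm hu hf), mul_assoc, ← pel_mul _ hf.1 hf.1, ta_sq hj,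
    pel_one, mul_one, h.todd.mul_self hu.1]

theorem mu_D2 {x : G} (hx : x ∈ 𝐍(V)) (hc : x ∈ 𝐂[ν (fs DD)]) : pel h.mu x ∈ D2 := by
  refine memD2.2 ⟨h.mu_mem hx, h.todd.eq_of_small (by rw [card_smul]; exact ev_even DD_ev) (ev_even DD_ev)
    (by rw [card_smul, DD_card]; norm_num) ?_⟩
  rw [← h.acts_mu hx _ (ev_even DD_ev), mem_cent1_iff.1 hc, mul_inv_cancel_right]

theorem t_memU : ν (fs DD) ∈ tenUU V κ := (h.v_memU DD_ev).2 (by decide +kernel)

theorem cent_A {x : G} (hx : x ∈ 𝐍(V)) (hc : x ∈ 𝐂(tenA V κ)) : x ∈ tenA V κ := by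
  have h1 := h.mu_D2 hx (cent_le_cent1 (h.U_leA h.t_memU) hc)
  obtain ⟨m, hm, g, hg, rfl⟩ := h.dec hx
  rw [h.mu_vk (h.v_mem hm) hg] at h1
  have k : ∀ f ∈ AH, ν (fs m) ∈ 𝐂[pel κ f] ∧ g * f = f * g := fun f hf =>
    (h.vk_comm_k (h.v_mem hm) hg hf.1).1 (cent_le_cent1 (h.k_memA hf) hc)
  exact (h.vk_memA (h.v_mem hm) hg).2 ⟨⟨h.v_mem hm, (k _ (ta_memA (by norm_num))).1, (k _ (ta_memA (by norm_num))).1⟩,
    cent_AH h1 fun a ha => (k a ha).2⟩

theorem k_normA {k : Pm} (hk : k ∈ KO) : pel κ k ∈ 𝐍(tenA V κ) := by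
  have key : ∀ u ∈ tenUU V κ, ∀ j < 16, pel κ k * u * (pel κ k)⁻¹ ∈ 𝐂[pel κ (ta j)] := fun u hu j hj => by
    have := h.U_comm hu (KO_conj (inv_mem hk) (ta_memA hj))
    rw [pel_conj _ (inv_mem hk.1) (ta_24 hj), pel_inv _ hk.1, ← cj_centralizer_singleton, mem_cj_inv] at this
    exact this
  refine mem_normalizer_of_cj_le (cj_le_iff'.2 fun x hx => ?_)
  obtain ⟨u, hu, f, hf, rfl⟩ := h.memA.1 hx
  rw [← conj_mul, ← pel_conj _ hk.1 hf.1]
  exact h.memA.2 ⟨_, ⟨h.conj_mem_V (h.k_mem hk.1) hu.1, key u hu 1 (by norm_num), key u hu 2 (by norm_num)⟩, _,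
    KO_conj hk hf, rfl⟩

theorem v_conj_k {m j : ℕ} (hm : ev m = true) (hj : j < 16) :
    ν (fs m) * pel κ (ta j) * (ν (fs m))⁻¹ = ν (fs (dj j m)) * pel κ (ta j) := by
  have := h.vk_mul hm hm (ta_24 hj) (one_mem _)
  rw [pel_one, mul_one, mul_one, code_ta hj] at this
  rw [h.v_inv (h.v_mem hm), this]; rfl

theorem v_normA {m : ℕ} (hm : ev m = true) : ν (fs m) ∈ 𝐍(tenA V κ) ↔ allLt (fun j => inUo (dj j m)) 16 = true := by
  rw [allLt_iff]
  refine ⟨fun H j hj => ?_, fun H => mem_normalizer_of_cj_le (cj_le_iff'.2 fun x hx => ?_)⟩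
  · have := conj_mem_of_mem_normalizer H (h.k_memA (ta_memA hj))
    rw [h.v_conj_k hm hj, h.vk_memA (h.v_mem (dj_ev hj hm)) (ta_24 hj), h.v_memU (dj_ev hj hm)] at this
    exact this.1
  · obtain ⟨u, hu, f, hf, rfl⟩ := h.memA.1 hx
    obtain ⟨j, hj, rfl⟩ := memAH.1 hf
    rw [← conj_mul, h.v_conj_k hm hj, h.comm_V (h.v_mem hm) hu.1, mul_inv_cancel_right]
    exact mul_mem (h.U_leA hu) ((h.vk_memA (h.v_mem (dj_ev hj hm)) hf.1).2 ⟨(h.v_memU (dj_ev hj hm)).2 (H j hj), hf⟩)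

theorem card_W : Nat.card ↥(V ⊓ 𝐍(tenA V κ)) = 1024 := by
  rw [h.card_V_inf fun m hm => h.v_normA hm]; decide +kernel

theorem ev3 : ev 3 = true := by decide +kernel

theorem v0_not : ν (fs 3) ∉ 𝐍(tenA V κ) := by rw [h.v_normA h.ev3]; decide +kernel

/-- the complement in `N_M(A)` -/
theorem B_le : cj (ν (fs 3)) (pmap κ KO) ≤ 𝐍(tenA V κ) := cj_le_iff'.2 fun y hy => by
  obtain ⟨k, hk, rfl⟩ := (mem_pmap_of_le KO_24).1 hy
  have h1 := h.k_normA hk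
  have h2 : (𝐍(tenA V κ)).relIndex V = 2 := by
    have := card_inf_mul_relIndex 𝐍(tenA V κ) V
    rw [inf_comm, h.card_W, h.card_V] at this; omega
  have h3 := h.v_mem h.ev3
  have h4 := h.conj_mem_V (h.k_mem hk.1) (inv_mem h3)
  have h5 := (mul_mem_iff_of_index_two h2 (a := ⟨_, h3⟩) (b := ⟨_, h4⟩)).2 (iff_of_false h.v0_not fun a => h.v0_not (by
    simpa [mul_assoc] using inv_mem (conj_H (inv_mem h1) (mem_subgroupOf.1 a))))
  simpa [mul_assoc] using mul_mem (mem_subgroupOf.1 h5) h1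

theorem B_inf : cj (ν (fs 3)) (pmap κ KO) ⊓ tenA V κ = ⊥ := by
  rw [eq_bot_iff]
  rintro x ⟨h1, h2⟩
  obtain ⟨y, hy, rfl⟩ := mem_cj'.1 h1
  obtain ⟨k, hk, rfl⟩ := (mem_pmap_of_le KO_24).1 hy
  have h3 := h.v_mem h.ev3
  have h4 : k ∈ AH := by
    have := pel_mem_pmap h.mu h2
    rwa [h.mu_A, pel_conj _ (h.V_le h3) (h.k_mem hk.1), h.mu_v h3, h.mu_k hk.1, one_mul, inv_one, mul_one] at this
  obtain ⟨j, hj, rfl⟩ := memAH.1 h4
  have h5 : _ ∈ tenA V κ := h2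
  rw [h.v_conj_k h.ev3 hj, h.vk_memA (h.v_mem (dj_ev hj h.ev3)) hk.1, h.v_memU (dj_ev hj h.ev3)] at h5
  have := allLt_iff.1 (show allLt (fun j => Nat.beq j 0 || !(inUo (dj j 3))) 16 = true by decide +kernel) j hj
  rw [h5.1] at this
  obtain rfl : j = 0 := by simpa [beq_iff] using this
  rw [ta_zero, pel_one]; simp

theorem card_B : Nat.card (cj (ν (fs 3)) (pmap κ KO)) = 322560 := by
  rw [card_cj, card_pmap_of_inj KO_24, card_KO]
  rw [eq_bot_iff]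
  exact fun x hx => h.k_inj (mem_pker.1 hx.1).1 (one_mem _) (by rw [(mem_pker.1 hx.1).2, pel_one])

theorem B_le_M : cj (ν (fs 3)) (pmap κ KO) ≤ 𝐍(V) := cj_le_of_le (fun y hy => by
  obtain ⟨k, hk, rfl⟩ := (mem_pmap_of_le KO_24).1 hy
  exact h.k_mem hk.1) (h.V_le (h.v_mem h.ev3))

section cls
variable {X : Subgroup G} (hX : X ≤ 𝐍(V)) (h2 : ∀ x ∈ X, x * x = 1)
include hX h2

theorem lies_over {g : Pm} (hg : g ∈ pmap h.mu X) : g ∈ M24 ∧ ∃ m, ev m = true ∧ ν (fs m) * pel κ g ∈ X := by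
  obtain ⟨x, hx, rfl⟩ := (mem_pmap_of_le hX).1 hg
  obtain ⟨m, hm, e⟩ := h.dec' (hX hx)
  exact ⟨h.mu_mem (hX hx), m, hm, e ▸ hx⟩

theorem inf_comm_k {g : Pm} (hg : g ∈ pmap h.mu X) : V ⊓ X ≤ 𝐂[pel κ g] := fun u hu => by
  obtain ⟨h1, m, hm, e⟩ := h.lies_over hX h2 hg
  have := mem_cent1_iff.2 (comm_of_sq h2 e hu.2)
  rwa [Subgroup.mul_mem_cancel_left _ (mem_cent1_iff.2 (h.comm_V (h.v_mem hm) hu.1)), mem_cent1_comm] at this

theorem mu_sq : ∀ g ∈ pmap h.mu X, g * g = 1 := fun g hg => by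
  obtain ⟨x, hx, rfl⟩ := (mem_pmap_of_le hX).1 hg
  rw [← pel_mul _ (hX hx) (hX hx), h2 x hx, pel_one]

theorem mu_le24 : pmap h.mu X ≤ M24 := fun g hg => (h.lies_over hX h2 hg).1

theorem cls_in (hc : Nat.card X = 1024) (hs : 𝐂(X) ≤ X) (h1 : ta 1 ∈ pmap h.mu X) (hA : pmap h.mu X ≤ AH) :
    X = tenA V κ ∨ X = cj (ν (fs 3)) (tenA V κ) := by
  have c := h.card_eq hX
  have hU : tenUU V κ ≤ X := fun u hu => hs (mem_cent_iff.2 fun x hx => by
    obtain ⟨m, hm, e⟩ := h.dec' (hX hx)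
    rw [e, mul_assoc, ← mem_cent1_iff.1 (h.U_comm hu (hA (pel_mem_pmap _ hx))), ← mul_assoc,
      h.comm_V (h.v_mem hm) hu.1, mul_assoc])
  have c1 : Nat.card ↥(V ⊓ X) ≤ 128 := (card_le_of_le' (le_inf inf_le_left (h.inf_comm_k hX h2 h1))).trans_eq (by
    rw [ta, h.card_V_cent (TA_24 (by norm_num))]; decide +kernel)
  obtain ⟨f, hf, hn⟩ : ∃ f ∈ pmap h.mu X, f ∉ zpowers (ta 1) := SetLike.not_le_iff_exists.1 fun H => by
    have := card_le_of_le' H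
    rw [Nat.card_zpowers, ta_ord (by norm_num) (by norm_num)] at this
    nlinarith
  obtain ⟨j, hj, rfl⟩ := memAH.1 (hA hf)
  have hU' : V ⊓ X ≤ tenUU V κ := fun u hu => by
    refine h.forall_V (P := fun u => u ∈ 𝐂[pel κ (ta 1)] → u ∈ 𝐂[pel κ (ta j)] → u ∈ tenUU V κ)
      (p := fun m => !(fx (nth TA 1) m) || inUo m || allLt (fun j => Nat.blt j 2 || !(fx (nth TA j) m)) 16)
      (by decide +kernel) (fun m hm hp a b => ?_) hu.1 (h.inf_comm_k hX h2 h1 hu) (h.inf_comm_k hX h2 hf hu)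
    rw [h.v_comm_ta hm (by norm_num)] at a
    rw [h.v_comm_ta hm hj] at b
    rw [h.v_memU hm]
    by_contra H
    rw [a, Bool.eq_false_iff.2 H] at hp
    have := allLt_iff.1 (by simpa using hp) j hj
    rw [b] at this
    have : j < 2 := by simpa [blt_iff] using this
    interval_cases j
    · exact hn (ta_zero ▸ one_mem _)
    · exact hn (mem_zpowers _)
  rw [le_antisymm hU' (le_inf inf_le_left hU), h.card_UU, hc] at c
  have e : pmap h.mu X = AH := eq_of_le_of_card_eq hA (by rw [card_AH]; omega)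
  have PQ : ∀ j < 16, j ≠ 0 → pel κ (ta j) ∈ X ∨ ν (fs (dj j 3)) * pel κ (ta j) ∈ X := fun j hj j0 => by
    obtain ⟨-, m, hm, e1⟩ := h.lies_over hX h2 (e.ge (ta_memA hj))
    have e2 := ((h.el_sq hm (TA_24 hj)).1 (h2 _ e1)).1
    refine h.forall_V (P := fun v => v ∈ 𝐂[pel κ (ta j)] → v * pel κ (ta j) ∈ X → _)
      (p := fun m => inUo m || allLt (fun j => !(fx (nth TA j) m) || Nat.beq j 0 || inUo (Nat.xor m (dj j 3))) 16)
      (by decide +kernel) (fun m hm hp a b => ?_) (h.v_mem hm) ((h.v_comm_ta hm hj).2 e2) e1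
    rw [Bool.or_eq_true] at hp
    rcases hp with hp | hp
    · exact Or.inl ((Subgroup.mul_mem_cancel_left _ (hU ((h.v_memU hm).2 hp))).1 b)
    · have := allLt_iff.1 hp j hj
      rw [(h.v_comm_ta hm hj).1 a, beq_false_iff.2 j0] at this
      have := hU ((h.v_memU (ev_xor hm (dj_ev hj h.ev3))).2 (by simpa using this))
      rw [h.v_xor hm (dj_ev hj h.ev3), h.comm_V (h.v_mem hm) (h.v_mem (dj_ev hj h.ev3))] at this
      have := mul_mem this b
      rw [mul_assoc, ← mul_assoc (ν (fs m)), h.v_sq hm, one_mul] at this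
      exact Or.inr this
  have nPQ : ∀ i < 16, ∀ j < 16, i ≠ 0 → j ≠ 0 → i ≠ j → pel κ (ta i) ∈ X → ν (fs (dj j 3)) * pel κ (ta j) ∈ X → False :=
    fun i hi j hj i0 j0 ij a b => by
      have h3 := ((h.vk_comm_k (h.v_mem (dj_ev hj h.ev3)) (ta_24 hj) (ta_24 hi)).1 (mem_cent1_iff.2 (comm_of_sq h2 b a))).1
      rw [h.v_comm_ta (dj_ev hj h.ev3) hi] at h3
      have := allLt_iff.1 (allLt_iff.1 (show allLt (fun i => allLt (fun j => Nat.beq i 0 || Nat.beq j 0 || Nat.beq i j ||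
        !(fx (nth TA i) (dj j 3))) 16) 16 = true by decide +kernel) i hi) j hj
      rw [h3] at this
      simp [i0, j0, ij] at this
  rcases PQ 1 (by norm_num) (by norm_num) with H | H
  · refine Or.inl (eq_of_le_of_card_eq (fun x hx => ?_) (by rw [h.card_A, hc])).symm
    obtain ⟨u, hu, f, hf, rfl⟩ := h.memA.1 hx
    obtain ⟨j, hj, rfl⟩ := memAH.1 hf
    refine mul_mem (hU hu) ?_
    rcases eq_or_ne j 0 with rfl | j0
    · rw [ta_zero, pel_one]; exact one_mem _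
    rcases eq_or_ne 1 j with rfl | j1
    · exact H
    exact (PQ j hj j0).resolve_right (nPQ 1 (by norm_num) j hj (by norm_num) j0 j1 H)
  · refine Or.inr (eq_of_le_of_card_eq (cj_le_iff'.2 fun x hx => ?_) (by rw [card_cj, h.card_A, hc])).symm
    obtain ⟨u, hu, f, hf, rfl⟩ := h.memA.1 hx
    obtain ⟨j, hj, rfl⟩ := memAH.1 hf
    rw [← conj_mul, h.comm_V (h.v_mem h.ev3) hu.1, mul_inv_cancel_right]
    refine mul_mem (hU hu) ?_
    rcases eq_or_ne j 0 with rfl | j0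
    · rw [ta_zero, pel_one]; simp
    rw [h.v_conj_k h.ev3 hj]
    rcases eq_or_ne j 1 with rfl | j1
    · exact H
    exact (PQ j hj j0).resolve_left fun a => nPQ j hj 1 (by norm_num) j0 (by norm_num) j1 a H

theorem cls_out (hc : Nat.card X = 1024) (h1 : ta 1 ∈ pmap h.mu X) (hb : Nat.card (pmap h.mu X) ≤ 32) :
    pmap h.mu X ≤ AH := by
  by_contra hA
  obtain ⟨b, hb1, hb2⟩ := SetLike.not_le_iff_exists.1 hA
  have c := h.card_eq hX
  have sq := h.mu_sq hX h2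
  have l24 := h.mu_le24 hX h2
  have c1 := card_mul_card_le (A := V ⊓ X) (B := tenUU V κ) (M := V ⊓ 𝐂[pel κ (ta 1)])
    (le_inf inf_le_left (h.inf_comm_k hX h2 h1)) (inf_le_inf_left _ inf_le_left)
  rw [h.card_UU, ta, h.card_V_cent (TA_24 (by norm_num)), show countLt _ 4096 = 128 by decide +kernel] at c1
  have mem : ∀ g ∈ M24, ∀ i < 64, ν (fs (nth tenU i)) ∈ 𝐂[pel κ g] ↔ fx (code g) (nth tenU i) = true :=
    fun g hg i hi => h.v_comm_k (tenU_ev hi) hg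
  have key : ∀ g ∈ pmap h.mu X, g ∉ AH → V ⊓ X ⊓ tenUU V κ = tenUU V κ ⊓ 𝐂[pel κ g] := fun g hg hn =>
    eq_of_le_of_card_le (le_inf inf_le_right (inf_le_left.trans (h.inf_comm_k hX h2 hg))) (by
      rw [h.card_U_inf (mem g (l24 hg)), (ten_key (l24 hg) (comm_of_sq sq hg h1) (sq g hg) hn).1]
      nlinarith)
  have c2 := le_two_mul (A := AH) hb1 fun g hg hn => ten_same (l24 hg) (comm_of_sq sq hg h1) (sq g hg) hn (l24 hb1)
    (comm_of_sq sq hb1 h1) (sq b hb1) hb2 fun i hi => by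
      have hu := h.famU.mem i hi rfl
      rw [Bool.eq_iff_iff, ← mem g (l24 hg) i hi, ← mem b (l24 hb1) i hi]
      exact ⟨fun a => ((key b hb1 hb2).le ((key g hg hn).ge ⟨hu, a⟩)).2,
        fun a => ((key g hg hn).le ((key b hb1 hb2).ge ⟨hu, a⟩)).2⟩
  rw [key b hb1 hb2, h.card_U_inf (mem b (l24 hb1)), (ten_key (l24 hb1) (comm_of_sq sq hb1 h1) (sq b hb1) hb2).1] at c1
  have e : AH ⊓ pmap h.mu X = AH := eq_of_le_of_card_le inf_le_left (by rw [card_AH]; nlinarith)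
  exact (ten_key (l24 hb1) (comm_of_sq sq hb1 h1) (sq b hb1) hb2).2.2 fun a ha => comm_of_sq sq hb1 (e.ge ha).2

theorem exists_2A (hc : Nat.card X = 1024) (hs : 𝐂(X) ≤ X) : ∃ g ∈ pmap h.mu X, g ≠ 1 ∧ (fixS g).card ≠ 0 := by
  by_contra H
  push Not at H
  have c := h.card_eq hX
  have d : Nat.card (pmap h.mu X) ∣ 8 := Nat.dvd_gcd (card_dvd24 H) (Dvd.intro_left _ (c.symm.trans hc))
  have d' := Nat.le_of_dvd (by norm_num) d
  by_cases hb : pmap h.mu X = ⊥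
  · rw [pmap_eq_bot_iff hX, h.ker_mu] at hb
    have := card_le_of_le' ((h.todd.le_cent.trans (cent_mono hb)).trans hs)
    rw [h.card_V] at this; omega
  obtain ⟨g, hg, g1⟩ := exists_ne_one_mem' hb
  have g24 := h.mu_le24 hX h2 hg
  obtain ⟨k, hk, e⟩ := class_2B g24 (orderOf_eq_prime (by rw [pow_two, h.mu_sq hX h2 g hg]) g1) (H g hg g1)
  have := card_le_of_le' (le_inf (inf_le_left (a := V) (b := X)) (h.inf_comm_k hX h2 hg))
  rw [← card_cj (pel κ k) (V ⊓ 𝐂[_]), cj_inf, cj_eq_of_mem_normalizer (h.k_mem hk), cj_centralizer_singleton,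
    ← pel_conj _ hk g24, e, h.card_V_cent r2B_in, show countLt _ 4096 = 64 by decide +kernel] at this
  nlinarith

theorem cls32 (hc : Nat.card X = 1024) (hs : 𝐂(X) ≤ X) (hb : Nat.card (pmap h.mu X) ≤ 32) :
    ∃ n ∈ 𝐍(V), cj n X = tenA V κ := by
  obtain ⟨g, hg, g1, gf⟩ := h.exists_2A hX h2 hc hs
  obtain ⟨k, hk, e⟩ := conj_ta1 (h.mu_le24 hX h2 hg) (h.mu_sq hX h2 g hg) g1 gf
  have kM := h.k_mem hk
  have a1 := cj_le_of_le hX kM
  have a2 : ∀ x ∈ cj (pel κ k) X, x * x = 1 := fun x hx => by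
    obtain ⟨y, hy, rfl⟩ := mem_cj'.1 hx
    rw [conj_mul, h2 y hy]; simp
  have a3 : ta 1 ∈ pmap h.mu (cj (pel κ k) X) := by rw [pmap_cj _ kM, h.mu_k hk, ← e]; exact mem_cj'.2 ⟨g, hg, rfl⟩
  have a4 : Nat.card (cj (pel κ k) X) = 1024 := by rwa [card_cj]
  rcases h.cls_in a1 a2 a4 (by rw [← cj_centralizer]; exact cj_mono _ hs) a3
    (h.cls_out a1 a2 a4 a3 (by rwa [pmap_cj _ kM, card_cj])) with H | H
  · exact ⟨_, kM, H⟩
  · exact ⟨(ν (fs 3))⁻¹ * pel κ k, mul_mem (inv_mem (h.V_le (h.v_mem h.ev3))) kM, by rw [cj_mul, cj_eq_iff, inv_inv, H]⟩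

end cls

end MM

end CA.J4
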