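import Cfsg.Agent.Lib.J4.Trio1

/-!
The subgroups `Z = 2^3 < W = 2^9 < V` and `L = 2^{3+12}` attached to the trio.
-/

set_option autoImplicit false
set_option linter.unusedSectionVars false
set_option linter.unusedVariables false

namespace CA.J4
open Cfsg CA.Gol CA.Ex2 CA.XS Subgroup
open scoped Pointwise commutatorElement

variable {G : Type*} [Group G] [Finite G]

theorem red_zero : red 0 = 0 := by decide +kernel

namespace MM
variable {V : Subgroup G} {ν : Finset GolayPt → G} {κ : M24 →* G} (h : MM V ν κ)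
include h

/-- the subgroup of `V` cut out by a predicate on reduced vectors -/
def subR (P : ℕ → Bool) (h0 : P 0 = true) (hx : ∀ a b, P a = true → P b = true → P (Nat.xor a b) = true) : Subgroup G where
  carrier := {x | ∃ m, ev m = true ∧ P (red m) = true ∧ ν (fs m) = x}
  mul_mem' := by
    rintro _ _ ⟨a, a1, a2, rfl⟩ ⟨b, b1, b2, rfl⟩
    exact ⟨Nat.xor a b, ev_xor a1 b1, (red_xor a b).symm ▸ hx _ _ a2 b2, h.v_xor a1 b1⟩
  one_mem' := ⟨0, ev_zero, red_zero.symm ▸ h0, h.v_zero⟩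
  inv_mem' := by
    rintro _ ⟨a, a1, a2, rfl⟩
    exact ⟨a, a1, a2, (h.v_inv (h.v_mem a1)).symm⟩

variable {P : ℕ → Bool} {h0 : P 0 = true} {hx : ∀ a b, P a = true → P b = true → P (Nat.xor a b) = true}

theorem subR_le : h.subR P h0 hx ≤ V := fun _ ⟨_, a, _, e⟩ => e ▸ h.v_mem a

theorem mem_subR {m : ℕ} (hm : ev m = true) : ν (fs m) ∈ h.subR P h0 hx ↔ P (red m) = true :=
  ⟨fun ⟨a, a1, a2, e⟩ => eqv_iff_red.1 ((h.v_eq_iff a1 hm).1 e) ▸ a2, fun a => ⟨m, hm, a, rfl⟩⟩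

theorem card_subR : Nat.card (h.subR P h0 hx) = countLt (fun j => ev (hi j) && P (red (hi j))) 4096 := by
  rw [← h.card_V_inf (p := fun m => P (red m)) fun m hm => h.mem_subR hm, inf_eq_right.2 h.subR_le]

theorem subR_ind {L : List ℕ} (hL : (allL L ev && allLt (fun j => !(ev (hi j)) || (!(P (red (hi j))) ||
    Nat.beq (spanRed L (red (hi j))) 0)) 4096) = true) {A : Subgroup G} (hA : ∀ w ∈ L, ν (fs w) ∈ A) :
    h.subR P h0 hx ≤ A := fun x hx' => by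
  rw [Bool.and_eq_true] at hL
  refine h.forall_V (P := fun x => x ∈ h.subR P h0 hx → x ∈ A)
    (p := fun m => !(P (red m)) || Nat.beq (spanRed L (red m)) 0) hL.2 (fun m hm hp a => ?_) (h.subR_le hx') hx'
  rw [(h.mem_subR hm).1 a] at hp
  obtain ⟨e1, e2, -⟩ := h.exists_red hm
  rw [← e2]
  exact (span_ind (P := fun m => ev m = true ∧ ν (fs m) ∈ A) (fun a b ha hb => ⟨ev_xor ha.1 hb.1, by
    rw [h.v_xor ha.1 hb.1]; exact mul_mem ha.2 hb.2⟩) ⟨ev_zero, h.v_zero ▸ one_mem A⟩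
    (fun w hw => ⟨allL_iff.1 hL.1 w hw, hA w hw⟩) (by simpa [beq_iff] using hp)).2

theorem conj_mu {n : G} (hn : n ∈ 𝐍(V)) {m : ℕ} (hm : ev m = true) :
    n * ν (fs m) * n⁻¹ = ν (fs (apM (code (pel h.mu n)) m)) := by
  rw [h.acts_mu hn _ (ev_even hm), smul_fs _ (ev_lt hm)]

theorem comm_mu {n : G} (hn : n ∈ 𝐍(V)) {m : ℕ} (hm : ev m = true) :
    n * ν (fs m) * n⁻¹ * (ν (fs m))⁻¹ = ν (fs (Nat.xor (apM (code (pel h.mu n)) m) m)) := by
  rw [h.conj_mu hn hm, h.v_inv (h.v_mem hm), h.v_xor (ev_apM _ hm) hm]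

theorem comm_subR {n : G} (hn : n ∈ 𝐍(V)) {m : ℕ} (hm : ev m = true) :
    n * ν (fs m) * n⁻¹ * (ν (fs m))⁻¹ ∈ h.subR P h0 hx ↔ P (cmv (code (pel h.mu n)) m) = true := by
  rw [h.comm_mu hn hm, h.mem_subR (ev_xor (ev_apM _ hm) hm), cmv]

theorem cent_v_iff {n : G} (hn : n ∈ 𝐍(V)) {m : ℕ} (hm : ev m = true) :
    n ∈ 𝐂[ν (fs m)] ↔ fx (code (pel h.mu n)) m = true := by
  rw [mem_cent1_iff, ← mul_inv_eq_iff_eq_mul, h.conj_mu hn hm, h.v_eq_iff (ev_apM _ hm) hm, fx]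

/-- the vectors `x` with `[n, x] ∈ B` -/
def cmSub {n : G} (hn : n ∈ 𝐍(V)) (B : Subgroup G) : Subgroup G where
  carrier := {x | x ∈ V ∧ n * x * n⁻¹ * x⁻¹ ∈ B}
  mul_mem' := fun {a b} ha hb => ⟨mul_mem ha.1 hb.1, by
    have := h.comm_V (mul_mem (h.conj_mem_V hn hb.1) (inv_mem hb.1)) (inv_mem ha.1)
    rw [show n * (a * b) * n⁻¹ * (a * b)⁻¹ = n * a * n⁻¹ * (n * b * n⁻¹ * b⁻¹ * a⁻¹) by group, this, ← mul_assoc]
    exact mul_mem ha.2 hb.2⟩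
  one_mem' := ⟨one_mem _, by simp⟩
  inv_mem' := fun {a} ha => by rw [h.v_inv ha.1]; exact ha

theorem norm_subR {L : List ℕ} (hL : (allL L ev && allLt (fun j => !(ev (hi j)) || (!(P (red (hi j))) ||
    Nat.beq (spanRed L (red (hi j))) 0)) 4096) = true) {n : G} (hn : n ∈ 𝐍(V))
    (H : allL L (fun m => P (red (apM (code (pel h.mu n)) m))) = true) : n ∈ 𝐍(h.subR P h0 hx) :=
  mem_normalizer_of_cj_le (cj_le_iff.2 (h.subR_ind hL fun w hw => by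
    have := allL_iff.1 ((Bool.and_eq_true _ _).mp hL).1 w hw
    rw [mem_cj_inv, h.conj_mu hn this, h.mem_subR (ev_apM _ this)]; exact allL_iff.1 H w hw))

end MM

theorem ZL_chk : (allL ZL ev && allLt (fun j => !(ev (hi j)) || (!(pZ (red (hi j))) ||
    Nat.beq (spanRed ZL (red (hi j))) 0)) 4096) = true := by decide +kernel
theorem Z3_chk : (allL [0xda1000, 0x56f000, 0x292000] ev && allLt (fun j => !(ev (hi j)) || (!(pZ (red (hi j))) ||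
    Nat.beq (spanRed [0xda1000, 0x56f000, 0x292000] (red (hi j))) 0)) 4096) = true := by decide +kernel
theorem WL_chk : (allL WL ev && allLt (fun j => !(ev (hi j)) || (!(pW (red (hi j))) ||
    Nat.beq (spanRed WL (red (hi j))) 0)) 4096) = true := by decide +kernel
theorem WL_ev {w : ℕ} (hw : w ∈ WL) : ev w = true := allL_iff.1 ((Bool.and_eq_true _ _).mp WL_chk).1 w hw

namespace St
variable (S : St G)

/-- the group `2^3` -/
def Z : Subgroup G := S.mm.subR pZ (by decide +kernel) pZ_xor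
/-- the group `2^9` -/
def W : Subgroup G := S.mm.subR pW (by decide +kernel) pW_xor
/-- the group `2^{3+12}` -/
def L : Subgroup G := S.W ⊔ pmap S.κ R6

theorem memZ {m : ℕ} (hm : ev m = true) : S.v m ∈ S.Z ↔ pZ (red m) = true := S.mm.mem_subR hm
theorem memW {m : ℕ} (hm : ev m = true) : S.v m ∈ S.W ↔ pW (red m) = true := S.mm.mem_subR hm
theorem memZ' {m : ℕ} (hm : (ev m && pZ (red m)) = true) : S.v m ∈ S.Z := by
  rw [Bool.and_eq_true] at hm; exact (S.memZ hm.1).2 hm.2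
theorem memW' {m : ℕ} (hm : (ev m && pW (red m)) = true) : S.v m ∈ S.W := by
  rw [Bool.and_eq_true] at hm; exact (S.memW hm.1).2 hm.2
theorem Z_le_V : S.Z ≤ S.V := S.mm.subR_le
theorem W_le_V : S.W ≤ S.V := S.mm.subR_le
theorem card_Z : Nat.card S.Z = 8 := S.mm.card_subR.trans (by decide +kernel)
theorem card_W : Nat.card S.W = 512 := S.mm.card_subR.trans (by decide +kernel)
theorem z_Z : S.z ∈ S.Z := S.z_eq ▸ S.memZ' (by decide +kernel)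
theorem z2_Z : S.v z2 ∈ S.Z := S.memZ' (by decide +kernel)
theorem z3_Z : S.v z3 ∈ S.Z := S.memZ' (by decide +kernel)

theorem v_eq {a b : ℕ} (H : (ev a && ev b && eqv a b) = true) : S.v a = S.v b := by
  simp only [Bool.and_eq_true] at H; exact (S.mm.v_eq_iff H.1.1 H.1.2).2 H.2

theorem Z_ind {A : Subgroup G} (h1 : S.z ∈ A) (h2 : S.v z2 ∈ A) (h3 : S.v z3 ∈ A) : S.Z ≤ A :=
  S.mm.subR_ind Z3_chk fun w hw => by
    simp only [List.mem_cons, List.not_mem_nil, or_false] at hw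
    rcases hw with rfl | rfl | rfl
    · rwa [S.z_eq', S.v_eq (b := 0xda1000) (by decide +kernel)] at h1
    · rwa [S.v_eq (b := 0x56f000) (by decide +kernel)] at h2
    · have := mul_mem h1 h3
      rwa [S.z_eq', S.v_mul (c := 0x292000) (by decide +kernel)] at this

theorem W_ind {A : Subgroup G} (h : ∀ w ∈ WL, S.v w ∈ A) : S.W ≤ A := S.mm.subR_ind WL_chk h

theorem Z_le_W : S.Z ≤ S.W :=
  S.Z_ind (S.z_eq ▸ S.memW' (by decide +kernel)) (S.memW' (by decide +kernel)) (S.memW' (by decide +kernel))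

theorem Z_le_E : S.Z ≤ S.E := S.Z_ind S.jh.z_mem ((S.v_mem_E z2_ev).2 (by decide +kernel))
  ((S.v_mem_E z3_ev).2 (by decide +kernel))

theorem normZ {n : G} (hn : n ∈ 𝐍(S.V)) (h : nZ (code (pel S.μ n)) = true) : n ∈ 𝐍(S.Z) := S.mm.norm_subR ZL_chk hn h
theorem normW {n : G} (hn : n ∈ 𝐍(S.V)) (h : nW (code (pel S.μ n)) = true) : n ∈ 𝐍(S.W) := S.mm.norm_subR WL_chk hn h
theorem k_normZ' {g : Pm} (hg : g ∈ M24) (h : nZ (code g) = true) : pel S.κ g ∈ 𝐍(S.Z) :=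
  S.normZ (S.mm.k_mem hg) (by rwa [S.mm.mu_k hg])
theorem k_normZ {c : ℕ} (h : (inM24 c && nZ c) = true) : S.k c ∈ 𝐍(S.Z) := by
  rw [Bool.and_eq_true] at h; exact S.k_normZ' (perm_mem_M24 h.1) (by rw [code_perm' h.1, h.2])
theorem k_normW {c : ℕ} (h : (inM24 c && nW c) = true) : S.k c ∈ 𝐍(S.W) := by
  rw [Bool.and_eq_true] at h
  exact S.normW (S.k_mem h.1) (by rw [S.mm.mu_k (perm_mem_M24 h.1), code_perm' h.1, h.2])

theorem centZ_iff {n : G} (hn : n ∈ 𝐍(S.V)) : n ∈ 𝐂(S.Z) ↔ pel S.μ n ∈ C3 := by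
  rw [memC3, fx3, Bool.and_eq_true, Bool.and_eq_true, ← S.mm.cent_v_iff hn T0_ev, ← S.mm.cent_v_iff hn z2_ev,
    ← S.mm.cent_v_iff hn z3_ev, ← S.z_eq]
  refine ⟨fun h => ⟨S.mm.mu_mem hn, ⟨cent_le_cent1 S.z_Z h, cent_le_cent1 S.z2_Z h⟩, cent_le_cent1 S.z3_Z h⟩, fun h => ?_⟩
  rw [← zpowers_le, cents_comm, cent_zpowers]
  exact S.Z_ind (mem_cent1_comm.1 h.2.1.1) (mem_cent1_comm.1 h.2.1.2) (mem_cent1_comm.1 h.2.2)

theorem V_cent_Z : S.V ≤ 𝐂(S.Z) := fun v hv => mem_cent_iff.2 fun z hz => S.mm.comm_V (S.Z_le_V hz) hv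

theorem comm_W {n : G} (hn : n ∈ 𝐍(S.V)) (hr : pel S.μ n ∈ R6) {w : G} (hw : w ∈ S.W) : n * w * n⁻¹ * w⁻¹ ∈ S.Z :=
  (S.W_ind (A := S.mm.cmSub hn S.Z) (fun w hw => ⟨S.mm.v_mem (WL_ev hw),
    (S.mm.comm_subR hn (WL_ev hw)).2 ((R6_spec hr).2.2.1 w hw)⟩) hw).2

theorem normW_R {n : G} (hn : n ∈ 𝐍(S.V)) (hr : pel S.μ n ∈ R6) : n ∈ 𝐍(S.W) :=
  mem_normalizer_of_cj_le (cj_le_iff'.2 fun w hw => by
    simpa using mul_mem (S.Z_le_W (S.comm_W hn hr hw)) hw)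

theorem mem_kap {B : Subgroup Pm} (hB : B ≤ M24) {x : G} : x ∈ pmap S.κ B ↔ ∃ g ∈ B, pel S.κ g = x := mem_pmap_of_le hB

theorem memL {x : G} : x ∈ S.L ↔ ∃ w ∈ S.W, ∃ g ∈ R6, w * pel S.κ g = x := by
  rw [L, mem_sup_of_norm_right fun y hy => by
    obtain ⟨g, hg, rfl⟩ := (S.mem_kap R6_24).1 hy
    exact S.normW_R (S.mm.k_mem (R6_24 hg)) (by rwa [S.mm.mu_k (R6_24 hg)])]
  exact ⟨fun ⟨w, hw, y, hy, e⟩ => by
    obtain ⟨g, hg, rfl⟩ := (S.mem_kap R6_24).1 hy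
    exact ⟨w, hw, g, hg, e⟩, fun ⟨w, hw, g, hg, e⟩ => ⟨w, hw, _, pel_mem_pmap _ hg, e⟩⟩

theorem W_le_L : S.W ≤ S.L := le_sup_left
theorem k_L {g : Pm} (hg : g ∈ R6) : pel S.κ g ∈ S.L := mem_sup_right (pel_mem_pmap _ hg)

theorem vk_L {v : G} (hv : v ∈ S.V) {g : Pm} (hg : g ∈ M24) : v * pel S.κ g ∈ S.L ↔ v ∈ S.W ∧ g ∈ R6 := by
  refine ⟨fun h => ?_, fun h => mul_mem (S.W_le_L h.1) (S.k_L h.2)⟩
  obtain ⟨w, hw, k, hk, e⟩ := S.memL.1 h
  obtain ⟨rfl, rfl⟩ := (S.mm.vk_eq_iff (S.W_le_V hw) hv (R6_24 hk) hg).1 e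
  exact ⟨hw, hk⟩

theorem L_le_M : S.L ≤ 𝐍(S.V) := fun x hx => by
  obtain ⟨w, hw, k, hk, rfl⟩ := S.memL.1 hx
  exact mul_mem (S.mm.V_le (S.W_le_V hw)) (S.mm.k_mem (R6_24 hk))

theorem mu_L {x : G} (hx : x ∈ S.L) : pel S.μ x ∈ R6 := by
  obtain ⟨w, hw, k, hk, rfl⟩ := S.memL.1 hx
  rwa [S.mm.mu_vk (S.W_le_V hw) (R6_24 hk)]

theorem V_inf_L : S.V ⊓ S.L = S.W := le_antisymm (fun v hv => by
  have := (S.vk_L hv.1 (one_mem _)).1 (by simpa using hv.2)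
  exact this.1) (le_inf S.W_le_V S.W_le_L)

theorem card_L : Nat.card S.L = 32768 := by
  rw [S.mm.card_eq S.L_le_M, S.V_inf_L, S.card_W, S.mm.pmap_eq S.L_le_M (fun n hn => S.mu_L hn)
    fun g hg => ⟨_, S.k_L hg, S.mm.mu_k (R6_24 hg)⟩, card_R6]

theorem L_cent_Z : S.L ≤ 𝐂(S.Z) := fun x hx => (S.centZ_iff (S.L_le_M hx)).2 (S.mu_L hx).1
theorem Z_le_L : S.Z ≤ S.L := S.Z_le_W.trans S.W_le_L
theorem L_le_N : S.L ≤ 𝐍(S.Z) := S.L_cent_Z.trans (centralizer_le_normalizer _)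

theorem sq_L {x : G} (hx : x ∈ S.L) : x ^ 2 ∈ S.Z := by
  obtain ⟨w, hw, k, hk, rfl⟩ := S.memL.1 hx
  have h1 := S.comm_W (S.mm.k_mem (R6_24 hk)) (by rwa [S.mm.mu_k (R6_24 hk)]) hw
  have h2 : pel S.κ k * pel S.κ k = 1 := by rw [← pel_mul _ (R6_24 hk) (R6_24 hk), (R6_spec hk).1, pel_one]
  rw [inv_eq_of_mul_eq_one_right h2, S.mm.v_inv (S.W_le_V hw)] at h1
  have := conj_mem_of_mem_normalizer (S.L_le_N (S.W_le_L hw)) h1
  rwa [show w * (pel S.κ k * w * pel S.κ k * w) * w⁻¹ = (w * pel S.κ k) ^ 2 by rw [pow_two]; group] at this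

theorem der_L : ⁅S.L, S.L⁆ ≤ S.Z := comm_le_iff.2 fun a ha b hb => by
  have h1 := mul_mem (mul_mem (S.sq_L ha) (S.sq_L (mul_mem (inv_mem ha) hb))) (S.sq_L (inv_mem hb))
  rwa [show a ^ 2 * (a⁻¹ * b) ^ 2 * b⁻¹ ^ 2 = a * b * a⁻¹ * b⁻¹ by simp only [pow_two]; group] at h1

theorem center_L : 𝐙(S.L) = S.Z := by
  refine le_antisymm (fun x hx => ?_) (le_inf S.Z_le_L (cents_symm S.L_cent_Z))
  obtain ⟨w, hw, k, hk, rfl⟩ := S.memL.1 hx.1
  have k1 : k = 1 := ((R6_spec hk).2.1.resolve_right fun ⟨_, u, hu, e⟩ => by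
    have := (S.mm.vk_comm_v (S.W_le_V hw) (R6_24 hk) (WL_ev hu)).1 (cent_le_cent1 (S.W_le_L
      ((S.memW (WL_ev hu)).2 (allL_iff.1 (show allL WL (fun w => pW (red w)) = true by decide +kernel) u hu))) hx.2)
    rw [fx, this] at e; exact absurd e (by simp))
  subst k1
  rw [pel_one, mul_one] at hx ⊢
  have c : ∀ r, (Gol.memL r RL) = true → w ∈ 𝐂[S.k r] := fun r hr => cent_le_cent1 (S.k_L (R6_mem hr).2) hx.2
  revert c
  refine S.mm.forall_V (P := fun w => (∀ r, (Gol.memL r RL) = true → w ∈ 𝐂[S.k r]) → w ∈ S.Z) (p := fun m => pZ (red m) ||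
    anyL [0x1274ac8ad78e0c5a92831e3670457, 0x19a883cb390ea952d9425a2770457, 0x1e126d0b540e6a4b16fb122670457,
      0x34ca3b0a448ed2451eb9d63070457, 0x9269aac6d5160893e8c31dd6882e2, 0x19268abc2d9020952d9431c56b962e]
      fun r => Gol.memL r RL && !(fx r m)) (by decide +kernel) (fun m hm hp c => ?_) (S.W_le_V hw)
  rw [Bool.or_eq_true, anyL_iff] at hp
  refine (S.memZ hm).2 (hp.resolve_right fun ⟨r, _, e⟩ => ?_)
  rw [Bool.and_eq_true] at e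
  have := (S.mm.v_comm_k hm (perm_mem_M24 (R6_mem e.1).1)).1 (c r e.1)
  rw [code_perm' (R6_mem e.1).1] at this
  rw [fx, this] at e; exact absurd e.2 (by simp)

theorem der_L_eq : ⁅S.L, S.L⁆ = S.Z := by
  have key : ∀ w r m, (ev w && pW (red w) && Gol.memL r RL && ev m && eqv (Nat.xor (apM r w) w) m) = true →
      S.v m ∈ ⁅S.L, S.L⁆ := fun w r m H => by
    simp only [Bool.and_eq_true] at H
    obtain ⟨⟨⟨⟨h1, h2⟩, h3⟩, h4⟩, h5⟩ := H
    have hr := R6_mem h3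
    have := CA.comm_mem (S.k_L hr.2) (S.W_le_L ((S.memW h1).2 h2))
    rwa [S.mm.comm_mu (S.k_mem hr.1) h1, S.mm.mu_k (perm_mem_M24 hr.1), code_perm' hr.1,
      (S.mm.v_eq_iff (ev_xor (by rw [← code_perm' hr.1]; exact ev_apM _ h1) h1) h4).2 h5] at this
  exact le_antisymm S.der_L (S.Z_ind (S.z_eq ▸ key 0x402000 0x1274ac8ad78e0c5a92831e3670457 T0 (by decide +kernel))
    (key 0x101000 0x19a883cb390ea952d9425a2770457 z2 (by decide +kernel))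
    (key 0x101000 0x4c8bb24a660cefa224a6c23570457 z3 (by decide +kernel)))

theorem special_L : Special 2 S.L := by
  have hp : IsPGroup 2 S.L := IsPGroup.of_card (n := 15) S.card_L
  refine ⟨hp, ?_, S.der_L_eq.trans S.center_L.symm⟩
  rw [S.center_L]
  exact le_antisymm (phi_le_of_der_of_pow S.der_L fun x hx => S.sq_L hx) (S.der_L_eq ▸ der_le_phi hp)

/-- the element of order seven -/
noncomputable abbrev σ : G := S.k sgC

theorem sg_ord : orderOf S.σ = 7 := S.k_ord (by norm_num) (by decide +kernel)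
theorem sg_N : S.σ ∈ 𝐍(S.Z) := S.k_normZ (by decide +kernel)

theorem sg_normL : S.σ ∈ 𝐍(S.L) := mem_norm_of_gens
  (fun a ha => mem_sup_left (conj_mem_of_mem_normalizer (S.k_normW (by decide +kernel)) ha)) fun a ha => by
    obtain ⟨g, hg, rfl⟩ := (S.mem_kap R6_24).1 ha
    rw [← pel_conj _ (perm_mem_M24 sgC_in) (R6_24 hg)]
    exact S.k_L (R6_spec hg).2.2.2.1

theorem cent_sg {x : G} (hx : x ∈ S.L) (h : x ∈ 𝐂[S.σ]) : x = 1 := by
  obtain ⟨w, hw, k, hk, rfl⟩ := S.memL.1 hx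
  rw [S.mm.vk_comm_k (S.W_le_V hw) (R6_24 hk) (perm_mem_M24 sgC_in)] at h
  rw [(R6_spec hk).2.1.resolve_right fun a => a.1 h.2, pel_one, mul_one]
  have h1 := h.1
  revert hw h1
  refine fun hw => S.mm.forall_V (P := fun w => w ∈ S.W → w ∈ 𝐂[S.σ] → w = 1)
    (p := fun m => isCode m || !(pW (red m)) || !(fx sgC m)) (by decide +kernel) (fun m hm hp a b => ?_) (S.W_le_V hw) hw
  rw [S.mm.v_comm_k hm (perm_mem_M24 sgC_in), code_perm' sgC_in] at b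
  rw [(S.memW hm).1 a, fx, b] at hp
  exact (S.mm.v_eq_one hm).2 (by simpa using hp)

theorem exists_comm_sg {x : G} (hx : x ∈ S.L) : ∃ y ∈ S.L, y * S.σ * y⁻¹ * S.σ⁻¹ = x := by
  have hf : Function.Injective fun y : S.L => (⟨y * S.σ * y⁻¹ * S.σ⁻¹, by
      rw [show (y : G) * S.σ * y⁻¹ * S.σ⁻¹ = y * (S.σ * y⁻¹ * S.σ⁻¹) by simp [mul_assoc]]
      exact mul_mem y.2 (conj_mem_of_mem_normalizer S.sg_normL (inv_mem y.2))⟩ : S.L) := fun a b e => by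
    have e' : (a : G) * S.σ * (a : G)⁻¹ * S.σ⁻¹ = b * S.σ * (b : G)⁻¹ * S.σ⁻¹ := by simpa using congrArg Subtype.val e
    have := S.cent_sg (mul_mem (inv_mem b.2) a.2) (mem_cent1_iff.2 (by
      rw [mul_left_inj] at e'
      rw [show (b : G)⁻¹ * a * S.σ = (b : G)⁻¹ * (a * S.σ * (a : G)⁻¹) * a by group, e']; group))
    exact Subtype.ext (inv_mul_eq_one.1 this).symm
  obtain ⟨y, e⟩ := Finite.surjective_of_injective hf ⟨x, hx⟩
  exact ⟨y, y.2, by simpa using congrArg Subtype.val e⟩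

theorem V_cases {v : G} (hv : v ∈ S.V) : v ∈ S.W ∨ v * S.v d1 ∈ S.W ∨ v * S.v d2 ∈ S.W ∨ v * S.v d3 ∈ S.W := by
  refine S.mm.forall_V (P := fun v => v ∈ S.W ∨ v * S.v d1 ∈ S.W ∨ v * S.v d2 ∈ S.W ∨ v * S.v d3 ∈ S.W)
    (p := fun m => pW (red m) || pW (red (Nat.xor m d1)) || pW (red (Nat.xor m d2)) || pW (red (Nat.xor m d3)))
    (by decide +kernel) (fun m hm hp => ?_) hv
  rw [← S.mm.v_xor hm d1_ev, ← S.mm.v_xor hm d2_ev, ← S.mm.v_xor hm d3_ev, S.memW hm, 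
    S.memW (ev_xor hm d1_ev), S.memW (ev_xor hm d2_ev), S.memW (ev_xor hm d3_ev)]
  simpa [or_assoc] using hp

/-- uniqueness of `V` in `M` -/
theorem eq_V_of_le {X : Subgroup G} (hX : X ≤ 𝐍(S.V)) (h2 : ∀ x ∈ X, x * x = 1) (hc : 2048 ≤ Nat.card X) : X = S.V := by
  obtain ⟨y, m, τ, d⟩ := JH.exists_TD S.jh
  have v2 : ∀ x ∈ S.V, x * x = 1 := fun x hx => S.mm.todd.mul_self hx
  exact JH.uniq S.jh d (P := S.V ⊔ X) ((piGrp_of_sq v2).sup (piGrp_of_sq h2) (Or.inl hX)) le_sup_right le_sup_left h2 v2 hc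
    S.mm.card_V.ge

theorem mem_M_of_cj_le {g : G} (h : cj g S.V ≤ 𝐍(S.V)) : g ∈ 𝐍(S.V) :=
  mem_normalizer_of_cj_le (S.eq_V_of_le h (sq_cj (fun x hx => S.mm.todd.mul_self hx) g)
    (by rw [card_cj, S.mm.card_V])).le

end St

end CA.J4
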