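import Cfsg.Agent.Lib.J4.Trio2
import Cfsg.Agent.Lib.Extra2.Affine
import Cfsg.Agent.Lib.Classical.Linear

/-!
The trio local subgroup `N(Z) = 2^{3+12}.(S5 × L3(2))`.
-/

set_option autoImplicit false
set_option linter.unusedSectionVars false
set_option linter.unusedVariables false

namespace CA.J4
open Cfsg CA.Gol CA.Ex2 CA.XS Subgroup
open scoped Pointwise commutatorElement

/-- the group `L3(2)` -/
abbrev L3 : Type := Matrix.SpecialLinearGroup (Fin 3) (ZMod 2)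
/-- the group `S5` -/
abbrev S5 : Type := Equiv.Perm (Fin 5)

theorem card_L3 : Nat.card L3 = 168 := by
  simpa [Fin.prod_univ_three] using CA.Lin.card_SL_mul (F := ZMod 2) 3 (by norm_num)
theorem card_S5 : Nat.card S5 = 120 := by rw [Nat.card_perm, Nat.card_fin]; rfl
theorem card_S5L3 : Nat.card (S5 × L3) = 20160 := by rw [Nat.card_prod, card_S5, card_L3]

theorem nonempty_GL3 : Nonempty (Matrix.GeneralLinearGroup (Fin 3) (ZMod 2) ≃* L3) :=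
  ⟨(MulEquiv.ofBijective (Matrix.SpecialLinearGroup.toGL : L3 →* _) ⟨Matrix.SpecialLinearGroup.toGL_injective, fun g => by
    rw [← MonoidHom.mem_range, CA.Lin.range_toGL_eq_ker_det, MonoidHom.mem_ker]
    exact Subsingleton.elim _ _⟩).symm⟩

/-- lower bound for a Sylow normalizer -/
theorem card_norm_ge {Γ : Type*} [Group Γ] [Finite Γ] {q a b n : ℕ} (hq : q.Prime) {Q C : Subgroup Γ}
    (hQ : Nat.card Q = q) (hC : C ≤ 𝐂(Q)) (c1 : Nat.card C = b) (cop : q.Coprime b) (c2 : Nat.card Γ = q * b * a)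
    (ha : ¬ q ∣ b * a) (H : ∀ m, m ∣ a → m ≡ 1 [MOD q] → m ≤ n) : Nat.card Γ ≤ Nat.card 𝐍(Q) * n := by
  have : Fact q.Prime := ⟨hq⟩
  obtain ⟨P, hP⟩ := (sylowIn_of_card (k := 1) hq (le_top (a := Q)) (by rw [hQ, pow_one]) (by
    rw [card_top, c2, mul_assoc, pow_succ, pow_one]
    exact fun h => ha (Nat.dvd_of_mul_dvd_mul_left hq.pos h))).exists_sylow_top
  have h1 := card_sylow_modEq_one q Γ
  rw [P.card_eq_index_normalizer, show (P : Set Γ) = (Q : Set Γ) from congrArg SetLike.coe hP] at h1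
  have h2 : q * b ∣ Nat.card 𝐍(Q) := cop.mul_dvd_of_dvd_of_dvd (hQ ▸ card_dvd_of_le le_normalizer)
    (c1 ▸ card_dvd_of_le (hC.trans (centralizer_le_normalizer _)))
  obtain ⟨c, hc⟩ := h2
  have h3 := card_mul_index 𝐍(Q)
  have hb : 0 < b := c1 ▸ Nat.card_pos
  have h4 : c * 𝐍(Q).index = a := Nat.eq_of_mul_eq_mul_left (Nat.mul_pos hq.pos hb) (by rw [← mul_assoc, ← hc, h3, c2])
  rw [← h3]
  exact Nat.mul_le_mul_left _ (H _ (Dvd.intro_left _ h4) h1)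

theorem eq_one_of_coprime {Γ : Type*} [Group Γ] [Finite Γ] {x : Γ} {q : ℕ} (h : x ^ q = 1) (hc : q.Coprime (Nat.card Γ)) :
    x = 1 := orderOf_eq_one_iff.1 (Nat.eq_one_of_dvd_coprimes hc (orderOf_dvd_of_pow_eq_one h) (orderOf_dvd_natCard x))

theorem pow_eq_one_of_card {Γ : Type*} [Group Γ] {Q : Subgroup Γ} {x : Γ} {n : ℕ} (hx : x ∈ Q) (h : Nat.card Q = n) :
    x ^ n = 1 := h ▸ congrArg Subtype.val (pow_card_eq_one' (x := (⟨x, hx⟩ : Q)))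

theorem norm7_ge {Q : Subgroup (S5 × L3)} (hQ : Nat.card Q = 7) : 2520 ≤ Nat.card 𝐍(Q) := by
  have := card_norm_ge (q := 7) (a := 24) (b := 120) (n := 8) (by norm_num) hQ (C := (MonoidHom.inl S5 L3).range)
    (fun c ⟨a, e⟩ => mem_cent_iff.2 fun x hx => by
      have h1 : x.1 = 1 := eq_one_of_coprime (q := 7) (by
        rw [← Prod.pow_fst, pow_eq_one_of_card hx hQ, Prod.fst_one]) (by rw [card_S5]; norm_num)
      rw [← e]; ext <;> simp [h1])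
    (card_S5 ▸ Nat.card_congr (MonoidHom.ofInjective (f := MonoidHom.inl S5 L3) fun a b e => congrArg Prod.fst e).symm.toEquiv)
    (by norm_num)
    card_S5L3 (by norm_num) (fun m h1 h2 => by
      have := Nat.le_of_dvd (by norm_num) h1
      interval_cases m <;> simp_all [Nat.ModEq])
  rw [card_S5L3] at this; omega

theorem norm5_ge {Q : Subgroup (S5 × L3)} (hQ : Nat.card Q = 5) : 3360 ≤ Nat.card 𝐍(Q) := by
  have := card_norm_ge (q := 5) (a := 24) (b := 168) (n := 6) (by norm_num) hQ (C := (MonoidHom.inr S5 L3).range)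
    (fun c ⟨a, e⟩ => mem_cent_iff.2 fun x hx => by
      have h1 : x.2 = 1 := eq_one_of_coprime (q := 5) (by
        rw [← Prod.pow_snd, pow_eq_one_of_card hx hQ, Prod.snd_one]) (by rw [card_L3]; norm_num)
      rw [← e]; ext <;> simp [h1])
    (card_L3 ▸ Nat.card_congr (MonoidHom.ofInjective (f := MonoidHom.inr S5 L3) fun a b e => congrArg Prod.snd e).symm.toEquiv)
    (by norm_num)
    card_S5L3 (by norm_num) (fun m h1 h2 => by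
      have := Nat.le_of_dvd (by norm_num) h1
      interval_cases m <;> simp_all [Nat.ModEq])
  rw [card_S5L3] at this; omega

def inY2 (c : ℕ) : Bool := inM24 c && (cmC c tauC && (st c O1 && st c O2))
theorem Y2_mem {c : ℕ} (h : inY2 c = true) : perm c ∈ Y2 ∧ code (perm c) = c := by
  rw [inY2, Bool.and_eq_true] at h
  exact ⟨memY2.2 ⟨perm_mem_M24 h.1, by rw [code_perm' h.1, h.2]⟩, code_perm' h.1⟩
theorem Y2_24 : Y2 ≤ M24 := fun _ h => h.1.1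

variable {G : Type*} [Group G] [Finite G]

namespace St
variable (S : St G)

theorem z2_ne : S.v z2 ≠ S.z := by rw [S.z_eq', Ne, S.mm.v_eq_iff z2_ev T0_ev]; decide +kernel
theorem z2_conj : IsConj S.z (S.v z2) := S.conj_tetrad (by rw [card_fs]; decide +kernel)
theorem z2_one : S.v z2 ≠ 1 := by rw [Ne, S.mm.v_eq_one z2_ev]; decide +kernel
theorem card_X : Nat.card ↥(𝐂[S.z] ⊓ 𝐂[S.v z2]) = 15728640 := S.card_cent_zE (S.Z_le_E S.z2_Z) S.z2_ne S.z2_conj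
theorem p_N : S.p ∈ 𝐍(S.Z) := S.p_eq' ▸ S.k_normZ (by decide +kernel)

theorem X_le_N : 𝐂[S.z] ⊓ 𝐂[S.v z2] ≤ 𝐍(S.Z) := fun x hx => by
  have key : ∀ e ∈ S.E, ∀ y ∈ S.Z, e * y * e⁻¹ ∈ S.Z := fun e he y hy => by
    rcases S.jh.ez.conj_or he (S.Z_le_E hy) with h | h <;> rw [h]
    exacts [hy, mul_mem hy S.z_Z]
  have c2 : x * S.v z2 * x⁻¹ = S.v z2 := mul_inv_eq_iff_eq_mul.2 (mem_cent1_iff.1 hx.2)
  refine mem_normalizer_of_cj_le (cj_le_iff.2 (S.Z_ind ?_ ?_ ?_)) <;> rw [mem_cj_inv]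
  · rw [mul_inv_eq_iff_eq_mul.2 (mem_cent1_iff.1 hx.1)]; exact S.z_Z
  · rw [c2]; exact S.z2_Z
  · rw [← S.k_conj_v (g := p0C) (m := z2) (by decide +kernel), ← S.p_eq']
    by_cases h : pel S.π x ∈ Spor.M22
    · have := key _ (S.jh.conj_p22 hx.1 h) _ (conj_mem_of_mem_normalizer S.p_N S.z2_Z)
      rwa [← c2, show x * S.p * x⁻¹ * S.p⁻¹ * (S.p * (x * S.v z2 * x⁻¹) * S.p⁻¹) * (x * S.p * x⁻¹ * S.p⁻¹)⁻¹ =
        x * (S.p * S.v z2 * S.p⁻¹) * x⁻¹ by group] at this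
    · have := key _ (S.jh.conj_p_out hx.1 h) _ (conj_mem_of_mem_normalizer (inv_mem S.p_N) S.z2_Z)
      rwa [← c2, show x * S.p * x⁻¹ * S.p * (S.p⁻¹ * (x * S.v z2 * x⁻¹) * S.p⁻¹⁻¹) * (x * S.p * x⁻¹ * S.p)⁻¹ =
        x * (S.p * S.v z2 * S.p⁻¹) * x⁻¹ by group] at this

theorem kY_le : pmap S.κ Y2 ≤ 𝐍(S.Z) ⊓ 𝐍(S.V) := fun x hx => by
  obtain ⟨g, hg, rfl⟩ := (S.mem_kap Y2_24).1 hx
  exact ⟨S.k_normZ' (Y2_24 hg) (Y2_spec hg).1, S.mm.k_mem (Y2_24 hg)⟩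

theorem Z_cases {y : G} (hy : y ∈ S.Z) : ∃ r ∈ ZL, ev r = true ∧ y = S.v r := by
  obtain ⟨m, h1, h2, rfl⟩ := hy
  obtain ⟨a, b, -⟩ := S.mm.exists_red h1
  exact ⟨_, memL_iff.1 h2, a, b.symm⟩

theorem orb7 {y : G} (hy : y ∈ S.Z) (h1 : y ≠ 1) : CjIn (pmap S.κ Y2) S.z y := by
  obtain ⟨r, hr, er, rfl⟩ := S.Z_cases hy
  have := allL_iff.1 (show allL ZL (fun r => isCode r || anyL [0x2cc8bb2807608cfa4909836f50b871,
    0xbceb4228ad60ceb7a13281816089d1, 0x736683ac5560cc9a3d52812f628411, 0x2d8cb3c83363aaa4be88834441dc11,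
    0x11a696d076638f27ad4885404b84b1, 0xbb6d49adc4602a84aa4f8184728c31, 0x192b23a2e66167453d2b8582d70811] fun g =>
    inY2 g && (inM24 g && ev T0 && ev r && eqv (apM g T0) r)) = true by decide +kernel) r hr
  rw [Bool.or_eq_true, ← S.mm.v_eq_one er, anyL_iff] at this
  obtain ⟨g, -, e⟩ := this.resolve_left h1
  rw [Bool.and_eq_true] at e
  exact ⟨_, pel_mem_pmap _ (Y2_mem e.1).1, S.z_eq' ▸ S.k_conj_v e.2⟩

theorem orb6 {y : G} (hy : y ∈ S.Z) (h1 : y ≠ 1) (h2 : y ≠ S.z) : CjIn (pmap S.κ Y2 ⊓ 𝐂[S.z]) (S.v z2) y := by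
  obtain ⟨r, hr, er, rfl⟩ := S.Z_cases hy
  have := allL_iff.1 (show allL ZL (fun r => isCode r || (eqv r T0 || anyL [0x199b225007606af4a16a85853b95d1,
    0x140c93b0765149243e8b9d5cd8dc01, 0x8cdacb2ae6402b44c96f240470946e, 0x756c86a40765e6f52e548102610cb1,
    0x2cc8bb2807608cfa4909836f50b871, 0x12af32076545b25d12c99cb070ae1] fun g =>
    inY2 g && (inM24 g && eqv (apM g T0) T0) && (inM24 g && ev z2 && ev r && eqv (apM g z2) r))) = true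
    by decide +kernel) r hr
  rw [Bool.or_eq_true, Bool.or_eq_true, ← S.mm.v_eq_one er, ← S.mm.v_eq_iff er T0_ev, ← S.z_eq, anyL_iff] at this
  obtain ⟨g, -, e⟩ := (this.resolve_left h1).resolve_left h2
  rw [Bool.and_eq_true, Bool.and_eq_true, Bool.and_eq_true (inM24 g)] at e
  exact ⟨_, ⟨pel_mem_pmap _ (Y2_mem e.1.1).1, (S.k_mem_H e.1.2.1).2 e.1.2.2⟩, S.k_conj_v e.2⟩

theorem Z_conj {y : G} (hy : y ∈ S.Z) (h1 : y ≠ 1) : IsConj S.z y := (S.orb7 hy h1).isConj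

theorem card42 {Y : Subgroup G} (h1 : pmap S.κ Y2 ≤ Y) (h2 : Y ≤ 𝐍(S.Z)) :
    Nat.card Y = 42 * Nat.card ↥(Y ⊓ 𝐂[S.z] ⊓ 𝐂[S.v z2]) := by
  have c0 : (S.Z : Set G).ncard = 8 := S.card_Z
  have c1 : ((S.Z : Set G) \ {1}).ncard = 7 := by rw [Set.ncard_sdiff_singleton_of_mem S.Z.one_mem, c0]
  have c2 : (((S.Z : Set G) \ {1}) \ {S.z}).ncard = 6 := by
    rw [Set.ncard_sdiff_singleton_of_mem (show S.z ∈ (S.Z : Set G) \ {1} from ⟨S.z_Z, S.jh.ez.ne_one⟩), c1]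
  have e1 : {y | ∃ h ∈ Y, h * S.z * h⁻¹ = y} = (S.Z : Set G) \ {1} := Set.ext fun y =>
    ⟨fun ⟨h, hh, e⟩ => ⟨e ▸ conj_mem_of_mem_normalizer (h2 hh) S.z_Z, fun a => S.jh.ez.ne_one (conj_eq_one_iff.1 (e.trans a))⟩,
      fun hy => (S.orb7 hy.1 hy.2).mono h1⟩
  have e2 : {y | ∃ h ∈ Y ⊓ 𝐂[S.z], h * S.v z2 * h⁻¹ = y} = ((S.Z : Set G) \ {1}) \ {S.z} := Set.ext fun y =>
    ⟨fun ⟨h, hh, e⟩ => ⟨⟨e ▸ conj_mem_of_mem_normalizer (h2 hh.1) S.z2_Z, fun a => S.z2_one (conj_eq_one_iff.1 (e.trans a))⟩,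
      fun a => S.z2_ne (by
        have b : h * S.z * h⁻¹ = S.z := mul_inv_eq_iff_eq_mul.2 (mem_cent1_iff.1 hh.2)
        have c : h * S.v z2 * h⁻¹ = h * S.z * h⁻¹ := e.trans (a.trans b.symm)
        simpa using c)⟩, fun hy => (S.orb6 hy.1.1 hy.1.2 hy.2).mono (inf_le_inf_right _ h1)⟩
  rw [← card_class_mul Y S.z, ← card_class_mul (Y ⊓ 𝐂[S.z]) (S.v z2), e1, e2, c1, c2]; ring

theorem card_N : Nat.card 𝐍(S.Z) = 660602880 := by
  rw [S.card42 (S.kY_le.trans inf_le_left) le_rfl, inf_assoc, inf_eq_right.2 S.X_le_N, S.card_X]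

theorem card_MX : Nat.card ↥(𝐍(S.V) ⊓ (𝐂[S.z] ⊓ 𝐂[S.v z2])) = 3145728 := by
  rw [S.mm.card_eq inf_le_left, inf_eq_left.2 (le_inf S.mm.V_le (le_inf S.V_le_H fun v hv =>
    cent_le_cent1 S.z2_Z (S.V_cent_Z hv))), S.mm.card_V, S.mm.pmap_eq inf_le_left (B := S12) (fun n hn => memS12.2
      ⟨S.mm.mu_mem hn.1, by
        rw [(S.mm.cent_v_iff hn.1 T0_ev).1 (S.z_eq ▸ hn.2.1), (S.mm.cent_v_iff hn.1 z2_ev).1 hn.2.2]; rfl⟩) fun g hg => by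
      obtain ⟨h1, h2⟩ := memS12.1 hg
      rw [Bool.and_eq_true, ← S.mm.mu_k h1, ← S.mm.cent_v_iff (S.mm.k_mem h1) T0_ev,
        ← S.mm.cent_v_iff (S.mm.k_mem h1) z2_ev, ← S.z_eq] at h2
      exact ⟨_, ⟨S.mm.k_mem h1, h2⟩, S.mm.mu_k h1⟩, card_S12]

theorem card_NM : Nat.card ↥(𝐍(S.Z) ⊓ 𝐍(S.V)) = 132120576 := by
  rw [S.card42 S.kY_le inf_le_left, inf_assoc, inf_comm 𝐍(S.Z), inf_assoc, inf_eq_right.2 S.X_le_N, S.card_MX]

theorem relIndex_NM : (𝐍(S.Z) ⊓ 𝐍(S.V)).relIndex 𝐍(S.Z) = 5 := by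
  have := card_mul_relIndex (inf_le_left (a := 𝐍(S.Z)) (b := 𝐍(S.V)))
  rw [S.card_NM, S.card_N] at this; omega

theorem not_N_le_M : ¬ 𝐍(S.Z) ≤ 𝐍(S.V) := fun h => by
  have := S.card_NM
  rw [inf_eq_left.2 h, S.card_N] at this; omega

theorem Z_elem : IsElementaryAbelian 2 S.Z :=
  ⟨abelian_iff.2 (S.Z_le_V.trans S.V_cent_Z), fun a ha => by rw [pow_two]; exact S.mm.todd.mul_self (S.Z_le_V ha)⟩

theorem exists_psi : ∃ ψ : ↥𝐍(S.Z) →* L3, pker ψ = 𝐂(S.Z) := by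
  obtain ⟨e1⟩ := nonempty_mulAut_equiv_GL (n := 3) S.Z_elem S.card_Z
  obtain ⟨e2⟩ := nonempty_GL3
  refine ⟨(e1.trans e2).toMonoidHom.comp S.Z.normalizerMonoidHom, ?_⟩
  rw [← pker_normalizerMonoidHom]
  ext x
  simp only [mem_pker]
  refine and_congr_right fun hx => ?_
  rw [pel_of_mem _ hx, pel_of_mem _ hx]; simp

theorem tau_N : S.k tauC ∈ 𝐍(S.Z) := S.k_normZ (by decide +kernel)

/-- a normal subgroup of `N(Z)` between `L` and `M ∩ C(Z)` is `L` -/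
theorem le_L {K : Subgroup G} (hK : K ⊴ 𝐍(S.Z)) (h1 : S.L ≤ K) (h2 : K ≤ 𝐍(S.V)) (h3 : K ≤ 𝐂(S.Z)) : K ≤ S.L := by
  have hW := S.W_le_L.trans h1
  have nV : ¬ S.V ≤ K := fun h => S.not_N_le_M fun n hn =>
    S.mem_M_of_cj_le (((cj_mono n h).trans (cj_eq_of_mem_normalizer (hK.norm hn)).le).trans h2)
  have t := hK.norm S.tau_N
  have t12 := S.k_conj_v (g := tauC) (m := d1) (m' := d2) (by decide +kernel)
  have t23 := S.k_conj_v (g := tauC) (m := d2) (m' := d3) (by decide +kernel)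
  have t31 := S.k_conj_v (g := tauC) (m := d3) (m' := d1) (by decide +kernel)
  have n1 : S.v d1 ∉ K := fun a1 => nV fun v hv => by
    have a2 := t12 ▸ conj_mem_of_mem_normalizer t a1
    have a3 := t23 ▸ conj_mem_of_mem_normalizer t a2
    rcases S.V_cases hv with h | h | h | h
    exacts [hW h, (mul_mem_cancel_right a1).1 (hW h), (mul_mem_cancel_right a2).1 (hW h),
      (mul_mem_cancel_right a3).1 (hW h)]
  have n3 : S.v d3 ∉ K := fun a => n1 (t31 ▸ conj_mem_of_mem_normalizer t a)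
  have n2 : S.v d2 ∉ K := fun a => n3 (t23 ▸ conj_mem_of_mem_normalizer t a)
  have VK : ∀ v ∈ S.V, v ∈ K → v ∈ S.W := fun v hv a => by
    rcases S.V_cases hv with h | h | h | h
    exacts [h, absurd ((mul_mem_cancel_left a).1 (hW h)) n1, absurd ((mul_mem_cancel_left a).1 (hW h)) n2,
      absurd ((mul_mem_cancel_left a).1 (hW h)) n3]
  intro x hx
  have xM := h2 hx
  have cm : ∀ d, ev d = true → pW (cmv (code (pel S.μ x)) d) = true := fun d hd => by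
    have hv := S.mm.v_mem hd
    refine (S.mm.comm_subR xM hd).1 (VK _ (mul_mem (S.mm.conj_mem_V xM hv) (inv_mem hv)) ?_)
    rw [show x * S.ν (fs d) * x⁻¹ * (S.ν (fs d))⁻¹ = x * (S.ν (fs d) * x⁻¹ * (S.ν (fs d))⁻¹) by group]
    exact mul_mem hx (conj_mem_of_mem_normalizer (hK.norm (centralizer_le_normalizer _ (S.V_cent_Z hv))) (inv_mem hx))
  have hr : pel S.μ x ∈ R6 := memR6.2 (C3_key ((S.centZ_iff xM).1 (h3 hx)) (Or.inr (by rw [cm _ d1_ev, cm _ d2_ev]; rfl)))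
  obtain ⟨m, hm, e⟩ := S.mm.dec' xM
  rw [e] at hx ⊢
  exact mul_mem (S.W_le_L (VK _ (S.mm.v_mem hm) ((mul_mem_cancel_right (h1 (S.k_L hr))).1 hx))) (S.k_L hr)

theorem exists_f : ∃ f : ↥𝐍(S.Z) →* S5 × L3, pker f = S.L ∧ f.range = ⊤ ∧
    (∀ x ∈ 𝐍(S.Z), (pel f x).2 = 1 ↔ x ∈ 𝐂(S.Z)) ∧ ∀ x ∈ 𝐍(S.Z), (pel f x).1 = 1 → x ∈ 𝐍(S.V) := by
  obtain ⟨φ, hφ⟩ := exists_coset_hom (inf_le_left (a := 𝐍(S.Z)) (b := 𝐍(S.V)))
  revert φ
  rw [S.relIndex_NM]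
  intro φ hφ
  obtain ⟨ψ, hψ⟩ := S.exists_psi
  have e : ∀ x ∈ 𝐍(S.Z), pel (φ.prod ψ) x = (pel φ x, pel ψ x) := fun x hx => by
    simp only [pel_of_mem _ hx]; rfl
  have k : pker (φ.prod ψ) = pker φ ⊓ 𝐂(S.Z) := by
    ext x
    rw [← hψ, mem_inf, mem_pker, mem_pker, mem_pker]
    exact ⟨fun h => by
      have := e x h.1 ▸ h.2
      exact ⟨⟨h.1, congrArg Prod.fst this⟩, h.1, congrArg Prod.snd this⟩, fun h => ⟨h.1.1, by rw [e x h.1.1, h.1.2, h.2.2]; rfl⟩⟩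
  have s1 : S.σ ∈ pker φ := mem_pker.2 ⟨S.sg_N, eq_one_of_coprime (q := 7) (by
    rw [← pel_pow _ S.sg_N, ← S.sg_ord, pow_orderOf_eq_one, pel_one]) (by rw [card_S5]; norm_num)⟩
  have l1 : S.L ≤ pker φ := fun x hx => by
    obtain ⟨y, hy, rfl⟩ := S.exists_comm_sg hx
    exact mul_mem (conj_mem_of_mem_normalizer ((pker_normalIn φ).norm (S.L_le_N hy)) s1) (inv_mem s1)
  have k2 : pker (φ.prod ψ) = S.L := le_antisymm (S.le_L (pker_normalIn _) (k ▸ le_inf l1 S.L_cent_Z)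
    (k.le.trans (inf_le_left.trans (hφ.trans inf_le_right))) (k.le.trans inf_le_right)) (k ▸ le_inf l1 S.L_cent_Z)
  refine ⟨φ.prod ψ, k2, ?_, fun x hx => by rw [e x hx, ← hψ, mem_pker]; simp [hx], fun x hx h => ?_⟩
  · have := card_pmap_mul (φ.prod ψ) le_rfl
    rw [pmap_dom, k2, inf_eq_left.2 S.L_le_N, S.card_L, S.card_N] at this
    exact eq_top_of_card_eq _ (Nat.eq_of_mul_eq_mul_left (show 0 < 32768 by norm_num) (this.trans (by rw [card_S5L3])))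
  · rw [e x hx] at h
    exact (hφ (mem_pker.2 ⟨hx, h⟩)).2

theorem L_normal : S.L ⊴ 𝐍(S.Z) := by
  obtain ⟨f, h, -⟩ := S.exists_f
  exact h ▸ pker_normalIn f

theorem norm_L : 𝐍(S.L) = 𝐍(S.Z) := le_antisymm (S.center_L ▸ norms_center le_rfl) S.L_normal.norm

theorem no_compl {K : Subgroup G} (hK : K ≤ 𝐍(S.Z)) (h1 : ∀ x ∈ K, x ∈ S.L → x = 1)
    (h2 : ∀ n ∈ 𝐍(S.Z), ∃ l ∈ S.L, ∃ k ∈ K, l * k = n) : False := by
  wlog hs : S.σ ∈ K generalizing K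
  · obtain ⟨l, hl, k, hk, e⟩ := h2 _ S.sg_N
    obtain ⟨y, hy, e1⟩ := S.exists_comm_sg (inv_mem hl)
    have yN := S.L_le_N hy
    have yL := S.L_normal.norm yN
    refine this (K := cj y⁻¹ K) (cj_le_iff'.2 fun x hx => conj_H (inv_mem yN) (hK hx)) (fun x hx a => ?_) (fun n hn => ?_) ?_
    · rw [mem_cj_inv] at hx
      exact conj_eq_one_iff.1 (h1 _ hx (conj_mem_of_mem_normalizer yL a))
    · obtain ⟨l, hl, k, hk, e⟩ := h2 _ (conj_H yN hn)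
      exact ⟨_, conj_mem_of_mem_normalizer (inv_mem yL) hl, _, mem_cj'.2 ⟨k, hk, rfl⟩, by
        rw [show y⁻¹ * l * y⁻¹⁻¹ * (y⁻¹ * k * y⁻¹⁻¹) = y⁻¹ * (l * k) * y by group, e]; group⟩
    · rw [mem_cj_inv, show y * S.σ * y⁻¹ = l⁻¹ * S.σ by rw [← e1]; group, ← e]; simpa using hk
  have dK : ∀ d, (ev d && eqv (apM sgC d) d) = true → S.v d ∈ K := fun d hd => by
    rw [Bool.and_eq_true] at hd
    have c : S.σ * S.v d * S.σ⁻¹ = S.v d := S.k_conj_v (by rw [sgC_in, hd.1, hd.2]; rfl)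
    obtain ⟨l, hl, k, hk, e⟩ := h2 (S.v d) (centralizer_le_normalizer _ (S.V_cent_Z (S.mm.v_mem hd.1)))
    have a : l⁻¹ * (S.σ * l * S.σ⁻¹) = k * (S.σ * k * S.σ⁻¹)⁻¹ := by
      rw [show l⁻¹ * (S.σ * l * S.σ⁻¹) = l⁻¹ * (S.σ * (l * k) * S.σ⁻¹) * (S.σ * k * S.σ⁻¹)⁻¹ by group, e, c, ← e]; group
    have b := h1 _ (mul_mem hk (inv_mem (conj_H hs hk)))
      (a ▸ mul_mem (inv_mem hl) (conj_mem_of_mem_normalizer S.sg_normL hl))
    rw [← a, inv_mul_eq_one, eq_comm, mul_inv_eq_iff_eq_mul] at b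
    rw [S.cent_sg hl (mem_cent1_iff.2 b.symm), one_mul] at e
    exact e ▸ hk
  obtain ⟨l, hl, y, hy, e⟩ := h2 _ (S.k_normZ (c := bC) (by decide +kernel))
  have bM := S.k_mem bC_in
  have e1 : y = l⁻¹ * S.k bC := by rw [← e]; group
  have lM := S.L_le_M (inv_mem hl)
  have yM : y ∈ 𝐍(S.V) := e1 ▸ mul_mem lM bM
  have e2 : pel S.μ y = pel S.μ l⁻¹ * perm bC := by rw [e1, pel_mul _ lM bM, S.mm.mu_k (perm_mem_M24 bC_in)]
  obtain ⟨-, -, -, -, a1, a2, a3⟩ := R6_spec (S.mu_L (inv_mem hl))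
  rw [← e2] at a1 a2 a3
  have key : ∀ d, ev d = true → S.v d ∈ K → pW (cmv (code (pel S.μ y)) d) = true → fx (code (pel S.μ y)) d = true :=
    fun d hd a b => (S.mm.cent_v_iff yM hd).1 (mem_cent1_iff.2 (mul_inv_eq_iff_eq_mul.1 (mul_inv_eq_one.1
      (h1 _ (mul_mem (conj_H hy a) (inv_mem a)) (S.W_le_L ((S.mm.comm_subR yM hd).2 b))))))
  exact a3 ⟨key _ d1_ev (dK _ (by decide +kernel)) a1, key _ d2_ev (dK _ (by decide +kernel)) a2⟩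

theorem card_norm_N {q : ℕ} (hq : q.Prime) (h2 : q ≠ 2) {x : G} (hx : x ∈ 𝐍(S.Z)) (ho : orderOf x = q) {n : ℕ}
    (H : ∀ Q : Subgroup (S5 × L3), Nat.card Q = q → n ≤ Nat.card 𝐍(Q)) :
    Nat.card ↥(S.L ⊓ 𝐍(zpowers x)) * n ≤ Nat.card ↥(𝐍(S.Z) ⊓ 𝐍(zpowers x)) := by
  obtain ⟨f, h1, h3, -⟩ := S.exists_f
  have nd : ¬ q ∣ 32768 := fun a => h2 ((Nat.prime_dvd_prime_iff_eq hq Nat.prime_two).1
    (hq.dvd_of_dvd_pow (n := 15) a))
  have xL : x ∉ S.L := fun a => nd (by rw [← ho, ← S.card_L]; exact orderOf_dvd_card_of_mem a)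
  have := pmap_norm_sylow (f := f) (q := q) (zpowers_le.2 hx) (sylow_zpowers hq (mem_sup_right (mem_zpowers x)) ho (by
    rw [h1, card_sup_zpowers hq ho xL (S.L_normal.norm hx), S.card_L]
    exact fun a => nd (Nat.dvd_of_mul_dvd_mul_right hq.pos a)))
  rw [← card_pmap_mul f (inf_le_left (b := 𝐍(zpowers x))), this, h3, top_inf_eq, h1, ← inf_assoc,
    inf_eq_left.2 S.L_le_N]
  refine Nat.mul_le_mul_left _ (H _ ?_)
  rw [card_pmap_of_inj (zpowers_le.2 hx) (h1 ▸ zpowers_inf_eq_bot hq ho xL), Nat.card_zpowers, ho]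

theorem norm_sg : 𝐍(zpowers S.σ) ≤ 𝐍(S.Z) := by
  have h1 := S.card_norm_N (by norm_num) (by norm_num) S.sg_N S.sg_ord fun Q => norm7_ge
  have h2 := (S.res5573 (zpowers S.σ) (by rw [Nat.card_zpowers, S.sg_ord])).2.2.2
  have h3 : 0 < Nat.card ↥(S.L ⊓ 𝐍(zpowers S.σ)) := Nat.card_pos
  exact (eq_of_le_of_card_le inf_le_right (by rw [h2]; nlinarith)).ge.trans inf_le_left

theorem exists_five : ∃ u ∈ 𝐂(S.Z), orderOf u = 5 ∧ 26880 ≤ Nat.card ↥(𝐍(S.Z) ⊓ 𝐍(zpowers u)) := by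
  obtain ⟨u, hu, ho⟩ := exists_orderOf_eq_prime (p := 5) (A := 𝐍(S.Z)) (by norm_num) (by rw [S.card_N]; norm_num)
  obtain ⟨f, -, -, h1, -⟩ := S.exists_f
  have hc : u ∈ 𝐂(S.Z) := (h1 u hu).1 (eq_one_of_coprime (q := 5) (by
    rw [← Prod.pow_snd, ← pel_pow _ hu, show u ^ 5 = 1 from ho ▸ pow_orderOf_eq_one u, pel_one, Prod.snd_one]) (by rw [card_L3]; norm_num))
  have h2 := S.card_norm_N (by norm_num) (by norm_num) hu ho fun Q => norm5_ge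
  have h3 : 8 ≤ Nat.card ↥(S.L ⊓ 𝐍(zpowers u)) := S.card_Z ▸ card_le_of_le (le_inf S.Z_le_L
    ((cents_symm (zpowers_le.2 hc)).trans (centralizer_le_normalizer _)))
  exact ⟨u, hc, ho, by omega⟩

theorem kY_equiv : Nonempty (pmap S.κ Y2 ≃* L3) := by
  obtain ⟨ψ, hψ⟩ := S.exists_psi
  have hl := S.kY_le.trans inf_le_left
  have k : pker ψ ⊓ pmap S.κ Y2 = ⊥ := eq_bot_iff.2 fun x hx => by
    obtain ⟨g, hg, rfl⟩ := (S.mem_kap Y2_24).1 hx.2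
    have := (S.centZ_iff (S.mm.k_mem (Y2_24 hg))).1 (hψ ▸ hx.1)
    rw [S.mm.mu_k (Y2_24 hg)] at this
    rw [(Y2_spec hg).2 (memC3.1 this).2, pel_one]; exact one_mem _
  have c : Nat.card (pmap S.κ Y2) = 168 := by
    rw [card_pmap_of_inj Y2_24 (eq_bot_iff.2 fun g hg => S.mm.k_inj (Y2_24 hg.2) (one_mem _) (by
      rw [(mem_pker.1 hg.1).2, pel_one])), card_Y2]
  exact ⟨(pmapEquiv hl k).trans ((MulEquiv.subgroupCongr (eq_top_of_card_eq _ (by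
    rw [card_pmap_of_inj hl k, c, card_L3]))).trans topEquiv)⟩

theorem res5574 (S : St G) (h5 : ∀ u ∈ 𝐂[S.z], orderOf u = 5 → ¬ 25 ∣ Nat.card G ∧ Nat.card 𝐍(zpowers u) = 26880) :
    ∃ L : Subgroup G, IsSpecial 2 ↥L ∧ Nat.card ↥L = 2 ^ 15 ∧ Nat.card ↥(center ↥L) = 8 ∧
    Nonempty (↥𝐍(L) ⧸ L.subgroupOf 𝐍(L) ≃* S5 × L3) ∧
    (∀ K : Subgroup ↥𝐍(L), ¬ (L.subgroupOf 𝐍(L)).IsComplement' K) ∧
    (∃ K₁ : Subgroup G, K₁ ≤ 𝐍(L) ∧ Nonempty (↥K₁ ≃* S5)) ∧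
    (∃ K₂ : Subgroup G, K₂ ≤ 𝐍(L) ∧ Nonempty (↥K₂ ≃* L3)) ∧
    (∃ Q : Sylow 5 G, 𝐍((Q : Subgroup G)) ≤ 𝐍(L)) ∧ (∃ Q : Sylow 7 G, 𝐍((Q : Subgroup G)) ≤ 𝐍(L)) := by
  have c7 : Nat.card (zpowers S.σ) = 7 := by rw [Nat.card_zpowers, S.sg_ord]
  obtain ⟨a1, ⟨I, a2, a3⟩, -⟩ := S.res5573 _ c7
  refine ⟨S.L, isSpecial_iff.2 S.special_L, S.card_L, by rw [← card_map_subtype, center_eq_map, S.center_L, S.card_Z],
    ?_, fun K hK => ?_, ⟨I, S.norm_L ▸ a2.2.1.trans ((centralizer_le_normalizer _).trans S.norm_sg), a3⟩,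
    ⟨_, S.norm_L ▸ S.kY_le.trans inf_le_left, S.kY_equiv⟩, ?_, ?_⟩
  · obtain ⟨f, h1, h2, -⟩ := S.exists_f
    revert f
    rw [← S.norm_L]
    intro f h1 h2
    exact ⟨(QuotientGroup.quotientMulEquivOfEq (by rw [← pker_subgroupOf, h1])).trans
      (QuotientGroup.quotientKerEquivOfSurjective f (MonoidHom.range_eq_top.1 h2))⟩
  · refine S.no_compl (K := K.map (Subgroup.subtype _)) (S.norm_L ▸ map_subtype_le K) (fun x hx a => ?_) fun n hn => ?_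
    · obtain ⟨y, hy, rfl⟩ := hx
      exact congrArg Subtype.val (mem_bot.1 (hK.disjoint.eq_bot ▸ (⟨a, hy⟩ : y ∈ S.L.subgroupOf 𝐍(S.L) ⊓ K)))
    · obtain ⟨⟨l, k⟩, e⟩ := hK.2 ⟨n, S.norm_L ▸ hn⟩
      exact ⟨_, l.2, _, ⟨k, k.2, rfl⟩, congrArg Subtype.val e⟩
  · obtain ⟨u, hu, ho, h⟩ := S.exists_five
    obtain ⟨b1, b2⟩ := h5 u (cent_le_cent1 S.z_Z hu) ho
    have : Fact (Nat.Prime 5) := ⟨by norm_num⟩
    obtain ⟨P, hP⟩ := (sylow_zpowers (by norm_num) (mem_top u) ho (by rwa [card_top])).exists_sylow_top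
    exact ⟨P, by rw [hP, S.norm_L]; exact (eq_of_le_of_card_le inf_le_right (b2 ▸ h)).ge.trans inf_le_left⟩
  · have : Fact (Nat.Prime 7) := ⟨by norm_num⟩
    obtain ⟨P, hP⟩ := (sylow_zpowers (by norm_num) (mem_top S.σ) S.sg_ord (by rwa [card_top])).exists_sylow_top
    exact ⟨P, by rw [hP, S.norm_L]; exact S.norm_sg⟩

end St

end CA.J4
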