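import Cfsg.Agent.Lib.J4.Split
import Cfsg.Agent.Lib.J4.CentT

/-!
The 2-local structure of a simple group of type `J4`.
-/

set_option autoImplicit false
set_option linter.unusedSectionVars false

namespace CA.J4
open Cfsg CA.Gol CA.Ex2 CA.Core CA.XS Subgroup
open scoped Pointwise

variable {G : Type*} [Group G] {E V : Subgroup G} {z p s : G} {c : ℕ → G} {ν : Finset GolayPt → G} {κ : M24 →* G}

theorem MM.cjg (h : MM V ν κ) (g : G) :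
    MM (cj g V) (fun s => g * ν s * g⁻¹) ((MulAut.conj g).toMonoidHom.comp κ) := by
  refine ⟨⟨fun s t hs ht => ?_, fun s hs => ?_, fun v => ?_⟩, ?_, fun n hn => ?_, fun k s hs => ?_⟩
  · rw [h.todd.mul _ _ hs ht, conj_mul]
  · rw [← h.todd.ker _ hs, conj_eq_one_iff]
  · rw [mem_cj', ← exists_congr fun s => and_congr_right fun _ => eq_comm]
    exact ⟨fun ⟨x, hx, e⟩ => by obtain ⟨s, a, rfl⟩ := (h.todd.mem x).1 hx; exact ⟨s, a, e⟩,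
      fun ⟨s, a, e⟩ => ⟨_, h.todd.nu_mem a, e⟩⟩
  · rw [← cj_centralizer]; exact cj_mono g h.cent
  · rw [← cj_normalizer, mem_cj] at hn
    obtain ⟨k, hk⟩ := h.act _ hn
    exact ⟨k, fun s hs => by beta_reduce; rw [← hk s hs]; group⟩
  · show g * κ k * g⁻¹ * (g * ν s * g⁻¹) * (g * κ k * g⁻¹)⁻¹ = g * ν _ * g⁻¹
    rw [← h.acts k s hs]; group

theorem MM.k_inf (h : MM V ν κ) {A : Subgroup Pm} (hA : A ≤ M24) : pmap κ A ⊓ V = ⊥ := eq_bot_iff.2 fun x hx => by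
  obtain ⟨g, hg, rfl⟩ := (mem_pmap_of_le hA).1 hx.1
  have := (h.vk_mem_V (one_mem V) (hA hg)).1 (by rw [one_mul]; exact hx.2)
  rw [this, pel_one]; exact one_mem _

theorem MM.k_equiv (h : MM V ν κ) {A : Subgroup Pm} (hA : A ≤ M24) : Nonempty (pmap κ A ≃* A) := by
  refine ⟨(MulEquiv.ofBijective (((κ.comp (inclusion hA))).codRestrict (pmap κ A) fun g => ?_) ⟨fun a b e => ?_,
    fun ⟨x, hx⟩ => ?_⟩).symm⟩
  · exact (mem_pmap_of_le hA).2 ⟨g, g.2, pel_of_mem κ (hA g.2)⟩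
  · exact Subtype.ext (h.k_inj (hA a.2) (hA b.2) (by
      rw [pel_of_mem κ (hA a.2), pel_of_mem κ (hA b.2)]; exact congrArg Subtype.val e))
  · obtain ⟨g, hg, rfl⟩ := (mem_pmap_of_le hA).1 hx
    exact ⟨⟨g, hg⟩, Subtype.ext (pel_of_mem κ (hA hg)).symm⟩

theorem MM.k_le (h : MM V ν κ) {A : Subgroup Pm} (hA : A ≤ M24) : pmap κ A ≤ 𝐍(V) := fun x hx => by
  obtain ⟨g, hg, rfl⟩ := (mem_pmap_of_le hA).1 hx
  exact h.k_mem (hA hg)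

theorem MM.res5567 (h : MM V ν κ) :
    𝐂(V) ≤ V ∧ ∃ K : Subgroup G, K ≤ 𝐍(V) ∧ K ⊓ V = ⊥ ∧ K ⊔ V = 𝐍(V) ∧ Spor.IsoM24 K :=
  ⟨h.cent, pmap κ M24, h.k_le le_rfl, h.k_inf le_rfl, le_antisymm (sup_le (h.k_le le_rfl) h.V_le) fun n hn => by
    obtain ⟨m, hm, g, hg, rfl⟩ := h.dec hn
    exact mul_mem (mem_sup_right (h.v_mem hm)) (mem_sup_left (pel_mem_pmap κ hg)), h.k_equiv le_rfl⟩

theorem MM.res5569 (h : MM V ν κ) (hc : 𝐂[ν (fs DD)] ≤ 𝐍(V)) :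
    ∃ V K : Subgroup G, V ≤ 𝐂[ν (fs DD)] ∧ K ≤ 𝐂[ν (fs DD)] ∧ 𝐂[ν (fs DD)] ≤ 𝐍(V) ∧ IsElementaryAbelian 2 V ∧
      Nat.card ↥V = 2 ^ 11 ∧ K ⊓ V = ⊥ ∧ K ⊔ V = 𝐂[ν (fs DD)] ∧ Nonempty (↥K ≃* MulAut ↥Spor.M22) := by
  have ev := ev_even DD_ev
  have l1 : V ≤ 𝐂[ν (fs DD)] := mem_cent_iff_le_cent1.1 (h.todd.le_cent (h.todd.nu_mem ev))
  have l2 : pmap κ D2 ≤ 𝐂[ν (fs DD)] := fun x hx => by
    obtain ⟨g, hg, rfl⟩ := (mem_pmap_of_le D2_le).1 hx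
    have := h.acts' hg.1 _ ev
    rw [(memD2.1 hg).2] at this
    exact conj_eq_iff_mem_cent1.1 this
  obtain ⟨e⟩ := h.k_equiv D2_le
  refine ⟨V, pmap κ D2, l1, l2, hc, h.todd.elem, h.todd.card, h.k_inf D2_le, le_antisymm (sup_le l2 l1) fun n hn => ?_,
    ⟨e.trans autEquiv⟩⟩
  obtain ⟨m, hm, g, hg, rfl⟩ := h.dec (hc hn)
  have := h.acts_vk (h.v_mem hm) hg _ ev
  rw [conj_eq_iff_mem_cent1.2 hn] at this
  exact mul_mem (mem_sup_right (h.v_mem hm)) (mem_sup_left (pel_mem_pmap κ (memD2.2 ⟨hg,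
    (h.todd.eq_of_small ev (by rwa [card_smul]) (by rw [card_smul, DD_card]; norm_num) this).symm⟩)))

variable [Finite G]

theorem JH.exists_two {π : ↥𝐂[z] →* Pm} (h : JH z p s E π c) {y m : G} {τ : ℕ → G} (d : TD p s π c y m τ)
    (hO : ∃ g, g * z * g⁻¹ ∈ 𝐂[z] ∧ g * z * g⁻¹ ≠ z) : ∃ K, Two z (h.VV d) K (nuV c τ) := by
  obtain ⟨K, -, h1, h2⟩ := h.exists_K d hO
  obtain ⟨κ, M⟩ := exists_mm' (h.todd d) (h.cent_V d) (fun _ => h.act_norm d hO) h1 fun _ => h.onto_K d hO h2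
  refine ⟨K, h.todd d, h.cent_V d, fun _ => h.act_norm d hO, h1, fun _ => h.onto_K d hO h2,
    h.exists_tetrad d hO (h.z_V d) (IsConj.refl z), fun a b hab => ⟨h.duad_typ d hO hab,
      M.cent_duad (fun _ => h.tetrad_typ d hO) (fun _ _ => h.duad_typ d hO)
        (fun _ hs _ _ => h.cent_pair' d hO hs) (fun _ => h.eq_of_norm d) hab⟩, fun i hi => ?_⟩
  obtain ⟨g, hg⟩ := h.two_of d hO M hi
  refine or_iff_not_imp_left.2 fun e => ?_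
  obtain ⟨a, b, hab, e1⟩ := h.duad_of d hO hg (fun e => by
    rw [conj_eq_one_iff.1 e, orderOf_one] at hi; exact absurd hi (by decide)) fun e' => e (isConj_of_cj g e')
  exact ⟨a, b, hab, isConj_of_cj g (e1 ▸ IsConj.refl _)⟩

variable [IsSimpleGroup G]

theorem exists_two (hG : ¬ IsMulCommutative G) {P : Subgroup G} (hJ : IsOfJankoFourTypeWith z P) :
    ∃ V K ν, Two z V K ν := by
  obtain ⟨p, s, E, π, c, -, h⟩ := exists_JH hJ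
  obtain ⟨y, m, τ, d⟩ := h.exists_TD
  obtain ⟨K, T⟩ := h.exists_two d (exists_comm_conj hG hJ.1)
  exact ⟨_, K, _, T⟩

theorem exists_St (hG : ¬ IsMulCommutative G) {P : Subgroup G} (hJ : IsOfJankoFourTypeWith z P) :
    ∃ S : St G, S.z = z ∧ zpowers S.p = P := by
  obtain ⟨p, s, E, π, c, rfl, h⟩ := exists_JH hJ
  obtain ⟨V, K, ν, T⟩ := exists_two hG hJ
  obtain ⟨S, h1, h2⟩ := exists_st (show JX z p s E π c from h) T
  exact ⟨S, h1, by rw [h2]⟩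

omit [IsSimpleGroup G] in
theorem res5566 {P : Subgroup G} (hJ : IsOfJankoFourTypeWith z P) (T : Sylow 2 G) :
    ∃! V : Subgroup G, V ≤ (T : Subgroup G) ∧ IsElementaryAbelian 2 V ∧ Nat.card ↥V = 2 ^ 11 := by
  obtain ⟨p, s, E, π, c, -, h⟩ := exists_JH hJ
  obtain ⟨y, m, τ, d⟩ := h.exists_TD
  obtain ⟨g, -, e⟩ := (sylowIn_top T).exists_cj_le (piGrp_of_sq (h.V_sq d)) le_top
  have sq := sq_cj (h.V_sq d) g
  refine ⟨_, ⟨e, ⟨abelian_of_sq sq, fun a ha => by rw [pow_two, sq a ha]⟩, by rw [card_cj, h.card_V d]; norm_num⟩,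
    fun W ⟨h1, h2, h3⟩ => h.uniq d (sylowIn_top T).piGrp h1 e (fun a ha => by rw [← pow_two, h2.2 a ha]) sq
      (by rw [h3]; norm_num) (by rw [card_cj, h.card_V d])⟩

/-- every elementary abelian subgroup of order `2^11` carries the structure -/
theorem exists_mm_of (hG : ¬ IsMulCommutative G) {P : Subgroup G} (hJ : IsOfJankoFourTypeWith z P) {V : Subgroup G}
    (hV : IsElementaryAbelian 2 V) (hc : Nat.card ↥V = 2 ^ 11) : ∃ ν κ, MM V ν κ ∧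
      (∀ s, s.card = 4 → IsConj z (ν s)) ∧ ∀ a b, a ≠ b → ¬ IsConj z (ν {a, b}) ∧ 𝐂[ν {a, b}] ≤ 𝐍(V) := by
  obtain ⟨p, s, E, π, c, -, h⟩ := exists_JH hJ
  obtain ⟨y, m, τ, d⟩ := h.exists_TD
  have hO := exists_comm_conj hG hJ.1
  obtain ⟨K, T⟩ := h.exists_two d hO
  obtain ⟨κ, M⟩ := T.exists_mm
  obtain ⟨g, e⟩ := h.exists_cj' d (X := V) (fun a ha => by rw [← pow_two, hV.2 a ha]) (by rw [hc]; norm_num)
  rw [cj_eq_iff.1 e]
  refine ⟨_, _, M.cjg g⁻¹, fun s hs => isConj_cj _ (h.tetrad_typ d hO hs), fun a b hab =>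
    ⟨fun e => (T.duad a b hab).1 (isConj_of_cj _ e), ?_⟩⟩
  rw [← cj_centralizer_singleton, ← cj_normalizer]
  exact cj_mono _ (T.duad a b hab).2

theorem res5568 (hG : ¬ IsMulCommutative G) {P : Subgroup G} (hJ : IsOfJankoFourTypeWith z P) {V : Subgroup G}
    (hV : IsElementaryAbelian 2 V) (hc : Nat.card ↥V = 2 ^ 11) :
    ∃ z' t : G, z' ∈ V ∧ t ∈ V ∧ t ≠ 1 ∧ IsConj z z' ∧ ¬ IsConj z t ∧
      Set.ncard {v : G | ∃ n ∈ 𝐍(V), n * z' * n⁻¹ = v} = 1771 ∧ Set.ncard {v : G | ∃ n ∈ 𝐍(V), n * t * n⁻¹ = v} = 276 ∧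
      𝐂[t] ≤ 𝐍(V) := by
  obtain ⟨ν, κ, M, h1, h2⟩ := exists_mm_of hG hJ hV hc
  have := h2 _ _ pt0_ne
  rw [← fs_DD] at this
  exact ⟨ν (fs T0), ν (fs DD), M.v_mem T0_ev, M.v_mem DD_ev, M.todd.ne_one (ev_even DD_ev) (by rw [DD_card]; norm_num)
    (by rw [DD_card]; norm_num), h1 _ T0_card, this.1, M.todd.ncard_orbit_tetrad M.orbit1 M.orbit2 T0_card,
    M.todd.ncard_orbit_duad M.orbit1 M.orbit2 DD_card, this.2⟩

theorem res5569 (hG : ¬ IsMulCommutative G) {P : Subgroup G} (hJ : IsOfJankoFourTypeWith z P) {t : G}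
    (ht : orderOf t = 2) (hn : ¬ IsConj z t) :
    ∃ V K : Subgroup G, V ≤ 𝐂[t] ∧ K ≤ 𝐂[t] ∧ 𝐂[t] ≤ 𝐍(V) ∧ IsElementaryAbelian 2 V ∧
      Nat.card ↥V = 2 ^ 11 ∧ K ⊓ V = ⊥ ∧ K ⊔ V = 𝐂[t] ∧ Nonempty (↥K ≃* MulAut ↥Spor.M22) := by
  obtain ⟨S, rfl, -⟩ := exists_St hG hJ
  obtain ⟨g, rfl⟩ := isConj_iff.1 ((S.two' ht).resolve_left hn)
  exact (S.mm.cjg g).res5569 (by
    rw [← cj_centralizer_singleton, ← cj_normalizer]; exact cj_mono _ S.cent_t)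

end CA.J4
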