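import Cfsg.Agent.Lib.J4.Three
import Cfsg.Agent.Lib.J4.Hyp2
import Cfsg.Agent.Lib.G.Frob
import Cfsg.Prelude.Def_MonsterType

/-!
An extraspecial centralizer `2^{1+12}.3.M22.2` with non-split `3.M22.2` is of Janko-four type.
-/

set_option autoImplicit false

namespace CA.J4
open Cfsg CA.Gol CA.Ex2 CA.Core Subgroup

variable {G : Type*} [Group G] [Finite G]

section gauss
variable {Q A : Subgroup G} {z : G}

open Classical in
/-- the sign of the square -/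
noncomputable def sg (e : G) : ℤ := if e * e = 1 then 1 else -1
open Classical in
/-- the sign of the commutator -/
noncomputable def sb (e f : G) : ℤ := if e * f = f * e then 1 else -1

theorem sg_mul (h : EZ Q z) {e f : G} (he : e ∈ Q) (hf : f ∈ Q) : sg (e * f) = sg e * sg f * sb e f := by
  have c := h.comm (mul_mem he hf)
  have e1 : e * f * (e * f) = e * e * (f * f) * z ^ cm f e := by
    rw [mul_assoc, ← mul_assoc f, cm_spec h hf he, mul_assoc _ _ f, zp_comm h (h.le_cent1 hf)]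
    simp only [mul_assoc]
  have z1 := h.ne_one
  have z2 := h.sq
  unfold sg sb
  rw [e1, cm]
  rcases h.sq_or he with a | a <;> rcases h.sq_or hf with b | b <;> by_cases d : e * f = f * e <;>
    simp [a, b, d, z1, z2, eq_comm (a := f * e)]

omit [Finite G] in
theorem sg_sq (e : G) : sg e * sg e = 1 := by unfold sg; split_ifs <;> norm_num

theorem sum_sign {α : Type*} [Fintype α] (P : α → Prop) [DecidablePred P] :
    ∑ a, (if P a then (1 : ℤ) else -1) = Nat.card α - 2 * Nat.card {a // ¬ P a} := by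
  have := Finset.card_filter_add_card_filter_not (s := Finset.univ) P
  rw [Finset.sum_ite, Finset.sum_const, Finset.sum_const, Nat.card_eq_fintype_card, Nat.card_eq_fintype_card,
    Fintype.card_subtype, ← Finset.card_univ, ← this]
  simp only [nsmul_eq_mul, Nat.cast_add]; ring

open Classical in
theorem sum_sb (h : EZ Q z) [Fintype Q] {f : G} (hf : f ∈ Q) :
    ∑ e : Q, sb (e : G) f = if f ∈ zpowers z then (Nat.card Q : ℤ) else 0 := by
  split_ifs with h1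
  · rw [Finset.sum_congr rfl (g := fun _ => 1) fun e _ => ?_]
    · simp
    · rcases h.mem_zp.1 h1 with rfl | rfl
      · simp [sb]
      · rw [sb, if_pos (h.comm e.2)]
  · have e1 := h.card_cent1 hf h1
    have e2 : Nat.card {e : Q // (e : G) * f = f * e} = Nat.card ↥(Q ⊓ 𝐂[f]) :=
      Nat.card_congr ⟨fun a => ⟨a.1, a.1.2, mem_cent1_iff.2 a.2⟩, fun a => ⟨⟨a.1, a.2.1⟩, mem_cent1_iff.1 a.2.2⟩,
        fun _ => rfl, fun _ => rfl⟩
    have e3 := Fintype.card_subtype_compl fun e : Q => (e : G) * f = f * e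
    have e4 := Fintype.card_subtype_le fun e : Q => (e : G) * f = f * e
    simp only [← Nat.card_eq_fintype_card] at e3 e4
    unfold sb
    rw [sum_sign]
    omega

theorem gauss (h : EZ Q z) :
    ((Nat.card Q : ℤ) - 2 * Set.ncard {e | e ∈ Q ∧ e * e ≠ 1}) ^ 2 = 2 * Nat.card Q := by
  classical
  letI := Fintype.ofFinite Q
  have e1 : ∑ e : Q, sg (e : G) = (Nat.card Q : ℤ) - 2 * Set.ncard {e | e ∈ Q ∧ e * e ≠ 1} := by
    unfold sg
    rw [sum_sign, ← Nat.card_coe_set_eq]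
    congr 3
    exact Nat.card_congr ⟨fun a => ⟨a.1, a.1.2, a.2⟩, fun a => ⟨⟨a.1, a.2.1⟩, a.2.2⟩, fun _ => rfl, fun _ => rfl⟩
  rw [← e1, sq, Finset.sum_mul_sum]
  have e2 : ∀ e : Q, ∑ f : Q, sg (e : G) * sg (f : G) = ∑ f : Q, sg (f : G) * sb (e : G) f := fun e => by
    rw [← Equiv.sum_comp (Equiv.mulLeft e)]
    refine Finset.sum_congr rfl fun f _ => ?_
    rw [Equiv.coe_mulLeft, coe_mul, sg_mul h e.2 f.2, ← mul_assoc, ← mul_assoc, sg_sq, one_mul]
  rw [Finset.sum_congr rfl fun e _ => e2 e, Finset.sum_comm]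
  simp only [← Finset.mul_sum, fun f : Q => sum_sb h f.2, mul_ite, mul_zero]
  rw [← Finset.sum_filter, show Finset.univ.filter (fun f : Q => (f : G) ∈ zpowers z) = {1, ⟨z, h.mem⟩} by
    ext f; rw [Finset.mem_filter, h.mem_zp, Finset.mem_insert, Finset.mem_singleton, Subtype.ext_iff, Subtype.ext_iff]
    exact and_iff_right (Finset.mem_univ _), Finset.sum_pair fun e => h.ne_one (congrArg Subtype.val e).symm]
  simp [sg, h.sq]; ring

theorem dvd_nonsq (h : EZ Q z) (hA : A ≤ 𝐍(Q)) (hp : (Nat.card A).Prime) (hc : Q ⊓ 𝐂(A) ≤ zpowers z) :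
    Nat.card A ∣ Set.ncard {e | e ∈ Q ∧ e * e ≠ 1} := by
  refine card_dvd_ncard_of_conj (fun a ha e he => ⟨conj_mem_of_mem_normalizer (hA ha) he.1, fun e1 => he.2 ?_⟩)
    fun a ha e he e1 => ?_
  · rwa [conj_mul, conj_eq_one_iff] at e1
  · by_contra a1
    have : e ∈ zpowers z := hc ⟨he.1, by
      rw [eq_zpowers_of_prime_card hp ha a1, cent_zpowers]; exact mem_cent1_iff.2 e1.symm⟩
    rcases h.mem_zp.1 this with rfl | rfl
    · exact he.2 (one_mul 1)
    · exact he.2 h.sq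

theorem comm_inf_cent (h : EZ Q z) (hA : A ≤ 𝐍(Q)) (ho : Odd (Nat.card A)) : ⁅Q, A⁆ ⊓ 𝐂(A) ≤ zpowers z := by
  intro x hx
  have hQ : x ∈ Q := (comm_le_left hA) hx.1
  refine h.mem_zp_of_cent hQ ?_
  rw [← h.odd_sup hA ho, cent_sup]
  exact ⟨h.odd_cents hA hx.1, cents_symm (h.odd_cents hA) ⟨hQ, hx.2⟩⟩

theorem not_128 {B : Subgroup G} (h : EZ Q z) (hA : A ≤ 𝐍(Q)) (hB : B ≤ 𝐍(Q)) (cA : Nat.card A = 3)
    (cB : Nat.card B = 7) (h1 : Q ⊓ 𝐂(A) ≤ zpowers z) (h2 : Q ⊓ 𝐂(B) ≤ zpowers z) : Nat.card Q ≠ 128 := by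
  intro hc
  have d1 := dvd_nonsq h hA (by rw [cA]; norm_num) h1
  have d2 := dvd_nonsq h hB (by rw [cB]; norm_num) h2
  have g := gauss h
  rw [cA] at d1; rw [cB] at d2; rw [hc] at g
  generalize Set.ncard {e | e ∈ Q ∧ e * e ≠ 1} = n at *
  have : ((128 : ℤ) - 2 * n - 16) * (128 - 2 * n + 16) = 0 := by push_cast at g; linarith
  rcases mul_eq_zero.1 this with e | e <;> omega

end gauss

/-- the hypothesis with the non-splitting condition -/
structure A0 (z p : G) (E : Subgroup G) (π : ↥𝐂[z] →* Pm) : Prop where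
  lq : LQ E z
  card : Nat.card E = 8192
  p_ord : orderOf p = 3
  p_mem : p ∈ 𝐂[z]
  range : π.range = D2
  ker : pker π = E ⊔ zpowers p
  ns : ∀ K ≤ 𝐂[z], E ≤ K → D2 ≤ pmap π K → p ∈ K

def a7C : ℕ := 0xb96843caaf442c24ae260b06a9b9a0
def b7C : ℕ := 0xbc4698054b9d8a76d64e1188f45180
def v3C : ℕ := mul w3C (mul u3C u3C)
def rfC : ℕ := 0x59f459522a9dac9a22a71a441c037

theorem M22_le_of_seven {K : Subgroup Pm} (h : ∀ g ∈ Spor.M22, g ^ 7 = 1 → g ∈ K) : Spor.M22 ≤ K := by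
  have k : ∀ c, (in22 c && Nat.beq (powC c 7) oneC) = true → perm c ∈ K := fun c hc => by
    rw [Bool.and_eq_true, beq_iff] at hc
    exact h _ (perm_mem22 hc.1) (code_inj (by rw [code_pow, code_perm22 hc.1, hc.2, code_one]))
  have hx : x0 ∈ K := by
    have := mul_mem (k a7C (by decide +kernel)) (k b7C (by decide +kernel))
    rwa [perm_mul' (by decide +kernel) (by decide +kernel), show mul a7C b7C = xC by decide +kernel] at this
  exact M22_le_of hx ((Subgroup.mul_mem_cancel_left _ hx).1 (h _ (mul_mem x0_mem f0_mem) xf_pow))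

namespace A0
variable {z p : G} {E : Subgroup G} {π : ↥𝐂[z] →* Pm} (h : A0 z p E π)
include h

theorem E_le : E ≤ 𝐂[z] := h.lq.ez.le_cent1
theorem card_P : Nat.card (zpowers p) = 3 := by rw [Nat.card_zpowers, h.p_ord]
theorem inf_P : E ⊓ zpowers p = ⊥ := inf_eq_bot_of_odd h.lq.ez.pg (by rw [h.card_P]; decide)
theorem P_norm : zpowers p ≤ 𝐍(E) := zpowers_le.2 (h.lq.le_norm h.p_mem)
theorem pi_E {e : G} (he : e ∈ E) : pel π e = 1 := (mem_pker.1 (h.ker ▸ mem_sup_left he)).2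
theorem z_p : z ∈ 𝐂[p] := mem_cent1_comm.1 h.p_mem
theorem card_ker : Nat.card (pker π) = 8192 * 3 := by
  rw [h.ker, card_sup_of_disjoint (Or.inl h.P_norm) h.inf_P, h.card, h.card_P]
theorem card_H : Nat.card 𝐂[z] = 8192 * 3 * 887040 := by
  rw [← card_pmap_mul π le_rfl, inf_eq_left.2 (pker_le_dom π), h.card_ker, pmap_dom, h.range, card_D2]

theorem fratt {x : G} (hx : x ∈ 𝐂[z]) : ∃ e ∈ E, ∃ k ∈ 𝐂[z] ⊓ 𝐍(zpowers p), x = e * k := by
  have hS : SylowIn 3 (zpowers p) (E ⊔ zpowers p) := sylow_zpowers Nat.prime_three (mem_sup_right (mem_zpowers p))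
    h.p_ord (by rw [← h.ker, h.card_ker]; norm_num)
  obtain ⟨n, hn, g, hg, rfl⟩ := frattini_exists_mul (h.ker ▸ pker_normalIn π) hS x hx
  obtain ⟨e, he, q, hq, rfl⟩ := (mem_sup_of_norm_right h.P_norm).1 hn
  exact ⟨e, he, q * g, mul_mem ⟨zpowers_le.2 h.p_mem hq, le_normalizer hq⟩ hg, mul_assoc _ _ _⟩

theorem liftK {g : Pm} (hg : g ∈ D2) : ∃ k ∈ 𝐂[z] ⊓ 𝐍(zpowers p), pel π k = g := by
  rw [← h.range] at hg
  obtain ⟨x, rfl⟩ := hg
  obtain ⟨e, he, k, hk, e1⟩ := h.fratt x.2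
  exact ⟨k, hk, by rw [← pel_coe, e1, pel_mul _ (h.E_le he) hk.1, h.pi_E he, one_mul]⟩

theorem M22_le : Spor.M22 ≤ pmap π (𝐂[z] ⊓ 𝐂[p]) := M22_le_of_seven fun g hg g7 => by
  obtain ⟨k, hk, e⟩ := h.liftK (M22_le_D2 (pow_mem hg 4))
  have : pel π (k * k) = g := by
    rw [pel_mul _ hk.1 hk.1, e, ← pow_add, show 4 + 4 = 7 + 1 from rfl, pow_succ, g7, one_mul]
  rw [← this]
  refine pel_mem_pmap _ ⟨mul_mem hk.1 hk.1, cent_of_conj ?_⟩
  rw [show k * k * p * (k * k)⁻¹ = k * (k * p * k⁻¹) * k⁻¹ by group]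
  rcases conj_p h.p_ord hk.2 with e | e
  · rw [e, e]
  · rw [e, ← conj_inv, e, inv_inv]

theorem K_norm_L : 𝐂[z] ⊓ 𝐍(zpowers p) ≤ 𝐍(𝐂[z] ⊓ 𝐂[p]) :=
  norms_inf (inf_le_left.trans le_normalizer) (by rw [← cent_zpowers p]; exact norms_cent inf_le_right)

theorem p_mem_of {D : Subgroup G} (hD : D ≤ 𝐂[z] ⊓ 𝐂[p]) (hK : 𝐂[z] ⊓ 𝐍(zpowers p) ≤ 𝐍(D))
    (hM : Spor.M22 ≤ pmap π D) : p ∈ D := by
  have DH : D ≤ 𝐂[z] := hD.trans inf_le_left
  have MH : E ⊔ D ≤ 𝐂[z] := sup_le h.E_le DH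
  have hn : 𝐂[z] ≤ 𝐍(E ⊔ D) := fun x hx => by
    obtain ⟨e, he, k, hk, rfl⟩ := h.fratt hx
    exact mul_mem (le_normalizer (mem_sup_left he)) (norms_sup (inf_le_left.trans h.lq.le_norm) hK hk)
  obtain ⟨s, hs, s2, es⟩ := exists_piElt_pel (f := π) (π := {2}) le_rfl (z := s0) (by
    rw [pmap_dom, h.range]; exact s0_mem) (by rw [piElt_of_orderOf_prime Nat.prime_two s0_ord]; rfl)
  have sH : zpowers s ≤ 𝐂[z] := zpowers_le.2 hs
  have h1 := h.ns _ (sup_le MH sH) (le_sup_left.trans le_sup_left) fun g hg => by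
    have a1 : Spor.M22 ≤ pmap π (E ⊔ D ⊔ zpowers s) := hM.trans (pmap_mono π (le_sup_right.trans le_sup_left))
    have a2 : s0 ∈ pmap π (E ⊔ D ⊔ zpowers s) := es ▸ pel_mem_pmap π (mem_sup_right (mem_zpowers s))
    rcases mem_or_D2 hg with a | a
    · exact a1 a
    · exact (Subgroup.mul_mem_cancel_left _ a2).1 (a1 a)
  have h2 := pow_relIndex_mem_of_norm ((sup_le MH sH).trans hn) h1
  rw [relIndex_sup_of_norm (sH.trans hn)] at h2
  obtain ⟨k, hk⟩ := (piElt_singleton_iff Nat.prime_two).1 s2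
  have h3 : (E ⊔ D).relIndex (zpowers s) ∣ 2 ^ k := by
    rw [← hk, ← Nat.card_zpowers]; exact relIndex_dvd_card _ _
  have h4 : p ∈ E ⊔ D := zpowers_le.2 h2 (mem_zpowers_pow_iff.2 (by
    rw [h.p_ord]; exact Nat.Coprime.coprime_dvd_left h3 (Nat.Coprime.pow_left k (by norm_num))))
  obtain ⟨e, he, d, hd, e1⟩ := (mem_sup_of_norm_right (DH.trans h.lq.le_norm)).1 h4
  have e2 : d = e⁻¹ * p := by rw [← e1]; group
  have c : Commute e⁻¹ p := by
    have : d ∈ 𝐂[p] := (hD hd).2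
    rw [e2, Subgroup.mul_mem_cancel_right _ (self_mem_cent1 p)] at this
    exact mem_cent1_iff.1 this
  have e4 : e⁻¹ ^ 4 = 1 := by
    rw [show 4 = 2 * 2 from rfl, pow_mul, sq e⁻¹]
    rcases h.lq.ez.sq_or (inv_mem he) with a | a <;> rw [a]
    · exact one_pow 2
    · rw [sq, h.lq.ez.sq]
  have := pow_mem hd 4
  rwa [e2, c.mul_pow, e4, one_mul, pow_succ, p3 h.p_ord, one_mul] at this

theorem p_der : p ∈ ⁅𝐂[z] ⊓ 𝐂[p], 𝐂[z] ⊓ 𝐂[p]⁆ :=
  h.p_mem_of (der_le _) (norms_der h.K_norm_L) (by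
    rw [pmap_commutator π inf_le_left inf_le_left, ← M22_perfect]
    exact commutator_mono h.M22_le h.M22_le)

theorem fpf : E ⊓ 𝐂[p] = zpowers z := by
  have ez := h.lq.ez
  have oP : Odd (Nat.card (zpowers p)) := by rw [h.card_P]; decide
  have hT : EZ ⁅E, zpowers p⁆ z := ez.odd_comm h.P_norm oP fun hc => by
    have : p ∈ E ⊓ zpowers p := ⟨ez.zp_le (h.lq.cent_eq ▸ hc (mem_zpowers p)), mem_zpowers p⟩
    rw [h.inf_P, mem_bot] at this
    have o := h.p_ord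
    rw [this, orderOf_one] at o; omega
  have c1 := comm_inf_cent ez h.P_norm oP
  have KT : 𝐂[z] ⊓ 𝐍(zpowers p) ≤ 𝐍(⁅E, zpowers p⁆) :=
    norms_commutator (inf_le_left.trans h.lq.le_norm) inf_le_right
  have LK : 𝐂[z] ⊓ 𝐂[p] ≤ 𝐂[z] ⊓ 𝐍(zpowers p) :=
    inf_le_inf_left _ (by rw [← cent_zpowers]; exact centralizer_le_normalizer _)
  have TE : ⁅E, zpowers p⁆ ≤ E := comm_le_left h.P_norm
  generalize eT : ⁅E, zpowers p⁆ = T at *
  obtain ⟨x, hx, x7, xT⟩ : ∃ x ∈ 𝐂[z] ⊓ 𝐂[p], PiElt {7} x ∧ x ∉ 𝐂(T) := by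
    by_contra hc
    push Not at hc
    have := h.p_mem_of (D := 𝐂[z] ⊓ 𝐂[p] ⊓ 𝐂(T)) inf_le_left (norms_inf h.K_norm_L (norms_cent KT))
      (M22_le_of_seven fun g hg g7 => by
        obtain ⟨x, hx, x7, rfl⟩ := exists_piElt_pel (π := {7}) inf_le_left (h.M22_le hg)
          ((piElt_singleton_iff' (by norm_num)).2 ⟨1, g7⟩)
        exact pel_mem_pmap π ⟨hx, hc x hx x7⟩)
    exact hT.not_abelian (abelian_of_le (abelian_zpowers z)
      ((le_inf le_rfl (cents_symm (zpowers_le.2 this.2))).trans c1))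
  obtain ⟨k, hk⟩ := (piElt_singleton_iff (by norm_num)).1 x7
  have cx : Nat.card (zpowers x) = 7 := by
    have d := card_dvd_of_le (zpowers_le.2 hx.1 : zpowers x ≤ 𝐂[z])
    rw [h.card_H, Nat.card_zpowers, hk] at d
    rw [Nat.card_zpowers, hk]
    rcases k with _ | _ | k
    · rw [pow_zero, orderOf_eq_one_iff] at hk
      exact absurd (hk ▸ one_mem _) xT
    · rfl
    · exact absurd ((pow_dvd_pow 7 (by omega : 2 ≤ k + 1 + 1)).trans d) (by norm_num)
  have ox : Odd (Nat.card (zpowers x)) := by rw [cx]; decide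
  have xN : zpowers x ≤ 𝐍(T) := zpowers_le.2 (KT (LK hx))
  have hT1 : EZ ⁅T, zpowers x⁆ z := hT.odd_comm xN ox fun hc => xT (hc (mem_zpowers x))
  have c2 := comm_inf_cent hT xN ox
  have T1 : ⁅T, zpowers x⁆ ≤ T := comm_le_left xN
  have n1 : zpowers x ≤ 𝐍(⁅T, zpowers x⁆) := norms_commutator xN le_normalizer
  have n2 : zpowers p ≤ 𝐍(⁅T, zpowers x⁆) := norms_commutator
    (zpowers_le.2 (KT ⟨h.p_mem, le_normalizer (mem_zpowers p)⟩))
    (zpowers_le.2 (cent1_le_norm _ (mem_cent1_comm.1 hx.2)))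
  have h128 := not_128 hT1 n2 n1 h.card_P cx ((inf_le_inf_right _ T1).trans c1) c2
  haveI : Fact (Nat.Prime 7) := ⟨by norm_num⟩
  have m7 := card_modEq_card_inf_cent (p := 7) (IsPGroup.of_card (n := 1) cx) n1
  rw [le_antisymm c2 (le_inf hT1.zp_le (zpowers_le.2 (by rw [cent_zpowers]; exact mem_cent1_comm.1 hx.1))),
    ez.card_zp] at m7
  obtain ⟨j, j0, hj⟩ := hT1.card_ge
  have le := card_le_of_le (T1.trans TE)
  rw [h.card, hj, show 8192 = 2 ^ 13 from rfl, Nat.pow_le_pow_iff_right (by norm_num)] at le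
  have e : T = E := le_antisymm TE (by
    rw [← eq_of_le_of_card_eq (T1.trans TE) ?_]
    · exact T1
    rw [hj] at m7 h128
    rw [hj, h.card]
    have : j ≤ 6 := by omega
    interval_cases j <;> simp_all [Nat.ModEq])
  rw [← cent_zpowers, ← e]
  exact le_antisymm c1 (le_inf hT.zp_le (zpowers_le.2 (by rw [cent_zpowers]; exact h.z_p)))

theorem ker_cent {k : G} (hk : k ∈ 𝐂[z] ⊓ 𝐂[p]) (e : pel π k = 1) :
    k ∈ 𝐂(𝐂[z] ⊓ 𝐂[p]) := by
  obtain ⟨x, hx, q, hq, rfl⟩ := (mem_sup_of_norm_right h.P_norm).1 (h.ker ▸ mem_pker.2 ⟨hk.1, e⟩)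
  have h1 : x ∈ E ⊓ 𝐂[p] := ⟨hx, (Subgroup.mul_mem_cancel_right _ (zpowers_le.2 (self_mem_cent1 p) hq)).1 hk.2⟩
  rw [h.fpf] at h1
  exact mul_mem (zpowers_le.2 (mem_cent_iff_le_cent1.2 inf_le_left) h1)
    (zpowers_le.2 (mem_cent_iff_le_cent1.2 inf_le_right) hq)

theorem inv : 𝐂[z] ⊓ 𝐍(zpowers p) ≠ 𝐂[z] ⊓ 𝐂[p] := by
  intro hK
  have u3 := u3C_in
  have v3 : in22 v3C = true := by decide +kernel
  have rf : inM24 rfC = true := by decide +kernel
  have vo : orderOf (perm v3C) = 3 := order_perm (in22_24 v3) (by norm_num) (by decide +kernel)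
  obtain ⟨a, ha, a3, ea⟩ := exists_piElt_pel (π := {3}) inf_le_left (h.M22_le (perm_mem22 u3))
    (by rw [piElt_of_orderOf_prime Nat.prime_three u3_ord]; rfl)
  obtain ⟨b, hb, b3, eb⟩ := exists_piElt_pel (π := {3}) inf_le_left (h.M22_le (perm_mem22 v3))
    (by rw [piElt_of_orderOf_prime Nat.prime_three vo]; rfl)
  obtain ⟨s, hs, es⟩ := h.liftK (g := perm rfC) (memD2'.2 ⟨perm_mem_M24 rf, Or.inr (by
    rw [apply_pt_eq_iff (by norm_num) (by norm_num), apply_pt_eq_iff (by norm_num) (by norm_num), code_perm' rf]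
    decide +kernel)⟩)
  rw [hK] at hs
  set L := 𝐂[z] ⊓ 𝐂[p] with hL
  have cen : ∀ {k}, k ∈ L → pel π k = 1 → ∀ y ∈ L, Commute k y := fun hk e y hy =>
    (mem_cent_iff.1 (h.ker_cent hk e) y hy).symm
  have cc := cen (mul_mem (mul_mem (mul_mem ha hb) (inv_mem ha)) (inv_mem hb)) (by
    rw [pel_mul _ (mul_mem (mul_mem ha.1 hb.1) (inv_mem ha.1)) (inv_mem hb.1), pel_conj _ ha.1 hb.1, pel_inv _ hb.1,
      ea, eb, (cmC_iff.1 (by rw [code_perm22 u3, code_perm22 v3]; decide +kernel) : perm u3C * perm v3C = _)]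
    group)
  have c1 := cen (mul_mem (mul_mem (mul_mem hs ha) (inv_mem hs)) (inv_mem ha)) (by
    rw [pel_mul _ (mul_mem (mul_mem hs.1 ha.1) (inv_mem hs.1)) (inv_mem ha.1), pel_conj _ hs.1 ha.1, pel_inv _ ha.1,
      ea, es, (cmC_iff.1 (by rw [code_perm22 u3, code_perm' rf]; decide +kernel) : perm rfC * perm u3C = _)]
    group)
  have c2 := cen (mul_mem (mul_mem (mul_mem hs hb) (inv_mem hs)) hb) (by
    rw [pel_mul _ (mul_mem (mul_mem hs.1 hb.1) (inv_mem hs.1)) hb.1, pel_conj _ hs.1 hb.1, eb, es,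
      inv_eq_of_mul_eq_one_right (a := perm rfC) (b := perm rfC)
        (code_inj (by rw [code_mul, code_perm' rf, code_one]; decide +kernel))]
    exact code_inj (by simp only [code_mul, code_perm' rf, code_perm22 v3, code_one]; decide +kernel))
  have c3 := cen (pow_mem ha 3) (by rw [pel_pow _ ha.1, ea, ← u3_ord, pow_orderOf_eq_one])
  have ab : a * b = b * a := by
    generalize ec : a * b * a⁻¹ * b⁻¹ = c at cc
    generalize e1 : s * a * s⁻¹ * a⁻¹ = d at c1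
    generalize e2 : s * b * s⁻¹ * b = f at c2
    have r0 : a * b * a⁻¹ = c * b := by rw [← ec]; group
    have r1 : s * a * s⁻¹ = d * a := by rw [← e1]; group
    have r2 : s * b * s⁻¹ = f * b⁻¹ := by rw [← e2]; group
    have r3 : ∀ {x y : G}, Commute x y → y * x * y⁻¹ = x := fun e => by rw [← e.eq]; group
    have cm : ∀ g x y : G, g * (x * y) * g⁻¹ = (g * x * g⁻¹) * (g * y * g⁻¹) := fun g x y => by group
    have q3 : c ^ 3 = 1 := by
      have : a ^ 3 * b * (a ^ 3)⁻¹ = c ^ 3 * b := by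
        rw [show a ^ 3 * b * (a ^ 3)⁻¹ = a * (a * (a * b * a⁻¹) * a⁻¹) * a⁻¹ by
          simp only [pow_succ, pow_zero, one_mul, mul_inv_rev, mul_assoc], r0, cm a c b, r3 (cc a ha), r0,
          cm a c, cm a c b, r3 (cc a ha), r0]
        simp only [pow_succ, pow_zero, one_mul, mul_assoc]
      rw [(c3 b hb).eq, mul_inv_cancel_right] at this
      exact (mul_eq_right.1 this.symm)
    have q2 : c * c = 1 := by
      have t1 : s * (a * b * a⁻¹) * s⁻¹ = c * (f * b⁻¹) := by rw [r0, cm s c b, r3 (cc s hs), r2]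
      have t2 : s * (a * b * a⁻¹) * s⁻¹ = d * (a * (f * b⁻¹) * a⁻¹) * d⁻¹ := by
        rw [show s * (a * b * a⁻¹) * s⁻¹ = (s * a * s⁻¹) * (s * b * s⁻¹) * (s * a * s⁻¹)⁻¹ by group, r1, r2]; group
      have hf : f ∈ L := e2 ▸ mul_mem (mul_mem (mul_mem hs hb) (inv_mem hs)) hb
      rw [t1, r3 (c1 _ (mul_mem (mul_mem ha (mul_mem hf (inv_mem hb))) (inv_mem ha))).symm, cm a f, r3 (c2 a ha),
        ← conj_inv, r0, ← mul_assoc, (cc f hf).eq, mul_assoc, mul_right_inj, mul_inv_rev,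
        (cc b hb).inv_inv.symm.eq, mul_left_inj] at t2
      rw [← inv_eq_iff_mul_eq_one]; exact t2.symm
    rw [pow_succ, sq, q2, one_mul] at q3
    rw [q3, one_mul] at r0
    exact mul_inv_eq_iff_eq_mul.1 r0
  have hp : p ∈ L := ⟨h.p_mem, self_mem_cent1 p⟩
  have pc : p ∈ 𝐂(L) := mem_cent_iff_le_cent1.2 inf_le_right
  haveI : Fact (Nat.Prime 3) := ⟨Nat.prime_three⟩
  have pg : ∀ {x : G}, PiElt {3} x → IsPGroup 3 (zpowers x) := fun hx => by
    obtain ⟨k, hk⟩ := (piElt_singleton_iff Nat.prime_three).1 hx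
    exact IsPGroup.of_card (by rw [Nat.card_zpowers, hk])
  have cab : zpowers a ≤ 𝐂(zpowers b) := zpowers_le.2 (by rw [cent_zpowers]; exact mem_cent1_iff.2 ab)
  have abL : zpowers a ⊔ zpowers b ≤ L := sup_le (zpowers_le.2 ha) (zpowers_le.2 hb)
  have cp : zpowers p ≤ 𝐂(zpowers a ⊔ zpowers b) := zpowers_le.2 (cent_mono abL pc)
  have RL : zpowers p ⊔ (zpowers a ⊔ zpowers b) ≤ L := sup_le (zpowers_le.2 hp) abL
  have hS : SylowIn 3 (zpowers p ⊔ (zpowers a ⊔ zpowers b)) L := sylowIn_mk Nat.prime_three RL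
    (isPGroup_sup_of_norm (IsPGroup.of_card (n := 1) h.card_P) (isPGroup_sup_of_norm (pg a3) (pg b3)
      (cab.trans (centralizer_le_normalizer _))) (cp.trans (centralizer_le_normalizer _))) fun hd => by
    have d1 : Nat.card (zpowers p) ∣ Nat.card ↥(pker π ⊓ (zpowers p ⊔ (zpowers a ⊔ zpowers b))) :=
      card_dvd_of_le (le_inf (h.ker ▸ le_sup_right) le_sup_left)
    have m1 : perm u3C ∈ pmap π (zpowers p ⊔ (zpowers a ⊔ zpowers b)) :=
      ea ▸ pel_mem_pmap π (mem_sup_right (mem_sup_left (mem_zpowers a)))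
    have m2 : perm v3C ∈ pmap π (zpowers p ⊔ (zpowers a ⊔ zpowers b)) :=
      eb ▸ pel_mem_pmap π (mem_sup_right (mem_sup_right (mem_zpowers b)))
    rw [v3C, ← perm_mul' (in22_24 w3C_in) (inM24_mul (in22_24 u3) (in22_24 u3)),
      ← perm_mul' (in22_24 u3) (in22_24 u3), Subgroup.mul_mem_cancel_right _ (mul_mem m1 m1)] at m2
    have d2 : Nat.card A9 ∣ Nat.card (pmap π (zpowers p ⊔ (zpowers a ⊔ zpowers b))) :=
      card_dvd_of_le (sup_le (zpowers_le.2 m1) (zpowers_le.2 m2))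
    have d3 := Nat.mul_dvd_mul (Nat.mul_dvd_mul d1 d2) hd
    rw [card_pmap_mul π (RL.trans inf_le_left), card_mul_relIndex RL, h.card_P, card_A9] at d3
    have d4 := d3.trans (card_dvd_of_le (inf_le_left : L ≤ 𝐂[z]))
    rw [h.card_H] at d4
    norm_num at d4
  have := hS.inf_der_inf_cent_of_abelian (abelian_sup (abelian_zpowers p)
    (abelian_sup (abelian_zpowers a) (abelian_zpowers b) cab) cp)
  have e : p ∈ (⊥ : Subgroup G) := this ▸ ⟨⟨mem_sup_left (mem_zpowers p), h.p_der⟩, pc⟩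
  have o := h.p_ord
  rw [mem_bot.1 e, orderOf_one] at o; omega

end A0

theorem typeJ4_of_setting (τ : G) (Q N : Subgroup ↥𝐂[τ]) [Q.Normal] [N.Normal]
    (hS : IsExtraspecialCentralizerSetting τ Q 6) (hQN : Q ≤ N) (hN3 : Nat.card N = 3 * Nat.card Q)
    (hns : ∀ K : Subgroup ↥𝐂[τ], K ⊓ N = Q → K ⊔ N = ⊤ → False)
    (hAut : Nonempty (↥𝐂[τ] ⧸ N ≃* MulAut ↥Spor.M22)) : ∃ P, IsOfJankoFourTypeWith τ P := by
  obtain ⟨e⟩ := hAut
  have inj := subtype_injective 𝐂[τ]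
  have hF : FStar.fstar 𝐂[τ] = Q.map (𝐂[τ]).subtype := by rw [FStar.fstar, hS.2.1]
  have hE := isExtraspecial_iff.2 ((isExtraspecial_iff.1 hS.2.2.1).map inj)
  have lq : LQ (Q.map (𝐂[τ]).subtype) τ := lq_of_fstar hS.1 hF hE
  have eO : twoCoreOfCentralizer τ = Q.map (𝐂[τ]).subtype :=
    (FStar.fstar_eq_oP Nat.prime_two (hF ▸ lq.ez.pg)).symm.trans hF
  have cE : Nat.card (Q.map (𝐂[τ]).subtype) = 8192 := by rw [card_map_of_injective inj, hS.2.2.2.1]; rfl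
  have cN : Nat.card (N.map (𝐂[τ]).subtype) = 3 * Nat.card (Q.map (𝐂[τ]).subtype) := by
    rw [card_map_of_injective inj, card_map_of_injective inj, hN3]
  have h1 : Q.map (𝐂[τ]).subtype ≤ N.map (𝐂[τ]).subtype := map_mono hQN
  have h2 : N.map (𝐂[τ]).subtype ≤ 𝐂[τ] := map_subtype_le _
  have eN : (N.map (𝐂[τ]).subtype).subgroupOf 𝐂[τ] = N := comap_map_eq_self_of_injective inj N
  obtain ⟨p, hp, po⟩ := exists_orderOf_eq_prime (A := N.map (𝐂[τ]).subtype) Nat.prime_three (by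
    rw [cN]; exact Dvd.intro _ rfl)
  have hP : Nat.card (zpowers p) = 3 := by rw [Nat.card_zpowers, po]
  have h5 : zpowers p ≤ N.map (𝐂[τ]).subtype := zpowers_le.2 hp
  let π : ↥𝐂[τ] →* Pm := D2.subtype.comp (autEquiv.symm.toMonoidHom.comp
    (e.toMonoidHom.comp (QuotientGroup.mk' N)))
  have hi : Q.map (𝐂[τ]).subtype ⊓ zpowers p = ⊥ := inf_eq_bot_of_odd lq.ez.pg (by rw [hP]; decide)
  have nP : zpowers p ≤ 𝐍(Q.map (𝐂[τ]).subtype) := h5.trans (h2.trans lq.le_norm)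
  have hN : Q.map (𝐂[τ]).subtype ⊔ zpowers p = N.map (𝐂[τ]).subtype := by
    apply eq_of_le_of_card_eq (sup_le h1 h5)
    rw [card_sup_of_disjoint (Or.inl nP) hi, hP, cN, mul_comm]
  have hr : π.range = D2 := by
    ext g
    constructor
    · rintro ⟨x, rfl⟩; exact (autEquiv.symm _).2
    · intro hg
      obtain ⟨y, hy⟩ := QuotientGroup.mk'_surjective N (e.symm (autEquiv ⟨g, hg⟩))
      refine ⟨y, ?_⟩
      show D2.subtype (autEquiv.symm (e (QuotientGroup.mk' _ y))) = g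
      rw [hy, MulEquiv.apply_symm_apply, MulEquiv.symm_apply_apply]; rfl
  have hk : pker π = N.map (𝐂[τ]).subtype := by
    ext x
    rw [mem_pker]
    constructor
    · rintro ⟨hx, e1⟩
      rw [pel_of_mem _ hx] at e1
      exact ⟨⟨x, hx⟩, by simpa [π] using e1, rfl⟩
    · rintro ⟨x, hx, rfl⟩
      exact ⟨x.2, by rw [coe_subtype, pel_coe]; simpa [π] using hx⟩
  have h : A0 τ p (Q.map (𝐂[τ]).subtype) π := ⟨lq, cE, po, h2 hp, hr, hk.trans hN.symm, fun K hK h3 h4 => by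
    by_contra hpK
    refine hns (K.subgroupOf 𝐂[τ]) (map_injective inj ?_) (map_injective inj ?_)
    · rw [map_inf _ _ _ inj, subgroupOf_map_subtype, inf_eq_left.2 hK, ← hN, dedekind_left' (Or.inl nP) h3]
      refine sup_eq_left.2 fun x hx => ?_
      by_cases x1 : x = 1
      · rw [x1]; exact one_mem _
      · exact absurd (zpowers_le.2 hx.1 (eq_zpowers_of_prime_card (by rw [hP]; norm_num) hx.2 x1 ▸ mem_zpowers p)) hpK
    · rw [Subgroup.map_sup, subgroupOf_map_subtype, inf_eq_left.2 hK, ← MonoidHom.range_eq_map, range_subtype, ← hk,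
        sup_comm]
      exact le_antisymm (sup_le (pker_le_dom π) hK) ((pmap_le_pmap_iff le_rfl hK).1 (by rwa [pmap_dom, hr]))⟩
  refine ⟨zpowers p, hS.1, eO ▸ hE, eO ▸ cE, ?_, ⟨N.map (𝐂[τ]).subtype, eO ▸ h1, h2, hk ▸ (pker_normalIn π).2,
    eO ▸ cN, ?_, h5⟩, hP, ?_, ?_, ?_⟩
  · rw [eO]; exact inf_le_right.trans (lq.cent_eq.le.trans lq.ez.zp_le)
  · rw [eN]; exact ⟨inferInstance, ⟨e⟩⟩
  · rw [eO]; exact (congrArg _ (cent_zpowers p)).trans h.fpf
  · have := h.inv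
    rwa [← cent_zpowers p] at this
  · have := h.p_der
    rw [← cent_zpowers p] at this
    exact zpowers_le.2 this

end CA.J4
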