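import Cfsg.Agent.Lib.J4.Bru
import Cfsg.Agent.S0283

/-!
A Bruhat presentation of `U₃(11)`.
-/

set_option autoImplicit false
set_option linter.unusedSectionVars false
set_option linter.unusedVariables false
set_option maxRecDepth 100000

namespace CA.BM.U3
open CA.Gol CA.J4 Matrix Cfsg Subgroup

def cM (a b : ℕ × ℕ) : ℕ × ℕ :=
  (Nat.add (Nat.mul a.1 b.1) (Nat.mul 10 (Nat.mul a.2 b.2)), Nat.add (Nat.mul a.1 b.2) (Nat.mul a.2 b.1))
def cA (a b : ℕ × ℕ) : ℕ × ℕ := (Nat.add a.1 b.1, Nat.add a.2 b.2)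
/-- packing of field elements -/
def pk (l : List (ℕ × ℕ)) : ℕ :=
  List.rec 0 (fun a _ r => Nat.add (Nat.add (Nat.mod a.1 11) (Nat.mul 16 (Nat.mod a.2 11))) (Nat.mul 256 r)) l
/-- the entries -/
def en (A m : ℕ) : ℕ × ℕ :=
  (Nat.mod (Nat.shiftRight A (Nat.mul 8 m)) 16, Nat.mod (Nat.div (Nat.shiftRight A (Nat.mul 8 m)) 16) 16)
def mk9 (f : ℕ → ℕ → ℕ × ℕ) : ℕ := pk [f 0 0, f 0 1, f 0 2, f 1 0, f 1 1, f 1 2, f 2 0, f 2 1, f 2 2]
def e2 (A i j : ℕ) : ℕ × ℕ := en A (Nat.add (Nat.mul 3 i) j)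
/-- the product -/
def mC (A B : ℕ) : ℕ := force A fun A => force B fun B => mk9 fun i k =>
  cA (cA (cM (e2 A i 0) (e2 B 0 k)) (cM (e2 A i 1) (e2 B 1 k))) (cM (e2 A i 2) (e2 B 2 k))
/-- scalar matrices -/
def sC (a : ℕ × ℕ) : ℕ := mk9 fun i j => cn (Nat.beq i j) a (0, 0)
def oC : ℕ := nat_lit 0x10000000100000001
def dC (A : ℕ) : ℕ × ℕ := cA (cA (cA (cM (cM (e2 A 0 0) (e2 A 1 1)) (e2 A 2 2)) (cM (cM (e2 A 0 1) (e2 A 1 2)) (e2 A 2 0)))
  (cM (cM (e2 A 0 2) (e2 A 1 0)) (e2 A 2 1))) (cM (10, 0) (cA (cA (cM (cM (e2 A 0 0) (e2 A 1 2)) (e2 A 2 1))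
  (cM (cM (e2 A 0 1) (e2 A 1 0)) (e2 A 2 2))) (cM (cM (e2 A 0 2) (e2 A 1 1)) (e2 A 2 0))))
/-- special unitary matrices -/
def suC (A : ℕ) : Bool := Nat.beq (mC (mk9 fun i j => e2 A j i) (mk9 fun i j => ((e2 A i j).1, 10 * (e2 A i j).2))) oC &&
  Nat.beq (pk [dC A]) 1
/-- non-commuting matrices -/
def ncC (A B : ℕ) : Bool := !(Nat.beq ((e2 (mC A B) 0 0).1 % 11) ((e2 (mC B A) 0 0).1 % 11))

theorem en_pk (l : List (ℕ × ℕ)) : ∀ m, en (pk l) m = ((l.getD m (0, 0)).1 % 11, (l.getD m (0, 0)).2 % 11) := by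
  induction l with
  | nil => intro m; simp [en, pk]
  | cons a l ih =>
    intro m
    have e : pk (a :: l) = a.1 % 11 + 16 * (a.2 % 11) + 256 * pk l := rfl
    rcases m with _ | m
    · show (pk (a :: l) % 16, pk (a :: l) / 16 % 16) = (a.1 % 11, a.2 % 11)
      rw [e, Prod.mk.injEq]; omega
    · rw [List.getD_cons_succ, ← ih]
      show ((pk (a :: l) >>> (8 * (m + 1))) % 16, (pk (a :: l) >>> (8 * (m + 1))) / 16 % 16) =
        ((pk l >>> (8 * m)) % 16, (pk l >>> (8 * m)) / 16 % 16)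
      rw [show 8 * (m + 1) = 8 + 8 * m by ring, Nat.shiftRight_add, Nat.shiftRight_eq_div_pow _ 8,
        show pk (a :: l) / 2 ^ 8 = pk l by rw [e]; omega]

variable {F : Type*} [Field F] [CharP F 11] (ι : F)

/-- the coded field element -/
def vl (a : ℕ × ℕ) : F := a.1 + a.2 * ι
/-- the coded matrix -/
def mu (A : ℕ) : Matrix (Fin 3) (Fin 3) F := Matrix.of fun i j => vl ι (e2 A i j)

theorem vl_mod (a : ℕ × ℕ) : vl ι (a.1 % 11, a.2 % 11) = vl ι a := by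
  simp only [vl, ← CharP.cast_eq_mod F 11]
theorem vl_cA (a b : ℕ × ℕ) : vl ι (cA a b) = vl ι a + vl ι b := by
  show ((a.1 + b.1 : ℕ) : F) + ((a.2 + b.2 : ℕ) : F) * ι = _
  simp only [vl]; push_cast; ring
theorem mu_mk9 (f : ℕ → ℕ → ℕ × ℕ) : mu ι (mk9 f) = Matrix.of fun i j : Fin 3 => vl ι (f i j) := by
  ext i j
  rw [mu, of_apply, of_apply, e2, mk9, en_pk, vl_mod]
  fin_cases i <;> fin_cases j <;> rfl
theorem mu_sC (a : ℕ × ℕ) : mu ι (sC a) = Matrix.scalar (Fin 3) (vl ι a) := by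
  rw [sC, mu_mk9]
  ext i j
  fin_cases i <;> fin_cases j <;> simp [vl, cn, Nat.beq]
theorem mu_oC : mu ι oC = 1 := by
  rw [show oC = sC (1, 0) by decide +kernel, mu_sC]; simp [vl]

variable {ι} (hι : ι * ι = -1)
include hι

theorem vl_cM (a b : ℕ × ℕ) : vl ι (cM a b) = vl ι a * vl ι b := by
  show ((a.1 * b.1 + 10 * (a.2 * b.2) : ℕ) : F) + ((a.1 * b.2 + a.2 * b.1 : ℕ) : F) * ι = _
  have h : (11 : F) = 0 := by exact_mod_cast CharP.cast_eq_zero F 11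
  simp only [vl]; push_cast
  linear_combination (a.2 * b.2 : F) * h - (a.2 * b.2 : F) * hι

theorem mu_mC (A B : ℕ) : mu ι (mC A B) = mu ι A * mu ι B := by
  rw [mC, force_eq, force_eq, mu_mk9]
  ext i k
  rw [of_apply, vl_cA, vl_cA, vl_cM hι, vl_cM hι, vl_cM hι, Matrix.mul_apply, Fin.sum_univ_three]
  rfl

theorem vl_inj {a b : ℕ × ℕ} (h : vl ι a = vl ι b) : a.1 % 11 = b.1 % 11 := by
  have k : ∀ x y : ZMod 11, x * x + y * y = 0 → x = 0 := by decide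
  haveI : Fact (Nat.Prime 11) := ⟨by norm_num⟩
  have := k (a.1 - b.1) (a.2 - b.2) ((ZMod.castHom (dvd_refl 11) F).injective (by
    simp only [vl] at h
    rw [map_add, map_mul, map_mul, map_sub, map_sub, map_natCast, map_natCast, map_natCast, map_natCast, map_zero]
    linear_combination ((a.1 : F) - b.1 - (a.2 - b.2) * ι) * h + ((a.2 : F) - b.2) ^ 2 * hι))
  exact (ZMod.natCast_eq_natCast_iff' _ _ _).1 (sub_eq_zero.1 this)

/-- the matrix of an element of `SU₃` -/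
def toM (F : Type*) [Field F] : Cfsg.SU 3 F 11 →* Matrix (Fin 3) (Fin 3) F := (slToMat 3 F).comp (Cfsg.SU 3 F 11).subtype

omit hι in
theorem toM_inj : Function.Injective (toM F) := fun _ _ h => Subtype.ext (Subtype.ext h)

theorem exists_su {A : ℕ} (h : suC A = true) : ∃ g, toM F g = mu ι A := by
  haveI : Fact (Nat.Prime 11) := ⟨by norm_num⟩
  have h11 : (11 : F) = 0 := by exact_mod_cast CharP.cast_eq_zero F 11
  rw [suC, Bool.and_eq_true, beq_iff, beq_iff] at h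
  have d : (mu ι A).det = 1 := by
    have := vl_mod ι (dC A)
    rw [show ((dC A).1 % 11, (dC A).2 % 11) = (1, 0) from (en_pk [dC A] 0).symm.trans (by rw [h.2]; rfl), dC] at this
    simp only [vl_cA, vl_cM hι] at this
    rw [det_fin_three]
    simp only [mu, of_apply, Fin.val_zero, Fin.val_one, Fin.val_two]
    rw [show vl ι (10, 0) = -1 by simp only [vl]; push_cast; linear_combination h11, show vl ι (1, 0) = 1 by simp [vl]] at this
    linear_combination -this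
  have u : (mu ι A)ᵀ * (mu ι A).map (frobenius F 11) = 1 := by
    rw [← mu_oC ι, ← h.1, mu_mC hι, mu_mk9, mu_mk9]
    congr 1
    ext i j
    simp only [mu, vl, map_apply, of_apply, map_add, map_mul, map_natCast]
    rw [frobenius_def]; push_cast
    linear_combination ((e2 A i j).2 * (ι ^ 9 - ι ^ 7 + ι ^ 5 - ι ^ 3 + ι) : F) * hι - ((e2 A i j).2 * ι : F) * h11
  refine ⟨⟨⟨mu ι A, d⟩, fun x y => ?_⟩, rfl⟩
  show (mu ι A *ᵥ x) ⬝ᵥ (frobenius F 11 ∘ (mu ι A *ᵥ y)) = x ⬝ᵥ (frobenius F 11 ∘ y)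
  rw [show frobenius F 11 ∘ (mu ι A *ᵥ y) = _ from funext (RingHom.map_mulVec (frobenius F 11) (mu ι A) y),
    dotProduct_mulVec, ← vecMul_transpose, vecMul_vecMul, u, vecMul_one]

theorem mk_ne_one {g k : Cfsg.SU 3 F 11} {A B : ℕ} (e : toM F g = mu ι A) (e' : toM F k = mu ι B) (h : ncC A B = true) :
    (g : PSU 3 F 11) ≠ 1 := fun c => by
  have := congrArg (toM F) (mem_center_iff.1 ((QuotientGroup.eq_one_iff g).1 c) k)
  rw [map_mul, map_mul, e, e', ← mu_mC hι, ← mu_mC hι] at this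
  rw [ncC, Bool.not_eq_true', beq_false_iff] at h
  exact h (vl_inj hι (congrFun (congrFun this 0) 0)).symm

omit hι in
theorem mk_eq_one {g : Cfsg.SU 3 F 11} {a : ℕ × ℕ} (e : toM F g = mu ι (sC a)) : (g : PSU 3 F 11) = 1 :=
  (QuotientGroup.eq_one_iff g).2 (mem_center_iff.2 fun k => toM_inj (by
    rw [map_mul, map_mul, e, mu_sC]; exact ((scalar_commute _ (fun _ => Commute.all _ _) _).eq).symm))

omit hι

/-- the presentation -/
def DU : Bru where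
  n := 3
  pc := [(11, [], []),
    (11, [], [[(0, 1)]]),
    (11, [], [[(0, 1)], [(1, 1), (0, 1)]]),
    (40, [], [[(0, 6)], [(2, 1)], [(0, 3), (1, 5), (2, 10)]])]
  k := 109
  w2 := []
  reps := [
    ([(1, 8)], [(1, 3)], [(1, 3)], 40),
    ([(1, 3), (2, 3)], [(0, 2), (1, 1), (2, 10), (3, 2)], [(0, 4), (1, 1), (2, 3)], 40),
    ([(1, 1), (2, 3)], [(0, 10), (1, 4), (2, 3), (3, 45)], [(0, 1), (1, 10), (2, 6)], 40),
    ([(0, 1), (1, 3), (2, 2)], [(0, 1), (2, 4), (3, 31)], [(0, 2), (1, 2), (2, 1)], 40),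
    ([(0, 4), (1, 1), (2, 9)], [(0, 8), (1, 1), (2, 4), (3, 10)], [(1, 4), (2, 8)], 40),
    ([(0, 6), (1, 1), (2, 3)], [(0, 4), (1, 1), (2, 4), (3, 19)], [(0, 2), (1, 4)], 40),
    ([(0, 8), (1, 9), (2, 2)], [(1, 4), (2, 4), (3, 22)], [(0, 4), (1, 2), (2, 1)], 40),
    ([(0, 2), (1, 3), (2, 1)], [(0, 3), (1, 5), (2, 6), (3, 9)], [(0, 8), (1, 1), (2, 7)], 40),
    ([(1, 6), (2, 10)], [(0, 4), (2, 2), (3, 71)], [(0, 2), (1, 1), (2, 7)], 40),
    ([(1, 10), (2, 1)], [(0, 1), (1, 9), (2, 1), (3, 83)], [(0, 2), (1, 1)], 40),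
    ([(0, 5)], [(0, 2), (3, 18)], [(0, 2)], 10),
    ([(0, 3), (2, 5)], [(1, 9), (2, 4), (3, 1)], [(0, 1), (1, 2), (2, 8)], 40),
    ([(0, 6), (1, 1)], [(0, 1), (1, 2), (2, 2), (3, 9)], [(0, 10), (2, 9)], 40),
    ([(0, 6), (1, 3), (2, 6)], [(0, 1), (1, 5), (2, 6), (3, 5)], [(1, 1), (2, 6)], 40),
    ([(0, 1), (2, 6)], [(0, 9), (1, 1), (2, 3), (3, 4)], [(0, 7), (1, 10), (2, 1)], 40),
    ([(0, 5), (1, 4)], [(0, 1), (1, 8), (2, 7), (3, 10)], [(0, 8), (1, 1), (2, 4)], 40),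
    ([(0, 8), (1, 3), (2, 7)], [(0, 1), (1, 2), (2, 8), (3, 1)], [(0, 4), (1, 3)], 40),
    ([(0, 7), (1, 8), (2, 1)], [(0, 2), (1, 8), (2, 5), (3, 1)], [(1, 9), (2, 4)], 40),
    ([(0, 6), (1, 5), (2, 1)], [(1, 3), (2, 9), (3, 3)], [(0, 1), (1, 5), (2, 8)], 40),
    ([(0, 5), (1, 4), (2, 2)], [(0, 8), (2, 4), (3, 2)], [(0, 2), (1, 10), (2, 1)], 40),
    ([(0, 3), (1, 1), (2, 8)], [(1, 6), (2, 3), (3, 29)], [(0, 2), (2, 1)], 40),
    ([(0, 2), (1, 7), (2, 5)], [(0, 4), (1, 1), (2, 3), (3, 2)], [(0, 8), (2, 4)], 40),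
    ([(0, 7), (1, 4), (2, 1)], [(0, 4), (1, 1), (3, 17)], [(1, 3), (2, 1)], 40),
    ([(0, 1), (1, 10), (2, 1)], [(0, 6), (1, 7), (2, 6), (3, 15)], [(1, 1), (2, 8)], 40),
    ([(0, 2), (1, 1), (2, 1)], [(0, 3), (1, 1), (2, 7), (3, 68)], [(0, 8), (1, 1), (2, 6)], 40),
    ([(0, 9), (1, 6), (2, 3)], [(0, 1), (1, 2), (2, 1), (3, 36)], [(0, 1), (1, 2), (2, 1)], 40),
    ([(0, 2), (1, 2), (2, 4)], [(0, 9), (1, 1), (2, 1), (3, 3)], [(0, 3), (2, 1)], 40),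
    ([(0, 4), (1, 3), (2, 1)], [(0, 4), (1, 1), (2, 2), (3, 40)], [(0, 2), (1, 2), (2, 10)], 40),
    ([(0, 3), (1, 2), (2, 6)], [(0, 3), (2, 3), (3, 20)], [(0, 1), (1, 9), (2, 2)], 40),
    ([(0, 8), (2, 5)], [(0, 4), (1, 2), (2, 8), (3, 11)], [(0, 3), (1, 9), (2, 4)], 40),
    ([(0, 3), (1, 3)], [(0, 2), (1, 5), (2, 4), (3, 55)], [(0, 1), (1, 1), (2, 7)], 40),
    ([(0, 1), (1, 5), (2, 7)], [(0, 1), (1, 6), (2, 4)], [(0, 1), (1, 6), (2, 4)], 40),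
    ([(0, 8), (1, 1), (2, 6)], [(0, 1), (1, 5), (2, 2), (3, 52)], [(0, 2), (1, 1), (2, 1)], 40),
    ([(0, 7), (1, 3), (2, 2)], [(0, 2), (1, 2), (2, 7), (3, 8)], [(0, 6), (1, 3)], 40)]

theorem okU : DU.ok = true := by decide +kernel

theorem card_U {Ω : Type*} [Group Ω] [Finite Ω] {t : ℕ → Ω} (h : Hold t DU.rels) (h0 : t 0 ≠ 1) :
    Nat.card (Sg t 3) = 11 ^ 3 := by
  haveI : Fact (Nat.Prime 11) := ⟨by norm_num⟩
  have a0 := h ([(0, 11)], []) (by decide +kernel)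
  have a1 := h ([(1, 11)], []) (by decide +kernel)
  have a2 := h ([(2, 11)], []) (by decide +kernel)
  have b1 := h ([(1, 1), (0, 1)], [(0, 1), (1, 1)]) (by decide +kernel)
  have b2 := h ([(2, 1), (0, 1)], [(0, 1), (2, 1)]) (by decide +kernel)
  have b3 := h ([(2, 1), (1, 1)], [(1, 1), (0, 1), (2, 1)]) (by decide +kernel)
  simp only [wv_cons, wv_nil, mul_one, pow_one] at a0 a1 a2 b1 b2 b3
  refine (heis (by norm_num) (by norm_num) (orderOf_eq_prime a1 fun e => h0 ?_) (orderOf_eq_prime a2 fun e => h0 ?_)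
    (orderOf_eq_prime a0 h0) (mem_cent1_iff.2 b1) (mem_cent1_iff.2 b2) (by rw [b3]; group) ?_).1
  · simpa [e] using b3
  · simpa [e] using b3
  · rw [Sg_succ, Sg_succ, Sg_succ, show Sg t 0 = ⊥ from eq_bot_iff.2 (Sg_le fun _ h => nomatch h), bot_sup_eq]

/-- the generators, and an element of order `37` -/
def TU (i : ℕ) : ℕ := [nat_lit 0x911758148188538351, nat_lit 0x409449581569173a69, nat_lit 0x2672965493aa223505, nat_lit 0x2554993483981a9989, nat_lit 0x613a8a30208180802, nat_lit 0x5552471a0256168696].getD i oC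

theorem cs (i : ℕ) : suC (TU i) = true := by
  rcases i with _ | _ | _ | _ | _ | _ | i
  iterate 6 decide +kernel
  exact (by decide +kernel : suC oC = true)
theorem c1 : chkR mC oC TU (DU.rels.take 8) = true := by decide +kernel
theorem c2 : chkR mC oC TU ((DU.rels.drop 8).drop 1) = true := by decide +kernel
theorem c3 : (DU.rels.drop 8).take 1 = [([(3, 40)], [])] := by decide +kernel
theorem c4 : evG mC oC TU [(3, 40)] oC = sC (5, 3) := by decide +kernel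
theorem c5 : chkR mC oC TU [([(5, 1)], [(1, 1), (3, 2), (4, 1)]), ([(5, 37)], [])] = true := by decide +kernel
theorem c6 : ncC (evG mC oC TU [(3, 20)] oC) (TU 1) = true ∧ ncC (evG mC oC TU [(3, 8)] oC) (TU 0) = true ∧
    ncC (TU 0) (TU 3) = true ∧ ncC (TU 5) (TU 0) = true := by decide +kernel

theorem card_psu3 [Fintype F] (hF : Fintype.card F = 11 ^ 2) : Nat.card (PSU 3 F 11) = 70915680 := by
  letI := Cl.starRingOfCard hF
  have := Unit.card_psu (Cl.isFq2_starRingOfCard hF) (n := 3) (by norm_num)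
  simp only [Finset.prod_range_succ, Finset.range_zero, Finset.prod_empty] at this
  norm_num at this
  omega

theorem gen_top {Γ : Type*} [Group Γ] [Finite Γ] [IsSimpleGroup Γ] (hc : Nat.card Γ = 70915680) {Y : Subgroup Γ}
    (d1 : 11 ^ 3 ∣ Nat.card Y) (d2 : 40 ∣ Nat.card Y) (d3 : 37 ∣ Nat.card Y) : Y = ⊤ := by
  refine top_of_index (p := 37) (by norm_num) (by rw [hc]; norm_num) ?_
  have := Nat.le_of_dvd Nat.card_pos (Nat.Coprime.mul_dvd_of_dvd_of_dvd (by norm_num)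
    (Nat.Coprime.mul_dvd_of_dvd_of_dvd (by norm_num) d1 d2) d3)
  have e := card_mul_index Y
  rw [hc] at e
  by_contra c
  have := Nat.mul_le_mul this (not_lt.1 c)
  omega

theorem model0 [Fintype F] (hF : Fintype.card F = 11 ^ 2) :
    ∃ γ : ℕ → PSU 3 F 11, Hold γ DU.rels ∧ Sg γ 5 = ⊤ ∧ orderOf (γ 3) = 40 := by
  haveI : Fact (Nat.Prime 37) := ⟨by norm_num⟩
  obtain ⟨ι, hι⟩ := Cl.exists_isPrimitiveRoot_of_dvd (K := F) (d := 4) (by rw [hF]; norm_num)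
  replace hι : ι * ι = -1 := by rw [← pow_two]; exact (hι.pow (by norm_num) (show 4 = 2 * 2 from rfl)).eq_neg_one_of_two_right
  haveI := Agent.S0283.result hF 3 le_rfl (by norm_num)
  choose g hg using fun i => exists_su hι (cs i)
  obtain ⟨γ, hγ⟩ : ∃ γ : ℕ → PSU 3 F 11, ∀ i, γ i = g i := ⟨_, fun _ => rfl⟩
  have hd : ∀ R, chkR mC oC TU R = true → Hold γ R := fun R h => funext hγ ▸
    ((hold_of_chkR (mu_mC hι) (mu_oC ι) h).of_inj (toM F) toM_inj hg).map (QuotientGroup.mk' _)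
  have ev : ∀ i n, toM F (g i ^ n) = mu ι (evG mC oC TU [(i, n)] oC) := fun i n => by
    rw [evG_spec (mu_mC hι) (mu_oC ι), mu_oC, one_mul, wv_cons, wv_nil, mul_one, map_pow, hg]
  have p40 : γ 3 ^ 40 = 1 := by rw [hγ, ← QuotientGroup.mk_pow]; exact mk_eq_one ((ev 3 40).trans (congrArg _ c4))
  have H : Hold γ DU.rels := Hold.split 8 (hd _ c1) (Hold.split 1 (fun r hr => by
    rw [c3, List.mem_singleton] at hr
    rw [hr, wv_cons, wv_nil, mul_one, p40]) (hd _ c2))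
  have o40 : orderOf (γ 3) = 40 := orderOf_eq_of_pow_and_pow_div_prime (by norm_num) p40 fun p hp h => by
    have := Nat.le_of_dvd (by norm_num) h
    rw [hγ, ← QuotientGroup.mk_pow]
    obtain rfl | rfl : p = 2 ∨ p = 5 := by interval_cases p <;> simp_all (config := {decide := true})
    · exact mk_ne_one hι (ev 3 20) (hg _) c6.1
    · exact mk_ne_one hι (ev 3 8) (hg _) c6.2.1
  have k1 := hd _ c5 _ List.mem_cons_self
  have k2 := hd _ c5 _ (List.mem_cons_of_mem _ List.mem_cons_self)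
  rw [wv_cons, wv_nil, mul_one] at k1 k2
  rw [pow_one] at k1
  refine ⟨γ, H, gen_top (card_psu3 hF) ?_ (o40 ▸ orderOf_dvd_natCard _ (mem_Sg (by norm_num))) ?_, o40⟩
  · rw [← card_U H (hγ 0 ▸ mk_ne_one hι (hg 0) (hg _) c6.2.2.1)]
    exact card_dvd_of_le (Sg_le fun i hi => mem_Sg (by omega))
  · rw [← (orderOf_eq_prime k2 (hγ 5 ▸ mk_ne_one hι (hg 5) (hg _) c6.2.2.2) : orderOf (γ 5) = 37)]
    exact orderOf_dvd_natCard _ (show γ 5 ∈ _ from k1.symm ▸ wv_mem (by decide))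

theorem model : ∃ (F : Type) (_ : Field F) (_ : Fintype F), Fintype.card F = 11 ^ 2 ∧ CharP F 11 := by
  haveI : Fact (Nat.Prime 11) := ⟨by norm_num⟩
  letI : Fintype (GaloisField 11 2) := Fintype.ofFinite _
  exact ⟨GaloisField 11 2, inferInstance, inferInstance, by
    rw [← Nat.card_eq_fintype_card]; exact GaloisField.card 11 2 (by norm_num), inferInstance⟩

end CA.BM.U3
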