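import Cfsg.Agent.Lib.J4.Tau

/-!
The subgroup `V = 2^11` of `H`: coordinates, uniqueness, normalizer in `H`.
-/

set_option autoImplicit false
set_option linter.unusedSectionVars false

namespace CA.J4
open Cfsg CA.Gol CA.Ex2 CA.Core Subgroup
open scoped Pointwise

variable {G : Type*} [Group G] {E : Subgroup G} {z p s : G} {c : ℕ → G}

/-- the `E`-part of a code of an element of `V` -/
def uc (n : ℕ) : ℕ := Nat.xor (Nat.land n 63) (Nat.shiftLeft (Nat.shiftRight n 10) 12)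
/-- the hexad group part -/
def al (n : ℕ) : ℕ := Nat.land (Nat.shiftRight n 6) 15
/-- code of an element of `V` from its parts -/
def cmb (e a : ℕ) : ℕ := Nat.xor (Nat.xor (Nat.land e 63) (Nat.shiftLeft a 6)) (Nat.shiftLeft (Nat.shiftRight e 12) 10)
/-- the element of `V` with a given code -/
def vv (c τ : ℕ → G) (n : ℕ) : G := c (uc n) * τ (al n)

theorem al_lt (n : ℕ) : al n < 16 := lt_of_le_of_lt Nat.and_le_right (by norm_num)
theorem uc_xor (a b : ℕ) : uc (a ^^^ b) = uc a ^^^ uc b := by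
  show ((a ^^^ b) &&& 63) ^^^ (((a ^^^ b) >>> 10) <<< 12) = ((a &&& 63) ^^^ ((a >>> 10) <<< 12)) ^^^
    ((b &&& 63) ^^^ ((b >>> 10) <<< 12))
  rw [Nat.and_xor_distrib_right, Nat.shiftRight_xor_distrib, Nat.shiftLeft_xor_distrib]
  ac_rfl
theorem al_xor (a b : ℕ) : al (a ^^^ b) = al a ^^^ al b := by
  show ((a ^^^ b) >>> 6) &&& 15 = ((a >>> 6) &&& 15) ^^^ ((b >>> 6) &&& 15)
  rw [Nat.shiftRight_xor_distrib, Nat.and_xor_distrib_right]

theorem uc_chk : allLt (fun n => force (uc n) fun e => Nat.blt e 8192 && Nat.blt (Nat.mod e 4096) 64 &&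
    Nat.beq (cmb e (al n)) n) 2048 = true := by decide +kernel
theorem uc_lt {n : ℕ} (hn : n < 2048) : uc n < 8192 ∧ uc n % 4096 < 64 ∧ cmb (uc n) (al n) = n := by
  have := allLt_iff.1 uc_chk n hn
  simp only [force_eq, Bool.and_eq_true, blt_iff, beq_iff] at this
  exact ⟨this.1.1, this.1.2, this.2⟩

theorem cmb_chk : allLt (fun e => !(Nat.blt (Nat.mod e 4096) 64) || allLt (fun a => force (cmb e a) fun n =>
    Nat.blt n 2048 && Nat.beq (uc n) e && Nat.beq (al n) a && Nat.beq (lin (nth TM a) e) e) 16) 8192 = true := by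
  decide +kernel
theorem cmb_spec {e a : ℕ} (he : e < 8192) (h : e % 4096 < 64) (ha : a < 16) :
    cmb e a < 2048 ∧ uc (cmb e a) = e ∧ al (cmb e a) = a ∧ lin (nth TM a) e = e := by
  have := allLt_iff.1 cmb_chk e he
  rw [(blt_iff (a := Nat.mod e 4096)).2 h, Bool.not_true, Bool.false_or] at this
  have := allLt_iff.1 this a ha
  simp only [force_eq, Bool.and_eq_true, blt_iff, beq_iff] at this
  exact ⟨this.1.1.1, this.1.1.2, this.1.2, this.2⟩

theorem bb_U {a b : ℕ} (ha : a < 64) (hb : b < 64) : bil BB a b = 0 := by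
  have : allLt (fun a => allLt (fun b => Nat.beq (bil BB a b) 0) 64) 64 = true := by decide +kernel
  exact beq_iff.1 (allLt_iff.1 (allLt_iff.1 this a ha) b hb)

theorem sq_cj {X : Subgroup G} (h2 : ∀ x ∈ X, x * x = 1) (k : G) : ∀ x ∈ cj k X, x * x = 1 := fun x hx => by
  obtain ⟨u, hu, rfl⟩ := mem_cj'.1 hx
  rw [conj_mul, h2 u hu]; simp

theorem piGrp_of_sq [Finite G] {X : Subgroup G} (h2 : ∀ x ∈ X, x * x = 1) : PiGrp {2} X :=
  IsPGroup.piGrp (fun x => ⟨1, Subtype.ext (by simpa [pow_two] using h2 x x.2)⟩) Nat.prime_two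

theorem mem_cj_of_fix {X : Subgroup G} {k x : G} (e : k * x * k⁻¹ = x) (hx : x ∈ X) : x ∈ cj k X := by
  have := conj_mem_cj (g := k).2 hx
  rwa [e] at this

theorem xor11 {a b : ℕ} (ha : a < 2048) (hb : b < 2048) : a ^^^ b < 2048 := xor_lt' (n := 11) ha hb

/-- matrices of the coset representatives -/
def HM : List ℕ := [
  0x10000383024201a5035f0bdc06b80e5c09f80c7608ed0e6d09db, 0x1000014703ce0dba0b650d860b4d0c07080e0fe00a9005770fee, 
  0x10000016003d0ff80aa40df40bac032902170b6506df0dbe0b69, 0x1000053e0f2907e90e970e9209710011003305700fe00f580af4, 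
  0x10000f9e0a790f000a0000f600ad097507ef000a0005066f0dda, 0x100003f202a10e6009d007a40e5c066f0dda0dd00bb00f1a0a35, 
  0x1000001300320024001c00100030084004c00bc0068004400cc0, 0x100002a801540d640bdc0c37082e0a280514033b0226039d027b, 
  0x1000002c00180aaa05550b5506ff0e2109130bce06890f3c0a28, 0x1000035002f00d5d0bfb039d027b05af0f5a056f0fda00330022, 
  0x1000016a03d506580df4066a0dd505050f0f02310123026c01d8, 0x10000d000b00069e0d79005d00fb000100030af505af0e9a0975, 
  0x1000052f0f1a0c5a08f5034f02ca00e7009e0f790ae7058f0f4a, 0x100007870e4e00120031059c0f780a7905e7049e0c7908830442, 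
  0x10000ae5059f058e0f4900cd008b097b07e60ba6065d0005000f, 0x100007950e7f03aa02550e4809c4017e03e906380d240217013e, 
  0x10000b94067c0dd50bbf0115033f0f7b0ae60ac6058d02dd01bb, 0x1000078c0e48014703ce09ec079807ee0e99000e00090a900570, 
  0x10000dda0bb50ab5056f002b001607e50e9f00d100b307e30e92, 0x1000058f0f4a013e03290f690ad706cf0d8a0db20b610b030602, 
  0x10000fc50a8f0f9e0a790fe70a9e07e50e9f0dd00bb00005000f, 0x100006760ded0bb5066f01c0038008e7049e00b8006403e7029e, 
  0x10000b8806440bac065806890d4705be0f6908c00480059d0f7b, 0x1000064e0dc90016003d0a8f054a097207e1000c000806df0dba, 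
  0x10000f6a0ad502bf016a058d0f4b06170d3e017e03e902310123, 0x10000cbb086607690ed70c4008c000210013059e0f7906790de7, 
  0x10000bd206b10e4e09c907a40e5c03e7029e00b8006408e7049e, 0x100002a801540e0d090b04c80c84069e0d79090007000a3f052a, 
  0x100007e10e93058f0f4a0003000205610fd30aad055b037602ed, 0x100007980e740e7209e107060e0d05520ff10a97057e07290e17, 
  0x100007ec0e980f260a1d07e60e9d0a6e05d9006400dc05140f3c, 0x10000f5b0af60f6a0ad50bc0068005e70f9e07eb0e9607e70e9e, 
  0x10000b5906f700cd008b0d8a0b4507980e7406a60d5d09dd07bb, 0x10000e9f097a07e90e9705fe0fa90a8f054a04420cc10fd30ab2, 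
  0x1000015303f20de80b940b87064e084004c0057e0fe9055b0ff6, 0x1000027b01e6071d0e3b0c6c08d80e0d090b0ee7099e009e0079, 
  0x10000a5b05f60cdb08b608d204b10dbe0b6906cf0d8a093e0729, 0x1000085304f20eda09b508f504af015303f207e20e9107eb0e96, 
  0x10000095007f07ea0e9507ec0e9806e30d9201fe03a90b6906d7, 0x1000037602ed05d90fb703db02b60f150a3f0f800a40005d00fb, 
  0x100005520ff1059f0f7a0022001108c0048006570dfe0dfb0ba6, 0x10000e9909770efd09ab097a07e50b880644012b031606520df1, 
  0x10000fc50a8f0034002c0d920b7109ea07950e000900079e0e79, 0x100007ef0e9a07ea0e9502c0018009f807a409ec07980cfd08ab, 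
  0x100005ae0f590f580af401c1038300fb00a60d5d0bfb0d240b1c, 0x1000097807e40b030602097a07e50ff80aa40fd40abc01d903b7, 
  0x10000e3b09260b0006000a7905e70c5508ff06800d40021b0136, 0x100001bb03660f290a170c4008c00fc20a810a4c05c80a900570, 
  0x100009b5076f0f9a0a750bce0689082e041907eb0e960e9f097a, 0x1000099e0779024201c1017903e70f490ac70f5b0af6049b0c76, 
  0x100003c002800e9d097b097507ef080e04090f840a4c03b4026c, 0x10000cfc08a807460ecd020c0108021b01360b6106d306db0db6, 
  0x1000080004000200010000800040002000100008000400020001, 0x1000030002000f9a0a7504e70c9e0bc00680022a011508ed049b, 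
  0x1000071d0e3b0a8f054a0fdd0abb077f0eea00e7009e07000e00, 0x1000001c003806fb0da6065d0dfb0b36062d046f0cda03800240, 
  0x1000001c00380d8e0b490ba30652000d000b097807e40e5109f3, 0x100003b4026c04f20ca1008b00460ac5058f002100130dc30b82, 
  0x100004c80c8405f60fad021b01360a990577031202310ab20561, 0x100004850c4f0fcc0a88055c0ff8097b07e6059d0f7b00030002, 
  0x10000995077f0cfd08ab0115033f099e0779039e0279015403fc, 0x10000ed709be05fe0fa90d630bd20bbf066a06790de70e000900, 
  0x10000c2d081b0ded0b9b0bac06580c1d083b011d033b00dc00b8, 0x10000a9e0579087904e70aa4055c05f60fad071b0e360d240b1c, 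
  0x10000df40bac0dc60b8d0913073206b10d63026c01d80185034f, 0x100005ac0f580f6a0ad504d50cbf0c4008c0005d00fb03e90297, 
  0x10000dc60b8d05ac0f5800210013089d047b02ca018500fb00a6, 0x10000ca1085308d804b4098b07460c84084c0dc30b8206600dd0, 
  0x10000bba0665001c00380d820b41024201c1062f0d1a0cda08b5, 0x1000055c0ff804540cfc0fee0a990fa90a570b6906d70b6106d3, 
  0x10000d000b000ee7099e053b0f260ae4059c0136032d0f5b0af6, 0x100005f60fad0c800840032902170a8f054a0fd30ab204420cc1, 
  0x100005680fd40a8f054a0a22051102ca01850bba066506600dd0, 0x100009e107930095007f0e7f09ea0c6c08d807290e1703a90257, 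
  0x1000004600cd0b8806440b94067c07a90e5707bb0e6604800c40, 0x100004260c1d09180734047b0ce60dd50bbf07000e000b9e0679, 
  0x10000fb70a6e09b5076f0bf506af0fb30a62005d00fb0f260a1d]

theorem HM_chk : allLt (fun i => eq12 (matOf (nth HR i)) (nth HM i)) 77 = true := by decide +kernel

/-- basis of the fixed space of `ta 1` -/
def CB : ℕ := 0x84304c2084004c00021001300080004
def CI : ℕ := 0x1200310080004000200010000f800a400020001005000f0

theorem fix_param {w : ℕ} (hw : w < 4096) (e : lin (nth TM 1) w = w) : ∃ i < 256, lin CB i = w := by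
  have : allLt (fun w => !(Nat.beq (lin (nth TM 1) w) w) || force (lin CI w) fun i =>
    Nat.blt i 256 && Nat.beq (lin CB i) w) 4096 = true := by decide +kernel
  have := allLt_iff.1 this w hw
  rw [beq_iff.2 e, Bool.not_true, Bool.false_or, force_eq, Bool.and_eq_true, blt_iff, beq_iff] at this
  exact ⟨_, this.1, this.2⟩

theorem sim_of_omp {j v w : ℕ} (hj : j < 3) (hv : v < 4096) (e : omp j v = w) : sim w v := by
  interval_cases j
  · exact Or.inl e
  · exact Or.inr (Or.inr (by rw [← e]; exact (om3 hv).symm))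
  · exact Or.inr (Or.inl (by rw [← e]; exact (om3 hv).symm))

theorem om_lt64 {w : ℕ} (hw : w < 4096) : om w < 64 ↔ w < 64 := by
  have : allLt (fun w => beqB (Nat.blt (om w) 64) (Nat.blt w 64)) 4096 = true := by decide +kernel
  have := beqB_iff.1 (allLt_iff.1 this w hw)
  rw [← blt_iff, this, blt_iff]

theorem omp_lt64 (j : ℕ) {w : ℕ} (hw : w < 4096) : omp j w < 64 ↔ w < 64 := by
  induction j with
  | zero => rfl
  | succ j ih => rw [omp_succ, om_lt64 (omp_lt j hw), ih]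

/-- number of singular vectors fixed by `ta 1` and (projectively) by `g` -/
def cntFix (g : ℕ) : ℕ := force (matOf g) fun M =>
  countLt (fun i => force (lin CB i) fun w => Nat.beq (qf w) 0 && simB w (lin M w)) 256

/-- elements of `E` fixed by `x` modulo the centre -/
def Fx [Finite G] {π : ↥𝐂[z] →* Pm} (h : JH z p s E π c) {x : G} (hx : x ∈ 𝐂[z]) : Subgroup G where
  carrier := {e | e ∈ E ∧ wv c (x * e * x⁻¹) = wv c e}
  mul_mem' := fun {a b} ha hb => ⟨mul_mem ha.1 hb.1, by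
    rw [← conj_mul, h.wv_mul (h.cjE hx ha.1) (h.cjE hx hb.1), h.wv_mul ha.1 hb.1, ha.2, hb.2]⟩
  one_mem' := ⟨one_mem _, by simp⟩
  inv_mem' := fun {a} ha => ⟨inv_mem ha.1, by rw [← conj_inv, h.wv_inv (h.cjE hx ha.1), h.wv_inv ha.1, ha.2]⟩

/-- the preimage of a subspace given by a test closed under addition -/
def Pre [Finite G] {π : ↥𝐂[z] →* Pm} (h : JH z p s E π c) (P : ℕ → Prop) (h0 : P 0)
    (hx : ∀ a b, P a → P b → P (a ^^^ b)) : Subgroup G where
  carrier := {e | e ∈ E ∧ P (wv c e)}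
  mul_mem' := fun {a b} ha hb => ⟨mul_mem ha.1 hb.1, by rw [h.wv_mul ha.1 hb.1]; exact hx _ _ ha.2 hb.2⟩
  one_mem' := ⟨one_mem _, by rw [h.wv_one]; exact h0⟩
  inv_mem' := fun {a} ha => ⟨inv_mem ha.1, by rw [h.wv_inv ha.1]; exact ha.2⟩

namespace JH
variable [Finite G] {π : ↥𝐂[z] →* Pm} (h : JH z p s E π c)

/-- the preimage of `U` -/
def UH : Subgroup G := Pre h (· < 64) (by norm_num) fun _ _ => xor_lt' (n := 6)

theorem memUH {x : G} : x ∈ h.UH ↔ x ∈ E ∧ wv c x < 64 := Iff.rfl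
theorem UH_leE : h.UH ≤ E := fun _ hx => hx.1

include h

theorem card_le_param {S : Subgroup G} (hS : S ≤ E) {f : ℕ → ℕ} {Q : ℕ → Bool} {n : ℕ}
    (H : ∀ x ∈ S, ∃ i < n, Q i = true ∧ f i = wv c x) : Nat.card S ≤ 2 * countLt Q n := by
  classical
  rw [countLt_eq]
  set F := (Finset.range n).filter fun i => Q i = true
  have : (S : Set G) ⊆ (F.image (fun i => c (f i)) ∪ F.image (fun i => c (f i) * z) : Finset G) := by
    intro x hx
    obtain ⟨i, hi, q, e⟩ := H x hx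
    have m : i ∈ F := Finset.mem_filter.2 ⟨Finset.mem_range.2 hi, q⟩
    rw [Finset.coe_union]
    rcases h.eq_c_or (hS hx) with e1 | e1
    · left; exact Finset.mem_coe.2 (Finset.mem_image.2 ⟨i, m, by rw [e, ← e1]⟩)
    · right; exact Finset.mem_coe.2 (Finset.mem_image.2 ⟨i, m, by rw [e, ← e1]⟩)
  refine (Set.ncard_le_ncard this (Finset.finite_toSet _)).trans ?_
  rw [Set.ncard_coe_finset]
  have a := Finset.card_image_le (s := F) (f := fun i => c (f i))
  have b := Finset.card_image_le (s := F) (f := fun i => c (f i) * z)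
  exact (Finset.card_union_le _ _).trans (by omega)

theorem card_UH : Nat.card h.UH = 128 :=
  (h.card_eq_count h.UH_leE (P := fun a => Nat.blt (Nat.mod a 4096) 64) fun a ha => by
    rw [h.memUH, h.wv_c ha, blt_iff]; exact and_iff_right (h.c_mem ha)).trans (by decide +kernel)

theorem z_UH : z ∈ h.UH := ⟨h.ez.mem, by rw [h.wv_z]; norm_num⟩

theorem c_xor_U {a b : ℕ} (ha : a < 8192) (hb : b < 8192) (h1 : a % 4096 < 64) (h2 : b % 4096 < 64) :
    c (a ^^^ b) = c a * c b := by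
  rw [← h.c_mul a ha b hb, hmul_eq, bb_mod ha hb, bb_U h1 h2, mul_zero, Nat.xor_zero]

theorem UH_sq {x : G} (hx : x ∈ h.UH) : x * x = 1 := by
  rw [← h.c_cd hx.1, ← h.c_xor_U (cd_lt _) (cd_lt _) hx.2 hx.2, Nat.xor_self, h.c_zero]

theorem cent_UH : E ⊓ 𝐂(h.UH) = h.UH := by
  have e := h.ez.card_mul_card_cent h.z_UH h.UH_leE
  rw [h.card_UH, h.card_E] at e
  exact (eq_of_le_of_card_eq (le_inf h.UH_leE (le_centralizer_iff_isMulCommutative.2
    (abelian_of_sq fun _ => h.UH_sq))) (by rw [h.card_UH]; omega)).symm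

variable {y m : G} {τ : ℕ → G} (d : TD p s π c y m τ)
include d

theorem t_zero : τ 0 = 1 := left_eq_mul.1 (d.mul 0 0)
theorem t_sq (a : ℕ) : τ a * τ a = 1 := by rw [← d.mul, Nat.xor_self, h.t_zero d]
theorem t_ah {a : ℕ} (ha : a < 16) : Ah p π c (τ a) := ⟨d.mem a, a, ha, d.pi a ha, d.act a ha⟩

theorem t_comm_U {a : ℕ} (ha : a < 16) {x : G} (hx : x ∈ h.UH) : τ a * x = x * τ a := by
  have := (d.act a ha _ (cd_lt (c := c) x)).2
  rw [hact_zero, (cmb_spec (cd_lt x) hx.2 ha).2.2.2, h.c_cd hx.1] at this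
  exact mul_inv_eq_iff_eq_mul.1 this

theorem uc_mem {n : ℕ} (hn : n < 2048) : c (uc n) ∈ h.UH :=
  ⟨h.c_mem (uc_lt hn).1, by rw [h.wv_c (uc_lt hn).1]; exact (uc_lt hn).2.1⟩

theorem vv_xor {a b : ℕ} (ha : a < 2048) (hb : b < 2048) : vv c τ (a ^^^ b) = vv c τ a * vv c τ b := by
  unfold vv
  rw [uc_xor, al_xor, d.mul, h.c_xor_U (uc_lt ha).1 (uc_lt hb).1 (uc_lt ha).2.1 (uc_lt hb).2.1, mul_assoc (c (uc a)),
    mul_assoc (c (uc a)), ← mul_assoc (τ _), h.t_comm_U d (al_lt a) (h.uc_mem d hb), mul_assoc]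

theorem vv_zero : vv c τ 0 = 1 := by
  show c 0 * τ 0 = 1
  rw [h.c_zero, h.t_zero d, mul_one]

theorem vv_sq {a : ℕ} (ha : a < 2048) : vv c τ a * vv c τ a = 1 := by
  rw [← h.vv_xor d ha ha, Nat.xor_self, h.vv_zero d]

theorem vv_H {a : ℕ} (ha : a < 2048) : vv c τ a ∈ 𝐂[z] := mul_mem (h.E_le (h.uc_mem d ha).1) (d.mem _).1

theorem pi_vv {a : ℕ} (ha : a < 2048) : pel π (vv c τ a) = ta (al a) := by
  rw [vv, pel_mul _ (h.E_le (h.uc_mem d ha).1) (d.mem _).1, h.pi_E (h.uc_mem d ha).1, one_mul, d.pi _ (al_lt a)]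

theorem vv_inj {a b : ℕ} (ha : a < 2048) (hb : b < 2048) (e : vv c τ a = vv c τ b) : a = b := by
  have e1 := ta_inj (al_lt a) (al_lt b) (by rw [← h.pi_vv d ha, e, h.pi_vv d hb])
  unfold vv at e
  rw [e1, mul_left_inj] at e
  rw [← (uc_lt ha).2.2, h.c_inj _ (uc_lt ha).1 _ (uc_lt hb).1 e, e1, (uc_lt hb).2.2]

omit d in
theorem vv_cmb {x : G} (hx : x ∈ h.UH) {a : ℕ} (ha : a < 16) :
    cmb (cd c x) a < 2048 ∧ vv c τ (cmb (cd c x) a) = x * τ a := by
  obtain ⟨h1, h2, h3, -⟩ := cmb_spec (cd_lt (c := c) x) hx.2 ha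
  exact ⟨h1, by rw [vv, h2, h3, h.c_cd hx.1]⟩

/-- the subgroup `V` -/
def VV : Subgroup G where
  carrier := {x | ∃ n < 2048, vv c τ n = x}
  mul_mem' := by
    rintro _ _ ⟨a, ha, rfl⟩ ⟨b, hb, rfl⟩
    exact ⟨_, xor11 ha hb, h.vv_xor d ha hb⟩
  one_mem' := ⟨0, by norm_num, h.vv_zero d⟩
  inv_mem' := by
    rintro _ ⟨a, ha, rfl⟩
    exact ⟨a, ha, (inv_eq_of_mul_eq_one_right (h.vv_sq d ha)).symm⟩

theorem memV {x : G} : x ∈ h.VV d ↔ ∃ n < 2048, vv c τ n = x := Iff.rfl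
theorem vv_mem {n : ℕ} (hn : n < 2048) : vv c τ n ∈ h.VV d := ⟨n, hn, rfl⟩
theorem mul_memV {x : G} (hx : x ∈ h.UH) {a : ℕ} (ha : a < 16) : x * τ a ∈ h.VV d :=
  ⟨_, (h.vv_cmb (τ := τ) hx ha).1, (h.vv_cmb hx ha).2⟩
theorem UH_le : h.UH ≤ h.VV d := fun x hx => by
  simpa [h.t_zero d] using h.mul_memV d hx (a := 0) (by norm_num)
theorem t_memV {a : ℕ} (ha : a < 16) : τ a ∈ h.VV d := by simpa using h.mul_memV d (one_mem _) ha
theorem z_V : z ∈ h.VV d := h.UH_le d h.z_UH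
theorem V_le : h.VV d ≤ 𝐂[z] := by rintro _ ⟨n, hn, rfl⟩; exact h.vv_H d hn
theorem V_sq : ∀ x ∈ h.VV d, x * x = 1 := by rintro _ ⟨n, hn, rfl⟩; exact h.vv_sq d hn
theorem V_pi {x : G} (hx : x ∈ h.VV d) : pel π x ∈ AH := by
  obtain ⟨n, hn, rfl⟩ := hx
  rw [h.pi_vv d hn]; exact ta_memA (al_lt n)
theorem V_ab : h.VV d ≤ 𝐂(h.VV d) := le_centralizer_iff_isMulCommutative.2 (abelian_of_sq (h.V_sq d))
theorem vv_z : vv c τ 1024 = z := by
  show c 4096 * τ 0 = z
  rw [h.c_z, h.t_zero d, mul_one]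

theorem famV : Fam (h.VV d : Set G) (vv c τ) (fun _ => true) 2048 :=
  ⟨fun _ hi _ => h.vv_mem d hi, fun _ ⟨n, hn, e⟩ => ⟨n, hn, rfl, e⟩, fun _ hi _ hj _ _ e => h.vv_inj d hi hj e⟩

theorem card_V : Nat.card (h.VV d) = 2048 := by
  have := (h.famV d).ncard (P := fun _ => True) (p := fun _ => true) (fun _ _ _ => by simp)
  simp only [and_true] at this
  exact this.trans (by decide +kernel)

theorem memUH_of {x : G} (hx : x ∈ h.VV d) (hE : x ∈ E) : x ∈ h.UH := by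
  obtain ⟨n, hn, rfl⟩ := hx
  have := h.pi_E hE
  rw [h.pi_vv d hn, ← ta_zero] at this
  rw [vv, ta_inj (al_lt n) (by norm_num) this, h.t_zero d, mul_one]
  exact h.uc_mem d hn

theorem dec_A {x : G} (hx : x ∈ 𝐂[z]) {a : ℕ} (ha : a < 16) (e0 : pel π x = ta a) (h2 : x * x ∈ E) :
    ∃ e ∈ E, x = e * τ a := by
  obtain ⟨e, he, j, hj, rfl⟩ := h.dec hx (d.mem a).1 (e0.trans (d.pi a ha).symm)
  have c1 : τ a * p ^ j = p ^ j * τ a := ((show Commute (τ a) p from mem_cent1_iff.1 (d.mem a).2).pow_right j).eq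
  have hk := mul_mem (pow_mem h.p_mem j) (d.mem a).1
  rw [show e * p ^ j * τ a * (e * p ^ j * τ a) = e * (p ^ j * τ a * e * (p ^ j * τ a)⁻¹) * (p ^ j * (τ a * p ^ j) * τ a)
    by group, c1, Subgroup.mul_mem_cancel_left _ (mul_mem he (h.cjE hk he)), mul_assoc, mul_assoc, h.t_sq d, mul_one,
    ← pow_add] at h2
  have : p ^ (j + j) ∈ E ⊓ zpowers p := ⟨h2, pow_mem (mem_zpowers p) _⟩
  rw [h.j0.inf_P, mem_bot, ← orderOf_dvd_iff_pow_eq_one, h.p_ord] at this
  obtain rfl : j = 0 := by omega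
  exact ⟨e, he, by simp⟩

theorem wm_A {x : G} (hx : x ∈ 𝐂[z]) {a : ℕ} (ha : a < 16) (e : pel π x = ta a) (h2 : x * x ∈ E) :
    Wm E c x (lin (nth TM a)) := by
  obtain ⟨e, he, rfl⟩ := h.dec_A d hx ha e h2
  exact h.wm_mul (f := fun w => w) (d.mem a).1 (h.wm_E he) (h.wm_act (d.mem a).1 (d.act a ha) fun _ => TM_lt ha)

theorem memV_of {x : G} (hx : x ∈ 𝐂[z]) (hA : pel π x ∈ AH) (h2 : x * x ∈ E) (hc : x ∈ 𝐂(h.UH)) : x ∈ h.VV d := by
  obtain ⟨a, ha, e⟩ := memAH.1 hA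
  obtain ⟨e, he, rfl⟩ := h.dec_A d hx ha e h2
  refine h.mul_memV d (h.cent_UH ▸ ⟨he, ?_⟩) ha
  exact (Subgroup.mul_mem_cancel_right _ (mem_cent_iff'.2 fun u hu => h.t_comm_U d ha hu)).1 hc

theorem eq_V {X : Subgroup G} (hX : X ≤ 𝐂[z]) (h2 : ∀ x ∈ X, x * x = 1) (hz : z ∈ X) (hc : 2048 ≤ Nat.card X)
    (h1 : ta 1 ∈ pmap π X) : X = h.VV d := by
  have ab : ∀ x ∈ X, ∀ y ∈ X, x * y * x⁻¹ = y := fun x hx y hy => by
    rw [mul_inv_eq_iff_eq_mul]; exact congrArg Subtype.val ((abelian_of_sq h2).is_comm.comm ⟨x, hx⟩ ⟨y, hy⟩)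
  have sqE : ∀ x ∈ X, x * x ∈ E := fun x hx => by rw [h2 x hx]; exact one_mem _
  obtain ⟨x1, hx1, e1⟩ := (mem_pmap_of_le hX).1 h1
  have W1 := h.wm_A d (hX hx1) (by norm_num) e1 (sqE _ hx1)
  have ce := h.card_elem hX h2
  have c0 := h.card_le128 (X := E ⊓ X) inf_le_left ⟨h.ez.mem, hz⟩ fun x hx => h2 x hx.2
  have hS : pmap π X ≤ Spor.M22 := by
    intro g hg
    obtain ⟨r, hr, rfl⟩ := (mem_pmap_of_le hX).1 hg
    by_contra hr'
    have cF : Nat.card (Fx h (hX hx1)) ≤ 2 * 256 := (h.card_le_param (S := Fx h (hX hx1)) (fun _ hx => hx.1) (f := lin CB) (Q := fun _ => true)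
      (n := 256) fun x hx => by
        obtain ⟨i, hi, e⟩ := fix_param (wv_lt (c := c) x) ((W1 x hx.1).symm.trans hx.2)
        exact ⟨i, hi, rfl, e⟩).trans (by decide +kernel)
    have := card_mul_card_le (A := E ⊓ X) (B := cj p (E ⊓ X)) (M := Fx h (hX hx1))
      (fun e he => ⟨he.1, by rw [ab _ hx1 _ he.2]⟩) (cj_le_iff'.2 fun e he => ⟨h.cjE h.p_mem he.1, by
        rw [h.om_inner (hX hx1) (e1 ▸ ta_mem (by norm_num)) he.1, ab _ hx1 _ he.2, h.wm_p _ he.1]⟩)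
    have c2 : Nat.card ↥((E ⊓ X) ⊓ cj p (E ⊓ X)) ≤ 2 := by
      rw [← h.ez.card_zp]
      refine card_le_of_le fun e he => ?_
      obtain ⟨e', he', rfl⟩ := mem_cj'.1 he.2
      have := h.om_outer (hX hr) hr' he'.1
      rw [ab _ hr _ he.1.2, ab _ hr _ he'.2, h.wm_p _ he'.1, om_om (wv_lt _)] at this
      replace this : wv c e' = 0 := (xor_cancel.1 ((Nat.xor_zero _).trans this)).symm
      rcases h.ez.mem_zp.1 ((h.wv_eq_zero he'.1).1 this) with rfl | rfl
      · simp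
      · rw [h.conj_z h.p_mem]; exact mem_zpowers _
    have c3 := card_le32 (h.pmap_le X) (h.pmap_sq hX h2)
    rw [card_cj] at this
    have c4 : Nat.card ↥(E ⊓ X) ≤ 32 := by
      by_contra hc; push Not at hc
      have := this.trans (Nat.mul_le_mul c2 cF)
      nlinarith
    have := Nat.mul_le_mul c4 c3
    omega
  have c1 := card_le16 hS (h.pmap_sq hX h2)
  have c2 : 128 ≤ Nat.card ↥(E ⊓ X) := by
    have := Nat.mul_le_mul_left (Nat.card ↥(E ⊓ X)) c1; omega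
  have c3 : 16 ≤ Nat.card (pmap π X) := by
    have := Nat.mul_le_mul_right (Nat.card (pmap π X)) c0; omega
  have fx : ∀ g ∈ pmap π X, ∀ e ∈ E ⊓ X, simB (wv c e) (lin (matOf (code g)) (wv c e)) = true := by
    intro g hg e he
    obtain ⟨x, hx, rfl⟩ := (mem_pmap_of_le hX).1 hg
    obtain ⟨j, hj, W⟩ := h.wm_inner (hX hx) (hS hg)
    have := W e he.1
    rw [ab _ hx _ he.2] at this
    exact simB_iff.2 (sim_of_omp hj (matOf_lt _ (wv_lt _)) this.symm)
  have cm : ∀ g ∈ pmap π X, g * ta 1 = ta 1 * g := fun g hg =>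
    congrArg Subtype.val ((abelian_of_sq (h.pmap_sq hX h2)).is_comm.comm ⟨g, hg⟩ ⟨_, h1⟩)
  have sat : ∀ g ∈ pmap π X, Sat (pAnd (pFix DD) (pCj (nth TA 1) (nth TA 1))) (code g) := fun g hg =>
    (sat22 (hS hg)).and (sat_cj' (in22_24 (TA_in (by norm_num))) (in22_24 (TA_in (by norm_num))) (cm g hg))
  by_cases hA : ∃ g ∈ pmap π X, g ∈ AH ∧ g ≠ 1 ∧ g ≠ ta 1
  · obtain ⟨g, hg, gA, g1, g2⟩ := hA
    obtain ⟨a, ha, rfl⟩ := memAH.1 gA
    obtain ⟨x, hx, e⟩ := (mem_pmap_of_le hX).1 hg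
    have W := h.wm_A d (hX hx) ha e (sqE _ hx)
    have le : E ⊓ X ≤ h.UH := fun u hu => ⟨hu.1, by
      have f1 := W1 u hu.1
      have f2 := W u hu.1
      rw [ab _ hx1 _ hu.2] at f1
      rw [ab _ hx _ hu.2] at f2
      obtain ⟨i, hi, e⟩ := fix_param (wv_lt (c := c) u) f1.symm
      have : allLt (fun a => Nat.blt a 2 || allLt (fun i => force (lin CB i) fun w =>
        !(Nat.beq w (lin (nth TM a) w)) || Nat.blt w 64) 256) 16 = true := by decide +kernel
      have := allLt_iff.1 this a ha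
      rw [Bool.or_eq_true, blt_iff] at this
      have := allLt_iff.1 (this.resolve_left fun h => by
        interval_cases a
        exacts [g1 ta_zero, g2 rfl]) i hi
      rwa [force_eq, e, beq_iff.2 f2, Bool.not_true, Bool.false_or, blt_iff] at this⟩
    have eq : E ⊓ X = h.UH := eq_of_le_of_card_ge le (by rw [h.card_UH]; exact c2)
    refine eq_of_le_of_card_ge (fun x hx => h.memV_of d (hX hx) ?_ (sqE _ hx) ?_) (by rw [h.card_V d]; exact hc)
    · have hg := pel_mem_pmap π hx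
      have := all24_sound (k := 0xba0d2708b41ce2d21d367ad9554020) (ki := 0xba090751a23cd8530d365562b7c820)
        (leaf := fun g => inA g || force (matOf g) fun M => anyLt (fun w => !(simB w (lin M w))) 64)
        (by decide +kernel) (M22_le (hS hg)) (sat _ hg)
      rw [Bool.or_eq_true, force_eq, anyLt_iff, inA_iff] at this
      refine this.resolve_right fun ⟨w, hw, e⟩ => ?_
      have m : c w ∈ E ⊓ X := eq ▸ ⟨h.c_mem (by omega), by rw [h.wv_c' (by omega)]; exact hw⟩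
      have := fx _ hg _ m
      rw [h.wv_c' (by omega)] at this
      rw [this] at e
      exact absurd e (by decide)
    · rw [← eq]; exact mem_cent_iff'.2 fun u hu => mul_inv_eq_iff_eq_mul.1 (ab _ hx _ hu.2)
  · exfalso
    push Not at hA
    let B : Set Pm := {g | g ∈ M24 ∧ (in22 (code g) && cmC (code g) (nth TA 1) && Nat.beq (mul (code g) (code g)) oneC &&
      !(inA (code g)) && Nat.ble 64 (cntFix (code g))) = true}
    have cB : B.ncard = 12 := (count24_sound (P := pAnd (pFix DD) (pCj (nth TA 1) (nth TA 1)))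
      (k := 0xba0d2708b41ce2d21d367ad9554020) (ki := 0xba090751a23cd8530d365562b7c820)
      (leaf := fun g => in22 g && cmC g (nth TA 1) && Nat.beq (mul g g) oneC && !(inA g) && Nat.ble 64 (cntFix g))
      (by decide +kernel) B (fun g hg => ⟨hg.1, by
        have := hg.2
        simp only [Bool.and_eq_true] at this
        exact (sat22 (mem22_code.2 this.1.1.1.1)).and (sat_cj' (in22_24 (TA_in (by norm_num)))
          (in22_24 (TA_in (by norm_num))) ((cmC_iff' (in22_24 (TA_in (by norm_num)))).1 this.1.1.1.2)), hg.2⟩)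
      fun g hg e => ⟨hg, e⟩).trans (by decide +kernel)
    have sub : ((pmap π X : Subgroup Pm) : Set Pm) ⊆ B ∪ {1, ta 1} := by
      intro g hg
      by_cases gA : g ∈ AH
      · right
        by_cases g1 : g = 1
        exacts [Or.inl g1, Or.inr (hA g hg gA g1)]
      · left
        refine ⟨M22_le (hS hg), ?_⟩
        simp only [Bool.and_eq_true, Bool.not_eq_true', beq_iff, ble_iff]
        refine ⟨⟨⟨⟨mem22_code.1 (hS hg), (cmC_iff' (in22_24 (TA_in (by norm_num)))).2 (cm g hg)⟩, ?_⟩,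
          Bool.eq_false_iff.2 fun e => gA (inA_iff.1 e)⟩, ?_⟩
        · rw [← code_mul, h.pmap_sq hX h2 g hg, code_one]
        · have := h.card_le_param (S := E ⊓ X) inf_le_left (f := lin CB) (n := 256)
            (Q := fun i => force (lin CB i) fun w => Nat.beq (qf w) 0 && simB w (lin (matOf (code g)) w))
            fun u hu => by
              have f1 := W1 u hu.1
              rw [ab _ hx1 _ hu.2] at f1
              obtain ⟨i, hi, e⟩ := fix_param (wv_lt (c := c) u) f1.symm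
              refine ⟨i, hi, ?_, e⟩
              rw [force_eq, e, Bool.and_eq_true, beq_iff]
              exact ⟨(h.sq_iff hu.1).1 (h2 u hu.2), fx g hg u hu⟩
          rw [cntFix, force_eq]
          exact Nat.le_of_mul_le_mul_left (c := 2) (c2.trans this) (by norm_num)
    have := (Set.ncard_le_ncard sub (Set.toFinite _)).trans (Set.ncard_union_le _ _)
    rw [cB] at this
    have c5 : ({1, ta 1} : Set Pm).ncard ≤ 2 := (Set.ncard_insert_le _ _).trans (by simp)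
    change Nat.card (pmap π X) ≤ _ at this
    omega

theorem exists_cj {X : Subgroup G} (hX : X ≤ 𝐂[z]) (h2 : ∀ x ∈ X, x * x = 1) (hc : 2048 ≤ Nat.card X) :
    ∃ k ∈ 𝐂[z], cj k X = h.VV d := by
  have key : ∀ {X : Subgroup G}, X ≤ 𝐂[z] → (∀ x ∈ X, x * x = 1) → 2048 ≤ Nat.card X → z ∈ X →
      ∃ k ∈ 𝐂[z], cj k X = h.VV d := by
    intro X hX h2 hc hz
    have ce := h.card_elem hX h2
    have c0 := h.card_le128 (X := E ⊓ X) inf_le_left ⟨h.ez.mem, hz⟩ fun x hx => h2 x hx.2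
    have c1 := card_le_two_mul (h.pmap_le X)
    have c3 : 16 ≤ Nat.card (pmap π X) := by
      have := Nat.mul_le_mul_right (Nat.card (pmap π X)) c0; omega
    obtain ⟨g, hg, g1⟩ := exists_ne_one_mem' (A := Spor.M22 ⊓ pmap π X) fun e => by
      rw [e, card_bot] at c1; omega
    obtain ⟨k, hk, e⟩ := inv_inner hg.1 (orderOf_eq_prime (by rw [pow_two, h.pmap_sq hX h2 g hg.2]) g1)
    obtain ⟨k, hk', rfl, -⟩ := h.lift k hk
    refine ⟨k, hk'.1, h.eq_V d (cj_le_of_le hX hk'.1) (sq_cj h2 k) (mem_cj_of_fix (h.conj_z hk'.1) hz)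
      (by rwa [card_cj]) ?_⟩
    rw [pmap_cj _ hk'.1, ← e, conj_mem_cj]; exact hg.2
  have hn : X ≤ 𝐍(zpowers z) := norms_zpowers_of_cent1 hX
  obtain ⟨k, hk, e⟩ := key (X := X ⊔ zpowers z) (sup_le hX (zpowers_le.2 (self_mem_cent1 z))) (fun x hx => by
    obtain ⟨a, ha, b, hb, rfl⟩ := (mem_sup_of_norm_left hn).1 hx
    rcases h.ez.mem_zp.1 hb with rfl | rfl
    · simpa using h2 a ha
    · rw [mul_assoc, ← mul_assoc b, ← mem_cent1_iff.1 (hX ha), mul_assoc, h.zz, mul_one, h2 a ha])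
    (hc.trans (card_le_of_le le_sup_left)) (mem_sup_right (mem_zpowers z))
  refine ⟨k, hk, eq_of_le_of_card_ge (e ▸ cj_mono k le_sup_left) (by rw [h.card_V d, card_cj]; exact hc)⟩

theorem mem_norm_iff {x : G} (hx : x ∈ 𝐂[z]) : x ∈ 𝐍(h.VV d) ↔ pel π x ∈ SO := by
  constructor
  · intro hn
    have := h.V_pi d (conj_mem_of_mem_normalizer hn (h.t_memV d (a := 1) (by norm_num)))
    rw [pel_conj _ hx (d.mem 1).1, d.pi 1 (by norm_num)] at this
    exact conj_SO (h.pi_mem hx) (by norm_num) (by norm_num) this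
  · intro hS
    obtain ⟨a, ha, e⟩ := memAH.1 (SO_conj (inv_mem hS) (ta_memA (a := 1) (by norm_num)))
    refine mem_normalizer_iff_cj.2 (h.eq_V d (cj_le_of_le (h.V_le d) hx) (sq_cj (h.V_sq d) x)
      (mem_cj_of_fix (h.conj_z hx) (h.z_V d)) (by rw [card_cj, h.card_V d]) ?_)
    rw [inv_inv] at e
    rw [pmap_cj _ hx, mem_cj, e, ← d.pi a ha]
    exact pel_mem_pmap π (h.t_memV d ha)

theorem E_norm : E ≤ 𝐍(h.VV d) := fun _ he => (h.mem_norm_iff d (h.E_le he)).2 (by rw [h.pi_E he]; exact one_mem _)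
theorem p_norm : p ∈ 𝐍(h.VV d) := (h.mem_norm_iff d h.p_mem).2 (by rw [h.pi_p]; exact one_mem _)

theorem card_NH : Nat.card ↥(𝐂[z] ⊓ 𝐍(h.VV d)) = 283115520 := by
  have e : pmap π (𝐂[z] ⊓ 𝐍(h.VV d)) = SO := by
    ext g
    rw [mem_pmap_of_le inf_le_left]
    refine ⟨fun ⟨x, hx, e⟩ => e ▸ (h.mem_norm_iff d hx.1).1 hx.2, fun hg => ?_⟩
    obtain ⟨k, hk, rfl⟩ := h.j0.liftK hg.1
    exact ⟨k, ⟨hk.1, (h.mem_norm_iff d hk.1).2 hg⟩, rfl⟩
  rw [← card_pmap_mul π inf_le_left, e, card_SO, h.ker, inf_eq_left.2 (le_inf (sup_le h.E_le (zpowers_le.2 h.p_mem))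
    (sup_le (h.E_norm d) (zpowers_le.2 (h.p_norm d)))), card_sup_of_disjoint (Or.inl h.j0.P_norm) h.j0.inf_P, h.card_E,
    Nat.card_zpowers, h.p_ord]

theorem eq_V_of_norm {X : Subgroup G} (hX : X ≤ 𝐂[z] ⊓ 𝐍(h.VV d)) (h2 : ∀ x ∈ X, x * x = 1)
    (hc : 2048 ≤ Nat.card X) : X = h.VV d := by
  obtain ⟨k, hk, e⟩ := h.exists_cj d (hX.trans inf_le_left) h2 hc
  have : k ∈ 𝐍(h.VV d) := by
    refine (h.mem_norm_iff d hk).2 ⟨h.pi_mem hk, oct_eq_of_inv (smul_mem_octads (h.pi_mem hk).1 OH_oct) fun a ha => ?_⟩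
    obtain ⟨b, hb, rfl⟩ := memAH.1 ha
    have m : k⁻¹ * τ b * k ∈ X := by rw [← mem_cj, e]; exact h.t_memV d hb
    have := (memSO.1 ((h.mem_norm_iff d (hX m).1).1 (hX m).2)).2
    rw [pel_mul _ (mul_mem (inv_mem hk) (d.mem b).1) hk, pel_mul _ (inv_mem hk) (d.mem b).1, pel_inv _ hk, d.pi b hb,
      mul_smul, mul_smul, inv_smul_eq_iff] at this
    exact this
  rw [cj_eq_iff.1 e, cj_eq_of_mem_normalizer (inv_mem this)]

theorem exists_sylow : ∃ T, SylowIn 2 T ⊤ ∧ T ≤ 𝐂[z] ⊓ 𝐍(h.VV d) ∧ h.VV d ≤ T := by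
  obtain ⟨T, hT, hE⟩ := exists_sylowIn_ge (p := 2) (Q := E) (M := 𝐂[z] ⊓ 𝐍(h.VV d)) (h.ez.pg.piGrp Nat.prime_two)
    (le_inf h.E_le (h.E_norm d))
  have h1 : SylowIn 2 T 𝐂[z] := hT.of_not_dvd_relIndex inf_le_left Nat.prime_two (by
    have := card_mul_relIndex (inf_le_left : 𝐂[z] ⊓ 𝐍(h.VV d) ≤ _)
    rw [h.card_NH d, h.card_H] at this
    omega)
  refine ⟨T, h1.of_norm_le_top (h.lq.norm_le_of_ge (h1.isPGroup Nat.prime_two) hE), hT.le,
    hT.le_of_norm (le_inf (h.V_le d) le_normalizer) (piGrp_of_sq (h.V_sq d)) (Or.inr (hT.le.trans inf_le_right))⟩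

theorem uniq {P X Y : Subgroup G} (hP : PiGrp {2} P) (hX : X ≤ P) (hY : Y ≤ P) (x2 : ∀ x ∈ X, x * x = 1)
    (y2 : ∀ x ∈ Y, x * x = 1) (cx : 2048 ≤ Nat.card X) (cy : 2048 ≤ Nat.card Y) : X = Y := by
  obtain ⟨T, hT, h1, -⟩ := h.exists_sylow d
  obtain ⟨g, -, e⟩ := hT.exists_cj_le hP le_top
  exact cj_injective g ((h.eq_V_of_norm d (((cj_mono g hX).trans e).trans h1) (sq_cj x2 g) (by rwa [card_cj])).trans
    (h.eq_V_of_norm d (((cj_mono g hY).trans e).trans h1) (sq_cj y2 g) (by rwa [card_cj])).symm)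

theorem exists_cj' {X : Subgroup G} (x2 : ∀ x ∈ X, x * x = 1) (cx : 2048 ≤ Nat.card X) : ∃ g, cj g X = h.VV d := by
  obtain ⟨T, hT, h1, -⟩ := h.exists_sylow d
  obtain ⟨g, -, e⟩ := hT.exists_cj_le (piGrp_of_sq x2) le_top
  exact ⟨g, h.eq_V_of_norm d (e.trans h1) (sq_cj x2 g) (by rwa [card_cj])⟩

/-- a conjugate of `V` normalizing `V` equals `V` -/
theorem eq_of_norm {g : G} (hn : cj g (h.VV d) ≤ 𝐍(h.VV d)) : cj g (h.VV d) = h.VV d :=
  h.uniq d ((piGrp_of_sq (h.V_sq d)).sup (piGrp_of_sq (sq_cj (h.V_sq d) g)) (Or.inl hn)) le_sup_right le_sup_left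
    (sq_cj (h.V_sq d) g) (h.V_sq d) (by rw [card_cj, h.card_V d]) (by rw [h.card_V d])

/-- `N(V)` controls fusion in `V` -/
theorem fusion {u g : G} (hu : u ∈ h.VV d) (hg : g * u * g⁻¹ ∈ h.VV d) : ∃ n ∈ 𝐍(h.VV d), n * u * n⁻¹ = g * u * g⁻¹ := by
  have a1 : h.VV d ≤ 𝐂[g * u * g⁻¹] := mem_cent_iff_le_cent1.1 (h.V_ab d hg)
  have a2 : cj g (h.VV d) ≤ 𝐂[g * u * g⁻¹] := by
    rw [← cj_centralizer_singleton]; exact cj_mono g (mem_cent_iff_le_cent1.1 (h.V_ab d hu))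
  obtain ⟨T, hT, h1⟩ := exists_sylowIn_ge (piGrp_of_sq (h.V_sq d)) a1
  obtain ⟨k, hk, e⟩ := hT.exists_cj_le (piGrp_of_sq (sq_cj (h.V_sq d) g)) a2
  rw [cj_cj] at e
  refine ⟨k * g, mem_normalizer_iff_cj.2 (h.uniq d hT.piGrp e h1 (sq_cj (h.V_sq d) _) (h.V_sq d)
    (by rw [card_cj, h.card_V d]) (by rw [h.card_V d])), ?_⟩
  rw [← conj_eq_iff_mem_cent1.2 hk]; group

theorem cent_V : 𝐂(h.VV d) ≤ h.VV d := by
  intro x hx
  have hH : x ∈ 𝐂[z] := cent_le_cent1 (h.z_V d) hx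
  have hA : pel π x ∈ AH := cent_AH (h.pi_mem hH) fun a ha => by
    obtain ⟨b, hb, rfl⟩ := memAH.1 ha
    rw [← d.pi b hb, ← pel_mul _ hH (d.mem b).1, ← pel_mul _ (d.mem b).1 hH, mem_cent_iff.1 hx _ (h.t_memV d hb)]
  have hU : x ∈ 𝐂(h.UH) := centralizer_le (h.UH_le d) hx
  obtain ⟨a, ha, e0⟩ := memAH.1 hA
  obtain ⟨e, he, j, hj, e1⟩ := h.dec hH (d.mem a).1 (e0.trans (d.pi a ha).symm)
  have m1 : c 1 ∈ h.UH := ⟨h.c_mem (by norm_num), by rw [h.wv_c' (by norm_num)]; norm_num⟩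
  have := h.wm_mul (f := omp j) (d.mem a).1 (h.wm_mul (f := fun w => w) (f' := omp j) (pow_mem h.p_mem j) (h.wm_E he)
    (h.wm_pow j)) (h.wm_act (d.mem a).1 (d.act a ha) fun _ => TM_lt ha) _ m1.1
  rw [← e1, conj_eq_of_mem_cent hU m1, h.wv_c' (by norm_num)] at this
  beta_reduce at this
  rw [(cmb_spec (e := 1) (by norm_num) (by norm_num) ha).2.2.2] at this
  obtain rfl : j = 0 := by
    interval_cases j
    exacts [rfl, absurd this (by decide +kernel), absurd this (by decide +kernel)]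
  refine h.memV_of d hH hA ?_ hU
  rw [e1, pow_zero, mul_one, show e * τ a * (e * τ a) = e * (τ a * e * (τ a)⁻¹) * (τ a * τ a) by group, h.t_sq d, mul_one]
  exact mul_mem he (h.cjE (d.mem a).1 he)

end JH

end CA.J4
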