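import Cfsg.Agent.Lib.J4.Rep
import Cfsg.Agent.Lib.J4.Five

/-!
A kernel checker enumerating `N(⟨s⟩)` in two levels (conjugates of `u`, cosets of `⟨c⟩`).
-/

set_option autoImplicit false
set_option linter.unusedSectionVars false
set_option linter.unusedVariables false

namespace CA.BM
open CA.Gol CA.J4 Matrix Cfsg Subgroup

theorem le_ncard_fib {α : Type*} [Finite α] (f : α → ℕ) (m : ℕ) (K : List ℕ) (hK : K.Nodup) :
    ∀ S : Set α, (∀ k ∈ K, m ≤ {e | e ∈ S ∧ f e = k}.ncard) → K.length * m ≤ S.ncard := by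
  induction K with
  | nil => intro S _; simp
  | cons k K ih =>
    intro S h
    obtain ⟨h1, h2⟩ := List.nodup_cons.1 hK
    have a := ih h2 {e | e ∈ S ∧ f e ≠ k} fun k' hk' => by
      refine (h k' (List.mem_cons_of_mem _ hk')).trans (Set.ncard_le_ncard fun e he => ?_)
      exact ⟨⟨he.1, fun c => h1 (by rw [← c, he.2]; exact hk')⟩, he.2⟩
    have b := h k List.mem_cons_self
    have c : S = {e | e ∈ S ∧ f e ≠ k} ∪ {e | e ∈ S ∧ f e = k} := by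
      ext e; by_cases c : f e = k <;> simp [c]
    rw [c, Set.ncard_union_eq (Set.disjoint_left.2 fun e x y => x.2 y.2), List.length_cons, add_mul, one_mul]
    exact add_le_add a b

/-- no repetitions -/
def ndL (l : List ℕ) : Bool := List.rec true (fun a l ih => cn (memL a l) false ih) l

theorem nodup_of_ndL {l : List ℕ} (h : ndL l = true) : l.Nodup := by
  induction l with
  | nil => exact List.nodup_nil
  | cons a l ih =>
    have e : ndL (a :: l) = cn (memL a l) false (ndL l) := rfl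
    rw [e] at h
    cases c : memL a l
    · rw [c, cn_false] at h
      exact List.nodup_cons.2 ⟨fun x => by rw [memL_iff.2 x] at c; exact absurd c (by simp), ih h⟩
    · rw [c, cn_true] at h; exact absurd h (by simp)

theorem cn_iff {a b : Bool} : cn a b false = true ↔ a = true ∧ b = true := by cases a <;> simp

/-- the code of a vector -/
noncomputable def nv (w : Fin 112 → ZMod 2) : ℕ := Classical.epsilon fun n => n < 2 ^ 112 ∧ vt n = w

theorem nv_vm (v B : ℕ) : nv (vt v ᵥ* mt B) = vm v B := by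
  have := Classical.epsilon_spec (p := fun n => n < 2 ^ 112 ∧ vt n = vt v ᵥ* mt B) ⟨vm v B, vm_lt _ _, vt_vm _ _⟩
  exact vt_inj this.1 (vm_lt _ _) (this.2.trans (vt_vm _ _).symm)

def ev1 (T : List ℕ) (w : List ℕ) : ℕ := List.rec I1 (fun i w _ => evW T w (nI T i)) w
def stp (LG RG w : List ℕ) : ℕ → ℕ :=
  List.rec (fun B => B) (fun i _ ih B => force (mm (mm (nI LG i) B) (nI RG i)) ih) w
def kyC (v1 v2 L B R : ℕ) : ℕ := Nat.mod (Nat.add (vm (vm (vm v1 L) B) R) (vm (vm (vm v2 L) B) R)) 2147483647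
def kz (v1 v2 : ℕ) (DL DR : List ℕ) (B : ℕ) (ks : List ℕ) : ℕ → Bool :=
  List.rec (fun _ => true) (fun k _ ih j => cn (Nat.beq (kyC v1 v2 (nI DL j) B (nI DR j)) k) (ih (Nat.succ j)) false) ks
def gd (T : List ℕ) (PL : List ℕ) : List (List ℕ) → Bool :=
  List.rec (fun _ => true) (fun p _ ih ws => List.rec false (fun w ws _ => cn (ordP (ev1 T w) p) (ih ws) false) ws) PL

abbrev Ins : Type := List ℕ × ℕ × List (List ℕ) × List ℕ

/-- the walk -/
def walk (LG RG DL DR YT PL : List ℕ) (v1 v2 : ℕ) (tr : ℕ → ℕ → Bool) (W : List Ins) : ℕ → Bool :=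
  List.rec (fun _ => true) (fun i _ ih B => force (stp LG RG i.1 B) fun B' =>
    cn (cn (Nat.beq i.2.1 0) (gd (B' :: YT) PL i.2.2.1) (tr B' i.2.1)) (cn (kz v1 v2 DL DR B' i.2.2.2 0) (ih B') false) false) W

/-- the keys of a walk -/
def keys (W : List Ins) : List ℕ := List.rec [] (fun i _ ih => List.append i.2.2.2 ih) W

variable {G : Type*} [Group G] [Finite G] (ρ : G →* Mx)

/-- the key of a group element -/
noncomputable def ky (v1 v2 : ℕ) (e : G) : ℕ := (nv (vt v1 ᵥ* ρ e) + nv (vt v2 ᵥ* ρ e)) % 2147483647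

/-- a move -/
def Mv (K : Subgroup G) (P T : G → Prop) (A B : ℕ) : Prop :=
  ∃ g ∈ K, ∃ h ∈ K, ρ g = mt A ∧ ρ h = mt B ∧ (∀ e, P e → P (g * e * h)) ∧ ∀ e, T e → T (g * e * h)

/-- a good element -/
def Gd (Y : Subgroup G) (PL : List ℕ) (T : G → Prop) (e : G) : Prop :=
  ∀ X : Subgroup G, Y ≤ X → e ∈ X → (∀ p ∈ PL, p ∣ Nat.card X) ∨ T e

variable {ρ}

theorem Mv.nI {K : Subgroup G} {P T : G → Prop} {L R : List ℕ} (h : List.Forall₂ (Mv ρ K P T) L R) (i : ℕ) :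
    Mv ρ K P T (nI L i) (nI R i) := by
  induction h generalizing i with
  | nil => exact ⟨1, one_mem _, 1, one_mem _, by rw [map_one]; exact mt_I1.symm, by rw [map_one]; exact mt_I1.symm,
      fun e h => by simpa using h, fun e h => by simpa using h⟩
  | cons a _ ih =>
    rcases i with _ | i
    · exact a
    · exact ih i

theorem AllK.ev1 {K : Subgroup G} {T : List ℕ} (h : AllK ρ K T) (w : List ℕ) : InK ρ K (ev1 T w) := by
  rcases w with _ | ⟨i, w⟩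
  · exact InK.one K
  · exact h.evW w (h.nI i)

theorem gd_spec (hρ : Function.Injective ρ) {X : Subgroup G} {T : List ℕ} (h : AllK ρ X T) {PL : List ℕ}
    (hP : ∀ p ∈ PL, p.Prime ∧ p < 128) : ∀ ws, gd T PL ws = true → ∀ p ∈ PL, p ∣ Nat.card X := by
  induction PL with
  | nil => intro _ _ p hp; exact nomatch hp
  | cons q PL ih =>
    rintro (_ | ⟨w, ws⟩) H p hp
    · exact absurd H (by simp [gd])
    have e : gd T (q :: PL) (w :: ws) = cn (ordP (ev1 T w) q) (gd T PL ws) false := rfl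
    rw [e, cn_iff] at H
    rcases List.mem_cons.1 hp with rfl | hp
    · obtain ⟨g, hg, eg⟩ := h.ev1 w
      rw [← orderOf_of_ordP hρ (hP p hp).1 (hP p hp).2 eg H.1]
      exact Subgroup.orderOf_dvd_natCard X hg
    · exact ih (fun r hr => hP r (List.mem_cons_of_mem _ hr)) ws H.2 p hp

section
variable (hρ : Function.Injective ρ) {Y : Subgroup G} {P T : G → Prop} {LG RG DL DR YT PL : List ℕ} {v1 v2 : ℕ}
  {tr : ℕ → ℕ → Bool} (hG : ∀ i, Mv ρ ⊤ P (fun _ => True) (nI LG i) (nI RG i))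
  (hD : ∀ i, Mv ρ Y P T (nI DL i) (nI DR i)) (hY : AllK ρ Y YT) (hP : ∀ p ∈ PL, p.Prime ∧ p < 128)
  (htr : ∀ e B k, ρ e = mt B → tr B k = true → T e)

include hG in
theorem stp_spec (w : List ℕ) : ∀ B, (∃ e, P e ∧ ρ e = mt B) → ∃ e, P e ∧ ρ e = mt (stp LG RG w B) := by
  induction w with
  | nil => exact fun _ => id
  | cons i w ih =>
    rintro B ⟨e, he, eB⟩
    obtain ⟨g, -, h, -, eg, eh, p, -⟩ := hG i
    have : stp LG RG (i :: w) B = stp LG RG w (mm (mm (nI LG i) B) (nI RG i)) := force_eq _ _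
    rw [this]
    exact ih _ ⟨g * e * h, p e he, by rw [map_mul, map_mul, mt_mm, mt_mm, eg, eh, eB]⟩

include hD in
theorem kz_spec {e : G} {B : ℕ} (he : P e) (eB : ρ e = mt B) (hq : Gd Y PL T e) (ks : List ℕ) :
    ∀ j, kz v1 v2 DL DR B ks j = true → ∀ k ∈ ks, ∃ e, P e ∧ Gd Y PL T e ∧ ky ρ v1 v2 e = k := by
  induction ks with
  | nil => intro _ _ k hk; exact nomatch hk
  | cons a ks ih =>
    intro j H k hk
    have e0 : kz v1 v2 DL DR B (a :: ks) j =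
      cn (Nat.beq (kyC v1 v2 (nI DL j) B (nI DR j)) a) (kz v1 v2 DL DR B ks (j + 1)) false := rfl
    rw [e0, cn_iff] at H
    rcases List.mem_cons.1 hk with rfl | hk
    · obtain ⟨g, hg, h, hh, eg, eh, p, t⟩ := hD j
      refine ⟨g * e * h, p e he, fun X hX hx => (hq X hX ?_).imp id (t e), ?_⟩
      · exact (mul_mem_cancel_left (hX hg)).1 ((mul_mem_cancel_right (hX hh)).1 hx)
      · have : ∀ v, nv (vt v ᵥ* ρ (g * e * h)) = vm (vm (vm v (nI DL j)) B) (nI DR j) := fun v => by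
          rw [← nv_vm, vt_vm, vt_vm, map_mul, map_mul, eg, eh, eB, vecMul_vecMul, vecMul_vecMul, mul_assoc]
        rw [← beq_iff.1 H.1, ky, this, this]; rfl
    · exact ih _ H.2 k hk

include hρ hG hD hY hP htr in
theorem walk_spec (W : List Ins) : ∀ B, (∃ e, P e ∧ ρ e = mt B) → walk LG RG DL DR YT PL v1 v2 tr W B = true →
    ∀ k ∈ keys W, ∃ e, P e ∧ Gd Y PL T e ∧ ky ρ v1 v2 e = k := by
  induction W with
  | nil => intro _ _ _ k hk; exact nomatch hk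
  | cons i W ih =>
    intro B hB H k hk
    have e0 : walk LG RG DL DR YT PL v1 v2 tr (i :: W) B = force (stp LG RG i.1 B) fun B' =>
      cn (cn (Nat.beq i.2.1 0) (gd (B' :: YT) PL i.2.2.1) (tr B' i.2.1))
        (cn (kz v1 v2 DL DR B' i.2.2.2 0) (walk LG RG DL DR YT PL v1 v2 tr W B') false) false := rfl
    rw [e0, force_eq, cn_iff, cn_iff] at H
    obtain ⟨e, he, eB⟩ := stp_spec hG i.1 B hB
    rcases List.mem_append.1 (show k ∈ i.2.2.2 ++ keys W from hk) with hk | hk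
    · refine kz_spec hD he eB (fun X hX hx => ?_) _ 0 H.2.1 k hk
      have H1 := H.1
      cases c : Nat.beq i.2.1 0
      · rw [c, cn_false] at H1; exact Or.inr (htr e _ _ eB H1)
      · rw [c, cn_true] at H1
        exact Or.inl (gd_spec hρ (AllK.cons ⟨e, hx, eB⟩ fun A hA => (hY A hA).mono hX) hP _ H1)
    · exact ih _ ⟨e, he, eB⟩ H.2.2 k hk
end

theorem ky_pow {c : G} {C v1 v2 : ℕ} (eC : ρ c = mt C) (h1 : vm v1 C = v2) (h2 : vm v2 C = v1) (e : G) (n : ℕ) :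
    ky ρ v1 v2 (c ^ n * e) = ky ρ v1 v2 e := by
  induction n with
  | zero => rw [pow_zero, one_mul]
  | succ n ih =>
    rw [← ih, pow_succ', mul_assoc, ky, ky, map_mul, ← vecMul_vecMul, ← vecMul_vecMul, eC, ← vt_vm, ← vt_vm, h1, h2, add_comm]

/-- the two-level enumeration -/
theorem two_level {N Y : Subgroup G} {u c : G} {PL K1 K2 : List ℕ} {f1 f2 : G → ℕ} (hu : u ∈ Y) (cY : c ∈ Y)
    (cN : c ∈ N ⊓ 𝐂[u]) (hN : Nat.card N ≤ K2.length * orderOf c * K1.length) (n1 : K1.Nodup) (n2 : K2.Nodup)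
    (hf : ∀ e n, f2 (c ^ n * e) = f2 e)
    (w1 : ∀ k ∈ K1, ∃ e, (∃ h ∈ N, h * u * h⁻¹ = e) ∧ Gd Y PL (· = u) e ∧ f1 e = k)
    (w2 : ∀ k ∈ K2, ∃ e, e ∈ N ⊓ 𝐂[u] ∧ Gd Y PL (· ∈ Y) e ∧ f2 e = k)
    {X : Subgroup G} (hX : Y ≤ X) : (∀ p ∈ PL, p ∣ Nat.card X) ∨ X ⊓ N ≤ Y := by
  have a1 := le_ncard_fib f1 1 K1 n1 {e | (∃ h ∈ N, h * u * h⁻¹ = e) ∧ Gd Y PL (· = u) e} fun k hk => by
    obtain ⟨e, h1, h2, h3⟩ := w1 k hk
    exact (Set.ncard_pos (Set.toFinite _)).2 ⟨e, ⟨h1, h2⟩, h3⟩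
  have a2 := le_ncard_fib f2 (orderOf c) K2 n2 {e | e ∈ N ⊓ 𝐂[u] ∧ Gd Y PL (· ∈ Y) e} fun k hk => by
    obtain ⟨e, h1, h2, h3⟩ := w2 k hk
    rw [← Nat.card_zpowers, ← SetLike.coe_sort_coe, Nat.card_coe_set_eq,
      ← Set.ncard_image_of_injective _ (mul_left_injective e)]
    refine Set.ncard_le_ncard ?_
    rintro _ ⟨d, hd, rfl⟩
    obtain ⟨n, rfl⟩ := (mem_powers_iff_mem_zpowers.2 hd : ∃ n : ℕ, c ^ n = d)
    refine ⟨⟨mul_mem (pow_mem cN n) h1, fun Z hZ hz => (h2 Z hZ ?_).imp id (mul_mem (pow_mem cY n))⟩, (hf e n).trans h3⟩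
    exact (mul_mem_cancel_left (hZ (pow_mem cY n))).1 hz
  have b1 : {e | (∃ h ∈ N, h * u * h⁻¹ = e) ∧ Gd Y PL (· = u) e} ⊆ {e | ∃ h ∈ N, h * u * h⁻¹ = e} := fun e h => h.1
  have b2 : {e | e ∈ N ⊓ 𝐂[u] ∧ Gd Y PL (· ∈ Y) e} ⊆ ((N ⊓ 𝐂[u] : Subgroup G) : Set G) := fun e h => h.1
  have c0 := card_class_mul N u
  rw [← SetLike.coe_sort_coe, Nat.card_coe_set_eq] at c0
  have c1 := Set.ncard_le_ncard b1
  have c2 := Set.ncard_le_ncard b2
  have p0 : 0 < Nat.card N := Nat.card_pos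
  rw [mul_one] at a1
  set x := {e | ∃ h ∈ N, h * u * h⁻¹ = e}.ncard
  set y := ((N ⊓ 𝐂[u] : Subgroup G) : Set G).ncard
  have px : 0 < x := Nat.pos_of_mul_pos_left (c0 ▸ p0)
  have py : 0 < y := Nat.pos_of_mul_pos_right (c0 ▸ p0)
  have d1 : x ≤ K1.length := Nat.le_of_mul_le_mul_left
    (c0.le.trans (hN.trans (Nat.mul_le_mul_right _ (a2.trans c2)))) py
  have d2 : y ≤ K2.length * orderOf c := Nat.le_of_mul_le_mul_right
    (c0.le.trans (hN.trans (Nat.mul_le_mul_left _ (a1.trans c1)))) px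
  have e1 := Set.eq_of_subset_of_ncard_le b1 (d1.trans a1)
  have e2 := Set.eq_of_subset_of_ncard_le b2 (d2.trans a2)
  refine or_iff_not_imp_left.2 fun hn g hg => ?_
  have q1 := (e1.ge (show g * u * g⁻¹ ∈ {e | ∃ h ∈ N, h * u * h⁻¹ = e} from ⟨g, hg.2, rfl⟩)).2 X hX
    (mul_mem (mul_mem hg.1 (hX hu)) (inv_mem hg.1))
  have : g ∈ N ⊓ 𝐂[u] := ⟨hg.2, mem_centralizer_singleton_iff.2 (mul_inv_eq_iff_eq_mul.1 (q1.resolve_left hn))⟩
  exact ((e2.ge this).2 X hX hg.1).resolve_left hn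

theorem mem_norm_zpowers {g a : G} {k : ℕ} (h : g * a = a ^ k * g) : g ∈ 𝐍(zpowers a) :=
  mem_norm_of_conj fun b hb => by
    obtain ⟨n, rfl⟩ := mem_zpowers_iff.1 hb
    rw [← conj_zpow, mul_inv_eq_iff_eq_mul.2 h]
    exact zpow_mem (pow_mem (mem_zpowers a) k) n

/-- `B` normalises `⟨A⟩` -/
def nrm (A B k : ℕ) : Bool := cn (Nat.blt k 128) (Nat.beq (mm B A) (mm (pw A k) B)) false

theorem mem_of_nrm (hρ : Function.Injective ρ) {g a : G} {A B k : ℕ} (ea : ρ a = mt A) (eg : ρ g = mt B)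
    (h : nrm A B k = true) : g ∈ 𝐍(zpowers a) := by
  rw [nrm, cn_iff, blt_iff, beq_iff] at h
  exact mem_norm_zpowers (k := k) (hρ (by rw [map_mul, map_mul, map_pow, ea, eg, ← mt_pw _ h.1, ← mt_mm, ← mt_mm, h.2]))

/-- generators of `N(⟨S⟩)`, with inverses -/
def chkN (S : ℕ) (L : List (ℕ × ℕ × ℕ)) : Bool := allL L fun x => cn (nrm S x.1 x.2.2) (Nat.beq (mm x.1 x.2.1) I1) false

/-- the data of a two-level enumeration -/
structure Dat where
  A : ℕ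
  C : ℕ
  S : ℕ
  U : ℕ
  k : ℕ
  n : ℕ
  e1 : ℕ
  e2 : ℕ
  /-- generators of `N(⟨s⟩)` -/
  N : List (ℕ × ℕ × ℕ)
  /-- generators of `N(⟨s⟩) ∩ C(u)` as words -/
  H : List (ℕ × List ℕ)
  /-- powers of `c` and inverses -/
  D : List (ℕ × ℕ × ℕ)
  YT : List ℕ
  PL : List ℕ
  v1 : ℕ
  v2 : ℕ

namespace Dat
variable (d : Dat)
def LG : List ℕ := d.N.map (·.1) ++ d.N.map (·.2.1)
def RG : List ℕ := d.N.map (·.2.1) ++ d.N.map (·.1)
def w1 (W : List Ins) : Bool :=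
  walk d.LG d.RG (d.D.map (·.1)) (d.D.map (·.2.1)) d.YT d.PL 1 1 (fun B _ => Nat.beq B d.U) W d.U
def w2 (W : List Ins) : Bool :=
  walk [] (d.H.map (·.1)) [] (d.D.map (·.1)) d.YT d.PL d.v1 d.v2 (nrm d.A) W I1
def ok : Bool := nrm d.A d.C d.k && (Nat.beq (pw d.C d.e1) d.S && (Nat.beq (pw d.C d.e2) d.U && (chkN d.S d.N &&
  (chkW d.LG d.H && (allL d.H (fun x => Nat.beq (mm x.1 d.U) (mm d.U x.1)) &&
  (allL d.D (fun x => Nat.blt x.2.2 128 && (Nat.beq (pw d.C x.2.2) x.1 && Nat.beq (mm x.1 x.2.1) I1)) &&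
  (Nat.beq (vm d.v1 d.C) d.v2 && (Nat.beq (vm d.v2 d.C) d.v1 && (Nat.blt d.e1 128 && Nat.blt d.e2 128)))))))))

theorem forall₂_map {α : Type} {R : ℕ → ℕ → Prop} {f g : α → ℕ} {L : List α} (h : ∀ x ∈ L, R (f x) (g x)) :
    List.Forall₂ R (L.map f) (L.map g) := by
  induction L with
  | nil => exact List.Forall₂.nil
  | cons a L ih => exact List.Forall₂.cons (h a List.mem_cons_self) (ih fun x hx => h x (List.mem_cons_of_mem _ hx))

theorem mv_right {K : Subgroup G} {P T : G → Prop} {R : List ℕ}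
    (h : ∀ B ∈ R, ∃ g ∈ K, ρ g = mt B ∧ (∀ e, P e → P (e * g)) ∧ ∀ e, T e → T (e * g)) (i : ℕ) :
    Mv ρ K P T (nI [] i) (nI R i) := by
  have e1 : ρ 1 = mt (nI [] i) := (map_one _).trans mt_I1.symm
  rcases nI_mem R i with e | e
  · obtain ⟨g, hg, eg, p, t⟩ := h _ e
    exact ⟨1, one_mem _, g, hg, e1, eg, fun e h => by simpa using p e h, fun e h => by simpa using t e h⟩
  · exact ⟨1, one_mem _, 1, one_mem _, e1, by rw [e, map_one, mt_I1], fun e h => by simpa using h,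
      fun e h => by simpa using h⟩

theorem main (hρ : Function.Injective ρ) (ok : d.ok = true) {a c : G} (ea : ρ a = mt d.A) (ec : ρ c = mt d.C)
    (hN : AllK ρ ⊤ (d.N.map (·.1))) (hY : c ∈ 𝐍(zpowers a) → AllK ρ 𝐍(zpowers a) d.YT)
    (hP : ∀ p ∈ d.PL, p.Prime ∧ p < 128) {W1 W2 : List (List Ins)} (h1 : ∀ W ∈ W1, d.w1 W = true)
    (h2 : ∀ W ∈ W2, d.w2 W = true) (n1 : ndL (W1.flatMap keys) = true) (n2 : ndL (W2.flatMap keys) = true)
    (hc : Nat.card 𝐍(zpowers (c ^ d.e1)) ≤ (W2.flatMap keys).length * orderOf c * (W1.flatMap keys).length) :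
    c ∈ 𝐍(zpowers a) ∧ ∀ X : Subgroup G, 𝐍(zpowers a) ≤ X →
      (∀ p ∈ d.PL, p ∣ Nat.card X) ∨ X ⊓ 𝐍(zpowers (c ^ d.e1)) ≤ 𝐍(zpowers a) := by
  simp only [Dat.ok, Bool.and_eq_true, beq_iff, blt_iff, allL_iff, chkN, cn_iff] at ok
  obtain ⟨o1, o2, o3, o4, o5, o6, o7, o8, o9, o10, o11⟩ := ok
  have cY := mem_of_nrm hρ ea ec o1
  have es : ρ (c ^ d.e1) = mt d.S := by rw [map_pow, ec, ← mt_pw _ o10, o2]
  have eu : ρ (c ^ d.e2) = mt d.U := by rw [map_pow, ec, ← mt_pw _ o11, o3]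
  set s := c ^ d.e1 with hs
  set u := c ^ d.e2 with hu
  have cc : ∀ n m : ℕ, c ^ n * c ^ m = c ^ m * c ^ n := fun n m => by rw [← pow_add, ← pow_add, add_comm]
  have cN : ∀ n : ℕ, c ^ n ∈ 𝐍(zpowers s) ⊓ 𝐂[u] := fun n =>
    ⟨mem_norm_zpowers (k := 1) (by rw [pow_one]; exact cc _ _), mem_centralizer_singleton_iff.2 (cc _ _)⟩
  have gN : ∀ x ∈ d.N, ∃ g ∈ 𝐍(zpowers s), ρ g = mt x.1 ∧ ρ g⁻¹ = mt x.2.1 := fun x hx => by
    obtain ⟨g, -, eg⟩ := hN x.1 (List.mem_map_of_mem hx)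
    exact ⟨g, mem_of_nrm hρ es eg (o4 x hx).1, eg, rho_inv eg (beq_iff.2 (o4 x hx).2)⟩
  have cj : ∀ g ∈ 𝐍(zpowers s), ∀ e, (∃ h ∈ 𝐍(zpowers s), h * u * h⁻¹ = e) →
      ∃ h ∈ 𝐍(zpowers s), h * u * h⁻¹ = g * e * g⁻¹ := by
    rintro g hg _ ⟨h, hh, rfl⟩
    exact ⟨g * h, mul_mem hg hh, by group⟩
  have gD : ∀ x ∈ d.D, ρ (c ^ x.2.2) = mt x.1 ∧ ρ (c ^ x.2.2)⁻¹ = mt x.2.1 := fun x hx => by
    have : ρ (c ^ x.2.2) = mt x.1 := by rw [map_pow, ec, ← mt_pw _ (o7 x hx).1, (o7 x hx).2.1]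
    exact ⟨this, rho_inv this (beq_iff.2 (o7 x hx).2.2)⟩
  have aG : AllK ρ 𝐍(zpowers s) d.LG := AllK.append
    (fun A hA => by
      obtain ⟨x, hx, rfl⟩ := List.mem_map.1 hA
      obtain ⟨g, hg, e, -⟩ := gN x hx
      exact ⟨g, hg, e⟩)
    (fun A hA => by
      obtain ⟨x, hx, rfl⟩ := List.mem_map.1 hA
      obtain ⟨g, hg, -, e⟩ := gN x hx
      exact ⟨g⁻¹, inv_mem hg, e⟩)
  refine ⟨cY, fun X hX => two_level (u := u) (f1 := ky ρ 1 1) (f2 := ky ρ d.v1 d.v2) (pow_mem cY _) cY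
    (by simpa using cN 1) hc (nodup_of_ndL n1) (nodup_of_ndL n2) (ky_pow ec o8 o9) (fun k hk => ?_) (fun k hk => ?_) hX⟩
  · obtain ⟨W, hW, hk⟩ := List.mem_flatMap.1 hk
    refine walk_spec hρ (Mv.nI (List.rel_append (forall₂_map fun x hx => ?_) (forall₂_map fun x hx => ?_)))
      (Mv.nI (forall₂_map fun x hx => ?_)) (hY cY) hP (fun e B _ eB h => eq_of_beq hρ eB eu h) W d.U
      ⟨u, ⟨1, one_mem _, by simp⟩, eu⟩ (h1 W hW) k hk
    · obtain ⟨g, hg, e, e'⟩ := gN x hx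
      exact ⟨g, trivial, g⁻¹, trivial, e, e', cj g hg, fun _ _ => trivial⟩
    · obtain ⟨g, hg, e, e'⟩ := gN x hx
      exact ⟨g⁻¹, trivial, g⁻¹⁻¹, trivial, e', by rwa [inv_inv], cj _ (inv_mem hg), fun _ _ => trivial⟩
    · refine ⟨_, pow_mem cY _, _, inv_mem (pow_mem cY _), (gD x hx).1, (gD x hx).2, cj _ (cN _).1, fun e he => ?_⟩
      rw [he]; exact mul_inv_eq_iff_eq_mul.2 (cc _ _)
  · obtain ⟨W, hW, hk⟩ := List.mem_flatMap.1 hk
    refine walk_spec hρ (mv_right fun B hB => ?_) (mv_right fun B hB => ?_) (hY cY) hP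
      (fun e B k eB h => mem_of_nrm hρ ea eB h) W I1 ⟨1, one_mem _, by rw [map_one, mt_I1]⟩ (h2 W hW) k hk
    · obtain ⟨g, hg, e⟩ := aG.of_chkW o5 B hB
      obtain ⟨x, hx, rfl⟩ := List.mem_map.1 hB
      have : g ∈ 𝐂[u] := mem_centralizer_singleton_iff.2 (hρ (by
        rw [map_mul, map_mul, e, eu, ← mt_mm, ← mt_mm, o6 x hx]))
      exact ⟨g, trivial, e, fun e he => mul_mem he ⟨hg, this⟩, fun _ _ => trivial⟩
    · obtain ⟨x, hx, rfl⟩ := List.mem_map.1 hB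
      exact ⟨_, pow_mem cY _, (gD x hx).1, fun e he => mul_mem he (cN _), fun e he => mul_mem he (pow_mem cY _)⟩

end Dat

/-- `C` has order `n`, where `Q` contains the primes dividing `n` -/
def ordN (C n : ℕ) (Q : List ℕ) : Bool :=
  Nat.beq (pw C n) I1 && allL Q fun q => !(Nat.beq (vm 1 (pw C (Nat.div n q))) (vm 1 I1))

theorem orderOf_of_ordN (hρ : Function.Injective ρ) {c : G} {C n : ℕ} {Q : List ℕ} (ec : ρ c = mt C) (h0 : 0 < n)
    (hn : n < 128) (hQ : ∀ q : ℕ, q.Prime → q ∣ n → q ∈ Q) (h : ordN C n Q = true) : orderOf c = n := by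
  simp only [ordN, Bool.and_eq_true, beq_iff, allL_iff, Bool.not_eq_true'] at h
  refine orderOf_eq_of_pow_and_pow_div_prime h0 (hρ ?_) fun q hq hd => ?_
  · rw [map_pow, ec, ← mt_pw _ hn, h.1, mt_I1, map_one]
  · refine ne_of_vm (ρ := ρ) ?_ (by rw [map_one, mt_I1]) (h.2 q (hQ q hq hd))
    rw [map_pow, ec]; exact (mt_pw _ ((Nat.div_le_self _ _).trans_lt hn)).symm

end CA.BM
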